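import Mathlib
import Cfsg.Prelude.Def_Classical
import Cfsg.Prelude.Def_GeometricClasses

/-!
# S5992 (call by helper37): statement pieces

`Omega_(2d+1)(q)`, `q` odd, elements of odd prime order `r ≠ p` and hyperbolic `m`-spaces.
All pieces are about the standard form `Cfsg.quadFormOdd d F` on `I d → F`,
`I d = Unit ⊕ (Fin d ⊕ Fin d)`, dimension `2 d + 1`.
-/

set_option autoImplicit false

universe u

open scoped Matrix

namespace Cfsg.Agent.Lib.Helper37.HypStmt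

/-- index type of the standard odd-dimensional form -/
abbrev I (d : ℕ) : Type := Unit ⊕ (Fin d ⊕ Fin d)

/-- fixed space of a matrix -/
def Fx {F : Type u} [Field F] {d : ℕ} (x : Matrix (I d) (I d) F) : Submodule F (I d → F) :=
  LinearMap.ker (Matrix.toLin' x - LinearMap.id)

theorem mem_Fx {F : Type u} [Field F] {d : ℕ} (x : Matrix (I d) (I d) F) (v : I d → F) :
    v ∈ Fx x ↔ x *ᵥ v = v := by
  unfold Fx
  rw [LinearMap.mem_ker, LinearMap.sub_apply, Matrix.toLin'_apply, LinearMap.id_apply, sub_eq_zero]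

/-- the polar form of the standard odd form is nondegenerate on `W` -/
def NDeg (d : ℕ) (F : Type u) [Field F] (W : Submodule F (I d → F)) : Prop :=
  Cfsg.Geo.IsNondegenerateOn (QuadraticMap.polar (Cfsg.quadFormOdd d F)) W

/-- `W` is a hyperbolic `m`-space -/
def Hyp (d : ℕ) (F : Type u) [Field F] (m : ℕ) (W : Submodule F (I d → F)) : Prop :=
  Module.finrank F ↥W = m ∧
    Cfsg.Geo.IsNondegenerateOn (QuadraticMap.polar (Cfsg.quadFormOdd d F)) W ∧
    Cfsg.Geo.IsPlusTypeOn (Cfsg.quadFormOdd d F) W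

/-- `x W ≤ W` -/
def Stab {F : Type u} [Field F] {d : ℕ} (x : Matrix (I d) (I d) F)
    (W : Submodule F (I d → F)) : Prop :=
  W.map (Matrix.toLin' x) ≤ W

/-- `c = i` for `i` even, `2 i` for `i` odd -/
def cc (i : ℕ) : ℕ := if Even i then i else 2 * i

/-- ordered hyperbolic systems of `h` pairs -/
def HSys (d : ℕ) (F : Type u) [Field F] (h : ℕ) : Type u :=
  {ef : (Fin h → I d → F) × (Fin h → I d → F) //
    (∀ a, Cfsg.quadFormOdd d F (ef.1 a) = 0) ∧ (∀ a, Cfsg.quadFormOdd d F (ef.2 a) = 0) ∧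
    (∀ a b, QuadraticMap.polar (Cfsg.quadFormOdd d F) (ef.1 a) (ef.1 b) = 0) ∧
    (∀ a b, QuadraticMap.polar (Cfsg.quadFormOdd d F) (ef.2 a) (ef.2 b) = 0) ∧
    (∀ a b, QuadraticMap.polar (Cfsg.quadFormOdd d F) (ef.1 a) (ef.2 b) = if a = b then 1 else 0)}

/-! ## Base pieces -/

/-- IPOS: `q` has positive order modulo a prime `r ≠ p`. -/
def IPos : Prop :=
  ∀ (F : Type u) [Field F] [Fintype F] (p : ℕ) [Fact p.Prime] [CharP F p]
    (r : ℕ) [Fact r.Prime], r ≠ p →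
    0 < orderOf ((Fintype.card F : ℕ) : ZMod r)

/-- TOPND: the standard odd form is nondegenerate (`q` odd). -/
def TopND : Prop :=
  ∀ (F : Type u) [Field F] [Fintype F], Odd (Fintype.card F) → ∀ d : ℕ,
    NDeg d F ⊤

/-- FXLT: a non-identity matrix has a proper fixed space. -/
def FxLt : Prop :=
  ∀ (F : Type u) [Field F] (d : ℕ) (x : Matrix (I d) (I d) F), x ≠ 1 →
    Module.finrank F ↥(Fx x) < 2 * d + 1

/-- FIXND: the fixed space of an isometry of order prime to `p` is nondegenerate. -/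
def FixND : Prop :=
  ∀ (F : Type u) [Field F] [Fintype F] (p : ℕ) [Fact p.Prime] [CharP F p],
    Odd (Fintype.card F) → ∀ (d : ℕ) (r : ℕ) [Fact r.Prime], r ≠ p →
    ∀ x : Matrix.GeneralLinearGroup (I d) F, x ∈ Cfsg.isometryGroup F (Cfsg.quadFormOdd d F) →
    x ^ r = 1 → NDeg d F (Fx (x : Matrix (I d) (I d) F))

/-- DIMOBS: for an isometry `x` of odd prime order `r ≠ p` and an `x`-invariant nondegenerate
subspace `W`, `c` divides `dim W - dim (W ∩ Fix x)`. -/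
def DimObs : Prop :=
  ∀ (F : Type u) [Field F] [Fintype F] (p : ℕ) [Fact p.Prime] [CharP F p],
    Odd (Fintype.card F) → ∀ (d : ℕ) (r : ℕ) [Fact r.Prime], r ≠ 2 → r ≠ p →
    ∀ x : Matrix.GeneralLinearGroup (I d) F, x ∈ Cfsg.isometryGroup F (Cfsg.quadFormOdd d F) →
    x ^ r = 1 → ∀ W : Submodule F (I d → F), Stab (x : Matrix (I d) (I d) F) W → NDeg d F W →
    cc (orderOf ((Fintype.card F : ℕ) : ZMod r)) ∣
      Module.finrank F ↥W - Module.finrank F ↥(W ⊓ Fx (x : Matrix (I d) (I d) F))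

/-- BLOCKS: invariant nondegenerate subspaces of dimension `j c` without fixed vectors,
for every `j` with `j c + dim Fix x ≤ 2 d + 1`. -/
def Blocks : Prop :=
  ∀ (F : Type u) [Field F] [Fintype F] (p : ℕ) [Fact p.Prime] [CharP F p],
    Odd (Fintype.card F) → ∀ (d : ℕ) (r : ℕ) [Fact r.Prime], r ≠ 2 → r ≠ p →
    ∀ x : Matrix.GeneralLinearGroup (I d) F, x ∈ Cfsg.isometryGroup F (Cfsg.quadFormOdd d F) →
    x ^ r = 1 → ∀ j : ℕ,
    j * cc (orderOf ((Fintype.card F : ℕ) : ZMod r)) +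
      Module.finrank F ↥(Fx (x : Matrix (I d) (I d) F)) ≤ 2 * d + 1 →
    ∃ E : Submodule F (I d → F), Stab (x : Matrix (I d) (I d) F) E ∧ NDeg d F E ∧
      Module.finrank F ↥E = j * cc (orderOf ((Fintype.card F : ℕ) : ZMod r)) ∧
      E ⊓ Fx (x : Matrix (I d) (I d) F) = ⊥ ∧
      ∀ u ∈ E, ∀ v ∈ Fx (x : Matrix (I d) (I d) F),
        QuadraticMap.polar (Cfsg.quadFormOdd d F) u v = 0

/-- TYPEODD: `i` odd: an invariant nondegenerate subspace without fixed vectors is hyperbolic. -/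
def TypeOdd : Prop :=
  ∀ (F : Type u) [Field F] [Fintype F] (p : ℕ) [Fact p.Prime] [CharP F p],
    Odd (Fintype.card F) → ∀ (d : ℕ) (r : ℕ) [Fact r.Prime], r ≠ 2 → r ≠ p →
    Odd (orderOf ((Fintype.card F : ℕ) : ZMod r)) →
    ∀ x : Matrix.GeneralLinearGroup (I d) F, x ∈ Cfsg.isometryGroup F (Cfsg.quadFormOdd d F) →
    x ^ r = 1 → ∀ E : Submodule F (I d → F), Stab (x : Matrix (I d) (I d) F) E → NDeg d F E →
    E ⊓ Fx (x : Matrix (I d) (I d) F) = ⊥ →
    Cfsg.Geo.IsPlusTypeOn (Cfsg.quadFormOdd d F) E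

/-- TYPEEVEN: `i` even: an invariant nondegenerate subspace `E` without fixed vectors is
hyperbolic iff `dim E / i` is even. -/
def TypeEven : Prop :=
  ∀ (F : Type u) [Field F] [Fintype F] (p : ℕ) [Fact p.Prime] [CharP F p],
    Odd (Fintype.card F) → ∀ (d : ℕ) (r : ℕ) [Fact r.Prime], r ≠ 2 → r ≠ p →
    Even (orderOf ((Fintype.card F : ℕ) : ZMod r)) →
    ∀ x : Matrix.GeneralLinearGroup (I d) F, x ∈ Cfsg.isometryGroup F (Cfsg.quadFormOdd d F) →
    x ^ r = 1 → ∀ E : Submodule F (I d → F), Stab (x : Matrix (I d) (I d) F) E → NDeg d F E →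
    E ⊓ Fx (x : Matrix (I d) (I d) F) = ⊥ →
    (Cfsg.Geo.IsPlusTypeOn (Cfsg.quadFormOdd d F) E ↔
      Even (Module.finrank F ↥E / orderOf ((Fintype.card F : ℕ) : ZMod r)))

/-- HYPSUB: completing a nondegenerate even-dimensional `E` to a hyperbolic `m`-space inside
`E ⊥ Y`. -/
def HypSub : Prop :=
  ∀ (F : Type u) [Field F] [Fintype F], Odd (Fintype.card F) → ∀ (d m : ℕ), Even m →
    ∀ E Y : Submodule F (I d → F), NDeg d F E → NDeg d F Y →
    (∀ u ∈ E, ∀ v ∈ Y, QuadraticMap.polar (Cfsg.quadFormOdd d F) u v = 0) →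
    Even (Module.finrank F ↥E) → Module.finrank F ↥E < m →
    m - Module.finrank F ↥E < Module.finrank F ↥Y →
    ∃ W₁ : Submodule F (I d → F), W₁ ≤ Y ∧ Hyp d F m (E ⊔ W₁)

/-- DERELT: an element of `Omega` of order `r` whose fixed space has dimension `(2d+1) % c`. -/
def DerElt : Prop :=
  ∀ (F : Type u) [Field F] [Fintype F] (p : ℕ) [Fact p.Prime] [CharP F p],
    Odd (Fintype.card F) → ∀ (d : ℕ), 1 ≤ d → ∀ (r : ℕ) [Fact r.Prime], r ≠ 2 → r ≠ p →
    cc (orderOf ((Fintype.card F : ℕ) : ZMod r)) ≤ 2 * d + 1 →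
    ∃ x : Matrix.GeneralLinearGroup (I d) F, x ∈ Cfsg.Geo.omegaGL (Cfsg.quadFormOdd d F) ∧
      orderOf x = r ∧
      Module.finrank F ↥(Fx (x : Matrix (I d) (I d) F)) =
        (2 * d + 1) % cc (orderOf ((Fintype.card F : ℕ) : ZMod r))

/-- INVOL: every involution of `Omega` fixes a hyperbolic `m`-space. -/
def Invol : Prop :=
  ∀ (F : Type u) [Field F] [Fintype F], Odd (Fintype.card F) → ∀ (d m : ℕ), 3 ≤ d → 2 ≤ m →
    Even m → m ≤ 2 * d →
    ∀ x : Matrix.GeneralLinearGroup (I d) F, x ∈ Cfsg.Geo.omegaGL (Cfsg.quadFormOdd d F) →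
    orderOf x = 2 →
    ∃ W : Submodule F (I d → F), Hyp d F m W ∧ Stab (x : Matrix (I d) (I d) F) W

/-- HYPFIB: the number of hyperbolic `2h`-spaces divides the number of hyperbolic systems. -/
def HypFib : Prop :=
  ∀ (F : Type u) [Field F] [Fintype F], Odd (Fintype.card F) → ∀ (d h : ℕ), 1 ≤ d → h ≤ d →
    Nat.card {W : Submodule F (I d → F) // Hyp d F (2 * h) W} ∣ Nat.card (HSys d F h)

/-- HYPCNT: a prime `r` not dividing `q` that divides the number of hyperbolic systems of `h`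
pairs divides some `q ^ (2 (d - t)) - 1`, `t < h`. -/
def HypCnt : Prop :=
  ∀ (F : Type u) [Field F] [Fintype F], Odd (Fintype.card F) → ∀ (d h : ℕ), h ≤ d →
    ∀ r : ℕ, r.Prime → ¬ r ∣ Fintype.card F → r ∣ Nat.card (HSys d F h) →
    ∃ t : ℕ, t < h ∧ r ∣ Fintype.card F ^ (2 * (d - t)) - 1

/-- NDARITH: arithmetic. -/
def NdArith : Prop :=
  ∀ (q d h t r : ℕ), r.Prime → ¬ r ∣ q → t < h → h ≤ d → r ∣ q ^ (2 * (d - t)) - 1 →
    (2 * d + 1) % cc (orderOf ((q : ℕ) : ZMod r)) < 2 * h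

/-! ## Assembly pieces -/

/-- NDIV: `r ∣ #hyperbolic m-spaces` forces `(2d+1) % c < m`. -/
def NDiv : Prop :=
  ∀ (F : Type u) [Field F] [Fintype F] (p : ℕ) [Fact p.Prime] [CharP F p],
    Odd (Fintype.card F) → ∀ (d m : ℕ), 3 ≤ d → 2 ≤ m → Even m → m ≤ 2 * d →
    ∀ (r : ℕ) [Fact r.Prime], r ≠ p →
    r ∣ Nat.card {W : Submodule F (I d → F) // Hyp d F m W} →
    (2 * d + 1) % cc (orderOf ((Fintype.card F : ℕ) : ZMod r)) < m

/-- the arithmetic condition of S5992 for odd `r` -/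
def Cond (d m i : ℕ) : Prop :=
  (Odd i ∧ cc i ≤ m ∧ (m % cc i = 0 ∨ (0 < m % cc i ∧ m % cc i < (2 * d + 1) % cc i))) ∨
  (Even i ∧ i ≤ m ∧ m % cc i < (2 * d + 1) % cc i ∧ (0 < m % cc i ∨ Even (m / i)))

/-- B1: under `Cond`, every element of order `r` of `Omega` fixes a hyperbolic `m`-space. -/
def B1S : Prop :=
  ∀ (F : Type u) [Field F] [Fintype F] (p : ℕ) [Fact p.Prime] [CharP F p],
    Odd (Fintype.card F) → ∀ (d m : ℕ), 3 ≤ d → 2 ≤ m → Even m → m ≤ 2 * d →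
    ∀ (r : ℕ) [Fact r.Prime], r ≠ 2 → r ≠ p →
    Cond d m (orderOf ((Fintype.card F : ℕ) : ZMod r)) →
    ∀ x : Matrix.GeneralLinearGroup (I d) F, x ∈ Cfsg.Geo.omegaGL (Cfsg.quadFormOdd d F) →
    orderOf x = r →
    ∃ W : Submodule F (I d → F), Hyp d F m W ∧ Stab (x : Matrix (I d) (I d) F) W

/-- B2: if `Cond` fails and `(2d+1) % c < m`, some element of order `r` of `Omega` fixes no
hyperbolic `m`-space. -/
def B2S : Prop :=
  ∀ (F : Type u) [Field F] [Fintype F] (p : ℕ) [Fact p.Prime] [CharP F p],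
    Odd (Fintype.card F) → ∀ (d m : ℕ), 3 ≤ d → 2 ≤ m → Even m → m ≤ 2 * d →
    ∀ (r : ℕ) [Fact r.Prime], r ≠ 2 → r ≠ p →
    (2 * d + 1) % cc (orderOf ((Fintype.card F : ℕ) : ZMod r)) < m →
    ¬ Cond d m (orderOf ((Fintype.card F : ℕ) : ZMod r)) →
    ∃ x : Matrix.GeneralLinearGroup (I d) F, x ∈ Cfsg.Geo.omegaGL (Cfsg.quadFormOdd d F) ∧
      orderOf x = r ∧
      ∀ W : Submodule F (I d → F), Hyp d F m W → ¬ Stab (x : Matrix (I d) (I d) F) W

end Cfsg.Agent.Lib.Helper37.HypStmt
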