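import Mathlib
import Cfsg.Prelude.Def_GeometricClasses

/-!
# S5981 (elements of prime order of PSL_n(q), q odd, and the subgroups of orthogonal type):
statements of the pieces (helper37).

`S` is the Gram matrix of the polar form of `Q` (symmetric, invertible); the similarity group
of `Q` is `{g | ∃ c ≠ 0, gᵀ * S * g = c • S}`.  An element `x` has a conjugate in it iff
`xᵀ * S' * x = c • S'` for some `S'` congruent to `S`; over a finite field of odd
characteristic `S'` is congruent to `S` iff `det S' = det S * μ ^ 2`.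
-/

set_option autoImplicit false

namespace Cfsg.Agent.Lib.Helper37.OrtStmt

open scoped Kronecker MatrixGroups Matrix

universe u

/-- the isometry group of the bilinear form with Gram matrix `S` -/
def OGrp {F : Type u} [Field F] {κ : Type} [Fintype κ] [DecidableEq κ] (S : Matrix κ κ F) :
    Subgroup (GL κ F) where
  carrier := {g | (g : Matrix κ κ F)ᵀ * S * (g : Matrix κ κ F) = S}
  mul_mem' := by
    intro a b ha hb
    have ha' : (a : Matrix κ κ F)ᵀ * S * (a : Matrix κ κ F) = S := ha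
    have hb' : (b : Matrix κ κ F)ᵀ * S * (b : Matrix κ κ F) = S := hb
    show ((a * b : GL κ F) : Matrix κ κ F)ᵀ * S * ((a * b : GL κ F) : Matrix κ κ F) = S
    rw [Units.val_mul, Matrix.transpose_mul]
    calc (b : Matrix κ κ F)ᵀ * (a : Matrix κ κ F)ᵀ * S * ((a : Matrix κ κ F) * (b : Matrix κ κ F))
        = (b : Matrix κ κ F)ᵀ * ((a : Matrix κ κ F)ᵀ * S * (a : Matrix κ κ F)) *
          (b : Matrix κ κ F) := by simp only [Matrix.mul_assoc]
      _ = S := by rw [ha', hb']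
  one_mem' := by
    show ((1 : GL κ F) : Matrix κ κ F)ᵀ * S * ((1 : GL κ F) : Matrix κ κ F) = S
    rw [Units.val_one, Matrix.transpose_one, Matrix.one_mul, Matrix.mul_one]
  inv_mem' := by
    intro a ha
    have ha' : (a : Matrix κ κ F)ᵀ * S * (a : Matrix κ κ F) = S := ha
    show ((a⁻¹ : GL κ F) : Matrix κ κ F)ᵀ * S * ((a⁻¹ : GL κ F) : Matrix κ κ F) = S
    have h1 : (a : Matrix κ κ F) * ((a⁻¹ : GL κ F) : Matrix κ κ F) = 1 := by
      rw [← Units.val_mul, mul_inv_cancel, Units.val_one]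
    have h2 : ((a⁻¹ : GL κ F) : Matrix κ κ F)ᵀ * (a : Matrix κ κ F)ᵀ = 1 := by
      rw [← Matrix.transpose_mul, h1, Matrix.transpose_one]
    calc ((a⁻¹ : GL κ F) : Matrix κ κ F)ᵀ * S * ((a⁻¹ : GL κ F) : Matrix κ κ F)
        = ((a⁻¹ : GL κ F) : Matrix κ κ F)ᵀ * ((a : Matrix κ κ F)ᵀ * S * (a : Matrix κ κ F)) *
          ((a⁻¹ : GL κ F) : Matrix κ κ F) := by rw [ha']
      _ = (((a⁻¹ : GL κ F) : Matrix κ κ F)ᵀ * (a : Matrix κ κ F)ᵀ) * S *
          ((a : Matrix κ κ F) * ((a⁻¹ : GL κ F) : Matrix κ κ F)) := by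
            simp only [Matrix.mul_assoc]
      _ = S := by rw [h1, h2, Matrix.one_mul, Matrix.mul_one]

/-! ### the form -/

/-- [QFORM] the similarity group of a non-degenerate quadratic form in matrix terms. -/
def QForm : Prop :=
  ∀ (F : Type u) [Field F], (2 : F) ≠ 0 → ∀ (n : ℕ) (Q : (Fin n → F) → F),
    Cfsg.Geo.IsNondegenerateQuadraticForm Q →
    ∃ S : Matrix (Fin n) (Fin n) F, Sᵀ = S ∧ S.det ≠ 0 ∧
      ∀ g : GL (Fin n) F, g ∈ Cfsg.Geo.quadSimilarityGroup Q ↔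
        ∃ c : F, c ≠ 0 ∧
          (g : Matrix (Fin n) (Fin n) F)ᵀ * S * (g : Matrix (Fin n) (Fin n) F) = c • S

/-- [CONG] finite field, odd characteristic: invertible symmetric matrices whose determinants
differ by a square are congruent. -/
def Cong : Prop :=
  ∀ (F : Type u) [Field F] [Fintype F], (2 : F) ≠ 0 → ∀ (n : ℕ)
    (S S' : Matrix (Fin n) (Fin n) F), Sᵀ = S → S.det ≠ 0 → S'ᵀ = S' →
    ∀ μ : F, μ ≠ 0 → S'.det = S.det * μ ^ 2 →
    ∃ g : Matrix (Fin n) (Fin n) F, g.det ≠ 0 ∧ gᵀ * S * g = S'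

/-- [OCONG] the same over any index type: the isometry groups have the same order. -/
def OCong : Prop :=
  ∀ (F : Type u) [Field F] [Fintype F], (2 : F) ≠ 0 →
    ∀ (κ : Type) [Fintype κ] [DecidableEq κ] (n : ℕ), Fintype.card κ = n →
    ∀ (S : Matrix (Fin n) (Fin n) F) (S' : Matrix κ κ F), Sᵀ = S → S.det ≠ 0 → S'ᵀ = S' →
    ∀ μ : F, μ ≠ 0 → S'.det = S.det * μ ^ 2 →
    Nat.card (OGrp S') = Nat.card (OGrp S)

/-! ### involutions and the cases `n = r ∈ {3, 5}` -/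

/-- [INV2SQ] `x * x = δ² • 1`: `x` is a similarity of a symmetric form of any prescribed
discriminant. -/
def Inv2Sq : Prop :=
  ∀ (F : Type u) [Field F], (2 : F) ≠ 0 → ∀ (n : ℕ), 1 ≤ n →
    ∀ (x : Matrix (Fin n) (Fin n) F) (δ : F), δ ≠ 0 →
    x * x = (δ * δ) • (1 : Matrix (Fin n) (Fin n) F) → ∀ t : F, t ≠ 0 →
    ∃ (S' : Matrix (Fin n) (Fin n) F) (μ : F), S'ᵀ = S' ∧ μ ≠ 0 ∧ S'.det = t * μ ^ 2 ∧
      xᵀ * S' * x = (δ * δ) • S'

/-- [INV2NS] `x * x = z • 1`, `z` a non-square: the same. -/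
def Inv2NS : Prop :=
  ∀ (F : Type u) [Field F] [Fintype F], (2 : F) ≠ 0 → ∀ (n : ℕ), 1 ≤ n →
    ∀ (x : Matrix (Fin n) (Fin n) F) (z : F), (∀ d : F, d * d ≠ z) →
    x * x = z • (1 : Matrix (Fin n) (Fin n) F) → ∀ t : F, t ≠ 0 →
    ∃ (S' : Matrix (Fin n) (Fin n) F) (μ : F), S'ᵀ = S' ∧ μ ≠ 0 ∧ S'.det = t * μ ^ 2 ∧
      xᵀ * S' * x = z • S'

/-- [DIAGR] `r ∣ q - 1`: a matrix with `x ^ r = 1` is diagonalizable with eigenvalues powers of
an element `ω` of order `r`. -/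
def DiagR : Prop :=
  ∀ (F : Type u) [Field F] [Fintype F] (r : ℕ) [Fact r.Prime], r ∣ Fintype.card F - 1 →
    ∀ (n : ℕ) (x : Matrix (Fin n) (Fin n) F), x ^ r = 1 →
    ∃ (T : Matrix (Fin n) (Fin n) F) (ω : F) (e : Fin n → ZMod r), T.det ≠ 0 ∧
      orderOf ω = r ∧ x * T = T * Matrix.diagonal (fun j => ω ^ (e j).val)

/-- [SYM35] `r ∈ {3, 5}`: every `r`-tuple in `ZMod r` with sum `0` is invariant under some
reflection `a ↦ t - a`. -/
def Sym35 : Prop :=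
  ∀ (r : ℕ) [Fact r.Prime], (r = 3 ∨ r = 5) → ∀ e : Fin r → ZMod r, ∑ j, e j = 0 →
    ∃ (t : ZMod r) (π : Equiv.Perm (Fin r)), (∀ j, π (π j) = j) ∧
      (∀ j, e (π j) = t - e j) ∧ ∃ j₀, π j₀ = j₀

/-- [REFL] a diagonalizable matrix whose eigenvalues are matched by an involution `π` with a
fixed point (`lam (π j) * lam j = c`) is a similarity of a symmetric form of any prescribed
discriminant. -/
def Refl : Prop :=
  ∀ (F : Type u) [Field F] (n : ℕ) (x T : Matrix (Fin n) (Fin n) F) (lam : Fin n → F) (c : F)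
    (π : Equiv.Perm (Fin n)), T.det ≠ 0 → x * T = T * Matrix.diagonal lam → c ≠ 0 →
    (∀ j, π (π j) = j) → (∀ j, lam (π j) * lam j = c) → (∃ j₀, π j₀ = j₀) →
    ∀ t : F, t ≠ 0 →
    ∃ (S' : Matrix (Fin n) (Fin n) F) (μ : F), S'ᵀ = S' ∧ μ ≠ 0 ∧ S'.det = t * μ ^ 2 ∧
      xᵀ * S' * x = c • S'

/-- [ODD35] `r ∈ {3, 5}`, `r ∣ q - 1`, `n = r`: a matrix of determinant `1` with `x ^ r = 1` is
a similarity of a symmetric form of any prescribed discriminant. -/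
def Odd35 : Prop :=
  ∀ (F : Type u) [Field F] [Fintype F] (r : ℕ) [Fact r.Prime], (r = 3 ∨ r = 5) →
    r ∣ Fintype.card F - 1 →
    ∀ (x : Matrix (Fin r) (Fin r) F), x.det = 1 → x ^ r = 1 → ∀ t : F, t ≠ 0 →
    ∃ (S' : Matrix (Fin r) (Fin r) F) (μ c : F), S'ᵀ = S' ∧ μ ≠ 0 ∧ S'.det = t * μ ^ 2 ∧
      c ≠ 0 ∧ xᵀ * S' * x = c • S'

/-! ### derangements -/

/-- [NOUNIP] odd characteristic `p`: a similarity `y` of a non-degenerate symmetric form with
`y ^ p = 1` does not have `rank (y - 1) = 1`. -/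
def NoUnip : Prop :=
  ∀ (F : Type u) [Field F] (p : ℕ) [Fact p.Prime] [CharP F p], p ≠ 2 →
    ∀ (n : ℕ) (S y : Matrix (Fin n) (Fin n) F) (c : F), Sᵀ = S → S.det ≠ 0 →
    yᵀ * S * y = c • S → y ^ p = 1 → (y - 1).rank ≠ 1

/-- [DIAGSYM] the eigenvalues of a diagonalizable similarity of a non-degenerate symmetric
form with multiplier `c` are symmetric under `μ ↦ c / μ`, with multiplicities. -/
def DiagSym : Prop :=
  ∀ (F : Type u) [Field F] (n : ℕ) (x T S' : Matrix (Fin n) (Fin n) F) (lam : Fin n → F)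
    (c : F), T.det ≠ 0 → (∀ j, lam j ≠ 0) → x * T = T * Matrix.diagonal lam → S'ᵀ = S' →
    S'.det ≠ 0 → xᵀ * S' * x = c • S' →
    ∀ μ : F, Nat.card {j : Fin n // lam j = μ} = Nat.card {j : Fin n // lam j * μ = c}

/-- [DER1] `r ∣ q - 1` odd, `(n)_r < (q - 1)_r`, `n ≥ 3`: `x = δ • diag(ω, 1, ..., 1)` of
determinant `1` is not a similarity of any non-degenerate symmetric form. -/
def Der1 : Prop :=
  ∀ (F : Type u) [Field F] [Fintype F] (r : ℕ) [Fact r.Prime], r ≠ 2 →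
    r ∣ Fintype.card F - 1 → ∀ (n : ℕ), 3 ≤ n →
    padicValNat r n < padicValNat r (Fintype.card F - 1) →
    ∃ x : Matrix (Fin n) (Fin n) F, x.det = 1 ∧
      (∃ z : F, x ^ r = z • (1 : Matrix (Fin n) (Fin n) F)) ∧
      (∀ z : F, x ≠ z • (1 : Matrix (Fin n) (Fin n) F)) ∧
      ∀ (S' : Matrix (Fin n) (Fin n) F) (c : F), S'ᵀ = S' → S'.det ≠ 0 → xᵀ * S' * x ≠ c • S'

/-- [DER2] `r ∣ q - 1` odd, `n ≥ 6`, `(n, r) ≠ (6, 3)`: `x = diag(ω, ω, ω⁻², 1, ..., 1)` is not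
a similarity of any non-degenerate symmetric form. -/
def Der2 : Prop :=
  ∀ (F : Type u) [Field F] [Fintype F] (r : ℕ) [Fact r.Prime], r ≠ 2 →
    r ∣ Fintype.card F - 1 → ∀ (n : ℕ), 6 ≤ n → ¬ (n = 6 ∧ r = 3) →
    ∃ x : Matrix (Fin n) (Fin n) F, x.det = 1 ∧ x ^ r = 1 ∧
      (∀ z : F, x ≠ z • (1 : Matrix (Fin n) (Fin n) F)) ∧
      ∀ (S' : Matrix (Fin n) (Fin n) F) (c : F), S'ᵀ = S' → S'.det ≠ 0 → xᵀ * S' * x ≠ c • S'

/-! ### the case `orderOf (q : ZMod r)` even: the index is prime to `r` -/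

/-- [PFAFF] odd characteristic: the determinant of an invertible skew-symmetric matrix is a
square. -/
def Pfaff : Prop :=
  ∀ (F : Type u) [Field F], (2 : F) ≠ 0 → ∀ (n : ℕ) (K : Matrix (Fin n) (Fin n) F),
    Kᵀ = -K → K.det ≠ 0 → ∃ μ : F, K.det = μ ^ 2

/-- [CAYLEY] two non-degenerate symmetric forms with a common isometry `x` without eigenvalues
`± 1` have the same discriminant. -/
def Cayley : Prop :=
  ∀ (F : Type u) [Field F], (2 : F) ≠ 0 → ∀ (n : ℕ) (S₁ S₂ x : Matrix (Fin n) (Fin n) F),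
    S₁ᵀ = S₁ → S₁.det ≠ 0 → S₂ᵀ = S₂ → S₂.det ≠ 0 → xᵀ * S₁ * x = S₁ → xᵀ * S₂ * x = S₂ →
    (x - 1).det ≠ 0 → (x + 1).det ≠ 0 → ∃ μ : F, μ ≠ 0 ∧ S₁.det = S₂.det * μ ^ 2

/-- [SINGERC] `i = orderOf (q : ZMod r)` even: an element `c` of `GL_i(F)` of order the full
`r`-part of `q ^ i - 1` preserving a non-degenerate symmetric form `N`. -/
def SingerC : Prop :=
  ∀ (F : Type u) [Field F] [Fintype F] (p : ℕ) [Fact p.Prime] [CharP F p] (r : ℕ)
    [Fact r.Prime], (2 : F) ≠ 0 → r ≠ 2 → r ≠ p →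
    2 ≤ orderOf ((Fintype.card F : ℕ) : ZMod r) →
    Even (orderOf ((Fintype.card F : ℕ) : ZMod r)) →
    ∃ (c : GL (Fin (orderOf ((Fintype.card F : ℕ) : ZMod r))) F)
      (N : Matrix (Fin (orderOf ((Fintype.card F : ℕ) : ZMod r)))
        (Fin (orderOf ((Fintype.card F : ℕ) : ZMod r))) F),
      orderOf c = r ^ padicValNat r
        (Fintype.card F ^ orderOf ((Fintype.card F : ℕ) : ZMod r) - 1) ∧
      Nᵀ = N ∧ N.det ≠ 0 ∧
      (c : Matrix (Fin (orderOf ((Fintype.card F : ℕ) : ZMod r)))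
        (Fin (orderOf ((Fintype.card F : ℕ) : ZMod r))) F)ᵀ * N *
        (c : Matrix (Fin (orderOf ((Fintype.card F : ℕ) : ZMod r)))
          (Fin (orderOf ((Fintype.card F : ℕ) : ZMod r))) F) = N

/-- [WRORD] the wreath product `⟨c⟩ ≀ S_m` acts by isometries on `m` orthogonal copies of `N`
(plus an arbitrary summand): `(orderOf c) ^ m * m!` divides the order of the isometry group. -/
def WrOrd : Prop :=
  ∀ (F : Type u) [Field F] [Fintype F] (i m n₀ : ℕ), 1 ≤ i → ∀ (c : GL (Fin i) F)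
    (N : Matrix (Fin i) (Fin i) F) (S₀ : Matrix (Fin n₀) (Fin n₀) F),
    (c : Matrix (Fin i) (Fin i) F)ᵀ * N * (c : Matrix (Fin i) (Fin i) F) = N →
    orderOf c ^ m * Nat.factorial m ∣
      Nat.card (OGrp (Matrix.fromBlocks ((1 : Matrix (Fin m) (Fin m) F) ⊗ₖ N) 0 0 S₀))

/-- [LTE] `i = orderOf (q : ZMod r) ≥ 2`, `r` odd: the `r`-part of `|SL_n(q)|`. -/
def LTE : Prop :=
  ∀ (F : Type u) [Field F] [Fintype F] (p : ℕ) [Fact p.Prime] [CharP F p] (r : ℕ)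
    [Fact r.Prime], r ≠ 2 → r ≠ p → 2 ≤ orderOf ((Fintype.card F : ℕ) : ZMod r) →
    ∀ n : ℕ, padicValNat r (Nat.card (Cfsg.Geo.specialLinear (Fin n) F)) ≤
      padicValNat r (Fintype.card F ^ orderOf ((Fintype.card F : ℕ) : ZMod r) - 1) *
          (n / orderOf ((Fintype.card F : ℕ) : ZMod r)) +
        padicValNat r (Nat.factorial (n / orderOf ((Fintype.card F : ℕ) : ZMod r)))

/-- [IDXO] if the `r`-part of the isometry group is as large as that of `SL_n(q)` then `r`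
does not divide the index of the similarity group. -/
def IdxO : Prop :=
  ∀ (F : Type u) [Field F] [Fintype F] (n : ℕ) (Q : (Fin n → F) → F)
    (S : Matrix (Fin n) (Fin n) F), S.det ≠ 0 →
    (∀ g : GL (Fin n) F, g ∈ Cfsg.Geo.quadSimilarityGroup Q ↔
      ∃ c : F, c ≠ 0 ∧
        (g : Matrix (Fin n) (Fin n) F)ᵀ * S * (g : Matrix (Fin n) (Fin n) F) = c • S) →
    ∀ (r : ℕ) [Fact r.Prime], r ≠ 2 → ∀ k : ℕ, r ^ k ∣ Nat.card (OGrp S) →
    padicValNat r (Nat.card (Cfsg.Geo.specialLinear (Fin n) F)) ≤ k →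
    ¬ r ∣ (Cfsg.Geo.quadSimilarityGroup Q).relIndex (Cfsg.Geo.specialLinear (Fin n) F)

/-- [EVENCASE] `i = orderOf (q : ZMod r)` even, `i ≤ n`: if every element of order `r` of
`SL_n(F)` preserves a symmetric form of the determinant of `S`, then the isometry group of
`S` contains a Sylow `r`-subgroup of `SL_n(F)`. -/
def EvenCase : Prop :=
  ∀ (F : Type u) [Field F] [Fintype F] (p : ℕ) [Fact p.Prime] [CharP F p] (r : ℕ)
    [Fact r.Prime], (2 : F) ≠ 0 → r ≠ 2 → r ≠ p →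
    2 ≤ orderOf ((Fintype.card F : ℕ) : ZMod r) →
    Even (orderOf ((Fintype.card F : ℕ) : ZMod r)) →
    ∀ (n : ℕ), orderOf ((Fintype.card F : ℕ) : ZMod r) ≤ n →
    ∀ S : Matrix (Fin n) (Fin n) F, Sᵀ = S → S.det ≠ 0 →
    (∀ x : Matrix (Fin n) (Fin n) F, x.det = 1 → x ^ r = 1 →
      (∀ z : F, x ≠ z • (1 : Matrix (Fin n) (Fin n) F)) →
      ∃ S' : Matrix (Fin n) (Fin n) F, S'ᵀ = S' ∧ S'.det = S.det ∧ xᵀ * S' * x = S') →
    ∃ k : ℕ, r ^ k ∣ Nat.card (OGrp S) ∧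
      padicValNat r (Nat.card (Cfsg.Geo.specialLinear (Fin n) F)) ≤ k

end Cfsg.Agent.Lib.Helper37.OrtStmt
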