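import Mathlib
import Cfsg.Prelude.Def_Classical
import Cfsg.Prelude.Def_GeometricClasses
import Cfsg.Agent.Lib.Helper37.HypStmt

/-!
# S5992 (call by helper37): sub-pieces of `Blocks`
-/

set_option autoImplicit false

universe u

open scoped Matrix

namespace Cfsg.Agent.Lib.Helper37.HypStmt2

open Cfsg.Agent.Lib.Helper37.HypStmt

/-- INVDIM: an invariant subspace without fixed vectors of a matrix with `x ^ r = 1` has
dimension divisible by `i` (the cyclic group acts freely on its nonzero vectors). -/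
def InvDim : Prop :=
  ∀ (F : Type u) [Field F] [Fintype F] (p : ℕ) [Fact p.Prime] [CharP F p]
    (d : ℕ) (r : ℕ) [Fact r.Prime], r ≠ p →
    ∀ x : Matrix.GeneralLinearGroup (I d) F, x ^ r = 1 →
    ∀ R : Submodule F (I d → F), Stab (x : Matrix (I d) (I d) F) R →
    R ⊓ Fx (x : Matrix (I d) (I d) F) = ⊥ →
    orderOf ((Fintype.card F : ℕ) : ZMod r) ∣ Module.finrank F ↥R

/-- PERP: orthogonal complement of a nondegenerate subspace. -/
def Perp : Prop :=
  ∀ (F : Type u) [Field F] [Fintype F], Odd (Fintype.card F) → ∀ (d : ℕ)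
    (G : Submodule F (I d → F)), NDeg d F G →
    ∃ Y : Submodule F (I d → F),
      (∀ g ∈ G, ∀ y ∈ Y, QuadraticMap.polar (Cfsg.quadFormOdd d F) g y = 0) ∧
      NDeg d F Y ∧ G ⊓ Y = ⊥ ∧
      Module.finrank F ↥G + Module.finrank F ↥Y = 2 * d + 1 ∧
      ∀ x : Matrix.GeneralLinearGroup (I d) F,
        x ∈ Cfsg.isometryGroup F (Cfsg.quadFormOdd d F) →
        Stab (x : Matrix (I d) (I d) F) G → Stab (x : Matrix (I d) (I d) F) Y

/-- BFE: block finding, `i` even. -/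
def BlockFindE : Prop :=
  ∀ (F : Type u) [Field F] [Fintype F] (p : ℕ) [Fact p.Prime] [CharP F p],
    Odd (Fintype.card F) → ∀ (d : ℕ) (r : ℕ) [Fact r.Prime], r ≠ 2 → r ≠ p →
    Even (orderOf ((Fintype.card F : ℕ) : ZMod r)) →
    ∀ x : Matrix.GeneralLinearGroup (I d) F, x ∈ Cfsg.isometryGroup F (Cfsg.quadFormOdd d F) →
    x ^ r = 1 → ∀ Y : Submodule F (I d → F), Stab (x : Matrix (I d) (I d) F) Y → NDeg d F Y →
    Y ⊓ Fx (x : Matrix (I d) (I d) F) = ⊥ → Y ≠ ⊥ →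
    ∃ B : Submodule F (I d → F), B ≤ Y ∧ Stab (x : Matrix (I d) (I d) F) B ∧ NDeg d F B ∧
      Module.finrank F ↥B = orderOf ((Fintype.card F : ℕ) : ZMod r)

/-- BFO: block finding, `i` odd. -/
def BlockFindO : Prop :=
  ∀ (F : Type u) [Field F] [Fintype F] (p : ℕ) [Fact p.Prime] [CharP F p],
    Odd (Fintype.card F) → ∀ (d : ℕ) (r : ℕ) [Fact r.Prime], r ≠ 2 → r ≠ p →
    Odd (orderOf ((Fintype.card F : ℕ) : ZMod r)) →
    ∀ x : Matrix.GeneralLinearGroup (I d) F, x ∈ Cfsg.isometryGroup F (Cfsg.quadFormOdd d F) →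
    x ^ r = 1 → ∀ Y : Submodule F (I d → F), Stab (x : Matrix (I d) (I d) F) Y → NDeg d F Y →
    Y ⊓ Fx (x : Matrix (I d) (I d) F) = ⊥ → Y ≠ ⊥ →
    ∃ B : Submodule F (I d → F), B ≤ Y ∧ Stab (x : Matrix (I d) (I d) F) B ∧ NDeg d F B ∧
      Module.finrank F ↥B = 2 * orderOf ((Fintype.card F : ℕ) : ZMod r)

end Cfsg.Agent.Lib.Helper37.HypStmt2
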