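import Mathlib
import Cfsg.Agent.Lib.Helper44.NegPairs

/-!
# Singular vectors orthogonal to a totally singular frame, plus type (all characteristics)

`card_sing_step`: for a hyperbolic pair `e, f` with `P = ⟨e, f⟩^⊥`,
`#Sing(V) = q #Sing(P) + (q - 1) |P|`.  Hence the "plus type" count
`q #Sing(V) + q^k = q^(k+1) + q^(2k)` is inherited by `P`, and the singular vectors orthogonal
to a totally singular frame of length `j` satisfy
`q N + q^j q^(k-j) = q^j (q^(k-j+1) + q^(2(k-j)))`.
-/

set_option autoImplicit false

universe u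

namespace Cfsg.Agent.Lib.Helper37.PlusCnt

open Module QuadraticMap
open Cfsg.Agent.Lib.Helper44.Split Cfsg.Agent.Lib.Helper44.QSpace

section abstract

variable {F : Type u} [Field F] {V : Type u} [AddCommGroup V] [Module F V]

/-- peel one hyperbolic pair off a totally singular frame -/
theorem card_peel [Fintype F] (Q : QuadraticForm F V) {j : ℕ} (e : Fin (j + 1) → V) (f₀ : V)
    (hef₀ : polar Q (e 0) f₀ = 1) (he : ∀ a, Q (e a) = 0)
    (hee : ∀ a b, polar Q (e a) (e b) = 0) (P : Submodule F V)
    (hmemP : ∀ w : V, w ∈ P ↔ polar Q (e 0) w = 0 ∧ polar Q f₀ w = 0)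
    (e' : Fin j → P) (he' : ∀ a, (e' a : V) = e a.succ - polar Q (e a.succ) f₀ • e 0) :
    Nat.card {u : V // Q u = 0 ∧ ∀ a, polar Q (e a) u = 0} =
      Fintype.card F *
        Nat.card {w : P // res Q P w = 0 ∧ ∀ a, polar (res Q P) (e' a) w = 0} := by
  have hfe₀ : polar Q f₀ (e 0) = 1 := by rw [polar_comm]; exact hef₀
  have h00 : polar Q (e 0) (e 0) = 0 := hee 0 0
  have hmain : Nat.card {u : V // Q u = 0 ∧ ∀ a, polar Q (e a) u = 0} =
      Nat.card (F × {w : P // res Q P w = 0 ∧ ∀ a, polar (res Q P) (e' a) w = 0}) := by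
    apply Nat.card_congr
    exact
    { toFun := fun u => (polar Q f₀ (u : V), ⟨⟨(u : V) - polar Q f₀ (u : V) • e 0, by
          rw [hmemP]
          constructor
          · rw [polar_sub_right, polar_smul_r, h00, mul_zero, sub_zero]
            exact u.2.2 0
          · rw [polar_sub_right, polar_smul_r, hfe₀, mul_one, sub_self]⟩, by
          constructor
          · show Q ((u : V) - polar Q f₀ (u : V) • e 0) = 0
            have : (u : V) - polar Q f₀ (u : V) • e 0 =
                (u : V) + (-polar Q f₀ (u : V)) • e 0 := by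
              rw [neg_smul, sub_eq_add_neg]
            rw [this, q_add, q_smul, he 0, u.2.1, polar_smul_r, polar_comm Q (u : V) (e 0),
              u.2.2 0]
            ring
          · intro a
            rw [polar_res, he']
            show polar Q (e a.succ - polar Q (e a.succ) f₀ • e 0)
              ((u : V) - polar Q f₀ (u : V) • e 0) = 0
            simp [polar_sub_left, polar_sub_right, polar_smul_l, polar_smul_r, h00,
              u.2.2 a.succ, u.2.2 0, hee a.succ 0]⟩)
      invFun := fun p => ⟨p.1 • e 0 + (p.2.1 : V), by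
          have hw := (hmemP (p.2.1 : V)).mp p.2.1.2
          have h5 : Q (p.2.1 : V) = 0 := p.2.2.1
          constructor
          · rw [q_add, q_smul, he 0, polar_smul_l, hw.1, h5]
            ring
          · intro a
            rw [polar_add_right, polar_smul_r]
            refine Fin.cases ?_ (fun a => ?_) a
            · rw [h00, hw.1]
              ring
            · have h3 := p.2.2.2 a
              rw [polar_res, he', polar_sub_left, polar_smul_l, hw.1, mul_zero, sub_zero] at h3
              rw [hee a.succ 0, h3]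
              ring⟩
      left_inv := fun u => by
        apply Subtype.ext
        show polar Q f₀ (u : V) • e 0 + ((u : V) - polar Q f₀ (u : V) • e 0) = (u : V)
        abel
      right_inv := fun p => by
        obtain ⟨α, ⟨⟨w, hw⟩, hw2⟩⟩ := p
        have hwP := (hmemP w).mp hw
        have h1 : polar Q f₀ (α • e 0 + w) = α := by
          rw [polar_add_right, polar_smul_r, hfe₀, hwP.2]
          ring
        apply Prod.ext
        · exact h1
        · apply Subtype.ext
          apply Subtype.ext
          show α • e 0 + w - polar Q f₀ (α • e 0 + w) • e 0 = w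
          rw [h1]
          abel }
  rw [hmain, Nat.card_prod, Nat.card_eq_fintype_card]

/-- the singular vectors not orthogonal to `e` -/
theorem card_nonperp [Fintype F] (Q : QuadraticForm F V) (e f : V) (he : Q e = 0) (hf : Q f = 0)
    (hef : polar Q e f = 1) (P : Submodule F V)
    (hmemP : ∀ w : V, w ∈ P ↔ polar Q e w = 0 ∧ polar Q f w = 0) :
    Nat.card {u : V // Q u = 0 ∧ polar Q e u ≠ 0} = (Fintype.card F - 1) * Nat.card P := by
  have hfe : polar Q f e = 1 := by rw [polar_comm]; exact hef
  have hee : polar Q e e = 0 := by rw [polar_self', he, mul_zero]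
  have hff : polar Q f f = 0 := by rw [polar_self', hf, mul_zero]
  have hmain : Nat.card {u : V // Q u = 0 ∧ polar Q e u ≠ 0} = Nat.card (Fˣ × P) := by
    apply Nat.card_congr
    exact
    { toFun := fun u => (Units.mk0 (polar Q e (u : V)) u.2.2,
        ⟨(u : V) - polar Q f (u : V) • e - polar Q e (u : V) • f, by
          rw [hmemP]
          constructor
          · rw [polar_sub_right, polar_sub_right, polar_smul_r, polar_smul_r, hee, hef]
            ring
          · rw [polar_sub_right, polar_sub_right, polar_smul_r, polar_smul_r, hfe, hff]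
            ring⟩)
      invFun := fun p => ⟨(-(Q (p.2 : V)) / (p.1 : F)) • e + (p.1 : F) • f + (p.2 : V), by
          have hw := (hmemP (p.2 : V)).mp p.2.2
          have hb : (p.1 : F) ≠ 0 := p.1.ne_zero
          constructor
          · simp only [q_add, q_smul, he, hf, polar_add_left, polar_smul_l, polar_smul_r,
              hw.1, hw.2, hef]
            field_simp
            ring
          · rw [polar_add_right, polar_add_right, polar_smul_r, polar_smul_r, hee, hef, hw.1]
            simpa using hb⟩
      left_inv := fun u => by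
        apply Subtype.ext
        show (-(Q ((u : V) - polar Q f (u : V) • e - polar Q e (u : V) • f)) /
            polar Q e (u : V)) • e + polar Q e (u : V) • f +
            ((u : V) - polar Q f (u : V) • e - polar Q e (u : V) • f) = (u : V)
        have hQw : Q ((u : V) - polar Q f (u : V) • e - polar Q e (u : V) • f) =
            -(polar Q f (u : V) * polar Q e (u : V)) := by
          have : (u : V) - polar Q f (u : V) • e - polar Q e (u : V) • f =
              (u : V) + (-polar Q f (u : V)) • e + (-polar Q e (u : V)) • f := by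
            rw [neg_smul, neg_smul]
            abel
          rw [this, q_add, q_add, q_smul, q_smul, he, hf, u.2.1, polar_add_left, polar_smul_l,
            polar_smul_r, polar_smul_r, polar_smul_r, hef, polar_comm Q (u : V) e,
            polar_comm Q (u : V) f]
          ring
        rw [hQw, neg_neg, mul_div_assoc, div_self u.2.2, mul_one]
        abel
      right_inv := fun p => by
        obtain ⟨β, ⟨w, hw⟩⟩ := p
        have hwP := (hmemP w).mp hw
        have h1 : polar Q e ((-(Q w) / (β : F)) • e + (β : F) • f + w) = β := by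
          rw [polar_add_right, polar_add_right, polar_smul_r, polar_smul_r, hee, hef, hwP.1]
          ring
        have h2 : polar Q f ((-(Q w) / (β : F)) • e + (β : F) • f + w) = -(Q w) / (β : F) := by
          rw [polar_add_right, polar_add_right, polar_smul_r, polar_smul_r, hfe, hff, hwP.2]
          ring
        apply Prod.ext
        · apply Units.ext
          exact h1
        · apply Subtype.ext
          show (-(Q w) / (β : F)) • e + (β : F) • f + w -
            polar Q f ((-(Q w) / (β : F)) • e + (β : F) • f + w) • e -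
            polar Q e ((-(Q w) / (β : F)) • e + (β : F) • f + w) • f = w
          rw [h1, h2]
          abel }
  rw [hmain, Nat.card_prod, Nat.card_units, Nat.card_eq_fintype_card]

/-- the recursion for the number of singular vectors -/
theorem card_sing_step [Fintype F] [FiniteDimensional F V] (Q : QuadraticForm F V) (e f : V)
    (he : Q e = 0) (hf : Q f = 0) (hef : polar Q e f = 1) (P : Submodule F V)
    (hmemP : ∀ w : V, w ∈ P ↔ polar Q e w = 0 ∧ polar Q f w = 0) :
    Nat.card {u : V // Q u = 0} =
      Fintype.card F * Nat.card {w : P // res Q P w = 0} +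
        (Fintype.card F - 1) * Nat.card P := by
  classical
  have : Finite V := Module.finite_of_finite F
  have hee : polar Q e e = 0 := by rw [polar_self', he, mul_zero]
  have e1 := Nat.card_congr (Equiv.sumCompl (fun x : {v : V // Q v = 0} => polar Q e (x : V) = 0))
  rw [Nat.card_sum] at e1
  rw [← e1]
  congr 1
  · have h := card_peel Q (j := 0) (fun _ => e) f hef (fun _ => he) (fun _ _ => hee) P hmemP
      Fin.elim0 (fun a => a.elim0)
    have h1 : Nat.card {x : {v : V // Q v = 0} // polar Q e (x : V) = 0} =
        Nat.card {u : V // Q u = 0 ∧ ∀ _ : Fin (0 + 1), polar Q e u = 0} :=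
      Nat.card_congr ⟨fun x => ⟨x.1.1, x.1.2, fun _ => x.2⟩, fun u => ⟨⟨u.1, u.2.1⟩, u.2.2 0⟩,
        fun _ => rfl, fun _ => rfl⟩
    have h2 : Nat.card {w : P // res Q P w = 0 ∧
          ∀ a : Fin 0, polar (res Q P) (Fin.elim0 a : P) w = 0} =
        Nat.card {w : P // res Q P w = 0} :=
      Nat.card_congr (Equiv.subtypeEquivRight
        (fun w => ⟨fun h => h.1, fun h => ⟨h, fun a => a.elim0⟩⟩))
    rw [h1, ← h2]
    exact h
  · have h1 : Nat.card {x : {v : V // Q v = 0} // ¬ polar Q e (x : V) = 0} =
        Nat.card {u : V // Q u = 0 ∧ polar Q e u ≠ 0} :=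
      Nat.card_congr ⟨fun x => ⟨x.1.1, x.1.2, x.2⟩, fun u => ⟨⟨u.1, u.2.1⟩, u.2.2⟩,
        fun _ => rfl, fun _ => rfl⟩
    rw [h1]
    exact card_nonperp Q e f he hf hef P hmemP

theorem card_perp_sing_plus [Fintype F] (j : ℕ) : ∀ (k : ℕ) (V : Type u) [AddCommGroup V]
    [Module F V] [FiniteDimensional F V] (Q : QuadraticForm F V), finrank F V = 2 * k →
    Sep Q →
    Fintype.card F * Nat.card {u : V // Q u = 0} + Fintype.card F ^ k =
      Fintype.card F ^ (k + 1) + Fintype.card F ^ (2 * k) →
    j ≤ k → ∀ e : Fin j → V, LinearIndependent F e → (∀ a, Q (e a) = 0) →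
    (∀ a b, polar Q (e a) (e b) = 0) →
    Fintype.card F * Nat.card {u : V // Q u = 0 ∧ ∀ a, polar Q (e a) u = 0} +
        Fintype.card F ^ j * Fintype.card F ^ (k - j) =
      Fintype.card F ^ j *
        (Fintype.card F ^ (k - j + 1) + Fintype.card F ^ (2 * (k - j))) := by
  induction j with
  | zero =>
    intro k V _ _ _ Q hV hS hN _ e _ _ _
    have h0 : Nat.card {u : V // Q u = 0 ∧ ∀ a, polar Q (e a) u = 0} =
        Nat.card {u : V // Q u = 0} :=
      Nat.card_congr (Equiv.subtypeEquivRight
        (fun u => ⟨fun h => h.1, fun h => ⟨h, fun a => a.elim0⟩⟩))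
    rw [h0, pow_zero, one_mul, one_mul, Nat.sub_zero]
    exact hN
  | succ j ih =>
    intro k V _ _ _ Q hV hS hN hjk e hli he hee
    classical
    obtain ⟨k', rfl⟩ : ∃ k', k = k' + 1 := ⟨k - 1, by omega⟩
    have he0 : e 0 ≠ 0 := hli.ne_zero 0
    obtain ⟨f₀, hf₀, hef₀⟩ := exists_hyp_pair hS he0 (he 0)
    have hfe₀ : polar Q f₀ (e 0) = 1 := by rw [polar_comm]; exact hef₀
    have h00 : polar Q (e 0) (e 0) = 0 := hee 0 0
    have hdP0 := finrank_perp2' (he 0) hf₀ hef₀
    have hSP0 := sep_perp2 hS (he 0) hf₀ hef₀
    obtain ⟨P, hP⟩ : ∃ P : Submodule F V, P = perp2 (polarBilin Q) (e 0) f₀ := ⟨_, rfl⟩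
    rw [← hP] at hdP0 hSP0
    have hmemP : ∀ w : V, w ∈ P ↔ polar Q (e 0) w = 0 ∧ polar Q f₀ w = 0 := by
      intro w
      rw [hP, mem_perp2, pB_apply, pB_apply]
    have hdP : finrank F P = 2 * k' := by omega
    have hmem' : ∀ a : Fin j, e a.succ - polar Q (e a.succ) f₀ • e 0 ∈ P := by
      intro a
      rw [hmemP]
      constructor
      · rw [polar_sub_right, polar_smul_r, h00, mul_zero, sub_zero]
        exact hee 0 a.succ
      · rw [polar_sub_right, polar_smul_r, hfe₀, mul_one, polar_comm Q f₀ (e a.succ), sub_self]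
    obtain ⟨e', he'⟩ : ∃ e' : Fin j → P,
        ∀ a, (e' a : V) = e a.succ - polar Q (e a.succ) f₀ • e 0 :=
      ⟨fun a => ⟨_, hmem' a⟩, fun a => rfl⟩
    have hli' : LinearIndependent F e' := by
      rw [Fintype.linearIndependent_iff]
      intro g hg a
      have hg' : ∑ b, g b • (e' b : V) = 0 := by
        have := congrArg (fun w : P => (w : V)) hg
        simpa using this
      have h1 : ∑ b, g b • (e' b : V) =
          (-(∑ b, g b * polar Q (e b.succ) f₀)) • e 0 + ∑ b, g b • e b.succ := by
        simp only [he', smul_sub, smul_smul, Finset.sum_sub_distrib, ← Finset.sum_smul, neg_smul]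
        abel
      rw [Fintype.linearIndependent_iff] at hli
      have hG := hli (Fin.cons (-(∑ b, g b * polar Q (e b.succ) f₀)) g) (by
        rw [Fin.sum_univ_succ]
        simp only [Fin.cons_zero, Fin.cons_succ]
        rw [← h1]
        exact hg')
      have := hG a.succ
      simpa using this
    have hQ' : ∀ a, res Q P (e' a) = 0 := by
      intro a
      rw [res_apply, he']
      have : e a.succ - polar Q (e a.succ) f₀ • e 0 =
          e a.succ + (-polar Q (e a.succ) f₀) • e 0 := by
        rw [neg_smul, sub_eq_add_neg]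
      rw [this, q_add, q_smul, he 0, he a.succ, polar_smul_r, hee a.succ 0]
      ring
    have hpol' : ∀ a b, polar (res Q P) (e' a) (e' b) = 0 := by
      intro a b
      rw [polar_res, he', he']
      simp [polar_sub_left, polar_sub_right, polar_smul_l, polar_smul_r, hee]
    have hstep := card_sing_step Q (e 0) f₀ (he 0) hf₀ hef₀ P hmemP
    have hcardP : Nat.card P = Fintype.card F ^ (2 * k') := by
      rw [Module.natCard_eq_pow_finrank (K := F), hdP, Nat.card_eq_fintype_card]
    have hq1 : 1 ≤ Fintype.card F := Fintype.card_pos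
    have hNP : Fintype.card F * Nat.card {w : P // res Q P w = 0} + Fintype.card F ^ k' =
        Fintype.card F ^ (k' + 1) + Fintype.card F ^ (2 * k') := by
      rw [hcardP] at hstep
      apply Nat.eq_of_mul_eq_mul_left hq1
      zify [hq1] at hstep hN ⊢
      linear_combination hN - (Fintype.card F : ℤ) * hstep
    have hIH := ih k' P (res Q P) hdP hSP0 hNP (by omega) e' hli' hQ' hpol'
    rw [card_peel Q e f₀ hef₀ he hee P hmemP e' he', Nat.add_sub_add_right]
    calc Fintype.card F * (Fintype.card F *
            Nat.card {w : P // res Q P w = 0 ∧ ∀ a, polar (res Q P) (e' a) w = 0}) +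
          Fintype.card F ^ (j + 1) * Fintype.card F ^ (k' - j)
        = Fintype.card F * (Fintype.card F *
            Nat.card {w : P // res Q P w = 0 ∧ ∀ a, polar (res Q P) (e' a) w = 0} +
          Fintype.card F ^ j * Fintype.card F ^ (k' - j)) := by ring
      _ = Fintype.card F ^ (j + 1) *
          (Fintype.card F ^ (k' - j + 1) + Fintype.card F ^ (2 * (k' - j))) := by
        rw [hIH]
        ring

end abstract

section concrete

variable {F : Type u} [Field F]

theorem card_dot [Fintype F] (d : ℕ) (x : Fin d → F) (hx : x ≠ 0) :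
    Fintype.card F * Nat.card {y : Fin d → F // ∑ i, x i * y i = 0} = Fintype.card F ^ d := by
  classical
  obtain ⟨f, hf⟩ : ∃ f : Module.Dual F (Fin d → F), ∀ y, f y = ∑ i, x i * y i :=
    ⟨∑ i, x i • LinearMap.proj i, fun y => by simp [LinearMap.sum_apply]⟩
  have hf0 : f ≠ 0 := by
    intro h
    apply hx
    funext i
    have := hf (Pi.single i 1)
    rw [h] at this
    simpa [Pi.single_apply] using this.symm
  have hk := Module.Dual.finrank_ker_add_one_of_ne_zero hf0
  rw [Module.finrank_fin_fun] at hk
  have hc : Nat.card {y : Fin d → F // ∑ i, x i * y i = 0} = Nat.card (LinearMap.ker f) := by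
    apply Nat.card_congr
    exact Equiv.subtypeEquivRight (fun y => by rw [LinearMap.mem_ker, hf])
  rw [hc, Module.natCard_eq_pow_finrank (K := F), Nat.card_eq_fintype_card, ← pow_succ', hk]

/-- the plus-type count for the standard form -/
theorem card_sing_plusQ [Fintype F] (d : ℕ) :
    Fintype.card F * Nat.card {v : Fin d ⊕ Fin d → F // Cfsg.quadFormPlus d F v = 0} +
        Fintype.card F ^ d =
      Fintype.card F ^ (d + 1) + Fintype.card F ^ (2 * d) := by
  classical
  have e : {v : Fin d ⊕ Fin d → F // Cfsg.quadFormPlus d F v = 0} ≃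
      Σ x : Fin d → F, {y : Fin d → F // ∑ i, x i * y i = 0} :=
    { toFun := fun v => ⟨fun i => v.1 (Sum.inl i), ⟨fun i => v.1 (Sum.inr i), v.2⟩⟩
      invFun := fun s => ⟨Sum.elim s.1 s.2.1, by
        unfold Cfsg.quadFormPlus
        simpa using s.2.2⟩
      left_inv := fun v => by
        apply Subtype.ext
        funext c
        rcases c with i | i <;> rfl
      right_inv := fun s => by
        rcases s with ⟨x, y, hy⟩
        rfl }
  rw [Nat.card_congr e, Nat.card_sigma, Finset.mul_sum,
    ← Finset.add_sum_erase Finset.univ _ (Finset.mem_univ (0 : Fin d → F))]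
  have h0 : Nat.card {y : Fin d → F // ∑ i, (0 : Fin d → F) i * y i = 0} =
      Fintype.card F ^ d := by
    rw [Nat.card_congr (Equiv.subtypeUnivEquiv (fun y => by simp)), Nat.card_eq_fintype_card]
    simp
  have h1 : ∑ x ∈ Finset.univ.erase (0 : Fin d → F),
      Fintype.card F * Nat.card {y : Fin d → F // ∑ i, x i * y i = 0} =
        (Fintype.card F ^ d - 1) * Fintype.card F ^ d := by
    rw [Finset.sum_congr rfl (fun x hx => card_dot d x (Finset.ne_of_mem_erase hx)),
      Finset.sum_const, Finset.card_erase_of_mem (Finset.mem_univ _), Finset.card_univ,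
      smul_eq_mul]
    simp
  rw [h0, h1, pow_succ', two_mul, pow_add]
  have hA : 1 ≤ Fintype.card F ^ d := Nat.one_le_pow _ _ Fintype.card_pos
  obtain ⟨B, hB⟩ : ∃ B, Fintype.card F ^ d = B + 1 := ⟨Fintype.card F ^ d - 1, by omega⟩
  rw [hB, Nat.add_sub_cancel]
  ring

theorem card_perp_sing_plusQ [Fintype F] (d j : ℕ) (hj : j ≤ d)
    (e : Fin j → Fin d ⊕ Fin d → F) (hli : LinearIndependent F e)
    (he : ∀ a, Cfsg.quadFormPlus d F (e a) = 0)
    (hee : ∀ a b, polar (Cfsg.quadFormPlus d F) (e a) (e b) = 0) :
    Fintype.card F * Nat.card {u : Fin d ⊕ Fin d → F //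
          Cfsg.quadFormPlus d F u = 0 ∧ ∀ a, polar (Cfsg.quadFormPlus d F) (e a) u = 0} +
        Fintype.card F ^ j * Fintype.card F ^ (d - j) =
      Fintype.card F ^ j *
        (Fintype.card F ^ (d - j + 1) + Fintype.card F ^ (2 * (d - j))) := by
  have hV : finrank F (Fin d ⊕ Fin d → F) = 2 * d := by
    rw [Module.finrank_fintype_fun_eq_card]
    simp
    omega
  exact card_perp_sing_plus j d (Fin d ⊕ Fin d → F) (Cfsg.Agent.Lib.Helper44.NegPairs.plusQ d F)
    hV (Cfsg.Agent.Lib.Helper44.NegPairs.sep_plusQ d) (card_sing_plusQ d) hj e hli he hee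

end concrete

end Cfsg.Agent.Lib.Helper37.PlusCnt
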