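import Mathlib
import Cfsg.Agent.Lib.Helper94.EllStmt
import Cfsg.Agent.Lib.Helper95.JOrthE
import Cfsg.Agent.Lib.Helper44.NegPairs

/-!
# S5993 / PELT (second seat): a unipotent element `x` of order `p` of `Omega_(2d+1)(q)` with
`dim ((x - 1) V ∩ Fix x) ≥ d` (Jordan type `2^d, 1` for `d` even, `3, 2^(d-1)` for `d` odd).
-/

set_option autoImplicit false

universe u

open scoped Matrix

namespace Cfsg.Agent.Lib.Helper37.EllPELT

open Cfsg.Agent.Lib.Helper37.HypStmt Cfsg.Agent.Lib.Helper94.EllStmt

/-- `dim (range N ⊓ ker N) + rank N² = rank N` -/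
theorem finrank_range_inf_ker {F : Type u} [Field F] {V : Type*} [AddCommGroup V] [Module F V]
    [FiniteDimensional F V] (N : V →ₗ[F] V) :
    Module.finrank F ↥(LinearMap.range N ⊓ LinearMap.ker N) +
      Module.finrank F ↥(LinearMap.range (N ∘ₗ N)) = Module.finrank F ↥(LinearMap.range N) := by
  have h := LinearMap.finrank_range_add_finrank_ker (N ∘ₗ (LinearMap.range N).subtype)
  have h1 : LinearMap.range (N ∘ₗ (LinearMap.range N).subtype) = LinearMap.range (N ∘ₗ N) := by
    rw [LinearMap.range_comp, Submodule.range_subtype, LinearMap.range_comp]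
  have h2 : Module.finrank F ↥(LinearMap.ker (N ∘ₗ (LinearMap.range N).subtype)) =
      Module.finrank F ↥(LinearMap.range N ⊓ LinearMap.ker N) := by
    rw [LinearMap.ker_comp, ← Submodule.map_comap_subtype, Submodule.finrank_map_subtype_eq]
  rw [h1, h2] at h
  omega

theorem main : PElt.{u} := by
  intro F _ _ p _ _ hodd d hd
  classical
  have hp : p.Prime := Fact.out
  have h2 : (2 : F) ≠ 0 := Cfsg.Agent.Lib.Helper95.JOrth.two_ne_zero_of_odd_card hodd
  have hpodd : Odd p := Cfsg.Agent.Lib.Helper95.JOrth.odd_char_of_two_ne_zero (F := F) h2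
  have hp3 : 3 ≤ p := by
    obtain ⟨r, hr⟩ := hpodd
    have := hp.two_le
    omega
  have hcard : Fintype.card (I d) = 2 * d + 1 := by
    simp [I]
    omega
  have hS := Cfsg.Agent.Lib.Helper44.NegPairs.sep_oddQ (F := F) h2 d
  -- the key: a partition with parts `≤ 3`, rank sums `r1`, `r2` with `r1 = d + r2`
  have key : ∀ μ : Multiset ℕ, (∀ b ∈ μ, 0 < b ∧ b ≤ 3) → (∀ e, Even e → Even (μ.count e)) →
      μ.sum = 2 * d + 1 → (∃ s ∈ μ, Odd s) →
      (μ.map (fun b => b - 1)).sum = d + (μ.map (fun b => b - 2)).sum →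
      ∃ x : Matrix.GeneralLinearGroup (I d) F, x ∈ Cfsg.Geo.omegaGL (Cfsg.quadFormOdd d F) ∧
        orderOf x = p ∧
        d ≤ Module.finrank F
          ↥(LinearMap.range (Matrix.toLin' (x : Matrix (I d) (I d) F) - LinearMap.id) ⊓
            Fx (x : Matrix (I d) (I d) F)) := by
    intro μ hμ hev hsum hoddp hrk
    obtain ⟨x, hx, -, hrank⟩ := Cfsg.Agent.Lib.Helper95.JOrth.exists_unip h2
      (Cfsg.Agent.Lib.Helper44.NegPairs.oddQ d F) hS μ (fun b hb => (hμ b hb).1) hev
      (by rw [hsum, hcard]) hoddp
    have hNp : ((x : Matrix (I d) (I d) F) - 1) ^ p = 0 := by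
      apply Cfsg.Agent.Lib.Helper95.JOrth.eq_zero_of_rank_eq_zero
      rw [hrank]
      apply Multiset.sum_eq_zero
      intro y hy
      obtain ⟨b, hb, rfl⟩ := Multiset.mem_map.mp hy
      have := (hμ b hb).2
      omega
    obtain ⟨hΩ, hxp⟩ := Cfsg.Agent.Lib.Helper95.JOrth.unip_props h2
      (Cfsg.Agent.Lib.Helper44.NegPairs.oddQ d F) hS (by rw [hcard]; omega) x hx hNp
    have hr1 := hrank 1
    have hr2 := hrank 2
    rw [pow_one] at hr1
    have hx1 : x ≠ 1 := by
      intro h
      rw [h] at hr1
      have h0 : ((1 : Matrix.GeneralLinearGroup (I d) F) : Matrix (I d) (I d) F) - 1 = 0 := by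
        simp
      rw [h0, Matrix.rank_zero] at hr1
      omega
    refine ⟨x, ?_, orderOf_eq_prime hxp hx1, ?_⟩
    · rw [← Cfsg.Agent.Lib.Helper44.NegPairs.coe_oddQ]
      exact hΩ
    · obtain ⟨N, hN⟩ : ∃ N : (I d → F) →ₗ[F] (I d → F),
          N = ((x : Matrix (I d) (I d) F) - 1).mulVecLin := ⟨_, rfl⟩
      have hN' : Matrix.toLin' (x : Matrix (I d) (I d) F) - LinearMap.id = N := by
        rw [hN, ← Matrix.toLin'_apply', map_sub, Matrix.toLin'_one]
      have hNN : N ∘ₗ N = (((x : Matrix (I d) (I d) F) - 1) ^ 2).mulVecLin := by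
        rw [hN, pow_two, Matrix.mulVecLin_mul]
      have hk := finrank_range_inf_ker N
      have e1 : Module.finrank F ↥(LinearMap.range N) =
          ((x : Matrix (I d) (I d) F) - 1).rank := by
        rw [hN]
        rfl
      have e2 : Module.finrank F ↥(LinearMap.range (N ∘ₗ N)) =
          (((x : Matrix (I d) (I d) F) - 1) ^ 2).rank := by
        rw [hNN]
        rfl
      have hFx : Fx (x : Matrix (I d) (I d) F) = LinearMap.ker N := by
        unfold Fx
        rw [hN']
      rw [hN', hFx]
      rw [e1, e2, hr1, hr2] at hk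
      omega
  rcases Nat.even_or_odd d with hde | hdo
  · refine key (1 ::ₘ Multiset.replicate d 2) ?_ ?_ ?_ ⟨1, Multiset.mem_cons_self _ _, by decide⟩ ?_
    · intro e he
      rw [Multiset.mem_cons] at he
      rcases he with rfl | he
      · omega
      · rw [Multiset.eq_of_mem_replicate he]; omega
    · intro e he
      rw [Multiset.count_cons_of_ne (by rintro rfl; exact absurd he (by decide)),
        Multiset.count_replicate]
      split_ifs
      · exact hde
      · exact Even.zero
    · rw [Multiset.sum_cons, Multiset.sum_replicate, smul_eq_mul]; omega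
    · rw [Multiset.map_cons, Multiset.map_cons, Multiset.map_replicate, Multiset.map_replicate,
        Multiset.sum_cons, Multiset.sum_cons, Multiset.sum_replicate, Multiset.sum_replicate,
        smul_eq_mul, smul_eq_mul]
      omega
  · refine key (3 ::ₘ Multiset.replicate (d - 1) 2) ?_ ?_ ?_ ⟨3, Multiset.mem_cons_self _ _, by decide⟩ ?_
    · intro e he
      rw [Multiset.mem_cons] at he
      rcases he with rfl | he
      · omega
      · rw [Multiset.eq_of_mem_replicate he]; omega
    · intro e he
      rw [Multiset.count_cons_of_ne (by rintro rfl; exact absurd he (by decide)),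
        Multiset.count_replicate]
      split_ifs
      · obtain ⟨r, hr⟩ := hdo
        exact ⟨r, by omega⟩
      · exact Even.zero
    · rw [Multiset.sum_cons, Multiset.sum_replicate, smul_eq_mul]; omega
    · rw [Multiset.map_cons, Multiset.map_cons, Multiset.map_replicate, Multiset.map_replicate,
        Multiset.sum_cons, Multiset.sum_cons, Multiset.sum_replicate, Multiset.sum_replicate,
        smul_eq_mul, smul_eq_mul]
      omega

end Cfsg.Agent.Lib.Helper37.EllPELT
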