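import Mathlib
import Cfsg.Prelude.Def_GeometricClasses

/-!
# S5958 (elements of odd prime order of PSL_n(q) and decompositions into `t` subspaces of
dimension `a`): statements of the pieces (helper37).

Notation: `F` a finite field with `q` elements, characteristic `p`; `r ≠ p` a prime;
`c = orderOf (q : ZMod r)`; `φ` an endomorphism with `φ ^ r = 1`; `ker (φ - 1)` its fixed space.
-/

set_option autoImplicit false

namespace Cfsg.Agent.Lib.Helper37.EluStmt

open Polynomial

universe u

/-! ### tools (proved here, free to use) -/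

/-- the dimensions of finitely many independent subspaces add up to at most the dimension of
the space -/
theorem sum_finrank_le {K V : Type*} [Field K] [AddCommGroup V] [Module K V]
    [FiniteDimensional K V] {ι : Type*} [Fintype ι] [DecidableEq ι] (W : ι → Submodule K V)
    (h : iSupIndep W) :
    ∑ i, Module.finrank K (W i) ≤ Module.finrank K V := by
  have hinj := h.dfinsupp_lsum_injective
  have h1 := LinearMap.finrank_le_finrank_of_injective hinj
  have h2 : Module.finrank K (Π₀ i, W i) = ∑ i, Module.finrank K (W i) := by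
    rw [← Module.finrank_pi_fintype]
    exact (DFinsupp.linearEquivFunOnFintype (R := K) (M := fun i => W i)).finrank_eq
  omega

/-- the powers of `φ` permute a family of subspaces permuted by `φ` -/
theorem map_pow_eq {F V : Type*} [Field F] [AddCommGroup V] [Module F V] (φ : Module.End F V)
    {t : ℕ} (D : Fin t → Submodule F V) (σ : Equiv.Perm (Fin t))
    (h : ∀ j, (D j).map φ = D (σ j)) (i : ℕ) (j : Fin t) :
    (D j).map (φ ^ i) = D ((σ ^ i) j) := by
  induction i generalizing j with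
  | zero =>
    rw [pow_zero, pow_zero]
    exact Submodule.map_id _
  | succ i ih =>
    rw [pow_succ, pow_succ, Module.End.mul_eq_comp, Submodule.map_comp, h, ih]
    rfl

/-- a monomial basis together with a system of blocks gives a decomposition permuted by `x` -/
theorem of_blocks {F V : Type*} [Field F] [AddCommGroup V] [Module F V] [FiniteDimensional F V]
    (x : V →ₗ[F] V) (hxinj : Function.Injective x)
    {I : Type*} [Fintype I] [DecidableEq I] (b : I → V) (π : I → I) (μ : I → F)
    (hli : LinearIndependent F b) (hspan : Submodule.span F (Set.range b) = ⊤)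
    (hπ : Function.Injective π) (hxb : ∀ i, x (b i) = μ i • b (π i))
    (a t : ℕ) (ha : 1 ≤ a) (B : Fin t → Finset I) (hBcard : ∀ k, (B k).card = a)
    (hBdisj : ∀ k l, k ≠ l → Disjoint (B k) (B l)) (hBcover : ∀ i, ∃ k, i ∈ B k)
    (hBimg : ∀ k, ∃ l, (B k).image π = B l) :
    ∃ D : Fin t → Submodule F V, (∀ k, Module.finrank F (D k) = a) ∧ iSupIndep D ∧ iSup D = ⊤ ∧
      ∃ σ : Equiv.Perm (Fin t), ∀ k, (D k).map x = D (σ k) := by
  classical
  obtain ⟨D, hD⟩ : ∃ D : Fin t → Submodule F V,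
      D = fun k => Submodule.span F (b '' (B k : Set I)) := ⟨_, rfl⟩
  have hDk : ∀ k, D k = Submodule.span F (b '' (B k : Set I)) := fun k => by rw [hD]
  have hfin : ∀ k, Module.finrank F (D k) = a := by
    intro k
    have h1 := finrank_span_eq_card
      (hli.comp (Subtype.val : {i // i ∈ B k} → I) Subtype.val_injective)
    have h2 : Set.range (b ∘ (Subtype.val : {i // i ∈ B k} → I)) = b '' (B k : Set I) := by
      rw [Set.range_comp, Subtype.range_coe_subtype]
      rfl
    rw [h2] at h1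
    rw [hDk, h1, Fintype.card_coe]
    exact hBcard k
  choose f hf using hBimg
  have hfinj : Function.Injective f := by
    intro k l hkl
    by_contra hne
    have h1 : (B k).image π = (B l).image π := by rw [hf, hf, hkl]
    have h2 : B k = B l := Finset.image_injective hπ h1
    have h3 := hBdisj k l hne
    rw [h2, Finset.disjoint_self_iff_empty] at h3
    have h4 := hBcard l
    rw [h3, Finset.card_empty] at h4
    omega
  refine ⟨D, hfin, ?_, ?_, Equiv.ofBijective f (Finite.injective_iff_bijective.mp hfinj), ?_⟩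
  · intro k
    have h1 : (⨆ (j) (_ : j ≠ k), D j) ≤
        Submodule.span F (b '' (⋃ (j) (_ : j ≠ k), (B j : Set I))) := by
      refine iSup₂_le fun j hj => ?_
      rw [hDk]
      apply Submodule.span_mono
      apply Set.image_mono
      intro i hi
      exact Set.mem_iUnion₂.mpr ⟨j, hj, hi⟩
    have h2 : Disjoint (B k : Set I) (⋃ (j) (_ : j ≠ k), (B j : Set I)) := by
      rw [Set.disjoint_left]
      intro i hi hi'
      obtain ⟨j, hj, hij⟩ := Set.mem_iUnion₂.mp hi'
      exact Finset.disjoint_left.mp (hBdisj k j (Ne.symm hj)) hi hij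
    rw [hDk]
    exact (hli.disjoint_span_image h2).mono_right h1
  · rw [eq_top_iff, ← hspan, Submodule.span_le]
    rintro _ ⟨i, rfl⟩
    obtain ⟨k, hk⟩ := hBcover i
    apply Submodule.mem_iSup_of_mem k
    rw [hDk]
    exact Submodule.subset_span ⟨i, hk, rfl⟩
  · intro k
    have hle : (D k).map x ≤ D (f k) := by
      rw [hDk, hDk, Submodule.map_span, Submodule.span_le]
      rintro _ ⟨_, ⟨i, hi, rfl⟩, rfl⟩
      rw [hxb]
      refine Submodule.smul_mem _ _ (Submodule.subset_span ⟨π i, ?_, rfl⟩)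
      have : π i ∈ (B k).image π := Finset.mem_image_of_mem π hi
      rw [hf] at this
      exact this
    have hfr : Module.finrank F ((D k).map x) = Module.finrank F (D k) :=
      (Submodule.equivMapOfInjective x hxinj (D k)).finrank_eq.symm
    exact Submodule.eq_of_le_of_finrank_le hle (by rw [hfr, hfin, hfin])

/-! ### the pieces -/

/-- [PEEL] a semisimple endomorphism whose characteristic polynomial is
`(X - 1) ^ E * ∏ M` with all members of `M` monic of degree `c`, where `a = c b + l`,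
`E = t l + c J`, `J + |M| = t b`, has a decomposition into `t` invariant subspaces of
dimension `a`. -/
def Peel : Prop :=
  ∀ (F : Type u) [Field F] (V : Type u) [AddCommGroup V] [Module F V] [FiniteDimensional F V]
    (φ : Module.End F V), φ.IsSemisimple →
    ∀ (c a t b l E J : ℕ) (M : Multiset F[X]),
      φ.charpoly = (X - C 1) ^ E * M.prod →
      (∀ P ∈ M, P.Monic ∧ P.natDegree = c) →
      a = c * b + l → E = t * l + c * J → J + Multiset.card M = t * b →
      ∃ D : Fin t → Submodule F V, (∀ j, ∀ v ∈ D j, φ v ∈ D j) ∧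
        (∀ j, Module.finrank F (D j) = a) ∧ iSupIndep D ∧ iSup D = ⊤

/-- [CHAR] a matrix with `x ^ r = 1` is semisimple and its characteristic polynomial is
`(X - 1) ^ E` times a product of monic polynomials of degree `c = orderOf (q : ZMod r)`. -/
def CharFact : Prop :=
  ∀ (F : Type u) [Field F] [Fintype F] (p : ℕ) [Fact p.Prime] [CharP F p] (r : ℕ)
    [Fact r.Prime], r ≠ p → ∀ (n : ℕ) (x : Matrix (Fin n) (Fin n) F), x ^ r = 1 →
      Module.End.IsSemisimple (Matrix.toLin' x) ∧
      ∃ (E : ℕ) (M : Multiset F[X]), x.charpoly = (X - C 1) ^ E * M.prod ∧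
        (∀ P ∈ M, P.Monic ∧ P.natDegree = orderOf ((Fintype.card F : ℕ) : ZMod r)) ∧
        E + orderOf ((Fintype.card F : ℕ) : ZMod r) * Multiset.card M = n

/-- [CYCGEN] `φ ^ r = 1`, `c ≥ 2`: the space is spanned by `m` fixed vectors `v i` and the
`φ`-orbits of `s` vectors `u i` with `∑_{j<r} φ^j (u i) = 0`, where `m + c s = dim V`. -/
def CycGen : Prop :=
  ∀ (F : Type u) [Field F] [Fintype F] (p : ℕ) [Fact p.Prime] [CharP F p] (r : ℕ)
    [Fact r.Prime], r ≠ p → 2 ≤ orderOf ((Fintype.card F : ℕ) : ZMod r) →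
    ∀ (V : Type u) [AddCommGroup V] [Module F V] [FiniteDimensional F V] (φ : Module.End F V),
      φ ^ r = 1 →
      ∃ (m s : ℕ) (v : Fin m → V) (u : Fin s → V),
        m + orderOf ((Fintype.card F : ℕ) : ZMod r) * s = Module.finrank F V ∧
        (∀ i, φ (v i) = v i) ∧
        (∀ i, ∑ j ∈ Finset.range r, (φ ^ j) (u i) = 0) ∧
        Submodule.span F (Set.range v ∪
          Set.range (fun ij : Fin s × Fin r => (φ ^ (ij.2 : ℕ)) (u ij.1))) = ⊤

/-- [LINEDEC] from the generators of [CYCGEN] with `c = r - 1` and `s ≤ m` to a decomposition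
into lines permuted by `φ`. -/
def LineDec : Prop :=
  ∀ (F : Type u) [Field F] (V : Type u) [AddCommGroup V] [Module F V] [FiniteDimensional F V]
    (φ : Module.End F V) (r : ℕ), r.Prime → (r : F) ≠ 0 → φ ^ r = 1 →
    ∀ (m s : ℕ) (v : Fin m → V) (u : Fin s → V), s ≤ m →
      m + (r - 1) * s = Module.finrank F V →
      (∀ i, φ (v i) = v i) → (∀ i, ∑ j ∈ Finset.range r, (φ ^ j) (u i) = 0) →
      Submodule.span F (Set.range v ∪
        Set.range (fun ij : Fin s × Fin r => (φ ^ (ij.2 : ℕ)) (u ij.1))) = ⊤ →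
      ∀ t : ℕ, t = Module.finrank F V →
        ∃ D : Fin t → Submodule F V, (∀ j, Module.finrank F (D j) = 1) ∧ iSupIndep D ∧
          iSup D = ⊤ ∧ ∃ σ : Equiv.Perm (Fin t), ∀ j, (D j).map φ = D (σ j)

/-- the conclusion of [NPA], [NPB] -/
def NonPowConcl (F : Type u) [Field F] (n a t : ℕ) (x : Matrix (Fin n) (Fin n) F) : Prop :=
  ∃ D : Fin t → Submodule F (Fin n → F), (∀ j, Module.finrank F (D j) = a) ∧ iSupIndep D ∧
    iSup D = ⊤ ∧ ∃ σ : Equiv.Perm (Fin t), ∀ j, (D j).map (Matrix.toLin' x) = D (σ j)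

/-- [NPA] `x ^ r = z`, `z` not an `r`-th power, `n = a t`, `r ∣ a`. -/
def NonPowA : Prop :=
  ∀ (F : Type u) [Field F] [Fintype F] (p : ℕ) [Fact p.Prime] [CharP F p] (r : ℕ)
    [Fact r.Prime], r ≠ p → ∀ (n a t : ℕ), n = a * t → 1 ≤ a → r ∣ a →
    ∀ (x : Matrix (Fin n) (Fin n) F) (z : F), (∀ d : F, d ^ r ≠ z) →
      x ^ r = z • (1 : Matrix (Fin n) (Fin n) F) → NonPowConcl F n a t x

/-- [NPB] `x ^ r = z`, `z` not an `r`-th power, `n = a t`, `r ∣ t`. -/
def NonPowB : Prop :=
  ∀ (F : Type u) [Field F] [Fintype F] (p : ℕ) [Fact p.Prime] [CharP F p] (r : ℕ)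
    [Fact r.Prime], r ≠ p → ∀ (n a t : ℕ), n = a * t → 1 ≤ a → r ∣ t →
    ∀ (x : Matrix (Fin n) (Fin n) F) (z : F), (∀ d : F, d ^ r ≠ z) →
      x ^ r = z • (1 : Matrix (Fin n) (Fin n) F) → NonPowConcl F n a t x

/-- [PERM] a permutation `σ` induced by `φ` with `φ ^ r = 1` on independent non-zero
subspaces: every point is fixed or lies on an `r`-cycle. -/
def PermDich : Prop :=
  ∀ (F : Type u) [Field F] (V : Type u) [AddCommGroup V] [Module F V] [FiniteDimensional F V]
    (φ : Module.End F V) (r : ℕ), r.Prime → φ ^ r = 1 →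
    ∀ (t : ℕ) (D : Fin t → Submodule F V) (σ : Equiv.Perm (Fin t)),
      iSupIndep D → (∀ j, D j ≠ ⊥) → (∀ j, (D j).map φ = D (σ j)) →
      ∀ j, σ j = j ∨ Function.Injective (fun i : Fin r => (σ ^ (i : ℕ)) j)

/-- [CYCFIX] an `r`-cycle of subspaces gives `dim (D j) ≤ dim ker (φ - 1)`. -/
def CycFix : Prop :=
  ∀ (F : Type u) [Field F] (V : Type u) [AddCommGroup V] [Module F V] [FiniteDimensional F V]
    (φ : Module.End F V) (r : ℕ), r.Prime → φ ^ r = 1 →
    ∀ (t : ℕ) (D : Fin t → Submodule F V) (σ : Equiv.Perm (Fin t)),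
      iSupIndep D → (∀ j, (D j).map φ = D (σ j)) →
      ∀ j, Function.Injective (fun i : Fin r => (σ ^ (i : ℕ)) j) →
        Module.finrank F (D j) ≤ Module.finrank F (LinearMap.ker (φ - 1))

/-- [CYCRANK] an `r`-cycle of subspaces gives `(r - 1) dim (D j) + dim ker (φ - 1) ≤ dim V`. -/
def CycRank : Prop :=
  ∀ (F : Type u) [Field F] (V : Type u) [AddCommGroup V] [Module F V] [FiniteDimensional F V]
    (φ : Module.End F V) (r : ℕ), r.Prime → φ ^ r = 1 →
    ∀ (t : ℕ) (D : Fin t → Submodule F V) (σ : Equiv.Perm (Fin t)),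
      iSupIndep D → (∀ j, (D j).map φ = D (σ j)) →
      ∀ j, Function.Injective (fun i : Fin r => (σ ^ (i : ℕ)) j) →
        (r - 1) * Module.finrank F (D j) + Module.finrank F (LinearMap.ker (φ - 1)) ≤
          Module.finrank F V

/-- [FIXMOD] for an invariant subspace `W` of `φ` with `φ ^ r = 1`:
`dim W ≡ dim (W ⊓ ker (φ - 1))` modulo `c = orderOf (q : ZMod r)`. -/
def FixMod : Prop :=
  ∀ (F : Type u) [Field F] [Fintype F] (p : ℕ) [Fact p.Prime] [CharP F p] (r : ℕ)
    [Fact r.Prime], r ≠ p →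
    ∀ (V : Type u) [AddCommGroup V] [Module F V] [FiniteDimensional F V] (φ : Module.End F V),
      φ ^ r = 1 → ∀ W : Submodule F V, (∀ v ∈ W, φ v ∈ W) →
        ∃ m : ℕ, Module.finrank F W =
          Module.finrank F ↥(W ⊓ LinearMap.ker (φ - 1)) +
            orderOf ((Fintype.card F : ℕ) : ZMod r) * m

/-- [ORBCOUNT] if `φ` (`φ ^ r = 1`, no non-trivial `r`-th roots of unity in `F`) permutes `t`
independent lines then `t ≤ r * dim ker (φ - 1)`. -/
def OrbCount : Prop :=
  ∀ (F : Type u) [Field F] (V : Type u) [AddCommGroup V] [Module F V] [FiniteDimensional F V]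
    (φ : Module.End F V) (r : ℕ), r.Prime → (r : F) ≠ 0 → (∀ lam : F, lam ^ r = 1 → lam = 1) →
    φ ^ r = 1 →
    ∀ (t : ℕ) (D : Fin t → Submodule F V) (σ : Equiv.Perm (Fin t)),
      iSupIndep D → (∀ j, Module.finrank F (D j) = 1) → (∀ j, (D j).map φ = D (σ j)) →
      t ≤ r * Module.finrank F (LinearMap.ker (φ - 1))

/-- [BLK] an element of `SL_n(F)` of order dividing `r` with exactly `s` non-trivial blocks:
`dim ker (x - 1) + c s = n`. -/
def BlkElt : Prop :=
  ∀ (F : Type u) [Field F] [Fintype F] (p : ℕ) [Fact p.Prime] [CharP F p] (r : ℕ)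
    [Fact r.Prime], r ≠ p → 2 ≤ orderOf ((Fintype.card F : ℕ) : ZMod r) →
    ∀ (n s : ℕ), orderOf ((Fintype.card F : ℕ) : ZMod r) * s ≤ n →
      ∃ x : Matrix (Fin n) (Fin n) F, x.det = 1 ∧ x ^ r = 1 ∧
        Module.finrank F (LinearMap.ker (Matrix.toLin' x - 1)) +
          orderOf ((Fintype.card F : ℕ) : ZMod r) * s = n

/-- [FREE] the number of ordered decompositions is divisible by `t!`. -/
def FreeDvd : Prop :=
  ∀ (F : Type u) [Field F] [Fintype F] (n a t : ℕ),
    Nat.factorial t ∣
      Nat.card {D : Fin t → Submodule F (Fin n → F) // Cfsg.Geo.IsMDecomposition a D}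

/-- [TRANSIT] `GL_n(F)` is transitive on the ordered decompositions. -/
def Transit : Prop :=
  ∀ (F : Type u) [Field F] (n a t : ℕ) (D D' : Fin t → Submodule F (Fin n → F)),
    Cfsg.Geo.IsMDecomposition a D → Cfsg.Geo.IsMDecomposition a D' →
    ∃ g : Matrix.GeneralLinearGroup (Fin n) F,
      ∀ j, (D j).map (Matrix.toLin' (g : Matrix (Fin n) (Fin n) F)) = D' j

/-- [DIVGL] the number of ordered decompositions divides `|GL_n(F)|`. -/
def DivGL : Prop :=
  ∀ (F : Type u) [Field F] [Fintype F] (n a t : ℕ), n = a * t → 1 ≤ a → 2 ≤ t →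
    Nat.card {D : Fin t → Submodule F (Fin n → F) // Cfsg.Geo.IsMDecomposition a D} ∣
      Nat.card (Matrix.GeneralLinearGroup (Fin n) F)

/-- [CAUCHY] if `r` divides `|GL_n(F)|` and `c ≥ 2` then `c ≤ n`. -/
def CauchyOrd : Prop :=
  ∀ (F : Type u) [Field F] [Fintype F] (p : ℕ) [Fact p.Prime] [CharP F p] (r : ℕ)
    [Fact r.Prime], r ≠ p → ∀ n : ℕ, r ∣ Nat.card (Matrix.GeneralLinearGroup (Fin n) F) →
      2 ≤ orderOf ((Fintype.card F : ℕ) : ZMod r) →
      orderOf ((Fintype.card F : ℕ) : ZMod r) ≤ n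

end Cfsg.Agent.Lib.Helper37.EluStmt
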