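import Mathlib
import Cfsg.Prelude.Def_Classical
import Cfsg.Prelude.Def_GeometricClasses
import Cfsg.Agent.Lib.Helper37.HypStmt
import Cfsg.Agent.Lib.Helper37.HypStmt2
import Cfsg.Agent.Lib.Helper44.NegPairs

/-!
# S5992 piece BLOCKS: induction from `FixND`, `Perp`, `BlockFindE`, `BlockFindO`.
-/

set_option autoImplicit false

universe u

open scoped Matrix

namespace Cfsg.Agent.Lib.Helper37.HypBLOCKS

open Cfsg.Agent.Lib.Helper37.HypStmt Cfsg.Agent.Lib.Helper37.HypStmt2

section basics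

variable {F : Type u} [Field F] {d : ℕ}

theorem polar_add_l (a c y : I d → F) :
    QuadraticMap.polar (Cfsg.quadFormOdd d F) (a + c) y =
      QuadraticMap.polar (Cfsg.quadFormOdd d F) a y +
        QuadraticMap.polar (Cfsg.quadFormOdd d F) c y :=
  QuadraticMap.polar_add_left (Cfsg.Agent.Lib.Helper44.NegPairs.oddQ d F) a c y

theorem polar_add_r (y a c : I d → F) :
    QuadraticMap.polar (Cfsg.quadFormOdd d F) y (a + c) =
      QuadraticMap.polar (Cfsg.quadFormOdd d F) y a +
        QuadraticMap.polar (Cfsg.quadFormOdd d F) y c :=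
  QuadraticMap.polar_add_right (Cfsg.Agent.Lib.Helper44.NegPairs.oddQ d F) y a c

theorem polar_zero_l (y : I d → F) :
    QuadraticMap.polar (Cfsg.quadFormOdd d F) 0 y = 0 :=
  QuadraticMap.polar_zero_left (Cfsg.Agent.Lib.Helper44.NegPairs.oddQ d F) y

theorem ndeg_sup {A C : Submodule F (I d → F)} (hA : NDeg d F A) (hC : NDeg d F C)
    (hAC : ∀ a ∈ A, ∀ c ∈ C, QuadraticMap.polar (Cfsg.quadFormOdd d F) a c = 0) :
    NDeg d F (A ⊔ C) := by
  have key : ∀ w ∈ A ⊔ C, w ≠ 0 →
      ∃ y ∈ A ⊔ C, QuadraticMap.polar (Cfsg.quadFormOdd d F) y w ≠ 0 := by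
    intro w hw hw0
    obtain ⟨a, ha, c, hc, rfl⟩ := Submodule.mem_sup.mp hw
    by_cases ha0 : a = 0
    · subst ha0
      have hc0 : c ≠ 0 := by
        intro h
        apply hw0
        rw [h, add_zero]
      obtain ⟨⟨y, hy, hyc⟩, _⟩ := hC c hc hc0
      refine ⟨y, Submodule.mem_sup_right hy, ?_⟩
      rw [zero_add]
      exact hyc
    · obtain ⟨⟨y, hy, hya⟩, _⟩ := hA a ha ha0
      refine ⟨y, Submodule.mem_sup_left hy, ?_⟩
      rw [polar_add_r, hAC y hy c hc, add_zero]
      exact hya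
  intro w hw hw0
  obtain ⟨y, hy, hyw⟩ := key w hw hw0
  exact ⟨⟨y, hy, hyw⟩, ⟨y, hy, by rw [QuadraticMap.polar_comm]; exact hyw⟩⟩

theorem stab_sup {x : Matrix (I d) (I d) F} {A C : Submodule F (I d → F)} (hA : Stab x A)
    (hC : Stab x C) : Stab x (A ⊔ C) := by
  unfold Stab at *
  rw [Submodule.map_sup]
  exact sup_le_sup hA hC

theorem stab_Fx (x : Matrix (I d) (I d) F) : Stab x (Fx x) := by
  unfold Stab
  rintro _ ⟨v, hv, rfl⟩
  have hv' := (mem_Fx x v).mp hv
  rw [Matrix.toLin'_apply, hv']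
  exact hv

theorem stab_mem {x : Matrix (I d) (I d) F} {A : Submodule F (I d → F)} (hA : Stab x A)
    {v : I d → F} (hv : v ∈ A) : x *ᵥ v ∈ A := by
  have h := hA (Submodule.mem_map_of_mem hv)
  rw [Matrix.toLin'_apply] at h
  exact h

end basics

theorem main (hFix : FixND.{u}) (hPerp : Perp.{u}) (hE : BlockFindE.{u}) (hO : BlockFindO.{u}) :
    Blocks.{u} := by
  intro F _ _ p _ _ hodd d r _ hr2 hrp x hx hxr j
  obtain ⟨i, hi⟩ : ∃ i, i = orderOf ((Fintype.card F : ℕ) : ZMod r) := ⟨_, rfl⟩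
  rw [← hi]
  have hFN := hFix F p hodd d r hrp x hx hxr
  induction j with
  | zero =>
    intro _
    refine ⟨⊥, ?_, ?_, ?_, ?_, ?_⟩
    · unfold Stab
      rw [Submodule.map_bot]
    · intro w hw hw0
      exact absurd ((Submodule.mem_bot F).mp hw) hw0
    · rw [zero_mul]
      exact finrank_bot F (I d → F)
    · exact bot_inf_eq _
    · intro u hu v _
      rw [(Submodule.mem_bot F).mp hu]
      exact polar_zero_l v
  | succ j ih =>
    intro hj
    have hj' : j * cc i + Module.finrank F ↥(Fx (x : Matrix (I d) (I d) F)) ≤ 2 * d + 1 := by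
      have : j * cc i ≤ (j + 1) * cc i := Nat.mul_le_mul_right _ (Nat.le_succ j)
      omega
    obtain ⟨E, hES, hEN, hEd, hEF, hEperp⟩ := ih hj'
    have hGN : NDeg d F (E ⊔ Fx (x : Matrix (I d) (I d) F)) := ndeg_sup hEN hFN hEperp
    obtain ⟨Y, hGY, hYN, hGYbot, hdim, hYinv⟩ := hPerp F hodd d _ hGN
    have hYS := hYinv x hx (stab_sup hES (stab_Fx _))
    have hYF : Y ⊓ Fx (x : Matrix (I d) (I d) F) = ⊥ := by
      apply le_bot_iff.mp
      rw [← hGYbot, inf_comm]
      exact inf_le_inf_right _ le_sup_right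
    have hGd : Module.finrank F ↥(E ⊔ Fx (x : Matrix (I d) (I d) F)) =
        j * cc i + Module.finrank F ↥(Fx (x : Matrix (I d) (I d) F)) := by
      have h := Submodule.finrank_sup_add_finrank_inf_eq E (Fx (x : Matrix (I d) (I d) F))
      rw [hEF, finrank_bot, add_zero, hEd] at h
      exact h
    by_cases hY : Y = ⊥
    · have hY0 : Module.finrank F ↥Y = 0 := by
        rw [hY]
        exact finrank_bot F (I d → F)
      have hc0 : cc i = 0 := by
        rw [hGd, hY0] at hdim
        have : (j + 1) * cc i = j * cc i + cc i := by ring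
        omega
      refine ⟨E, hES, hEN, ?_, hEF, hEperp⟩
      rw [hEd, hc0, mul_zero, mul_zero]
    · obtain ⟨B, hBY, hBS, hBN, hBd⟩ : ∃ B : Submodule F (I d → F), B ≤ Y ∧
          Stab (x : Matrix (I d) (I d) F) B ∧ NDeg d F B ∧ Module.finrank F ↥B = cc i := by
        rcases Nat.even_or_odd i with hev | hod
        · obtain ⟨B, h1, h2, h3, h4⟩ :=
            hE F p hodd d r hr2 hrp (hi ▸ hev) x hx hxr Y hYS hYN hYF hY
          refine ⟨B, h1, h2, h3, ?_⟩
          rw [h4, ← hi]
          unfold cc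
          rw [if_pos hev]
        · obtain ⟨B, h1, h2, h3, h4⟩ :=
            hO F p hodd d r hr2 hrp (hi ▸ hod) x hx hxr Y hYS hYN hYF hY
          refine ⟨B, h1, h2, h3, ?_⟩
          rw [h4, ← hi]
          unfold cc
          rw [if_neg (Nat.not_even_iff_odd.mpr hod)]
      have hEB : ∀ a ∈ E, ∀ b ∈ B, QuadraticMap.polar (Cfsg.quadFormOdd d F) a b = 0 :=
        fun a ha b hb => hGY a (Submodule.mem_sup_left ha) b (hBY hb)
      have hBF : B ⊓ Fx (x : Matrix (I d) (I d) F) = ⊥ := by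
        apply le_bot_iff.mp
        rw [← hYF]
        exact inf_le_inf_right _ hBY
      have hEBbot : E ⊓ B = ⊥ := by
        apply le_bot_iff.mp
        rw [← hGYbot]
        exact inf_le_inf le_sup_left hBY
      refine ⟨E ⊔ B, stab_sup hES hBS, ndeg_sup hEN hBN hEB, ?_, ?_, ?_⟩
      · have h := Submodule.finrank_sup_add_finrank_inf_eq E B
        rw [hEBbot, finrank_bot, add_zero, hEd, hBd] at h
        rw [h]
        ring
      · rw [Submodule.eq_bot_iff]
        rintro v ⟨hv1, hv2⟩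
        obtain ⟨e, he, b, hb, rfl⟩ := Submodule.mem_sup.mp hv1
        have hfix := (mem_Fx _ _).mp hv2
        rw [Matrix.mulVec_add] at hfix
        have hxe := stab_mem hES he
        have hxb := stab_mem hBS hb
        have h1 : (x : Matrix (I d) (I d) F) *ᵥ e - e = b - (x : Matrix (I d) (I d) F) *ᵥ b := by
          rw [sub_eq_sub_iff_add_eq_add, hfix, add_comm]
        have h2 : (x : Matrix (I d) (I d) F) *ᵥ e - e ∈ E ⊓ B :=
          ⟨E.sub_mem hxe he, by rw [h1]; exact B.sub_mem hb hxb⟩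
        rw [hEBbot, Submodule.mem_bot] at h2
        have he0 : e = 0 := by
          have h3 : e ∈ E ⊓ Fx (x : Matrix (I d) (I d) F) :=
            ⟨he, (mem_Fx _ _).mpr (sub_eq_zero.mp h2)⟩
          rw [hEF, Submodule.mem_bot] at h3
          exact h3
        have hb0 : b = 0 := by
          rw [h2] at h1
          have h3 : b ∈ B ⊓ Fx (x : Matrix (I d) (I d) F) :=
            ⟨hb, (mem_Fx _ _).mpr (sub_eq_zero.mp h1.symm).symm⟩
          rw [hBF, Submodule.mem_bot] at h3
          exact h3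
        rw [he0, hb0, add_zero]
      · intro u hu v hv
        obtain ⟨e, he, b, hb, rfl⟩ := Submodule.mem_sup.mp hu
        rw [polar_add_l, hEperp e he v hv, zero_add, QuadraticMap.polar_comm]
        exact hGY v (Submodule.mem_sup_right hv) b (hBY hb)

end Cfsg.Agent.Lib.Helper37.HypBLOCKS
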