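import Mathlib
import Cfsg.Prelude.Def_GeometricClasses
import Cfsg.Prelude.Def_ClassicalGeometry

/-!
# S5980 (elements of prime order of PSp_{2d}(q), q odd, and the tensor product subgroups
`Sp_a(q) ⊗ O_b(q)`, `2 d = a b`, `a` even, `b ≥ 3`): statements of the pieces (helper37).

Everything is transported to "Kronecker coordinates" by the group isomorphism `toKron e P`:
there the symplectic group is `{Y | Yᵀ * (G₁ ⊗ₖ G₂) * Y = G₁ ⊗ₖ G₂}` (`G₁` alternating,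
`G₂` symmetric, both invertible) and the tensor product subgroup is the Kronecker subgroup.
-/

set_option autoImplicit false

namespace Cfsg.Agent.Lib.Helper37.SpTStmt

open scoped Kronecker MatrixGroups Matrix

universe u

/-- conjugation by `P⁻¹` followed by reindexing along `e`: `X ↦ reindex e e (P⁻¹ * X * P)` -/
def toKron {F : Type u} [Field F] {ι : Type} [Fintype ι] [DecidableEq ι] {a b : ℕ}
    (e : ι ≃ Fin a × Fin b) (P : GL ι F) : GL ι F ≃* GL (Fin a × Fin b) F :=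
  (MulAut.conj P⁻¹).trans (Cfsg.Geo.glReindex e)

/-! ### transport pieces -/

/-- [TSP] the symplectic group in Kronecker coordinates. -/
def TSp : Prop :=
  ∀ (F : Type u) [Field F] (d a b : ℕ) (e : (Fin d ⊕ Fin d) ≃ Fin a × Fin b)
    (P : GL (Fin d ⊕ Fin d) F) (f₁ : (Fin a → F) → (Fin a → F) → F)
    (f₂ : (Fin b → F) → (Fin b → F) → F),
    Cfsg.Geo.IsTensorFormStructure id (Cfsg.sympForm d F) f₁ f₂ e P →
    ∀ X : GL (Fin d ⊕ Fin d) F, X ∈ Cfsg.spGL d F ↔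
      ((toKron e P X : GL (Fin a × Fin b) F) : Matrix (Fin a × Fin b) (Fin a × Fin b) F)ᵀ *
        (Cfsg.Geo.gramMatrix f₁ ⊗ₖ Cfsg.Geo.gramMatrix f₂) *
        ((toKron e P X : GL (Fin a × Fin b) F) : Matrix (Fin a × Fin b) (Fin a × Fin b) F) =
      Cfsg.Geo.gramMatrix f₁ ⊗ₖ Cfsg.Geo.gramMatrix f₂

/-- [TTEN] the tensor product subgroup in Kronecker coordinates. -/
def TTen : Prop :=
  ∀ (F : Type u) [Field F] (ι : Type) [Fintype ι] [DecidableEq ι] (a b : ℕ)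
    (e : ι ≃ Fin a × Fin b) (P X : GL ι F),
    X ∈ Cfsg.Geo.tensorProductSubgroup a b e P ↔
      toKron e P X ∈ Cfsg.Geo.kroneckerSubgroup a b F

/-- [TSCAL] scalars in Kronecker coordinates. -/
def TScal : Prop :=
  ∀ (F : Type u) [Field F] (ι : Type) [Fintype ι] [DecidableEq ι] (a b : ℕ)
    (e : ι ≃ Fin a × Fin b) (P X : GL ι F) (z : F),
    ((toKron e P X : GL (Fin a × Fin b) F) : Matrix (Fin a × Fin b) (Fin a × Fin b) F) =
        z • (1 : Matrix (Fin a × Fin b) (Fin a × Fin b) F) ↔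
      (X : Matrix ι ι F) = z • (1 : Matrix ι ι F)

/-- [TRANK] ranks of shifts in Kronecker coordinates. -/
def TRank : Prop :=
  ∀ (F : Type u) [Field F] (ι : Type) [Fintype ι] [DecidableEq ι] (a b : ℕ)
    (e : ι ≃ Fin a × Fin b) (P X : GL ι F) (μ : F),
    (((toKron e P X : GL (Fin a × Fin b) F) : Matrix (Fin a × Fin b) (Fin a × Fin b) F) -
        μ • (1 : Matrix (Fin a × Fin b) (Fin a × Fin b) F)).rank =
      ((X : Matrix ι ι F) - μ • (1 : Matrix ι ι F)).rank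

/-- [GRAMND] the Gram matrix of a non-degenerate bilinear form is invertible. -/
def GramND : Prop :=
  ∀ (F : Type u) [Field F] (n : ℕ) (f : (Fin n → F) → (Fin n → F) → F),
    Cfsg.Geo.IsBilinearForm f → Cfsg.Geo.IsNondegenerateForm f →
    (Cfsg.Geo.gramMatrix f).det ≠ 0

/-! ### elements of the symplectic group -/

/-- [SPTV] a symplectic transvection: order `p`, `rank (x - 1) = 1`. -/
def SpTv : Prop :=
  ∀ (F : Type u) [Field F] (p : ℕ) [Fact p.Prime] [CharP F p] (d : ℕ), 1 ≤ d →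
    ∃ x : GL (Fin d ⊕ Fin d) F, x ∈ Cfsg.spGL d F ∧ x ^ p = 1 ∧
      ((x : Matrix (Fin d ⊕ Fin d) (Fin d ⊕ Fin d) F) - 1).rank = 1

/-- [SPNEG2] odd characteristic: a symplectic involution with `rank (x - 1) = 2`. -/
def SpNeg2 : Prop :=
  ∀ (F : Type u) [Field F], (2 : F) ≠ 0 → ∀ d : ℕ, 1 ≤ d →
    ∃ x : GL (Fin d ⊕ Fin d) F, x ∈ Cfsg.spGL d F ∧ x ^ 2 = 1 ∧
      ((x : Matrix (Fin d ⊕ Fin d) (Fin d ⊕ Fin d) F) - 1).rank = 2

/-- [SPARITH] a prime `r ≠ p` dividing the order of `Sp_{2d}(q)` divides `q^(2j) - 1` for some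
`1 ≤ j ≤ d`, i.e. `orderOf (q : ZMod r) ∣ 2 * j`. -/
def SpArith : Prop :=
  ∀ (F : Type u) [Field F] [Fintype F] (p : ℕ) [Fact p.Prime] [CharP F p] (r : ℕ)
    [Fact r.Prime], r ≠ p → ∀ d : ℕ, r ∣ Nat.card (Cfsg.spGL d F) →
    ∃ j : ℕ, 1 ≤ j ∧ j ≤ d ∧ orderOf ((Fintype.card F : ℕ) : ZMod r) ∣ 2 * j

/-- [SPELTE] `r ≠ p` an odd prime, `i = orderOf (q : ZMod r)` even, `i ≤ 2 d`: a symplectic
element of order `r` with `rank (x - 1) = i`. -/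
def SpEltE : Prop :=
  ∀ (F : Type u) [Field F] [Fintype F] (p : ℕ) [Fact p.Prime] [CharP F p] (r : ℕ)
    [Fact r.Prime], r ≠ 2 → r ≠ p → Even (orderOf ((Fintype.card F : ℕ) : ZMod r)) →
    ∀ d : ℕ, orderOf ((Fintype.card F : ℕ) : ZMod r) ≤ 2 * d →
    ∃ x : GL (Fin d ⊕ Fin d) F, x ∈ Cfsg.spGL d F ∧ x ^ r = 1 ∧
      ((x : Matrix (Fin d ⊕ Fin d) (Fin d ⊕ Fin d) F) - 1).rank =
        orderOf ((Fintype.card F : ℕ) : ZMod r)

/-- [SPELTO] `r ≠ p` an odd prime, `i = orderOf (q : ZMod r)` odd, `i ≤ d`: a symplectic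
element of order `r` with `rank (x - 1) = 2 i`. -/
def SpEltO : Prop :=
  ∀ (F : Type u) [Field F] [Fintype F] (p : ℕ) [Fact p.Prime] [CharP F p] (r : ℕ)
    [Fact r.Prime], r ≠ 2 → r ≠ p → Odd (orderOf ((Fintype.card F : ℕ) : ZMod r)) →
    ∀ d : ℕ, orderOf ((Fintype.card F : ℕ) : ZMod r) ≤ d →
    ∃ x : GL (Fin d ⊕ Fin d) F, x ∈ Cfsg.spGL d F ∧ x ^ r = 1 ∧
      ((x : Matrix (Fin d ⊕ Fin d) (Fin d ⊕ Fin d) F) - 1).rank =
        2 * orderOf ((Fintype.card F : ℕ) : ZMod r)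

/-! ### ranks of Kronecker products -/

/-- [KRC] if `v, A v, ..., A^(k-1) v` are linearly independent and `B` is invertible then
`rank (A ⊗ₖ B - μ) ≥ (k - 1) * b`. -/
def KRC : Prop :=
  ∀ (F : Type u) [Field F] (a b : ℕ) (A : Matrix (Fin a) (Fin a) F)
    (B : Matrix (Fin b) (Fin b) F), B.det ≠ 0 →
    ∀ (k : ℕ) (v : Fin a → F),
      LinearIndependent F (fun s : Fin k => (A ^ (s : ℕ)) *ᵥ v) →
      ∀ μ : F, (k - 1) * b ≤ (A ⊗ₖ B - μ • (1 : Matrix (Fin a × Fin b) (Fin a × Fin b) F)).rank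

/-- [CYCVEC] `A ^ r = w • 1`, `A` invertible and not scalar, `i = orderOf (q : ZMod r) ≥ 2`:
some `v` with `v, A v, ..., A^(i-1) v` linearly independent. -/
def CycVec : Prop :=
  ∀ (F : Type u) [Field F] [Fintype F] (p : ℕ) [Fact p.Prime] [CharP F p] (r : ℕ)
    [Fact r.Prime], r ≠ p → 2 ≤ orderOf ((Fintype.card F : ℕ) : ZMod r) →
    ∀ (n : ℕ) (A : Matrix (Fin n) (Fin n) F) (w : F), A.det ≠ 0 →
      A ^ r = w • (1 : Matrix (Fin n) (Fin n) F) →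
      (∀ α : F, A ≠ α • (1 : Matrix (Fin n) (Fin n) F)) →
      ∃ v : Fin n → F, LinearIndependent F
        (fun s : Fin (orderOf ((Fintype.card F : ℕ) : ZMod r)) => (A ^ (s : ℕ)) *ᵥ v)

/-- [FIXRANK] `B ^ r = 1`, `r ≠ p`: `orderOf (q : ZMod r)` divides `rank (B - 1)`. -/
def FixRank : Prop :=
  ∀ (F : Type u) [Field F] [Fintype F] (p : ℕ) [Fact p.Prime] [CharP F p] (r : ℕ)
    [Fact r.Prime], r ≠ p →
    ∀ (n : ℕ) (B : Matrix (Fin n) (Fin n) F), B ^ r = 1 →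
      orderOf ((Fintype.card F : ℕ) : ZMod r) ∣ (B - 1).rank

/-- [SKEWRANK] odd characteristic: a skew-symmetric matrix has even rank. -/
def SkewRank : Prop :=
  ∀ (F : Type u) [Field F], (2 : F) ≠ 0 → ∀ (n : ℕ) (M : Matrix (Fin n) (Fin n) F),
    Mᵀ = -M → Even M.rank

/-- [ORTHRANK] odd characteristic: an orthogonal matrix `B` of odd order has `rank (B - 1)`
even. -/
def OrthRank : Prop :=
  ∀ (F : Type u) [Field F], (2 : F) ≠ 0 → ∀ r : ℕ, Odd r →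
    ∀ (n : ℕ) (G B : Matrix (Fin n) (Fin n) F), Gᵀ = G → G.det ≠ 0 → Bᵀ * G * B = G →
      B ^ r = 1 → Even (B - 1).rank

/-! ### involutions: adapted bases -/

/-- [DIAGG] odd characteristic: an invertible symmetric matrix is congruent to a diagonal
matrix. -/
def DiagG : Prop :=
  ∀ (F : Type u) [Field F], (2 : F) ≠ 0 → ∀ (n : ℕ) (G : Matrix (Fin n) (Fin n) F),
    Gᵀ = G → G.det ≠ 0 →
    ∃ (C : Matrix (Fin n) (Fin n) F) (c : Fin n → F), C.det ≠ 0 ∧ (∀ j, c j ≠ 0) ∧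
      Cᵀ * G * C = Matrix.diagonal c

/-- [POSB] an involutory isometry `x` of a non-degenerate alternating form has an adapted
symplectic basis with prescribed pairings: `f (u j) (v j) = γ j`, `x (u j) = ε j • u j`,
`x (v j) = ε j • v j`. -/
def PosB : Prop :=
  ∀ (F : Type u) [Field F], (2 : F) ≠ 0 →
    ∀ (V : Type u) [AddCommGroup V] [Module F V] [FiniteDimensional F V]
      (f : LinearMap.BilinForm F V), f.IsAlt → f.Nondegenerate →
    ∀ x : V →ₗ[F] V, (∀ u v, f (x u) (x v) = f u v) → (∀ v, x (x v) = v) →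
    ∀ b : ℕ, Module.finrank F V = 2 * b → ∀ γ : Fin b → F, (∀ j, γ j ≠ 0) →
    ∃ (ε : Fin b → F) (u v : Fin b → V), (∀ j, ε j = 1 ∨ ε j = -1) ∧
      (∀ j k, f (u j) (v k) = if j = k then γ j else 0) ∧
      (∀ j k, f (u j) (u k) = 0) ∧ (∀ j k, f (v j) (v k) = 0) ∧
      (∀ j, x (u j) = ε j • u j) ∧ (∀ j, x (v j) = ε j • v j)

/-- [NEGB] an isometry `x` with `x² = -1` of a non-degenerate alternating form over a finite
field of odd characteristic has vectors `u j` with `f (u j) (x (u j)) = γ j` prescribed,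
`f (u j) (u k) = 0` and `f (u j) (x (u k)) = 0` for `j ≠ k`. -/
def NegB : Prop :=
  ∀ (F : Type u) [Field F] [Fintype F], (2 : F) ≠ 0 →
    ∀ (V : Type u) [AddCommGroup V] [Module F V] [FiniteDimensional F V]
      (f : LinearMap.BilinForm F V), f.IsAlt → f.Nondegenerate →
    ∀ x : V →ₗ[F] V, (∀ u v, f (x u) (x v) = f u v) → (∀ v, x (x v) = -v) →
    ∀ b : ℕ, Module.finrank F V = 2 * b → ∀ γ : Fin b → F, (∀ j, γ j ≠ 0) →
    ∃ u : Fin b → V, (∀ j, f (u j) (x (u j)) = γ j) ∧ (∀ j k, f (u j) (u k) = 0) ∧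
      (∀ j k, j ≠ k → f (u j) (x (u k)) = 0)

/-- [CPOS] `a = 2`: a symplectic involution is conjugate in the symplectic group to
`1 ⊗ₖ B`. -/
def CPos : Prop :=
  ∀ (F : Type u) [Field F], (2 : F) ≠ 0 → ∀ (b : ℕ) (G₁ : Matrix (Fin 2) (Fin 2) F)
    (G₂ : Matrix (Fin b) (Fin b) F), G₁ᵀ = -G₁ → G₁.det ≠ 0 → G₂ᵀ = G₂ → G₂.det ≠ 0 →
    ∀ Y : Matrix (Fin 2 × Fin b) (Fin 2 × Fin b) F,
      Yᵀ * (G₁ ⊗ₖ G₂) * Y = G₁ ⊗ₖ G₂ → Y * Y = 1 →
      ∃ (h : Matrix (Fin 2 × Fin b) (Fin 2 × Fin b) F) (B : Matrix (Fin b) (Fin b) F),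
        h.det ≠ 0 ∧ hᵀ * (G₁ ⊗ₖ G₂) * h = G₁ ⊗ₖ G₂ ∧ B.det ≠ 0 ∧
        Y * h = h * ((1 : Matrix (Fin 2) (Fin 2) F) ⊗ₖ B)

/-- [CNEG] `a = 2`: a symplectic matrix with square `-1` is conjugate in the symplectic group
to `A ⊗ₖ 1`. -/
def CNeg : Prop :=
  ∀ (F : Type u) [Field F] [Fintype F], (2 : F) ≠ 0 → ∀ (b : ℕ)
    (G₁ : Matrix (Fin 2) (Fin 2) F) (G₂ : Matrix (Fin b) (Fin b) F), G₁ᵀ = -G₁ →
    G₁.det ≠ 0 → G₂ᵀ = G₂ → G₂.det ≠ 0 →
    ∀ Y : Matrix (Fin 2 × Fin b) (Fin 2 × Fin b) F,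
      Yᵀ * (G₁ ⊗ₖ G₂) * Y = G₁ ⊗ₖ G₂ → Y * Y = -1 →
      ∃ (h : Matrix (Fin 2 × Fin b) (Fin 2 × Fin b) F) (A : Matrix (Fin 2) (Fin 2) F),
        h.det ≠ 0 ∧ hᵀ * (G₁ ⊗ₖ G₂) * h = G₁ ⊗ₖ G₂ ∧ A.det ≠ 0 ∧
        Y * h = h * (A ⊗ₖ (1 : Matrix (Fin b) (Fin b) F))

end Cfsg.Agent.Lib.Helper37.SpTStmt
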