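import Mathlib

set_option autoImplicit false

namespace Cfsg.Agent.Lib.Helper37.EquiPart

variable {I : Type*} [LinearOrder I]

/-- The fixed points and one half of the moved points of an involution account for the whole set. -/
theorem card_split (π : I → I) (hπ : ∀ i, π (π i) = i) (S : Finset I) (hinv : ∀ i ∈ S, π i ∈ S) :
    S.card = (S.filter (fun i => π i = i)).card + 2 * (S.filter (fun i => i < π i)).card := by
  have hinj : Function.Injective π := fun i j h => by
    have := congrArg π h
    rwa [hπ, hπ] at this
  have h1 : (S.filter (fun i => π i < i)) = (S.filter (fun i => i < π i)).image π := by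
    ext i
    simp only [Finset.mem_filter, Finset.mem_image]
    constructor
    · rintro ⟨hi, hlt⟩
      exact ⟨π i, ⟨hinv i hi, by rw [hπ]; exact hlt⟩, hπ i⟩
    · rintro ⟨j, ⟨hj, hlt⟩, rfl⟩
      exact ⟨hinv j hj, by rw [hπ]; exact hlt⟩
  have h2 : (S.filter (fun i => π i < i)).card = (S.filter (fun i => i < π i)).card := by
    rw [h1, Finset.card_image_of_injective _ hinj]
  have h3 := Finset.card_filter_add_card_filter_not (s := S) (fun i => π i = i)
  have h4 := Finset.card_filter_add_card_filter_not (s := S.filter (fun i => ¬ π i = i))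
    (fun i => i < π i)
  have h5 : (S.filter (fun i => ¬ π i = i)).filter (fun i => i < π i) =
      S.filter (fun i => i < π i) := by
    ext i
    simp only [Finset.mem_filter]
    constructor
    · rintro ⟨⟨hi, -⟩, hlt⟩
      exact ⟨hi, hlt⟩
    · rintro ⟨hi, hlt⟩
      exact ⟨⟨hi, fun h => by rw [h] at hlt; exact lt_irrefl _ hlt⟩, hlt⟩
  have h6 : (S.filter (fun i => ¬ π i = i)).filter (fun i => ¬ i < π i) =
      S.filter (fun i => π i < i) := by
    ext i
    simp only [Finset.mem_filter]
    constructor
    · rintro ⟨⟨hi, hne⟩, hlt⟩
      exact ⟨hi, lt_of_le_of_ne (not_lt.mp hlt) hne⟩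
    · rintro ⟨hi, hlt⟩
      exact ⟨⟨hi, fun h => by rw [h] at hlt; exact lt_irrefl _ hlt⟩, not_lt.mpr hlt.le⟩
  rw [h5, h6, h2] at h4
  omega

/-- Either an invariant block or a block disjoint from its image. -/
theorem exists_block (π : I → I) (hπ : ∀ i, π (π i) = i) (a : ℕ) (s : ℕ) (hs : 1 ≤ s)
    (S : Finset I) (hcard : S.card = a * s) (hinv : ∀ i ∈ S, π i ∈ S) :
    (∃ A ⊆ S, A.card = a ∧ ∀ i ∈ A, π i ∈ A) ∨
    (2 ≤ s ∧ ∃ A ⊆ S, A.card = a ∧ Disjoint A (A.image π) ∧ A.image π ⊆ S) := by
  have hinj : Function.Injective π := fun i j h => by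
    have := congrArg π h
    rwa [hπ, hπ] at this
  have hsplit := card_split π hπ S hinv
  obtain ⟨Fx, hFx⟩ : ∃ Fx : Finset I, Fx = S.filter (fun i => π i = i) := ⟨_, rfl⟩
  obtain ⟨T₀, hT₀⟩ : ∃ T₀ : Finset I, T₀ = S.filter (fun i => i < π i) := ⟨_, rfl⟩
  rw [← hFx, ← hT₀] at hsplit
  have hT₀S : T₀ ⊆ S := by rw [hT₀]; exact Finset.filter_subset _ _
  have hFxS : Fx ⊆ S := by rw [hFx]; exact Finset.filter_subset _ _
  have hT₀lt : ∀ i ∈ T₀, i < π i := by
    intro i hi
    rw [hT₀] at hi
    exact (Finset.mem_filter.mp hi).2
  have hFxfix : ∀ i ∈ Fx, π i = i := by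
    intro i hi
    rw [hFx] at hi
    exact (Finset.mem_filter.mp hi).2
  -- a subset of `T₀` is disjoint from its image
  have hdisjT : ∀ T ⊆ T₀, Disjoint T (T.image π) := by
    intro T hT
    rw [Finset.disjoint_left]
    intro i hi hi'
    obtain ⟨j, hj, rfl⟩ := Finset.mem_image.mp hi'
    have h1 := hT₀lt j (hT hj)
    have h2 := hT₀lt (π j) (hT hi)
    rw [hπ] at h2
    exact lt_asymm h1 h2
  have has : a ≤ a * s := Nat.le_mul_of_pos_right a (by omega)
  by_cases hα : a - 2 * min T₀.card (a / 2) ≤ Fx.card
  · left
    obtain ⟨T, hTsub, hTcard⟩ := Finset.exists_subset_card_eq (s := T₀)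
      (n := min T₀.card (a / 2)) (min_le_left _ _)
    obtain ⟨X, hXsub, hXcard⟩ := Finset.exists_subset_card_eq (s := Fx)
      (n := a - 2 * min T₀.card (a / 2)) hα
    have hd1 := hdisjT T hTsub
    have hd2 : Disjoint (T ∪ T.image π) X := by
      rw [Finset.disjoint_left]
      intro i hi hiX
      have hfix := hFxfix i (hXsub hiX)
      rcases Finset.mem_union.mp hi with h | h
      · have := hT₀lt i (hTsub h)
        rw [hfix] at this
        exact lt_irrefl _ this
      · obtain ⟨j, hj, rfl⟩ := Finset.mem_image.mp h
        have := hT₀lt j (hTsub hj)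
        rw [hπ] at hfix
        rw [← hfix] at this
        exact lt_irrefl _ this
    refine ⟨T ∪ T.image π ∪ X, ?_, ?_, ?_⟩
    · intro i hi
      rcases Finset.mem_union.mp hi with h | h
      · rcases Finset.mem_union.mp h with h | h
        · exact hT₀S (hTsub h)
        · obtain ⟨j, hj, rfl⟩ := Finset.mem_image.mp h
          exact hinv j (hT₀S (hTsub hj))
      · exact hFxS (hXsub h)
    · rw [Finset.card_union_of_disjoint hd2, Finset.card_union_of_disjoint hd1,
        Finset.card_image_of_injective _ hinj, hTcard, hXcard]
      have : 2 * min T₀.card (a / 2) ≤ a := by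
        have := min_le_right T₀.card (a / 2)
        omega
      omega
    · intro i hi
      rcases Finset.mem_union.mp hi with h | h
      · rcases Finset.mem_union.mp h with h | h
        · exact Finset.mem_union_left _ (Finset.mem_union_right _ (Finset.mem_image_of_mem π h))
        · obtain ⟨j, hj, rfl⟩ := Finset.mem_image.mp h
          rw [hπ]
          exact Finset.mem_union_left _ (Finset.mem_union_left _ hj)
      · rw [hFxfix i (hXsub h)]
        exact Finset.mem_union_right _ h
  · right
    push Not at hα
    have hmin : min T₀.card (a / 2) = a / 2 := by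
      rcases min_choice T₀.card (a / 2) with h | h
      · rw [h] at hα
        omega
      · exact h
    rw [hmin] at hα
    have hodd : a % 2 = 1 := by omega
    have hF0 : Fx.card = 0 := by omega
    have hs2 : 2 ≤ s := by
      by_contra hlt
      have hs1 : s = 1 := by omega
      rw [hs1, mul_one] at hcard
      omega
    have hTa : a ≤ T₀.card := by
      have : a * 2 ≤ a * s := Nat.mul_le_mul_left a hs2
      omega
    obtain ⟨A, hAsub, hAcard⟩ := Finset.exists_subset_card_eq (s := T₀) (n := a) hTa
    refine ⟨hs2, A, hAsub.trans hT₀S, hAcard, hdisjT A hAsub, ?_⟩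
    intro i hi
    obtain ⟨j, hj, rfl⟩ := Finset.mem_image.mp hi
    exact hinv j (hT₀S (hAsub hj))

/-- A finite set with an involution, of size `a * s`, splits into `s` blocks of size `a` permuted
by the involution. -/
theorem exists_blocks (π : I → I) (hπ : ∀ i, π (π i) = i) (a : ℕ) :
    ∀ (s : ℕ) (S : Finset I), S.card = a * s → (∀ i ∈ S, π i ∈ S) →
      ∃ B : Fin s → Finset I, (∀ k, (B k).card = a) ∧ (∀ k, B k ⊆ S) ∧
        (∀ k l, k ≠ l → Disjoint (B k) (B l)) ∧ (∀ i ∈ S, ∃ k, i ∈ B k) ∧
        (∀ k, ∃ l, (B k).image π = B l) := by
  have hinj : Function.Injective π := fun i j h => by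
    have := congrArg π h
    rwa [hπ, hπ] at this
  intro s
  induction s using Nat.strong_induction_on with
  | _ s ih =>
    intro S hcard hinv
    rcases Nat.eq_zero_or_pos s with hs0 | hspos
    · subst hs0
      refine ⟨fun k => k.elim0, fun k => k.elim0, fun k => k.elim0, fun k => k.elim0, ?_,
        fun k => k.elim0⟩
      intro i hi
      rw [mul_zero, Finset.card_eq_zero] at hcard
      rw [hcard] at hi
      exact absurd hi (Finset.notMem_empty i)
    · rcases exists_block π hπ a s hspos S hcard hinv with ⟨A, hAS, hAcard, hAinv⟩ |
        ⟨hs2, A, hAS, hAcard, hAdisj, hAimgS⟩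
      · obtain ⟨s', rfl⟩ : ∃ s', s = s' + 1 := ⟨s - 1, by omega⟩
        have hAimg : A.image π = A := by
          apply Finset.eq_of_subset_of_card_le
          · intro i hi
            obtain ⟨j, hj, rfl⟩ := Finset.mem_image.mp hi
            exact hAinv j hj
          · rw [Finset.card_image_of_injective _ hinj]
        have hS'card : (S \ A).card = a * s' := by
          rw [Finset.card_sdiff_of_subset hAS, hcard, hAcard]
          rw [Nat.mul_succ]
          omega
        have hS'inv : ∀ i ∈ S \ A, π i ∈ S \ A := by
          intro i hi
          obtain ⟨h1, h2⟩ := Finset.mem_sdiff.mp hi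
          refine Finset.mem_sdiff.mpr ⟨hinv i h1, fun h => h2 ?_⟩
          have := hAinv _ h
          rwa [hπ] at this
        obtain ⟨B', c1, c2, c3, c4, c5⟩ := ih s' (by omega) (S \ A) hS'card hS'inv
        refine ⟨Fin.cons A B', ?_, ?_, ?_, ?_, ?_⟩
        · refine Fin.cases ?_ ?_
          · exact hAcard
          · intro k
            rw [Fin.cons_succ]
            exact c1 k
        · refine Fin.cases ?_ ?_
          · exact hAS
          · intro k
            rw [Fin.cons_succ]
            exact (c2 k).trans Finset.sdiff_subset
        · refine Fin.cases ?_ ?_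
          · refine Fin.cases ?_ ?_
            · intro h
              exact absurd rfl h
            · intro l _
              rw [Fin.cons_zero, Fin.cons_succ]
              exact Finset.disjoint_of_subset_right (c2 l) Finset.disjoint_sdiff
          · intro k
            refine Fin.cases ?_ ?_
            · intro _
              rw [Fin.cons_zero, Fin.cons_succ]
              exact (Finset.disjoint_of_subset_right (c2 k) Finset.disjoint_sdiff).symm
            · intro l hkl
              rw [Fin.cons_succ, Fin.cons_succ]
              exact c3 k l (fun h => hkl (by rw [h]))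
        · intro i hi
          by_cases hiA : i ∈ A
          · exact ⟨0, hiA⟩
          · obtain ⟨k, hk⟩ := c4 i (Finset.mem_sdiff.mpr ⟨hi, hiA⟩)
            exact ⟨k.succ, by rw [Fin.cons_succ]; exact hk⟩
        · refine Fin.cases ?_ ?_
          · exact ⟨0, hAimg⟩
          · intro k
            obtain ⟨l, hl⟩ := c5 k
            exact ⟨l.succ, by rw [Fin.cons_succ, Fin.cons_succ]; exact hl⟩
      · obtain ⟨s', rfl⟩ : ∃ s', s = s' + 2 := ⟨s - 2, by omega⟩
        have hAA : (A.image π).image π = A := by
          rw [Finset.image_image]
          have : π ∘ π = id := funext hπ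
          rw [this, Finset.image_id]
        have hUS : A ∪ A.image π ⊆ S := Finset.union_subset hAS hAimgS
        have hS'card : (S \ (A ∪ A.image π)).card = a * s' := by
          rw [Finset.card_sdiff_of_subset hUS, hcard, Finset.card_union_of_disjoint hAdisj,
            Finset.card_image_of_injective _ hinj, hAcard]
          rw [Nat.mul_succ, Nat.mul_succ]
          omega
        have hS'inv : ∀ i ∈ S \ (A ∪ A.image π), π i ∈ S \ (A ∪ A.image π) := by
          intro i hi
          obtain ⟨h1, h2⟩ := Finset.mem_sdiff.mp hi
          refine Finset.mem_sdiff.mpr ⟨hinv i h1, fun h => h2 ?_⟩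
          rcases Finset.mem_union.mp h with h | h
          · refine Finset.mem_union_right _ ?_
            have := Finset.mem_image_of_mem π h
            rwa [hπ] at this
          · obtain ⟨j, hj, hji⟩ := Finset.mem_image.mp h
            rw [← hinj hji]
            exact Finset.mem_union_left _ hj
        obtain ⟨B', c1, c2, c3, c4, c5⟩ := ih s' (by omega) _ hS'card hS'inv
        have hdA : ∀ k, Disjoint A (B' k) := fun k =>
          Finset.disjoint_of_subset_left Finset.subset_union_left
            (Finset.disjoint_of_subset_right (c2 k) Finset.disjoint_sdiff)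
        have hdA' : ∀ k, Disjoint (A.image π) (B' k) := fun k =>
          Finset.disjoint_of_subset_left Finset.subset_union_right
            (Finset.disjoint_of_subset_right (c2 k) Finset.disjoint_sdiff)
        refine ⟨Fin.cons A (Fin.cons (A.image π) B'), ?_, ?_, ?_, ?_, ?_⟩
        · refine Fin.cases ?_ (Fin.cases ?_ ?_)
          · exact hAcard
          · rw [Fin.cons_succ, Fin.cons_zero, Finset.card_image_of_injective _ hinj]
            exact hAcard
          · intro k
            rw [Fin.cons_succ, Fin.cons_succ]
            exact c1 k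
        · refine Fin.cases ?_ (Fin.cases ?_ ?_)
          · exact hAS
          · rw [Fin.cons_succ, Fin.cons_zero]
            exact hAimgS
          · intro k
            rw [Fin.cons_succ, Fin.cons_succ]
            exact (c2 k).trans Finset.sdiff_subset
        · refine Fin.cases ?_ (Fin.cases ?_ ?_)
          · refine Fin.cases ?_ (Fin.cases ?_ ?_)
            · intro h
              exact absurd rfl h
            · intro _
              rw [Fin.cons_zero, Fin.cons_succ, Fin.cons_zero]
              exact hAdisj
            · intro l _
              rw [Fin.cons_zero, Fin.cons_succ, Fin.cons_succ]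
              exact hdA l
          · refine Fin.cases ?_ (Fin.cases ?_ ?_)
            · intro _
              rw [Fin.cons_zero, Fin.cons_succ, Fin.cons_zero]
              exact hAdisj.symm
            · intro h
              exact absurd rfl h
            · intro l _
              rw [Fin.cons_succ, Fin.cons_zero, Fin.cons_succ, Fin.cons_succ]
              exact hdA' l
          · intro k
            refine Fin.cases ?_ (Fin.cases ?_ ?_)
            · intro _
              rw [Fin.cons_succ, Fin.cons_succ, Fin.cons_zero]
              exact (hdA k).symm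
            · intro _
              rw [Fin.cons_succ, Fin.cons_succ, Fin.cons_succ, Fin.cons_zero]
              exact (hdA' k).symm
            · intro l hkl
              rw [Fin.cons_succ, Fin.cons_succ, Fin.cons_succ, Fin.cons_succ]
              exact c3 k l (fun h => hkl (by rw [h]))
        · intro i hi
          by_cases hiA : i ∈ A
          · exact ⟨0, hiA⟩
          · by_cases hiA' : i ∈ A.image π
            · exact ⟨1, hiA'⟩
            · obtain ⟨k, hk⟩ := c4 i (Finset.mem_sdiff.mpr ⟨hi, fun h => by
                rcases Finset.mem_union.mp h with h | h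
                · exact hiA h
                · exact hiA' h⟩)
              exact ⟨k.succ.succ, by rw [Fin.cons_succ, Fin.cons_succ]; exact hk⟩
        · refine Fin.cases ?_ (Fin.cases ?_ ?_)
          · exact ⟨1, rfl⟩
          · exact ⟨0, by rw [Fin.cons_succ, Fin.cons_zero, Fin.cons_zero]; exact hAA⟩
          · intro k
            obtain ⟨l, hl⟩ := c5 k
            exact ⟨l.succ.succ, by
              rw [Fin.cons_succ, Fin.cons_succ, Fin.cons_succ, Fin.cons_succ]; exact hl⟩

end Cfsg.Agent.Lib.Helper37.EquiPart
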