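import Mathlib

set_option autoImplicit false

namespace Cfsg.Agent.Lib.Helper37.MonoBasis

open Module

variable {F V : Type*} [Field F] [AddCommGroup V] [Module F V]

/-- A linear map whose square is a non-zero scalar is monomial in a suitable basis: it permutes
the basis vectors up to scalars, through an involution of the index set. -/
theorem exists_mono [FiniteDimensional F V] (x : V →ₗ[F] V) {z : F}
    (hxx : ∀ v, x (x v) = z • v) :
    ∀ (n : ℕ) (Y : Submodule F V), finrank F Y = n → (∀ y ∈ Y, x y ∈ Y) →
      ∃ (I : Type) (_ : Fintype I) (b : I → V) (π : I → I) (μ : I → F),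
        LinearIndependent F b ∧ Submodule.span F (Set.range b) = Y ∧ (∀ i, π (π i) = i) ∧
        (∀ i, x (b i) = μ i • b (π i)) := by
  intro n
  induction n using Nat.strong_induction_on with
  | _ n ih =>
    intro Y hn hY
    by_cases hcase : ∀ v ∈ Y, ∃ c : F, x v = c • v
    · -- every vector is an eigenvector
      choose! c hc using hcase
      refine ⟨Fin (finrank F Y), inferInstance, fun i => ((Module.finBasis F Y i : Y) : V), id,
        fun i => c ((Module.finBasis F Y i : Y) : V), ?_, ?_, fun i => rfl, ?_⟩
      · exact (Module.finBasis F Y).linearIndependent.map' Y.subtype (Submodule.ker_subtype Y)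
      · have h1 : Set.range (fun i => ((Module.finBasis F Y i : Y) : V)) =
            Y.subtype '' Set.range (Module.finBasis F Y) := by
          rw [← Set.range_comp]
          rfl
        rw [h1, Submodule.span_image, (Module.finBasis F Y).span_eq, Submodule.map_subtype_top]
      · intro i
        exact hc _ (Module.finBasis F Y i).2
    · push Not at hcase
      obtain ⟨v, hvY, hv⟩ := hcase
      have hnot : x v ∉ Submodule.span F {v} := by
        intro h
        obtain ⟨c, hc⟩ := Submodule.mem_span_singleton.mp h
        exact hv c hc.symm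
      obtain ⟨f₀, hf₀, hf₀'⟩ := Submodule.exists_dual_map_eq_bot_of_notMem hnot inferInstance
      have hf₀v : f₀ v = 0 := by
        have : f₀ v ∈ Submodule.map f₀ (Submodule.span F {v}) :=
          Submodule.mem_map_of_mem (Submodule.mem_span_singleton_self v)
        rw [hf₀'] at this
        exact (Submodule.mem_bot F).mp this
      obtain ⟨φ, hφv, hφx⟩ : ∃ φ : V →ₗ[F] F, φ v = 0 ∧ φ (x v) = 1 := by
        refine ⟨(f₀ (x v))⁻¹ • f₀, ?_, ?_⟩
        · rw [LinearMap.smul_apply, hf₀v, smul_zero]
        · rw [LinearMap.smul_apply, smul_eq_mul, inv_mul_cancel₀ hf₀]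
      obtain ⟨Y', hY'⟩ : ∃ Y' : Submodule F V, Y' = Y ⊓ (LinearMap.ker φ ⊓ LinearMap.ker (φ ∘ₗ x)) :=
        ⟨_, rfl⟩
      have hmem : ∀ w, w ∈ Y' ↔ w ∈ Y ∧ φ w = 0 ∧ φ (x w) = 0 := by
        intro w
        rw [hY', Submodule.mem_inf, Submodule.mem_inf, LinearMap.mem_ker, LinearMap.mem_ker,
          LinearMap.comp_apply]
      have hxvY : x v ∈ Y := hY v hvY
      have hY'inv : ∀ y ∈ Y', x y ∈ Y' := by
        intro y hy
        obtain ⟨h1, h2, h3⟩ := (hmem y).mp hy
        rw [hmem]
        refine ⟨hY y h1, h3, ?_⟩
        rw [hxx, map_smul, h2, smul_zero]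
      have hlt : finrank F Y' < finrank F Y := by
        apply Submodule.finrank_lt_finrank_of_lt
        rw [SetLike.lt_iff_le_and_exists]
        refine ⟨fun w hw => ((hmem w).mp hw).1, v, hvY, fun h => ?_⟩
        have := ((hmem v).mp h).2.2
        rw [hφx] at this
        exact one_ne_zero this
      obtain ⟨I', hI', b', π', μ', hli', hspan', hπ', hxb'⟩ :=
        ih _ (by rw [← hn]; exact hlt) Y' rfl hY'inv
      have hpair : LinearIndependent F ![v, x v] := by
        rw [LinearIndependent.pair_iff]
        intro s t hst
        have e1 := congrArg φ hst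
        have e2 := congrArg (fun w => φ (x w)) hst
        simp only [map_add, map_smul, hφv, hφx, hxx, smul_eq_mul, mul_zero, mul_one, zero_add,
          add_zero, map_zero] at e1 e2
        exact ⟨e2, e1⟩
      have hspan2 : Submodule.span F (Set.range ![v, x v]) = Submodule.span F {v, x v} := by
        rw [Matrix.range_cons_cons_empty]
      have hdisj : Disjoint (Submodule.span F (Set.range b'))
          (Submodule.span F (Set.range ![v, x v])) := by
        rw [hspan', hspan2, Submodule.disjoint_def]
        intro w hw1 hw2
        obtain ⟨s, t, rfl⟩ := Submodule.mem_span_pair.mp hw2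
        obtain ⟨-, h2, h3⟩ := (hmem _).mp hw1
        simp only [map_add, map_smul, hφv, hφx, hxx, smul_eq_mul, mul_zero, mul_one, zero_add,
          add_zero] at h2 h3
        rw [h2, h3, zero_smul, zero_smul, add_zero]
      refine ⟨I' ⊕ Fin 2, inferInstance, Sum.elim b' ![v, x v],
        Sum.map π' (Equiv.swap (0 : Fin 2) 1), Sum.elim μ' ![1, z],
        hli'.sum_type hpair hdisj, ?_, ?_, ?_⟩
      · rw [Set.Sum.elim_range, Submodule.span_union, hspan', hspan2]
        apply le_antisymm
        · refine sup_le (fun w hw => ((hmem w).mp hw).1) ?_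
          rw [Submodule.span_le]
          intro w hw
          rcases hw with rfl | rfl
          · exact hvY
          · exact hxvY
        · intro w hw
          have hw' : w - (φ (x w) • v + φ w • x v) ∈ Y' := by
            rw [hmem]
            refine ⟨Y.sub_mem hw (Y.add_mem (Y.smul_mem _ hvY) (Y.smul_mem _ hxvY)), ?_, ?_⟩
            · simp only [map_sub, map_add, map_smul, hφv, hφx, smul_eq_mul, mul_zero, mul_one,
                zero_add, sub_self]
            · simp only [map_sub, map_add, map_smul, hφv, hφx, hxx, smul_eq_mul, mul_zero,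
                mul_one, add_zero, sub_self]
          have e : w = (w - (φ (x w) • v + φ w • x v)) + (φ (x w) • v + φ w • x v) := by abel
          rw [e]
          exact Submodule.add_mem _ (Submodule.mem_sup_left hw')
            (Submodule.mem_sup_right (Submodule.mem_span_pair.mpr ⟨_, _, rfl⟩))
      · rintro (i | j)
        · simp [hπ']
        · fin_cases j <;> simp
      · rintro (i | j)
        · simp [hxb']
        · fin_cases j
          · simp
          · simp [hxx]

end Cfsg.Agent.Lib.Helper37.MonoBasis
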