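import Mathlib
import Cfsg.Agent.Lib.Helper37.MonoBasis
import Cfsg.Agent.Lib.Helper37.EquiPart

set_option autoImplicit false

namespace Cfsg.Agent.Lib.Helper37.InvolDecomp

open Module

variable {F V : Type*} [Field F] [AddCommGroup V] [Module F V]

/-- A linear map whose square is a non-zero scalar permutes the members of a decomposition of the
space into `t` subspaces of dimension `a`, whenever the dimension is `a * t`. -/
theorem exists_decomp [FiniteDimensional F V] (x : V →ₗ[F] V) {z : F} (hz : z ≠ 0)
    (hxx : ∀ v, x (x v) = z • v) (a t : ℕ) (ha : 1 ≤ a) (hn : finrank F V = a * t) :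
    ∃ D : Fin t → Submodule F V, (∀ k, finrank F (D k) = a) ∧ iSupIndep D ∧ iSup D = ⊤ ∧
      ∃ σ : Equiv.Perm (Fin t), ∀ k, (D k).map x = D (σ k) := by
  classical
  obtain ⟨I, hI, b, π, μ, hli, hspan, hπ, hxb⟩ :=
    Cfsg.Agent.Lib.Helper37.MonoBasis.exists_mono x hxx _ ⊤ rfl (fun _ _ => trivial)
  have hcard : Fintype.card I = a * t := by
    have h1 := finrank_span_eq_card hli
    rw [hspan, finrank_top] at h1
    rw [← h1, hn]
  let _ : LinearOrder I := LinearOrder.lift' (Fintype.equivFin I) (Fintype.equivFin I).injective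
  obtain ⟨B, hBcard, -, hBdisj, hBcover, hBimg⟩ :=
    Cfsg.Agent.Lib.Helper37.EquiPart.exists_blocks π hπ a t Finset.univ
      (by rw [Finset.card_univ, hcard]) (fun i _ => Finset.mem_univ _)
  have hxinj : Function.Injective x := by
    intro u v h
    have h1 := congrArg x h
    rw [hxx, hxx] at h1
    exact smul_right_injective V hz h1
  obtain ⟨D, hD⟩ : ∃ D : Fin t → Submodule F V,
      D = fun k => Submodule.span F (b '' (B k : Set I)) := ⟨_, rfl⟩
  have hDk : ∀ k, D k = Submodule.span F (b '' (B k : Set I)) := fun k => by rw [hD]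
  have hfin : ∀ k, finrank F (D k) = a := by
    intro k
    have h1 := finrank_span_eq_card
      (hli.comp (Subtype.val : {i // i ∈ B k} → I) Subtype.val_injective)
    have h2 : Set.range (b ∘ (Subtype.val : {i // i ∈ B k} → I)) = b '' (B k : Set I) := by
      rw [Set.range_comp, Subtype.range_coe_subtype]
      rfl
    rw [h2] at h1
    rw [hDk, h1, Fintype.card_coe]
    exact hBcard k
  choose f hf using hBimg
  have hfinj : Function.Injective f := by
    intro k l hkl
    by_contra hne
    have h1 : (B k).image π = (B l).image π := by rw [hf, hf, hkl]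
    have hπinj : Function.Injective π := fun i j h => by
      have := congrArg π h
      rwa [hπ, hπ] at this
    have h2 : B k = B l := Finset.image_injective hπinj h1
    have h3 := hBdisj k l hne
    rw [h2, Finset.disjoint_self_iff_empty] at h3
    have h4 := hBcard l
    rw [h3, Finset.card_empty] at h4
    omega
  refine ⟨D, hfin, ?_, ?_, Equiv.ofBijective f (Finite.injective_iff_bijective.mp hfinj), ?_⟩
  · intro k
    have h1 : (⨆ (j) (_ : j ≠ k), D j) ≤
        Submodule.span F (b '' (⋃ (j) (_ : j ≠ k), (B j : Set I))) := by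
      refine iSup₂_le fun j hj => ?_
      rw [hDk]
      apply Submodule.span_mono
      apply Set.image_mono
      intro i hi
      exact Set.mem_iUnion₂.mpr ⟨j, hj, hi⟩
    have h2 : Disjoint (B k : Set I) (⋃ (j) (_ : j ≠ k), (B j : Set I)) := by
      rw [Set.disjoint_left]
      intro i hi hi'
      obtain ⟨j, hj, hij⟩ := Set.mem_iUnion₂.mp hi'
      exact Finset.disjoint_left.mp (hBdisj k j (Ne.symm hj)) hi hij
    rw [hDk]
    exact (hli.disjoint_span_image h2).mono_right h1
  · rw [eq_top_iff, ← hspan, Submodule.span_le]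
    rintro _ ⟨i, rfl⟩
    obtain ⟨k, hk⟩ := hBcover i (Finset.mem_univ i)
    apply Submodule.mem_iSup_of_mem k
    rw [hDk]
    exact Submodule.subset_span ⟨i, hk, rfl⟩
  · intro k
    have hle : (D k).map x ≤ D (f k) := by
      rw [hDk, hDk, Submodule.map_span, Submodule.span_le]
      rintro _ ⟨_, ⟨i, hi, rfl⟩, rfl⟩
      rw [hxb]
      refine Submodule.smul_mem _ _ (Submodule.subset_span ⟨π i, ?_, rfl⟩)
      have : π i ∈ (B k).image π := Finset.mem_image_of_mem π hi
      rw [hf] at this
      exact this
    have hfr : finrank F ((D k).map x) = finrank F (D k) :=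
      (Submodule.equivMapOfInjective x hxinj (D k)).finrank_eq.symm
    exact Submodule.eq_of_le_of_finrank_le hle (by rw [hfr, hfin, hfin])

end Cfsg.Agent.Lib.Helper37.InvolDecomp
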