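import Mathlib
import Cfsg.Prelude.Def_GeometricClasses

/-!
# S5979 (elements of prime order of PSL_n(q) and the tensor product subgroups
`GL_a(q) ⊗ GL_b(q)`, `n = a b`, `2 ≤ a < b`): statements of the pieces (helper37).

An element of the tensor product subgroup is a conjugate of a Kronecker product `A ⊗ₖ B`.
Key facts: if `A` is not scalar then `rank (A ⊗ₖ B - μ) ≥ b` for all `μ`; and
`rank (1 ⊗ₖ M) = a * rank M`.
-/

set_option autoImplicit false

namespace Cfsg.Agent.Lib.Helper37.TenStmt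

open scoped Kronecker

universe u

/-- `x` is a `GL`-conjugate of the reindexing (along `e`) of a Kronecker product of invertible
matrices -/
def IsTensorConj {F : Type u} [Field F] {n : ℕ} (a b : ℕ) (e : Fin n ≃ Fin a × Fin b)
    (x : Matrix (Fin n) (Fin n) F) : Prop :=
  ∃ (S : Matrix.GeneralLinearGroup (Fin n) F) (A : Matrix.GeneralLinearGroup (Fin a) F)
    (B : Matrix.GeneralLinearGroup (Fin b) F),
    x = (S : Matrix (Fin n) (Fin n) F) *
      Matrix.reindex e.symm e.symm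
        ((A : Matrix (Fin a) (Fin a) F) ⊗ₖ (B : Matrix (Fin b) (Fin b) F)) *
      ((S⁻¹ : Matrix.GeneralLinearGroup (Fin n) F) : Matrix (Fin n) (Fin n) F)

/-! ### the pieces -/

/-- [TMEM1] an element with a conjugate in the tensor product subgroup is a conjugate of a
Kronecker product. -/
def TMem1 : Prop :=
  ∀ (F : Type u) [Field F] (n a b : ℕ) (e : Fin n ≃ Fin a × Fin b)
    (P x g : Matrix.GeneralLinearGroup (Fin n) F),
    g⁻¹ * x * g ∈ Cfsg.Geo.tensorProductSubgroup a b e P →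
    IsTensorConj a b e (x : Matrix (Fin n) (Fin n) F)

/-- [TMEM2] a conjugate of a Kronecker product has a conjugate in the tensor product
subgroup. -/
def TMem2 : Prop :=
  ∀ (F : Type u) [Field F] (n a b : ℕ) (e : Fin n ≃ Fin a × Fin b)
    (P x : Matrix.GeneralLinearGroup (Fin n) F),
    IsTensorConj a b e (x : Matrix (Fin n) (Fin n) F) →
    ∃ Q : Matrix.GeneralLinearGroup (Fin n) F,
      Q * x * Q⁻¹ ∈ Cfsg.Geo.tensorProductSubgroup a b e P

/-- [KRANK] if `A` is not scalar and `B` is invertible then `rank (A ⊗ₖ B - μ) ≥ b`. -/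
def KRank : Prop :=
  ∀ (F : Type u) [Field F] (a b : ℕ) (A : Matrix (Fin a) (Fin a) F)
    (B : Matrix (Fin b) (Fin b) F), B.det ≠ 0 →
    (∀ α : F, A ≠ α • (1 : Matrix (Fin a) (Fin a) F)) →
    ∀ μ : F, b ≤ (A ⊗ₖ B - μ • (1 : Matrix (Fin a × Fin b) (Fin a × Fin b) F)).rank

/-- [KRANKS] `rank (1 ⊗ₖ M) = a * rank M`. -/
def KRankS : Prop :=
  ∀ (F : Type u) [Field F] (a b : ℕ) (M : Matrix (Fin b) (Fin b) F),
    ((1 : Matrix (Fin a) (Fin a) F) ⊗ₖ M).rank = a * M.rank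

/-- [KSCAL] if `A ⊗ₖ B = 1` then `A` and `B` are (inverse) scalars. -/
def KScal : Prop :=
  ∀ (F : Type u) [Field F] (a b : ℕ), 1 ≤ a → 1 ≤ b →
    ∀ (A : Matrix (Fin a) (Fin a) F) (B : Matrix (Fin b) (Fin b) F), A ⊗ₖ B = 1 →
    ∃ w : F, w ≠ 0 ∧ A = w • (1 : Matrix (Fin a) (Fin a) F) ∧
      B = w⁻¹ • (1 : Matrix (Fin b) (Fin b) F)

/-- [TRANSV] a transvection: determinant `1`, order `p`, `rank (x - 1) = 1`. -/
def Transv : Prop :=
  ∀ (F : Type u) [Field F] (p : ℕ) [Fact p.Prime] [CharP F p] (n : ℕ), 2 ≤ n →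
    ∃ x : Matrix (Fin n) (Fin n) F, x.det = 1 ∧ x ^ p = 1 ∧ (x - 1).rank = 1

/-- [NEG2] odd characteristic: an involution of determinant `1` with `rank (x - 1) = 2`. -/
def Neg2 : Prop :=
  ∀ (F : Type u) [Field F], (2 : F) ≠ 0 → ∀ n : ℕ, 2 ≤ n →
    ∃ x : Matrix (Fin n) (Fin n) F, x.det = 1 ∧ x ^ 2 = 1 ∧ (x - 1).rank = 2

/-- [NEG1] `q` odd, `(n)_2 < (q - 1)_2`: some `x` of determinant `1` with `x ^ 2 = d ^ 2` and
`rank (x - d) = 1` (`x = d • diag(-1, 1, ..., 1)` with `d ^ n = -1`). -/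
def Neg1 : Prop :=
  ∀ (F : Type u) [Field F] [Fintype F], (2 : F) ≠ 0 → ∀ n : ℕ, 1 ≤ n →
    padicValNat 2 n < padicValNat 2 (Fintype.card F - 1) →
    ∃ (d : F) (x : Matrix (Fin n) (Fin n) F), x.det = 1 ∧
      x ^ 2 = (d ^ 2) • (1 : Matrix (Fin n) (Fin n) F) ∧
      (x - d • (1 : Matrix (Fin n) (Fin n) F)).rank = 1

/-- [DIAG2] `r` odd, `r ∣ q - 1`: `x = diag(λ, λ⁻¹, 1, ..., 1)` with `λ` of order `r`. -/
def Diag2 : Prop :=
  ∀ (F : Type u) [Field F] [Fintype F] (r : ℕ), r.Prime → r ≠ 2 → r ∣ Fintype.card F - 1 →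
    ∀ n : ℕ, 2 ≤ n →
    ∃ (lam : F) (x : Matrix (Fin n) (Fin n) F), x.det = 1 ∧ x ^ r = 1 ∧
      (x - 1).rank = 2 ∧ (x - lam • (1 : Matrix (Fin n) (Fin n) F)).rank = n - 1

/-- [BLKTEN] `c = orderOf (q : ZMod r) ≥ 2`: an element of order `r` with a single
non-trivial block (`dim ker (x - 1) + c = n`) is not a conjugate of a Kronecker product
(`2 ≤ a < b`). -/
def BlkTen : Prop :=
  ∀ (F : Type u) [Field F] [Fintype F] (p : ℕ) [Fact p.Prime] [CharP F p] (r : ℕ)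
    [Fact r.Prime], r ≠ p → 2 ≤ orderOf ((Fintype.card F : ℕ) : ZMod r) →
    ∀ (n a b : ℕ) (e : Fin n ≃ Fin a × Fin b), 2 ≤ a → a < b →
    ∀ x : Matrix (Fin n) (Fin n) F, x ^ r = 1 →
      Module.finrank F (LinearMap.ker (Matrix.toLin' x - 1)) +
        orderOf ((Fintype.card F : ℕ) : ZMod r) = n →
      ¬ IsTensorConj a b e x

/-- [PARITY] `q` odd, `(q - 1)_2 ≤ (n)_2`: `-1` is not an `n`-th power. -/
def Parity : Prop :=
  ∀ (F : Type u) [Field F] [Fintype F], (2 : F) ≠ 0 → ∀ n : ℕ, 1 ≤ n →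
    padicValNat 2 (Fintype.card F - 1) ≤ padicValNat 2 n → ∀ d : F, d ^ n ≠ -1

/-- [BSQ] odd characteristic: an involution of determinant `1` is a conjugate of
`1 ⊗ₖ diag(±1)` (`a = 2`). -/
def BSq : Prop :=
  ∀ (F : Type u) [Field F], (2 : F) ≠ 0 → ∀ (n b : ℕ) (e : Fin n ≃ Fin 2 × Fin b)
    (y : Matrix (Fin n) (Fin n) F), y * y = 1 → y.det = 1 → IsTensorConj 2 b e y

/-- [BNSQ] `x ^ 2 = z`, `z` a non-square: `x` is a conjugate of `!![0, z; 1, 0] ⊗ₖ 1`. -/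
def BNSq : Prop :=
  ∀ (F : Type u) [Field F] [Fintype F] (p : ℕ) [Fact p.Prime] [CharP F p], p ≠ 2 →
    ∀ (n b : ℕ) (e : Fin n ≃ Fin 2 × Fin b) (x : Matrix (Fin n) (Fin n) F) (z : F),
      (∀ d : F, d ^ 2 ≠ z) → x ^ 2 = z • (1 : Matrix (Fin n) (Fin n) F) →
      IsTensorConj 2 b e x

end Cfsg.Agent.Lib.Helper37.TenStmt
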