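import Mathlib

set_option autoImplicit false

namespace Cfsg.Agent.Lib.Helper37.NonsqPow

variable {F : Type*} [Field F] [Fintype F]

theorem ringChar_ne_two (h2 : (2 : F) ≠ 0) : ringChar F ≠ 2 := by
  intro h
  apply h2
  have := CharP.cast_eq_zero F (ringChar F)
  rw [h] at this
  exact_mod_cast this

/-- A non-square whose `N`-th power is 1 forces the 2-part of `q - 1` to divide `N`. -/
theorem padic_le_of_nonsq_pow (h2 : (2 : F) ≠ 0) (w : F) (hw : ¬ IsSquare w) (N : ℕ)
    (hN : N ≠ 0) (hpow : w ^ N = 1) :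
    padicValNat 2 (Fintype.card F - 1) ≤ padicValNat 2 N := by
  by_contra hlt
  push Not at hlt
  have hchar := ringChar_ne_two h2
  have hw0 : w ≠ 0 := by
    rintro rfl
    exact hw ⟨0, by simp⟩
  have hE : w ^ (Fintype.card F / 2) = -1 := by
    rcases FiniteField.pow_dichotomy hchar hw0 with h | h
    · exact absurd ((FiniteField.isSquare_iff hchar hw0).mpr h) hw
    · exact h
  have hodd := FiniteField.odd_card_of_char_ne_two hchar
  obtain ⟨G, hG⟩ : ∃ G : ℕ, G = Nat.gcd N (Fintype.card F - 1) := ⟨_, rfl⟩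
  have hg : w ^ G = 1 := by
    rw [hG]
    exact pow_gcd_eq_one.mpr ⟨hpow, FiniteField.pow_card_sub_one_eq_one w hw0⟩
  obtain ⟨h, hh⟩ : G ∣ Fintype.card F - 1 := hG ▸ Nat.gcd_dvd_right _ _
  have hGN : G ∣ N := hG ▸ Nat.gcd_dvd_left _ _
  have hq1 : Fintype.card F - 1 ≠ 0 := by
    have := Fintype.one_lt_card (α := F)
    omega
  have hg0 : G ≠ 0 := by
    intro h0
    rw [h0, zero_mul] at hh
    exact hq1 hh
  have hh0 : h ≠ 0 := by
    rintro rfl
    rw [mul_zero] at hh
    exact hq1 hh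
  by_cases hh2 : 2 ∣ h
  · obtain ⟨h', rfl⟩ := hh2
    have h3 : Fintype.card F / 2 = G * h' := by
      have : Fintype.card F - 1 = 2 * (G * h') := by
        rw [hh]; ring
      omega
    rw [h3, pow_mul, hg, one_pow] at hE
    apply h2
    linear_combination hE
  · have h3 : padicValNat 2 (Fintype.card F - 1) = padicValNat 2 G := by
      rw [hh, padicValNat.mul hg0 hh0, padicValNat.eq_zero_of_not_dvd hh2, add_zero]
    have h4 : padicValNat 2 G ≤ padicValNat 2 N := by
      rw [← padicValNat_dvd_iff_le hN]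
      exact dvd_trans pow_padicValNat_dvd hGN
    omega

/-- If the 2-part of `q - 1` divides `N`, some non-square has `N`-th power 1. -/
theorem exists_nonsq_pow (h2 : (2 : F) ≠ 0) (N : ℕ) (hN : N ≠ 0)
    (h : padicValNat 2 (Fintype.card F - 1) ≤ padicValNat 2 N) :
    ∃ w : F, ¬ IsSquare w ∧ w ^ N = 1 := by
  classical
  have hchar := ringChar_ne_two h2
  have hodd := FiniteField.odd_card_of_char_ne_two hchar
  have hq1 : Fintype.card F - 1 ≠ 0 := by
    have := Fintype.one_lt_card (α := F)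
    omega
  obtain ⟨a, m, hm, ham⟩ := Nat.exists_eq_two_pow_mul_odd hq1
  have hmd : ¬ (2 ∣ m) := fun h2 => (Nat.not_even_iff_odd.mpr hm) (even_iff_two_dvd.mpr h2)
  have hm0 : m ≠ 0 := fun h0 => hmd (h0 ▸ dvd_zero 2)
  have ha : padicValNat 2 (Fintype.card F - 1) = a := by
    rw [ham, padicValNat.mul (pow_ne_zero _ (by norm_num)) hm0, padicValNat.prime_pow,
      padicValNat.eq_zero_of_not_dvd hmd, add_zero]
  rw [ha] at h
  obtain ⟨N', hN'⟩ : 2 ^ a ∣ N := (padicValNat_dvd_iff_le hN).mpr h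
  obtain ⟨g, hg⟩ := IsCyclic.exists_generator (α := Fˣ)
  have hord : orderOf g = Fintype.card F - 1 := by
    rw [orderOf_eq_card_of_forall_mem_zpowers hg, Nat.card_eq_fintype_card, Fintype.card_units]
  refine ⟨((g ^ m : Fˣ) : F), ?_, ?_⟩
  · intro hsq
    have h1 := (FiniteField.isSquare_iff hchar (Units.ne_zero _)).mp hsq
    rw [← Units.val_pow_eq_pow_val, ← pow_mul] at h1
    have h3 : g ^ (m * (Fintype.card F / 2)) = 1 := Units.ext h1
    have h4 := orderOf_dvd_of_pow_eq_one h3
    rw [hord] at h4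
    obtain ⟨r, hr⟩ := h4
    have h5 : Fintype.card F - 1 = 2 * (Fintype.card F / 2) := by omega
    rw [h5] at hr
    have h6 : 0 < Fintype.card F / 2 := by
      have := Fintype.one_lt_card (α := F)
      omega
    have h7 : m = 2 * r := by
      have : (Fintype.card F / 2) * m = (Fintype.card F / 2) * (2 * r) := by
        rw [mul_comm, hr]; ring
      exact Nat.eq_of_mul_eq_mul_left h6 this
    exact hmd ⟨r, h7⟩
  · rw [← Units.val_pow_eq_pow_val, ← pow_mul]
    have h1 : m * N = orderOf g * N' := by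
      rw [hord, ham, hN']
      ring
    rw [h1, pow_mul, pow_orderOf_eq_one, one_pow, Units.val_one]

end Cfsg.Agent.Lib.Helper37.NonsqPow
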