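import Mathlib
import Cfsg.Agent.Lib.Helper95.NilJordan

set_option autoImplicit false

open scoped MatrixGroups

namespace Cfsg.Agent.Lib.Helper37.CubeUnip

open Module Cfsg.Agent.Lib.Helper95.NilJordan

variable {F : Type*} [Field F]

theorem three_eq_zero [CharP F 3] : (3 : F) = 0 := by
  have := CharP.cast_eq_zero F 3
  exact_mod_cast this

theorem cube_inj [CharP F 3] {s t : F} (h : s ^ 3 = t ^ 3) : s = t := by
  have h3 : (3 : F) = 0 := three_eq_zero
  have h0 : (s - t) ^ 3 = 0 := by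
    linear_combination h + (-(s ^ 2 * t) + s * t ^ 2) * h3
  exact sub_eq_zero.mp ((pow_eq_zero_iff (by norm_num)).mp h0)

theorem cube_surj [CharP F 3] [Finite F] (z : F) : ∃ c : F, c ^ 3 = z := by
  have hinj : Function.Injective (fun c : F => c ^ 3) := fun s t h => cube_inj h
  exact (Finite.injective_iff_surjective.mp hinj) z

theorem cube_mem [CharP F 3] [Finite F] (F₀ : Subfield F) (s : F) (h : s ^ 3 ∈ F₀) :
    s ∈ F₀ := by
  have hinj : Function.Injective (fun c : F₀ => c ^ 3) := by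
    intro a b hab
    apply Subtype.ext
    apply cube_inj
    have := congrArg Subtype.val hab
    simpa using this
  obtain ⟨t, ht⟩ := (Finite.injective_iff_surjective.mp hinj) ⟨s ^ 3, h⟩
  have h1 : (t : F) ^ 3 = s ^ 3 := by
    have := congrArg Subtype.val ht
    simpa using this
  rw [← cube_inj h1]
  exact t.2

/-- A matrix with entries in a subfield and nonzero determinant comes from the general linear
group over the subfield. -/
theorem exists_gl_of_det {n : ℕ} (F₀ : Subfield F) (M : Matrix (Fin n) (Fin n) F)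
    (hM : ∀ i j, M i j ∈ F₀) (hdet : M.det ≠ 0) :
    ∃ g₀ : GL (Fin n) F₀,
      ((Matrix.GeneralLinearGroup.map (F₀.subtype : F₀ →+* F) g₀ : GL (Fin n) F) :
        Matrix (Fin n) (Fin n) F) = M := by
  obtain ⟨M₀, hM₀⟩ : ∃ M₀ : Matrix (Fin n) (Fin n) F₀, M₀.map (F₀.subtype : F₀ →+* F) = M :=
    ⟨Matrix.of (fun i j => (⟨M i j, hM i j⟩ : F₀)), by ext i j; rfl⟩
  have h1 : M₀.det ≠ 0 := by
    intro h0
    apply hdet
    rw [← hM₀, ← RingHom.mapMatrix_apply, ← RingHom.map_det, h0, map_zero]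
  refine ⟨Matrix.GeneralLinearGroup.mkOfDetNeZero M₀ h1, ?_⟩
  rw [← hM₀]
  rfl

/-- Determinant of a map that is diagonal in a basis. -/
theorem det_of_diag {V ι : Type*} [AddCommGroup V] [Module F V] [Fintype ι] [DecidableEq ι]
    (B : Basis ι F V) (c : ι → F) (L : V →ₗ[F] V) (hL : ∀ j, L (B j) = c j • B j) :
    LinearMap.det L = ∏ j, c j := by
  rw [← LinearMap.det_toMatrix B]
  have h : LinearMap.toMatrix B B L = Matrix.diagonal c := by
    ext i j
    rw [LinearMap.toMatrix_apply, hL, map_smul, Basis.repr_self, Finsupp.smul_apply,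
      Finsupp.single_apply, Matrix.diagonal_apply]
    by_cases h : i = j
    · subst h
      simp
    · rw [if_neg h, if_neg (Ne.symm h), smul_zero]
  rw [h, Matrix.det_diagonal]

/-- A nilpotent matrix is conjugate to a zero-one matrix. -/
theorem exists_zero_one_conj {n : ℕ} (N : Matrix (Fin n) (Fin n) F) {ι : Type*} [Fintype ι]
    {κ : ι → ℕ} {v : ι → (Fin n → F)} (hJ : IsJordan (Matrix.toLin' N) κ v) :
    ∃ (Q : GL (Fin n) F) (M : Matrix (Fin n) (Fin n) F),
      (∀ i j, M i j = 0 ∨ M i j = 1) ∧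
      (Q : Matrix (Fin n) (Fin n) F) * N = M * (Q : Matrix (Fin n) (Fin n) F) := by
  classical
  obtain ⟨Bj, hBj⟩ : ∃ Bj : Basis (Σ i, Fin (κ i)) F (Fin n → F),
      ∀ x, Bj x = (Matrix.toLin' N ^ (x.2 : ℕ)) (v x.1) :=
    ⟨Basis.mk hJ.li hJ.span, fun x => by rw [Basis.mk_apply]; rfl⟩
  have hcard : Fintype.card (Σ i, Fin (κ i)) = Fintype.card (Fin n) := by
    rw [← Module.finrank_eq_card_basis Bj, Module.finrank_fintype_fun_eq_card]
  obtain ⟨σ⟩ : Nonempty ((Σ i, Fin (κ i)) ≃ Fin n) := ⟨Fintype.equivOfCardEq hcard⟩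
  obtain ⟨qL, hqL⟩ : ∃ qL : (Fin n → F) ≃ₗ[F] (Fin n → F),
      ∀ x, qL (Bj x) = Pi.single (σ x) 1 :=
    ⟨Bj.equiv (Pi.basisFun F (Fin n)) σ, fun x => by
      rw [Basis.equiv_apply, Pi.basisFun_apply]⟩
  refine ⟨⟨LinearMap.toMatrix' (qL : (Fin n → F) →ₗ[F] (Fin n → F)),
      LinearMap.toMatrix' (qL.symm : (Fin n → F) →ₗ[F] (Fin n → F)),
      by rw [← LinearMap.toMatrix'_comp]; simp, by rw [← LinearMap.toMatrix'_comp]; simp⟩,
    LinearMap.toMatrix' ((qL : (Fin n → F) →ₗ[F] (Fin n → F)) ∘ₗ Matrix.toLin' N ∘ₗ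
      (qL.symm : (Fin n → F) →ₗ[F] (Fin n → F))), ?_, ?_⟩
  · intro i j
    rw [LinearMap.toMatrix'_apply, LinearMap.comp_apply, LinearMap.comp_apply]
    have h1 : qL.symm (Pi.single j 1) = Bj (σ.symm j) := by
      rw [LinearEquiv.symm_apply_eq, hqL, Equiv.apply_symm_apply]
    rw [LinearEquiv.coe_coe, LinearEquiv.coe_coe, h1, hBj]
    obtain ⟨y, hy⟩ : ∃ y, y = σ.symm j := ⟨_, rfl⟩
    rw [← hy]
    by_cases hlt : (y.2 : ℕ) + 1 < κ y.1
    · have h2 : Matrix.toLin' N ((Matrix.toLin' N ^ (y.2 : ℕ)) (v y.1)) =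
          Bj ⟨y.1, ⟨(y.2 : ℕ) + 1, hlt⟩⟩ := by
        rw [hBj, pow_succ']
        rfl
      rw [h2, hqL, Pi.single_apply]
      by_cases h : i = σ ⟨y.1, ⟨(y.2 : ℕ) + 1, hlt⟩⟩
      · right
        rw [if_pos h]
      · left
        rw [if_neg h]
    · have h2 : Matrix.toLin' N ((Matrix.toLin' N ^ (y.2 : ℕ)) (v y.1)) = 0 := by
        rw [← Module.End.mul_apply, ← pow_succ']
        exact hJ.pow_eq_zero y.1 _ (by have := y.2.2; omega)
      left
      rw [h2, map_zero]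
      rfl
  · show LinearMap.toMatrix' (qL : (Fin n → F) →ₗ[F] (Fin n → F)) * N =
      LinearMap.toMatrix' ((qL : (Fin n → F) →ₗ[F] (Fin n → F)) ∘ₗ Matrix.toLin' N ∘ₗ
        (qL.symm : (Fin n → F) →ₗ[F] (Fin n → F))) *
      LinearMap.toMatrix' (qL : (Fin n → F) →ₗ[F] (Fin n → F))
    have hN : N = LinearMap.toMatrix' (Matrix.toLin' N) := (LinearMap.toMatrix'_toLin' N).symm
    conv_lhs => rw [hN]
    rw [← LinearMap.toMatrix'_comp, ← LinearMap.toMatrix'_comp]
    apply congrArg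
    apply LinearMap.ext
    intro w
    simp

/-- Block scaling: a matrix commuting with a nilpotent matrix, with prescribed determinant
`a ^ κ i₀`. -/
theorem exists_comm_det_pow {n : ℕ} (N : Matrix (Fin n) (Fin n) F) {ι : Type*} [Fintype ι]
    {κ : ι → ℕ} {v : ι → (Fin n → F)} (hJ : IsJordan (Matrix.toLin' N) κ v) (i₀ : ι) (a : F) :
    ∃ C : Matrix (Fin n) (Fin n) F, C * N = N * C ∧ C.det = a ^ (κ i₀) := by
  classical
  obtain ⟨Bj, hBj⟩ : ∃ Bj : Basis (Σ i, Fin (κ i)) F (Fin n → F),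
      ∀ x, Bj x = (Matrix.toLin' N ^ (x.2 : ℕ)) (v x.1) :=
    ⟨Basis.mk hJ.li hJ.span, fun x => by rw [Basis.mk_apply]; rfl⟩
  obtain ⟨ε, hε⟩ : ∃ ε : ι → F, ε = fun i => if i = i₀ then a else 1 := ⟨_, rfl⟩
  obtain ⟨CL, hCL⟩ : ∃ CL : (Fin n → F) →ₗ[F] (Fin n → F), ∀ x, CL (Bj x) = ε x.1 • Bj x :=
    ⟨Bj.constr F (fun x => ε x.1 • Bj x), fun x => by rw [Basis.constr_basis]⟩
  have hpow : ∀ (i : ι) (t : ℕ), CL ((Matrix.toLin' N ^ t) (v i)) =
      ε i • (Matrix.toLin' N ^ t) (v i) := by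
    intro i t
    by_cases ht : t < κ i
    · have := hCL ⟨i, ⟨t, ht⟩⟩
      rw [hBj] at this
      exact this
    · rw [hJ.pow_eq_zero i t (by omega), map_zero, smul_zero]
  have hcomm : CL ∘ₗ Matrix.toLin' N = Matrix.toLin' N ∘ₗ CL := by
    apply Bj.ext
    intro x
    rw [LinearMap.comp_apply, LinearMap.comp_apply, hCL, map_smul, hBj]
    have h1 : Matrix.toLin' N ((Matrix.toLin' N ^ (x.2 : ℕ)) (v x.1)) =
        (Matrix.toLin' N ^ ((x.2 : ℕ) + 1)) (v x.1) := by
      rw [pow_succ']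
      rfl
    rw [h1, hpow]
  refine ⟨LinearMap.toMatrix' CL, ?_, ?_⟩
  · have hN : N = LinearMap.toMatrix' (Matrix.toLin' N) := (LinearMap.toMatrix'_toLin' N).symm
    have h2 := congrArg LinearMap.toMatrix' hcomm
    rw [LinearMap.toMatrix'_comp, LinearMap.toMatrix'_comp, ← hN] at h2
    exact h2
  · rw [LinearMap.det_toMatrix', det_of_diag Bj (fun x => ε x.1) CL hCL, Fintype.prod_sigma]
    simp only [Finset.prod_const, Finset.card_univ, Fintype.card_fin]
    rw [hε]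
    have h3 : ∀ i, (if i = i₀ then a else 1) ^ κ i = if i = i₀ then a ^ κ i₀ else 1 := by
      intro i
      by_cases h : i = i₀
      · subst h
        simp
      · simp [h]
    simp_rw [h3]
    rw [Finset.prod_ite_eq' Finset.univ i₀ (fun _ => a ^ κ i₀)]
    simp

/-- Conjugating into a subgroup inside `SL`, given a `GL`-conjugator and a matrix commuting with
the element which corrects the determinant. -/
theorem sl_conj_of_comm {n : ℕ} (x : Matrix.SpecialLinearGroup (Fin n) F)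
    (H : Subgroup (GL (Fin n) F)) (Q : GL (Fin n) F)
    (hQ : Q * Matrix.SpecialLinearGroup.toGL x * Q⁻¹ ∈ H)
    (C : Matrix (Fin n) (Fin n) F)
    (hC : C * (x : Matrix (Fin n) (Fin n) F) = (x : Matrix (Fin n) (Fin n) F) * C)
    (hdet : (Q : Matrix (Fin n) (Fin n) F).det * C.det = 1) :
    ∃ P : Matrix.SpecialLinearGroup (Fin n) F,
      P⁻¹ * x * P ∈ H.comap (Matrix.SpecialLinearGroup.toGL :
        Matrix.SpecialLinearGroup (Fin n) F →* GL (Fin n) F) := by
  obtain ⟨R, hR⟩ : ∃ R : Matrix.SpecialLinearGroup (Fin n) F,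
      (R : Matrix (Fin n) (Fin n) F) = (Q : Matrix (Fin n) (Fin n) F) * C :=
    ⟨⟨(Q : Matrix (Fin n) (Fin n) F) * C, by rw [Matrix.det_mul, hdet]⟩, rfl⟩
  refine ⟨R⁻¹, ?_⟩
  rw [Subgroup.mem_comap, inv_inv, map_mul, map_mul, map_inv]
  have h1 : Matrix.SpecialLinearGroup.toGL R * Matrix.SpecialLinearGroup.toGL x *
      (Matrix.SpecialLinearGroup.toGL R)⁻¹ = Q * Matrix.SpecialLinearGroup.toGL x * Q⁻¹ := by
    rw [mul_inv_eq_iff_eq_mul]
    have h3 : (Q⁻¹ * Matrix.SpecialLinearGroup.toGL R) * Matrix.SpecialLinearGroup.toGL x =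
        Matrix.SpecialLinearGroup.toGL x * (Q⁻¹ * Matrix.SpecialLinearGroup.toGL R) := by
      apply Units.ext
      have h4 : ((Q⁻¹ * Matrix.SpecialLinearGroup.toGL R : GL (Fin n) F) :
          Matrix (Fin n) (Fin n) F) = C := by
        rw [Units.val_mul]
        show ((Q⁻¹ : GL (Fin n) F) : Matrix (Fin n) (Fin n) F) *
          (R : Matrix (Fin n) (Fin n) F) = C
        rw [hR, ← Matrix.mul_assoc, ← Units.val_mul, inv_mul_cancel, Units.val_one,
          Matrix.one_mul]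
      rw [Units.val_mul, h4, Units.val_mul, h4]
      exact hC
    calc Matrix.SpecialLinearGroup.toGL R * Matrix.SpecialLinearGroup.toGL x
        = Q * ((Q⁻¹ * Matrix.SpecialLinearGroup.toGL R) * Matrix.SpecialLinearGroup.toGL x) := by
          rw [← mul_assoc, mul_inv_cancel_left]
      _ = Q * Matrix.SpecialLinearGroup.toGL x * Q⁻¹ * Matrix.SpecialLinearGroup.toGL R := by
          rw [h3]
          group
  rw [h1]
  exact hQ

end Cfsg.Agent.Lib.Helper37.CubeUnip
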