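import Mathlib
import Cfsg.Prelude.Def_GeometricClasses
import Cfsg.Agent.Lib.Helper37.PlanePlus

set_option autoImplicit false

namespace Cfsg.Agent.Lib.Helper37.FrameThree

open Module QuadraticMap Matrix
open Cfsg.Agent.Lib.Helper44.QSpace Cfsg.Agent.Lib.Helper44.OGroup Cfsg.Agent.Lib.Helper44.OMat
open Cfsg.Agent.Lib.Helper37.PlanePlus

variable {F : Type*} [Field F] {ι : Type} [Fintype ι] [DecidableEq ι]

/-- A subgroup strictly between a decomposition stabiliser in `Ω` and `Ω`, from a set of vectors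
that the stabiliser preserves. -/
theorem set_between (Q : (ι → F) → F) {t : ℕ} (D : Fin t → Submodule F (ι → F))
    (S : Set (ι → F))
    (hA : ∀ g ∈ Cfsg.Geo.decompositionStabilizer D ⊓ Cfsg.Geo.omegaGL Q, ∀ v ∈ S,
      (g : Matrix ι ι F) *ᵥ v ∈ S)
    (hB : ∃ g ∈ Cfsg.Geo.omegaGL Q, (∀ v, v ∈ S ↔ (g : Matrix ι ι F) *ᵥ v ∈ S) ∧
      g ∉ Cfsg.Geo.decompositionStabilizer D)
    (hC : ∃ g ∈ Cfsg.Geo.omegaGL Q, ∃ v ∈ S, (g : Matrix ι ι F) *ᵥ v ∉ S) :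
    ∃ K : Subgroup (GL ι F), Cfsg.Geo.decompositionStabilizer D ⊓ Cfsg.Geo.omegaGL Q < K ∧
      K < Cfsg.Geo.omegaGL Q := by
  refine ⟨Cfsg.stabilizing (Cfsg.glToMat ι F) S ⊓ Cfsg.Geo.omegaGL Q, ?_, ?_⟩
  · rw [SetLike.lt_iff_le_and_exists]
    refine ⟨?_, ?_⟩
    · intro g hg
      refine ⟨fun v => ⟨fun hv => hA g hg v hv, fun hv => ?_⟩, hg.2⟩
      have hg' := inv_mem hg
      have h1 := hA g⁻¹ hg' _ hv
      have e : ((g⁻¹ : GL ι F) : Matrix ι ι F) *ᵥ ((Cfsg.glToMat ι F) g *ᵥ v) = v := by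
        show ((g⁻¹ : GL ι F) : Matrix ι ι F) *ᵥ ((g : Matrix ι ι F) *ᵥ v) = v
        rw [Matrix.mulVec_mulVec, ← Units.val_mul, inv_mul_cancel, Units.val_one,
          Matrix.one_mulVec]
      rw [e] at h1
      exact h1
    · obtain ⟨g, hgΩ, hgS, hgD⟩ := hB
      exact ⟨g, ⟨hgS, hgΩ⟩, fun h => hgD h.1⟩
  · rw [SetLike.lt_iff_le_and_exists]
    refine ⟨inf_le_right, ?_⟩
    obtain ⟨g, hgΩ, v, hv, hgv⟩ := hC
    exact ⟨g, hgΩ, fun h => hgv ((h.1 v).mp hv)⟩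

section general

variable {V : Type*} [AddCommGroup V] [Module F V]

theorem q_sub' (Q : QuadraticForm F V) (x y : V) : Q (x - y) = Q x + Q y - polar Q x y := by
  have e : x - y = x + (-1 : F) • y := by rw [neg_one_smul, sub_eq_add_neg]
  rw [e, q_add, q_smul, polar_smul_r]
  ring

theorem reflE_reflE (Q : QuadraticForm F V) (p v : V) : reflE Q p (reflE Q p v) = v :=
  reflL_reflL Q p v

/-- The reflection in `a - b` swaps `a` and `b` (second half). -/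
theorem reflE_sub_right {Q : QuadraticForm F V} {a b : V} (h : Q a = Q b)
    (hne : Q (a - b) ≠ 0) : reflE Q (a - b) b = a := by
  have e : a - b = (-1 : F) • (b - a) := by rw [neg_one_smul, neg_sub]
  have hne' : Q (b - a) ≠ 0 := by
    rw [e, q_smul] at hne
    intro h0
    rw [h0] at hne
    simp at hne
  rw [e, reflE_smul Q (neg_ne_zero.mpr one_ne_zero)]
  exact reflE_sub h.symm hne'

end general

/-- A frame for an orthogonal decomposition: in each block a family of mutually orthogonal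
vectors of norm `c` which are, up to sign, the only vectors of norm `c` in the block. -/
structure IsFrame (Q : QuadraticForm F (ι → F)) {t : ℕ} {κ : Type*}
    (D : Fin t → Submodule F (ι → F)) (c : F) (u : Fin t → κ → (ι → F)) : Prop where
  orth : ∀ i j, i ≠ j → ∀ x ∈ D i, ∀ y ∈ D j, polar Q x y = 0
  disj : ∀ i j, i ≠ j → ∀ x, x ∈ D i → x ∈ D j → x = 0
  mem : ∀ i j, u i j ∈ D i
  val : ∀ i j, Q (u i j) = c
  uorth : ∀ i j j', j ≠ j' → polar Q (u i j) (u i j') = 0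
  char : ∀ i, ∀ v ∈ D i, Q v = c → ∃ j, v = u i j ∨ v = - u i j

omit [Fintype ι] [DecidableEq ι] in
theorem IsFrame.polar_eq_zero {Q : QuadraticForm F (ι → F)} {t : ℕ} {κ : Type*}
    {D : Fin t → Submodule F (ι → F)} {c : F} {u : Fin t → κ → (ι → F)} (h : IsFrame Q D c u)
    {i i' : Fin t} {j j' : κ} (hne : ¬ (i = i' ∧ j = j')) : polar Q (u i j) (u i' j') = 0 := by
  by_cases hi : i = i'
  · subst hi
    exact h.uorth i j j' (fun hj => hne ⟨rfl, hj⟩)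
  · exact h.orth i i' hi _ (h.mem i j) _ (h.mem i' j')

omit [Fintype ι] [DecidableEq ι] in
/-- The reflection swapping two frame vectors of different blocks preserves the set of vectors of
norm `c` lying in a block. -/
theorem IsFrame.refl_mem {Q : QuadraticForm F (ι → F)} {t : ℕ} {κ : Type*}
    {D : Fin t → Submodule F (ι → F)} {c : F} {u : Fin t → κ → (ι → F)} (h : IsFrame Q D c u)
    (h2 : (2 : F) ≠ 0) (hc : c ≠ 0) {i₀ i₁ : Fin t} (j₀ j₁ : κ) (h01 : i₀ ≠ i₁) (v : ι → F)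
    (hv : ∃ i, v ∈ D i ∧ Q v = c) :
    ∃ i, reflE Q (u i₀ j₀ - u i₁ j₁) v ∈ D i ∧ Q (reflE Q (u i₀ j₀ - u i₁ j₁) v) = c := by
  classical
  have hab : polar Q (u i₀ j₀) (u i₁ j₁) = 0 := h.polar_eq_zero (fun hh => h01 hh.1)
  have hQp : Q (u i₀ j₀ - u i₁ j₁) ≠ 0 := by
    rw [q_sub', h.val, h.val, hab, sub_zero, ← two_mul]
    exact mul_ne_zero h2 hc
  have hQ : Q (u i₀ j₀) = Q (u i₁ j₁) := by rw [h.val, h.val]
  -- the statement for frame vectors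
  have key : ∀ i j, ∃ i', reflE Q (u i₀ j₀ - u i₁ j₁) (u i j) ∈ D i' ∧
      Q (reflE Q (u i₀ j₀ - u i₁ j₁) (u i j)) = c := by
    intro i j
    by_cases h1 : i = i₀ ∧ j = j₀
    · obtain ⟨rfl, rfl⟩ := h1
      rw [reflE_sub hQ hQp]
      exact ⟨i₁, h.mem _ _, h.val _ _⟩
    · by_cases h1' : i = i₁ ∧ j = j₁
      · obtain ⟨rfl, rfl⟩ := h1'
        rw [reflE_sub_right hQ hQp]
        exact ⟨i₀, h.mem _ _, h.val _ _⟩
      · have e : reflE Q (u i₀ j₀ - u i₁ j₁) (u i j) = u i j := by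
          apply reflE_of_orth
          rw [polar_sub_right, h.polar_eq_zero h1, h.polar_eq_zero h1', sub_zero]
        rw [e]
        exact ⟨i, h.mem _ _, h.val _ _⟩
  obtain ⟨i, hvi, hvQ⟩ := hv
  obtain ⟨j, rfl | rfl⟩ := h.char i v hvi hvQ
  · exact key i j
  · obtain ⟨i', h1, h2'⟩ := key i j
    refine ⟨i', ?_, ?_⟩
    · rw [map_neg]
      exact (D i').neg_mem h1
    · rw [map_neg, QuadraticMap.map_neg]
      exact h2'

omit [Fintype ι] [DecidableEq ι] in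
theorem IsFrame.refl_mem_iff {Q : QuadraticForm F (ι → F)} {t : ℕ} {κ : Type*}
    {D : Fin t → Submodule F (ι → F)} {c : F} {u : Fin t → κ → (ι → F)} (h : IsFrame Q D c u)
    (h2 : (2 : F) ≠ 0) (hc : c ≠ 0) {i₀ i₁ : Fin t} (j₀ j₁ : κ) (h01 : i₀ ≠ i₁) (v : ι → F) :
    (∃ i, v ∈ D i ∧ Q v = c) ↔
    ∃ i, reflE Q (u i₀ j₀ - u i₁ j₁) v ∈ D i ∧ Q (reflE Q (u i₀ j₀ - u i₁ j₁) v) = c := by
  constructor
  · exact h.refl_mem h2 hc j₀ j₁ h01 v
  · intro hv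
    have h1 := h.refl_mem h2 hc j₀ j₁ h01 _ hv
    rw [reflE_reflE] at h1
    exact h1

/-- Part (B): an element of `Ω` preserving the frame set but not the decomposition. -/
theorem IsFrame.exists_B {Q : QuadraticForm F (ι → F)} {t : ℕ} {κ : Type*}
    {D : Fin t → Submodule F (ι → F)} {c : F} {u : Fin t → κ → (ι → F)} (h : IsFrame Q D c u)
    (h2 : (2 : F) ≠ 0) (hc : c ≠ 0) (ht : 4 ≤ t)
    (hx : ∀ i, ∃ j, ∃ x ∈ D i, x ≠ 0 ∧ polar Q x (u i j) = 0) :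
    ∃ g ∈ Cfsg.Geo.omegaGL ⇑Q,
      (∀ v, v ∈ {v : ι → F | ∃ i, v ∈ D i ∧ Q v = c} ↔
        (g : Matrix ι ι F) *ᵥ v ∈ {v : ι → F | ∃ i, v ∈ D i ∧ Q v = c}) ∧
      g ∉ Cfsg.Geo.decompositionStabilizer D := by
  classical
  obtain ⟨i₀, i₁, i₂, i₃, h01, h02, h03, h12, h13, h23⟩ : ∃ i₀ i₁ i₂ i₃ : Fin t,
      i₀ ≠ i₁ ∧ i₀ ≠ i₂ ∧ i₀ ≠ i₃ ∧ i₁ ≠ i₂ ∧ i₁ ≠ i₃ ∧ i₂ ≠ i₃ := by
    refine ⟨⟨0, by omega⟩, ⟨1, by omega⟩, ⟨2, by omega⟩, ⟨3, by omega⟩, ?_, ?_, ?_, ?_, ?_, ?_⟩ <;>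
      simp [Fin.ext_iff]
  obtain ⟨j₀, x, hxD, hx0, hxa⟩ := hx i₀
  have hQd : ∀ {i i' : Fin t} (j j' : κ), i ≠ i' → Q (u i j - u i' j') = 2 * c := by
    intro i i' j j' hii
    rw [q_sub', h.val, h.val, h.polar_eq_zero (fun hh => hii hh.1), sub_zero, ← two_mul]
  have h2c : 2 * c ≠ 0 := mul_ne_zero h2 hc
  obtain ⟨g, hgΩ, hg⟩ := exists_omega_refl h2 Q (a := u i₀ j₀ - u i₁ j₀) (b := u i₂ j₀ - u i₃ j₀)
    (by rw [hQd _ _ h01]; exact h2c) (by rw [hQd _ _ h23]; exact h2c)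
    ⟨2 * c, by rw [hQd _ _ h01, hQd _ _ h23]⟩
  refine ⟨g, hgΩ, ?_, ?_⟩
  · intro v
    change (∃ i, v ∈ D i ∧ Q v = c) ↔
      ∃ i, (g : Matrix ι ι F) *ᵥ v ∈ D i ∧ Q ((g : Matrix ι ι F) *ᵥ v) = c
    rw [hg]
    exact (h.refl_mem_iff h2 hc j₀ j₀ h23 v).trans (h.refl_mem_iff h2 hc j₀ j₀ h01 _)
  · rintro ⟨σ, hσ⟩
    have hmap : ∀ y ∈ D i₀, (g : Matrix ι ι F) *ᵥ y ∈ D (σ i₀) := by
      intro y hy
      rw [← hσ i₀]
      exact ⟨y, hy, by rw [Matrix.toLin'_apply]⟩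
    -- the image of `a` is `b`
    have e1 : (g : Matrix ι ι F) *ᵥ (u i₀ j₀) = u i₁ j₀ := by
      rw [hg]
      have e : reflE Q (u i₂ j₀ - u i₃ j₀) (u i₀ j₀) = u i₀ j₀ := by
        apply reflE_of_orth
        rw [polar_sub_right, h.polar_eq_zero (fun hh => h02 hh.1),
          h.polar_eq_zero (fun hh => h03 hh.1), sub_zero]
      rw [e]
      exact reflE_sub (by rw [h.val, h.val]) (by rw [hQd _ _ h01]; exact h2c)
    have e2 : (g : Matrix ι ι F) *ᵥ x = x := by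
      rw [hg]
      have e : reflE Q (u i₂ j₀ - u i₃ j₀) x = x := by
        apply reflE_of_orth
        rw [polar_sub_right, h.orth i₀ i₂ h02 x hxD _ (h.mem _ _),
          h.orth i₀ i₃ h03 x hxD _ (h.mem _ _), sub_zero]
      rw [e]
      apply reflE_of_orth
      rw [polar_sub_right, hxa, h.orth i₀ i₁ h01 x hxD _ (h.mem _ _), sub_zero]
    have hb0 : u i₁ j₀ ≠ 0 := by
      intro h0
      have := h.val i₁ j₀
      rw [h0, map_zero] at this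
      exact hc this.symm
    have hs1 : σ i₀ = i₁ := by
      by_contra hne
      apply hb0
      have hm := hmap _ (h.mem i₀ j₀)
      rw [e1] at hm
      exact h.disj _ _ hne _ hm (h.mem _ _)
    have hs0 : σ i₀ = i₀ := by
      by_contra hne
      apply hx0
      have hm := hmap _ hxD
      rw [e2] at hm
      exact h.disj _ _ hne _ hm hxD
    exact h01 (hs0.symm.trans hs1)

section three

variable [Fintype F]

omit [Fintype ι] [DecidableEq ι] in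
theorem three_eq_zero (hq : Fintype.card F = 3) : (3 : F) = 0 := by
  have h := Nat.cast_card_eq_zero F
  rw [hq] at h
  exact_mod_cast h

omit [Fintype ι] [DecidableEq ι] in
theorem two_ne_zero_of_three (hq : Fintype.card F = 3) : (2 : F) ≠ 0 := by
  intro h
  have h3 := three_eq_zero hq
  have h1 : (1 : F) = 0 := by linear_combination h3 - h
  exact one_ne_zero h1

omit [Fintype ι] [DecidableEq ι] in
theorem cases3 (hq : Fintype.card F = 3) (a : F) : a = 0 ∨ a = 1 ∨ a = -1 := by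
  have h := FiniteField.pow_card a
  rw [hq] at h
  have h' : a * (a - 1) * (a + 1) = 0 := by linear_combination h
  rcases mul_eq_zero.mp h' with h1 | h1
  · rcases mul_eq_zero.mp h1 with h0 | h0
    · exact Or.inl h0
    · exact Or.inr (Or.inl (sub_eq_zero.mp h0))
  · exact Or.inr (Or.inr (eq_neg_of_add_eq_zero_left h1))

/-- Part (C) in characteristic 3: an element of `Ω` that does not preserve the frame set. -/
theorem IsFrame.exists_C {Q : QuadraticForm F (ι → F)} {t : ℕ} {κ : Type*}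
    {D : Fin t → Submodule F (ι → F)} {c : F} {u : Fin t → κ → (ι → F)} (h : IsFrame Q D c u)
    (hq : Fintype.card F = 3) (hc : c ≠ 0) (ht : 4 ≤ t) [Nonempty κ] :
    ∃ g ∈ Cfsg.Geo.omegaGL ⇑Q, ∃ v ∈ {v : ι → F | ∃ i, v ∈ D i ∧ Q v = c},
      (g : Matrix ι ι F) *ᵥ v ∉ {v : ι → F | ∃ i, v ∈ D i ∧ Q v = c} := by
  classical
  have h3 := three_eq_zero hq
  have h2 := two_ne_zero_of_three hq
  obtain ⟨i₀, i₁, i₂, i₃, h01, h02, h03, h12, h13, h23⟩ : ∃ i₀ i₁ i₂ i₃ : Fin t,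
      i₀ ≠ i₁ ∧ i₀ ≠ i₂ ∧ i₀ ≠ i₃ ∧ i₁ ≠ i₂ ∧ i₁ ≠ i₃ ∧ i₂ ≠ i₃ := by
    refine ⟨⟨0, by omega⟩, ⟨1, by omega⟩, ⟨2, by omega⟩, ⟨3, by omega⟩, ?_, ?_, ?_, ?_, ?_, ?_⟩ <;>
      simp [Fin.ext_iff]
  obtain ⟨j⟩ := ‹Nonempty κ›
  obtain ⟨a, ha⟩ : ∃ a, a = u i₀ j := ⟨_, rfl⟩
  obtain ⟨b₁, hb₁⟩ : ∃ b, b = u i₁ j := ⟨_, rfl⟩
  obtain ⟨b₂, hb₂⟩ : ∃ b, b = u i₂ j := ⟨_, rfl⟩
  obtain ⟨b₃, hb₃⟩ : ∃ b, b = u i₃ j := ⟨_, rfl⟩
  have hQa : Q a = c := by rw [ha, h.val]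
  have hQ1 : Q b₁ = c := by rw [hb₁, h.val]
  have hQ2 : Q b₂ = c := by rw [hb₂, h.val]
  have hQ3 : Q b₃ = c := by rw [hb₃, h.val]
  have ha1 : polar Q a b₁ = 0 := by rw [ha, hb₁]; exact h.polar_eq_zero (fun hh => h01 hh.1)
  have ha2 : polar Q a b₂ = 0 := by rw [ha, hb₂]; exact h.polar_eq_zero (fun hh => h02 hh.1)
  have ha3 : polar Q a b₃ = 0 := by rw [ha, hb₃]; exact h.polar_eq_zero (fun hh => h03 hh.1)
  have h12' : polar Q b₁ b₂ = 0 := by rw [hb₁, hb₂]; exact h.polar_eq_zero (fun hh => h12 hh.1)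
  have h13' : polar Q b₁ b₃ = 0 := by rw [hb₁, hb₃]; exact h.polar_eq_zero (fun hh => h13 hh.1)
  have h23' : polar Q b₂ b₃ = 0 := by rw [hb₂, hb₃]; exact h.polar_eq_zero (fun hh => h23 hh.1)
  obtain ⟨w, hw⟩ : ∃ w, w = b₁ + b₂ + b₃ := ⟨_, rfl⟩
  have hQw : Q w = 0 := by
    rw [hw, q_add, q_add, hQ1, hQ2, hQ3, polar_add_left, h12', h13', h23']
    linear_combination c * h3
  have haw : polar Q a w = 0 := by
    rw [hw, polar_add_right, polar_add_right, ha1, ha2, ha3]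
    ring
  have hQaw : Q (a + w) = c := by
    rw [q_add, hQa, hQw, haw]
    ring
  obtain ⟨g, hgΩ, hg⟩ := exists_omega_refl h2 Q (a := a) (b := a + w)
    (by rw [hQa]; exact hc) (by rw [hQaw]; exact hc) ⟨c, by rw [hQa, hQaw]⟩
  refine ⟨g, hgΩ, a, ⟨i₀, ha ▸ h.mem _ _, hQa⟩, ?_⟩
  rw [hg, refl_refl_shift h3 Q (by rw [hQa]; exact hc) hQw haw]
  rintro ⟨i, hi, -⟩
  have h2c : 2 * c ≠ 0 := mul_ne_zero h2 hc
  have e1 : polar Q (a + w) a = 2 * c := by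
    rw [polar_add_left, polar_self', hQa, polar_comm _ w a, haw, add_zero]
  have e2 : polar Q (a + w) b₁ = 2 * c := by
    rw [polar_add_left, ha1, hw, polar_add_left, polar_add_left, polar_self', hQ1,
      polar_comm _ b₂ b₁, h12', polar_comm _ b₃ b₁, h13']
    ring
  have hi0 : i = i₀ := by
    by_contra hne
    apply h2c
    rw [← e1]
    exact h.orth i i₀ hne _ hi _ (ha ▸ h.mem _ _)
  have hi1 : i = i₁ := by
    by_contra hne
    apply h2c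
    rw [← e2]
    exact h.orth i i₁ hne _ hi _ (hb₁ ▸ h.mem _ _)
  exact h01 (hi0.symm.trans hi1)

/-- Over the field with three elements, the stabiliser in `Ω` of an orthogonal decomposition
admitting a frame is not maximal. -/
theorem frame_not_maximal (hq : Fintype.card F = 3) (Q : QuadraticForm F (ι → F))
    {t : ℕ} {κ : Type*} (D : Fin t → Submodule F (ι → F)) (c : F) (hc : c ≠ 0)
    (u : Fin t → κ → (ι → F)) (ht : 4 ≤ t) (hfr : IsFrame Q D c u)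
    (hx : ∀ i, ∃ j, ∃ x ∈ D i, x ≠ 0 ∧ polar Q x (u i j) = 0) :
    ∃ K : Subgroup (GL ι F), Cfsg.Geo.decompositionStabilizer D ⊓ Cfsg.Geo.omegaGL ⇑Q < K ∧
      K < Cfsg.Geo.omegaGL ⇑Q := by
  have h2 := two_ne_zero_of_three hq
  have hne : Nonempty κ := by
    obtain ⟨j, -⟩ := hx ⟨0, by omega⟩
    exact ⟨j⟩
  apply set_between (⇑Q) D {v : ι → F | ∃ i, v ∈ D i ∧ Q v = c}
  · rintro g ⟨hgD, hgΩ⟩ v ⟨i, hvi, hvQ⟩
    obtain ⟨σ, hσ⟩ := hgD
    refine ⟨σ i, ?_, ?_⟩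
    · rw [← hσ i]
      exact ⟨v, hvi, by rw [Matrix.toLin'_apply]⟩
    · have := omega_isometry (⇑Q) hgΩ v
      rw [this]
      exact hvQ
  · exact hfr.exists_B h2 hc ht hx
  · exact hfr.exists_C hq hc ht

end three

end Cfsg.Agent.Lib.Helper37.FrameThree
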