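import Mathlib
import Cfsg.Prelude.Def_GeometricClasses
import Cfsg.Agent.Lib.Helper37.FrameThree

set_option autoImplicit false

namespace Cfsg.Agent.Lib.Helper37.FrameExist

open Module QuadraticMap Matrix
open Cfsg.Agent.Lib.Helper44.QSpace Cfsg.Agent.Lib.Helper44.OGroup Cfsg.Agent.Lib.Helper44.OMat
open Cfsg.Agent.Lib.Helper37.PlanePlus Cfsg.Agent.Lib.Helper37.FrameThree

variable {F : Type*} [Field F] [Fintype F]

section general

variable {V : Type*} [AddCommGroup V] [Module F V]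

omit [Fintype F] in
theorem sep_res (Q : QuadraticForm F V) (W : Submodule F V)
    (hW : ∀ w ∈ W, w ≠ 0 → ∃ x ∈ W, polar Q x w ≠ 0) : Sep (res Q W) := by
  intro x hx
  by_contra hx0
  obtain ⟨y, hy, hyx⟩ := hW x x.2 (fun h => hx0 (Subtype.ext h))
  apply hyx
  rw [polar_comm]
  exact hx ⟨y, hy⟩

theorem ne_cases (hq : Fintype.card F = 3) {d d' : F} (hd : d ≠ 0) (hd' : d' ≠ 0)
    (h : d' ≠ d) : d' = -d := by
  rcases cases3 hq d with rfl | rfl | rfl <;> rcases cases3 hq d' with rfl | rfl | rfl <;>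
    simp_all

theorem sq_cases (hq : Fintype.card F = 3) (x : F) :
    (x ^ 2 = 0 ∧ x = 0) ∨ (x ^ 2 = 1 ∧ (x = 1 ∨ x = -1)) := by
  rcases cases3 hq x with rfl | rfl | rfl
  · left; simp
  · right; simp
  · right; simp

theorem three_sq (hq : Fintype.card F = 3) (x₁ x₂ x₃ : F) (hsum : x₁ ^ 2 + x₂ ^ 2 + x₃ ^ 2 = 1) :
    (x₂ = 0 ∧ x₃ = 0 ∧ (x₁ = 1 ∨ x₁ = -1)) ∨ (x₁ = 0 ∧ x₃ = 0 ∧ (x₂ = 1 ∨ x₂ = -1)) ∨
      (x₁ = 0 ∧ x₂ = 0 ∧ (x₃ = 1 ∨ x₃ = -1)) := by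
  have h2 := two_ne_zero_of_three hq
  rcases sq_cases hq x₁ with ⟨s1, r1⟩ | ⟨s1, r1⟩ <;>
    rcases sq_cases hq x₂ with ⟨s2, r2⟩ | ⟨s2, r2⟩ <;>
    rcases sq_cases hq x₃ with ⟨s3, r3⟩ | ⟨s3, r3⟩ <;> rw [s1, s2, s3] at hsum
  · exact absurd (by linear_combination -hsum : (1 : F) = 0) one_ne_zero
  · exact Or.inr (Or.inr ⟨r1, r2, r3⟩)
  · exact Or.inr (Or.inl ⟨r1, r3, r2⟩)
  · exact absurd (by linear_combination hsum : (1 : F) = 0) one_ne_zero
  · exact Or.inl ⟨r2, r3, r1⟩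
  · exact absurd (by linear_combination hsum : (1 : F) = 0) one_ne_zero
  · exact absurd (by linear_combination hsum : (1 : F) = 0) one_ne_zero
  · exact absurd (by linear_combination hsum : (2 : F) = 0) h2

omit [Fintype F] in
/-- Two orthogonal vectors of norm `d` and a third orthogonal one of norm `-d` (characteristic 3):
the sum and difference of the first two have norm `-d`. -/
theorem fix3 (h3 : (3 : F) = 0) (Q : QuadraticForm F V) {x y z : V} {d : F} (hx : Q x = d)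
    (hy : Q y = d) (hxy : polar Q x y = 0) (hxz : polar Q x z = 0) (hyz : polar Q y z = 0) :
    Q (x + y) = -d ∧ Q (x - y) = -d ∧ polar Q (x + y) (x - y) = 0 ∧ polar Q (x + y) z = 0 ∧
      polar Q (x - y) z = 0 := by
  have hyx : polar Q y x = 0 := by rw [polar_comm]; exact hxy
  refine ⟨?_, ?_, ?_, ?_, ?_⟩
  · rw [q_add, hx, hy, hxy]
    linear_combination d * h3
  · rw [q_sub', hx, hy, hxy]
    linear_combination d * h3
  · rw [polar_add_left, polar_sub_right, polar_sub_right, polar_self', polar_self', hx, hy, hxy,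
      hyx]
    ring
  · rw [polar_add_left, hxz, hyz, add_zero]
  · rw [polar_sub_left, hxz, hyz, sub_zero]

/-- A nondegenerate 3-dimensional quadratic space over the field with three elements has an
orthogonal basis of vectors of equal norm. -/
theorem exists_frame3 [FiniteDimensional F V] (hq : Fintype.card F = 3) (Q : QuadraticForm F V)
    (W : Submodule F V) (hdim : finrank F W = 3)
    (hW : ∀ w ∈ W, w ≠ 0 → ∃ x ∈ W, polar Q x w ≠ 0) :
    ∃ c : F, c ≠ 0 ∧ ∃ u₁ u₂ u₃ : V, u₁ ∈ W ∧ u₂ ∈ W ∧ u₃ ∈ W ∧ Q u₁ = c ∧ Q u₂ = c ∧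
      Q u₃ = c ∧ polar Q u₁ u₂ = 0 ∧ polar Q u₁ u₃ = 0 ∧ polar Q u₂ u₃ = 0 := by
  have h3 := three_eq_zero hq
  have h2 := two_ne_zero_of_three hq
  obtain ⟨v₁, v₂, v₃, hv₁, hv₂, hv₃, h12, h13, h23⟩ :=
    exists_orth_triple h2 (sep_res Q W hW) (by omega)
  have hv₁' : Q (v₁ : V) ≠ 0 := hv₁
  have hv₂' : Q (v₂ : V) ≠ 0 := hv₂
  have hv₃' : Q (v₃ : V) ≠ 0 := hv₃
  have h12' : polar Q (v₁ : V) (v₂ : V) = 0 := h12
  have h13' : polar Q (v₁ : V) (v₃ : V) = 0 := h13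
  have h23' : polar Q (v₂ : V) (v₃ : V) = 0 := h23
  have h21' : polar Q (v₂ : V) (v₁ : V) = 0 := by rw [polar_comm]; exact h12'
  have h31' : polar Q (v₃ : V) (v₁ : V) = 0 := by rw [polar_comm]; exact h13'
  have h32' : polar Q (v₃ : V) (v₂ : V) = 0 := by rw [polar_comm]; exact h23'
  by_cases e12 : Q (v₂ : V) = Q (v₁ : V)
  · by_cases e13 : Q (v₃ : V) = Q (v₁ : V)
    · exact ⟨Q (v₁ : V), hv₁', v₁, v₂, v₃, v₁.2, v₂.2, v₃.2, rfl, e12, e13, h12', h13', h23'⟩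
    · have e3 := ne_cases hq hv₁' hv₃' e13
      obtain ⟨f1, f2, f3, f4, f5⟩ := fix3 h3 Q (x := (v₁ : V)) (y := (v₂ : V)) (z := (v₃ : V))
        rfl e12 h12' h13' h23'
      exact ⟨-Q (v₁ : V), neg_ne_zero.mpr hv₁', (v₁ : V) + v₂, (v₁ : V) - v₂, v₃,
        W.add_mem v₁.2 v₂.2, W.sub_mem v₁.2 v₂.2, v₃.2, f1, f2, e3, f3, f4, f5⟩
  · have e2 := ne_cases hq hv₁' hv₂' e12
    by_cases e13 : Q (v₃ : V) = Q (v₁ : V)
    · obtain ⟨f1, f2, f3, f4, f5⟩ := fix3 h3 Q (x := (v₁ : V)) (y := (v₃ : V)) (z := (v₂ : V))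
        rfl e13 h13' h12' h32'
      exact ⟨-Q (v₁ : V), neg_ne_zero.mpr hv₁', (v₁ : V) + v₃, (v₁ : V) - v₃, v₂,
        W.add_mem v₁.2 v₃.2, W.sub_mem v₁.2 v₃.2, v₂.2, f1, f2, e2, f3, f4, f5⟩
    · have e3 := ne_cases hq hv₁' hv₃' e13
      obtain ⟨f1, f2, f3, f4, f5⟩ := fix3 h3 Q (x := (v₂ : V)) (y := (v₃ : V)) (z := (v₁ : V))
        (d := -Q (v₁ : V)) e2 e3 h23' h21' h31'
      exact ⟨Q (v₁ : V), hv₁', (v₂ : V) + v₃, (v₂ : V) - v₃, v₁,
        W.add_mem v₂.2 v₃.2, W.sub_mem v₂.2 v₃.2, v₁.2, by rw [f1, neg_neg], by rw [f2, neg_neg],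
        rfl, f3, f4, f5⟩

/-- In a 3-dimensional space over the field with three elements with an orthogonal basis of
vectors of norm `c`, the vectors of norm `c` are the basis vectors and their negatives. -/
theorem char3 [FiniteDimensional F V] (hq : Fintype.card F = 3) (Q : QuadraticForm F V)
    (W : Submodule F V) (hdim : finrank F W = 3) {c : F} (hc : c ≠ 0) {u₁ u₂ u₃ : V}
    (h₁ : u₁ ∈ W) (h₂ : u₂ ∈ W) (h₃ : u₃ ∈ W) (hQ₁ : Q u₁ = c) (hQ₂ : Q u₂ = c) (hQ₃ : Q u₃ = c)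
    (h12 : polar Q u₁ u₂ = 0) (h13 : polar Q u₁ u₃ = 0) (h23 : polar Q u₂ u₃ = 0) :
    ∀ v ∈ W, Q v = c → (v = u₁ ∨ v = -u₁) ∨ (v = u₂ ∨ v = -u₂) ∨ (v = u₃ ∨ v = -u₃) := by
  classical
  have h2 := two_ne_zero_of_three hq
  have h2c : 2 * c ≠ 0 := mul_ne_zero h2 hc
  have h21 : polar Q u₂ u₁ = 0 := by rw [polar_comm]; exact h12
  have h31 : polar Q u₃ u₁ = 0 := by rw [polar_comm]; exact h13
  have h32 : polar Q u₃ u₂ = 0 := by rw [polar_comm]; exact h23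
  have hli : LinearIndependent F ![(⟨u₁, h₁⟩ : W), ⟨u₂, h₂⟩, ⟨u₃, h₃⟩] := by
    rw [Fintype.linearIndependent_iff]
    intro g hg
    rw [Fin.sum_univ_three] at hg
    have hg' : g 0 • u₁ + g 1 • u₂ + g 2 • u₃ = 0 := congrArg Subtype.val hg
    have e1 := congrArg (fun z => polar Q z u₁) hg'
    have e2 := congrArg (fun z => polar Q z u₂) hg'
    have e3 := congrArg (fun z => polar Q z u₃) hg'
    simp only [polar_add_left, polar_smul_l, polar_self', hQ₁, hQ₂, hQ₃, h12, h13, h23, h21, h31,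
      h32, polar_zero_left, mul_zero, add_zero, zero_add] at e1 e2 e3
    intro i
    fin_cases i
    · exact (mul_eq_zero.mp e1).resolve_right h2c
    · exact (mul_eq_zero.mp e2).resolve_right h2c
    · exact (mul_eq_zero.mp e3).resolve_right h2c
  have hspan := hli.span_eq_top_of_card_eq_finrank' (by simp [hdim])
  intro v hv hQv
  have hmem : (⟨v, hv⟩ : W) ∈ Submodule.span F
      (Set.range ![(⟨u₁, h₁⟩ : W), ⟨u₂, h₂⟩, ⟨u₃, h₃⟩]) := by
    rw [hspan]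
    trivial
  obtain ⟨x, hx⟩ := (Submodule.mem_span_range_iff_exists_fun F).mp hmem
  have hx' := congrArg Subtype.val hx
  simp only [Fin.sum_univ_three] at hx'
  have hv' : v = x 0 • u₁ + x 1 • u₂ + x 2 • u₃ := hx'.symm
  rw [hv'] at hQv
  simp only [q_add, q_smul, polar_add_left, polar_smul_l, polar_smul_r, hQ₁, hQ₂, hQ₃, h12, h13,
    h23] at hQv
  have hsum : x 0 ^ 2 + x 1 ^ 2 + x 2 ^ 2 = 1 := by
    apply mul_left_cancel₀ hc
    linear_combination hQv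
  rcases three_sq hq _ _ _ hsum with ⟨e2, e3, e1 | e1⟩ | ⟨e1, e3, e2 | e2⟩ | ⟨e1, e2, e3 | e3⟩ <;>
    rw [hv', e1, e2, e3] <;> simp

/-- A nondegenerate anisotropic plane over the field with three elements has an orthonormal
basis. -/
theorem exists_frame2 [FiniteDimensional F V] (hq : Fintype.card F = 3) (Q : QuadraticForm F V)
    (W : Submodule F V) (hdim : finrank F W = 2)
    (hW : ∀ w ∈ W, w ≠ 0 → ∃ x ∈ W, polar Q x w ≠ 0) (han : ∀ w ∈ W, Q w = 0 → w = 0) :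
    ∃ u₁ u₂ : V, u₁ ∈ W ∧ u₂ ∈ W ∧ Q u₁ = 1 ∧ Q u₂ = 1 ∧ polar Q u₁ u₂ = 0 := by
  have h3 := three_eq_zero hq
  have h2 := two_ne_zero_of_three hq
  obtain ⟨v₁, v₂, hv₁, hv₂, h12⟩ := exists_orth_pair h2 (sep_res Q W hW) (by omega)
  have hv₁' : Q (v₁ : V) ≠ 0 := hv₁
  have hv₂' : Q (v₂ : V) ≠ 0 := hv₂
  have h12' : polar Q (v₁ : V) (v₂ : V) = 0 := h12
  have e12 : Q (v₂ : V) = Q (v₁ : V) := by
    by_contra hne
    have e2 := ne_cases hq hv₁' hv₂' hne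
    have h0 : Q ((v₁ : V) + v₂) = 0 := by
      rw [q_add, e2, h12']
      ring
    have h1 := han _ (W.add_mem v₁.2 v₂.2) h0
    have h4 : polar Q ((v₁ : V) + v₂) v₁ = 2 * Q (v₁ : V) := by
      rw [polar_add_left, polar_self', polar_comm _ (v₂ : V) (v₁ : V), h12', add_zero]
    rw [h1, polar_zero_left] at h4
    exact mul_ne_zero h2 hv₁' h4.symm
  rcases cases3 hq (Q (v₁ : V)) with h0 | h1 | h1
  · exact absurd h0 hv₁'
  · exact ⟨v₁, v₂, v₁.2, v₂.2, h1, e12.trans h1, h12'⟩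
  · obtain ⟨f1, f2, f3, -, -⟩ := fix3 h3 Q (x := (v₁ : V)) (y := (v₂ : V)) (z := (0 : V))
      h1 (e12.trans h1) h12' (by simp) (by simp)
    exact ⟨(v₁ : V) + v₂, (v₁ : V) - v₂, W.add_mem v₁.2 v₂.2, W.sub_mem v₁.2 v₂.2,
      by rw [f1, neg_neg], by rw [f2, neg_neg], f3⟩

theorem char2 [FiniteDimensional F V] (hq : Fintype.card F = 3) (Q : QuadraticForm F V)
    (W : Submodule F V) (hdim : finrank F W = 2) {c : F} (hc : c ≠ 0) {u₁ u₂ : V}
    (h₁ : u₁ ∈ W) (h₂ : u₂ ∈ W) (hQ₁ : Q u₁ = c) (hQ₂ : Q u₂ = c)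
    (h12 : polar Q u₁ u₂ = 0) :
    ∀ v ∈ W, Q v = c → (v = u₁ ∨ v = -u₁) ∨ (v = u₂ ∨ v = -u₂) := by
  classical
  have h2 := two_ne_zero_of_three hq
  have h2c : 2 * c ≠ 0 := mul_ne_zero h2 hc
  have h21 : polar Q u₂ u₁ = 0 := by rw [polar_comm]; exact h12
  have hli : LinearIndependent F ![(⟨u₁, h₁⟩ : W), ⟨u₂, h₂⟩] := by
    rw [LinearIndependent.pair_iff]
    intro α β hαβ
    have hαβ' : α • u₁ + β • u₂ = 0 := congrArg Subtype.val hαβ
    have e1 := congrArg (fun z => polar Q z u₁) hαβ'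
    have e2 := congrArg (fun z => polar Q z u₂) hαβ'
    simp only [polar_add_left, polar_smul_l, polar_self', hQ₁, hQ₂, h12, h21,
      polar_zero_left, mul_zero, add_zero, zero_add] at e1 e2
    exact ⟨(mul_eq_zero.mp e1).resolve_right h2c, (mul_eq_zero.mp e2).resolve_right h2c⟩
  have hspan := hli.span_eq_top_of_card_eq_finrank' (by simp [hdim])
  intro v hv hQv
  have hmem : (⟨v, hv⟩ : W) ∈ Submodule.span F (Set.range ![(⟨u₁, h₁⟩ : W), ⟨u₂, h₂⟩]) := by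
    rw [hspan]
    trivial
  obtain ⟨x, hx⟩ := (Submodule.mem_span_range_iff_exists_fun F).mp hmem
  have hx' := congrArg Subtype.val hx
  simp only [Fin.sum_univ_two] at hx'
  have hv' : v = x 0 • u₁ + x 1 • u₂ := hx'.symm
  rw [hv'] at hQv
  simp only [q_add, q_smul, polar_smul_l, polar_smul_r, hQ₁, hQ₂, h12] at hQv
  have hsum : x 0 ^ 2 + x 1 ^ 2 + (0 : F) ^ 2 = 1 := by
    apply mul_left_cancel₀ hc
    linear_combination hQv
  rcases three_sq hq _ _ _ hsum with ⟨e2, -, e1 | e1⟩ | ⟨e1, -, e2 | e2⟩ | ⟨-, -, e3 | e3⟩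
  · rw [hv', e1, e2]; simp
  · rw [hv', e1, e2]; simp
  · rw [hv', e1, e2]; simp
  · rw [hv', e1, e2]; simp
  · exact absurd e3 (by simp)
  · exact absurd e3 (by simp)

end general

end Cfsg.Agent.Lib.Helper37.FrameExist
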