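import Mathlib
import Cfsg.Prelude.Def_GeometricClasses
import Cfsg.Agent.Lib.Helper37.FrameExist

set_option autoImplicit false

namespace Cfsg.Agent.Lib.Helper37.FrameApply

open Module QuadraticMap Matrix
open Cfsg.Agent.Lib.Helper44.QSpace Cfsg.Agent.Lib.Helper44.OGroup Cfsg.Agent.Lib.Helper44.OMat
open Cfsg.Agent.Lib.Helper37.PlanePlus Cfsg.Agent.Lib.Helper37.FrameThree
open Cfsg.Agent.Lib.Helper37.FrameExist

variable {F : Type*} [Field F] {ι : Type} [Fintype ι] [DecidableEq ι]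

omit [DecidableEq ι] in
/-- The number of blocks of a decomposition into `k`-dimensional subspaces. -/
theorem card_index {t k : ℕ} (D : Fin t → Submodule F (ι → F))
    (hD : Cfsg.Geo.IsMDecomposition k D) : t * k = Fintype.card ι := by
  classical
  have hint := DirectSum.isInternal_submodule_of_iSupIndep_of_iSup_eq_top hD.indep hD.iSup_eq_top
  have h1 := (LinearEquiv.ofBijective (DirectSum.coeLinearMap D) hint).finrank_eq
  rw [Module.finrank_directSum] at h1
  simp only [hD.finrank_eq, Finset.sum_const, Finset.card_univ, Fintype.card_fin,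
    smul_eq_mul, Module.finrank_fintype_fun_eq_card] at h1
  exact h1

omit [Fintype ι] [DecidableEq ι] in
theorem disj_of_decomp {t k : ℕ} (D : Fin t → Submodule F (ι → F))
    (hD : Cfsg.Geo.IsMDecomposition k D) :
    ∀ i j, i ≠ j → ∀ x, x ∈ D i → x ∈ D j → x = 0 := by
  intro i j hij x hxi hxj
  exact Submodule.disjoint_def.mp (hD.indep.pairwiseDisjoint hij) x hxi hxj

variable [Fintype F]

/-- Over the field with three elements, the stabiliser in `Ω` of an orthogonal decomposition into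
isometric nondegenerate 3-spaces is not maximal. -/
theorem orth3_not_maximal (hq : Fintype.card F = 3) (Q : QuadraticForm F (ι → F)) {t : ℕ}
    (D : Fin t → Submodule F (ι → F)) (hD : Cfsg.Geo.IsOrthogonalMDecomposition ⇑Q 3 D)
    (hn : 12 ≤ Fintype.card ι) :
    ∃ K : Subgroup (GL ι F), Cfsg.Geo.decompositionStabilizer D ⊓ Cfsg.Geo.omegaGL ⇑Q < K ∧
      K < Cfsg.Geo.omegaGL ⇑Q := by
  classical
  have ht3 := card_index D hD.decomp.decomp
  have ht : 4 ≤ t := by omega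
  have hnd : ∀ i, ∀ w ∈ D i, w ≠ 0 → ∃ x ∈ D i, polar Q x w ≠ 0 :=
    fun i w hw hw0 => (hD.decomp.nondegenerate i w hw hw0).1
  obtain ⟨c, hc, u₁, u₂, u₃, m₁, m₂, m₃, q₁, q₂, q₃, o12, o13, o23⟩ :=
    exists_frame3 hq Q (D ⟨0, by omega⟩) (hD.decomp.decomp.finrank_eq _) (hnd _)
  choose e he using fun i => hD.isometric ⟨0, by omega⟩ i
  have hpol : ∀ i (x y : D ⟨0, by omega⟩),
      polar Q ((e i x : D i) : ι → F) ((e i y : D i) : ι → F) = polar Q (x : ι → F) y := by
    intro i x y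
    have h1 := he i (x + y)
    rw [map_add] at h1
    unfold polar
    rw [← he i x, ← he i y]
    exact congrArg (fun z => z - Q ((e i x : D i) : ι → F) - Q ((e i y : D i) : ι → F)) h1
  have h2 := two_ne_zero_of_three hq
  have hchar : ∀ i, ∀ v ∈ D i, Q v = c →
      (v = (e i ⟨u₁, m₁⟩ : ι → F) ∨ v = -(e i ⟨u₁, m₁⟩ : ι → F)) ∨
      (v = (e i ⟨u₂, m₂⟩ : ι → F) ∨ v = -(e i ⟨u₂, m₂⟩ : ι → F)) ∨
      (v = (e i ⟨u₃, m₃⟩ : ι → F) ∨ v = -(e i ⟨u₃, m₃⟩ : ι → F)) := by
    intro i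
    exact char3 hq Q (D i) (hD.decomp.decomp.finrank_eq _) hc (e i _).2 (e i _).2 (e i _).2
      ((he i _).trans q₁) ((he i _).trans q₂) ((he i _).trans q₃)
      ((hpol i _ _).trans o12) ((hpol i _ _).trans o13) ((hpol i _ _).trans o23)
  obtain ⟨w, hw0, hw1, hw2⟩ : ∃ w : Fin 3 → D ⟨0, by omega⟩, w 0 = ⟨u₁, m₁⟩ ∧ w 1 = ⟨u₂, m₂⟩ ∧
      w 2 = ⟨u₃, m₃⟩ := ⟨![⟨u₁, m₁⟩, ⟨u₂, m₂⟩, ⟨u₃, m₃⟩], rfl, rfl, rfl⟩
  have hwQ : ∀ j, Q ((w j : D ⟨0, by omega⟩) : ι → F) = c := by
    intro j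
    fin_cases j
    · show Q ((w 0 : D ⟨0, by omega⟩) : ι → F) = c
      rw [hw0]; exact q₁
    · show Q ((w 1 : D ⟨0, by omega⟩) : ι → F) = c
      rw [hw1]; exact q₂
    · show Q ((w 2 : D ⟨0, by omega⟩) : ι → F) = c
      rw [hw2]; exact q₃
  have hworth : ∀ j j', j ≠ j' →
      polar Q ((w j : D ⟨0, by omega⟩) : ι → F) ((w j' : D ⟨0, by omega⟩) : ι → F) = 0 := by
    have o21 : polar Q u₂ u₁ = 0 := by rw [polar_comm]; exact o12
    have o31 : polar Q u₃ u₁ = 0 := by rw [polar_comm]; exact o13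
    have o32 : polar Q u₃ u₂ = 0 := by rw [polar_comm]; exact o23
    have key : ∀ j j' : Fin 3, j ≠ j' → polar Q ((w j : D ⟨0, by omega⟩) : ι → F)
        ((w j' : D ⟨0, by omega⟩) : ι → F) = 0 := by
      intro j j' hjj
      have hj : j = 0 ∨ j = 1 ∨ j = 2 := by omega
      have hj' : j' = 0 ∨ j' = 1 ∨ j' = 2 := by omega
      rcases hj with rfl | rfl | rfl <;> rcases hj' with rfl | rfl | rfl <;>
        first
        | exact absurd rfl hjj
        | (rw [hw0, hw1]; exact o12)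
        | (rw [hw0, hw2]; exact o13)
        | (rw [hw1, hw0]; exact o21)
        | (rw [hw1, hw2]; exact o23)
        | (rw [hw2, hw0]; exact o31)
        | (rw [hw2, hw1]; exact o32)
    exact key
  have hfr : IsFrame Q D c (fun i j => ((e i (w j) : D i) : ι → F)) := by
    refine ⟨fun i j hij => hD.decomp.orthogonal i j hij, disj_of_decomp D hD.decomp.decomp,
      fun i j => (e i (w j)).2, fun i j => (he i _).trans (hwQ j),
      fun i j j' hjj => (hpol i _ _).trans (hworth j j' hjj), ?_⟩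
    intro i v hv hQv
    rcases hchar i v hv hQv with h | h | h
    · exact ⟨0, by rw [hw0]; exact h⟩
    · exact ⟨1, by rw [hw1]; exact h⟩
    · exact ⟨2, by rw [hw2]; exact h⟩
  refine frame_not_maximal hq Q D c hc _ ht hfr (fun i => ⟨0, ((e i (w 1) : D i) : ι → F),
    (e i (w 1)).2, ?_, ?_⟩)
  · intro h0
    have h1 := (he i (w 1)).trans (hwQ 1)
    rw [h0, map_zero] at h1
    exact hc h1.symm
  · exact (hpol i _ _).trans (hworth 1 0 (by decide))

/-- Over the field with three elements, the stabiliser in `Ω` of an orthogonal decomposition into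
nondegenerate anisotropic planes is not maximal. -/
theorem orth2_not_maximal (hq : Fintype.card F = 3) (Q : QuadraticForm F (ι → F)) {t : ℕ}
    (D : Fin t → Submodule F (ι → F))
    (hD : Cfsg.Geo.IsNondegenerateMDecomposition (polar ⇑Q) 2 D)
    (han : ∀ i, ∀ w ∈ D i, Q w = 0 → w = 0)
    (hn : 8 ≤ Fintype.card ι) :
    ∃ K : Subgroup (GL ι F), Cfsg.Geo.decompositionStabilizer D ⊓ Cfsg.Geo.omegaGL ⇑Q < K ∧
      K < Cfsg.Geo.omegaGL ⇑Q := by
  classical
  have ht2 := card_index D hD.decomp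
  have ht : 4 ≤ t := by omega
  have hnd : ∀ i, ∀ w ∈ D i, w ≠ 0 → ∃ x ∈ D i, polar Q x w ≠ 0 :=
    fun i w hw hw0 => (hD.nondegenerate i w hw hw0).1
  have hex := fun i => exists_frame2 hq Q (D i) (hD.decomp.finrank_eq i) (hnd i) (han i)
  choose u₁ u₂ m₁ m₂ q₁ q₂ o12 using hex
  have hchar := fun i => char2 hq Q (D i) (hD.decomp.finrank_eq i) one_ne_zero (m₁ i) (m₂ i)
    (q₁ i) (q₂ i) (o12 i)
  obtain ⟨u, hu0, hu1⟩ : ∃ u : Fin t → Fin 2 → (ι → F), (∀ i, u i 0 = u₁ i) ∧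
      (∀ i, u i 1 = u₂ i) := ⟨fun i => ![u₁ i, u₂ i], fun i => rfl, fun i => rfl⟩
  have o21 : ∀ i, polar Q (u₂ i) (u₁ i) = 0 := fun i => by rw [polar_comm]; exact o12 i
  have hfr : IsFrame Q D 1 u := by
    refine ⟨fun i j hij => hD.orthogonal i j hij, disj_of_decomp D hD.decomp, ?_, ?_, ?_, ?_⟩
    · intro i j
      have hj : j = 0 ∨ j = 1 := by omega
      rcases hj with rfl | rfl
      · rw [hu0]; exact m₁ i
      · rw [hu1]; exact m₂ i
    · intro i j
      have hj : j = 0 ∨ j = 1 := by omega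
      rcases hj with rfl | rfl
      · rw [hu0]; exact q₁ i
      · rw [hu1]; exact q₂ i
    · intro i j j' hjj
      have hj : j = 0 ∨ j = 1 := by omega
      have hj' : j' = 0 ∨ j' = 1 := by omega
      rcases hj with rfl | rfl <;> rcases hj' with rfl | rfl
      · exact absurd rfl hjj
      · rw [hu0, hu1]; exact o12 i
      · rw [hu0, hu1]; exact o21 i
      · exact absurd rfl hjj
    · intro i v hv hQv
      rcases hchar i v hv hQv with h | h
      · exact ⟨0, by rw [hu0]; exact h⟩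
      · exact ⟨1, by rw [hu1]; exact h⟩
  refine frame_not_maximal hq Q D 1 one_ne_zero u ht hfr (fun i => ⟨0, u i 1, ?_, ?_, ?_⟩)
  · rw [hu1]; exact m₂ i
  · intro h0
    have h1 := q₂ i
    rw [← hu1, h0, map_zero] at h1
    exact one_ne_zero h1.symm
  · rw [hu0, hu1]; exact o21 i

end Cfsg.Agent.Lib.Helper37.FrameApply
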