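import Mathlib
import Cfsg.Prelude.Def_GeometricClasses
import Cfsg.Agent.Lib.Helper37.MaxTS
import Cfsg.Agent.Lib.Helper94.QuadAbs

set_option autoImplicit false

namespace Cfsg.Agent.Lib.Helper37.NonsingPt

open Module QuadraticMap Matrix
open Cfsg.Agent.Lib.Helper44.QSpace Cfsg.Agent.Lib.Helper44.OGroup Cfsg.Agent.Lib.Helper44.OMat
open Cfsg.Agent.Lib.Helper37.PlanePlus Cfsg.Agent.Lib.Helper37.PlaneTwo
open Cfsg.Agent.Lib.Helper37.MaxTS

variable {F : Type*} [Field F] [Fintype F] {ι : Type} [Fintype ι] [DecidableEq ι]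

/-- A finite field of even order has characteristic two. -/
theorem two_eq_zero_of_not_odd (h : ¬ Odd (Fintype.card F)) : (2 : F) = 0 := by
  obtain ⟨p, hp⟩ := CharP.exists F
  obtain ⟨n, hprime, hcard⟩ := FiniteField.card F p
  rw [hcard, Nat.not_odd_iff_even] at h
  have hp2 : p = 2 := by
    have := (Nat.even_pow.mp h).1
    exact (Nat.Prime.even_iff hprime).mp this
  subst hp2
  have := CharP.cast_eq_zero F 2
  exact_mod_cast this

/-- A separating quadratic form satisfies the frozen nondegeneracy predicate. -/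
theorem nd_of_sep (Q : QuadraticForm F (ι → F)) (hS : Sep Q) :
    Cfsg.Geo.IsNondegenerateQuadraticForm ⇑Q where
  smul c v := by rw [q_smul]; ring
  polar_bilinear := ⟨fun x y v => polar_add_left Q x y v, fun c x v => polar_smul_l Q c x v,
    fun v x y => polar_add_right Q v x y, fun c v x => polar_smul_r Q c v x⟩
  nondegenerate := fun v hv => by
    have : ∃ y, polar Q v y ≠ 0 := by
      by_contra h
      push Not at h
      exact hv (hS v h)
    obtain ⟨y, hy⟩ := this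
    exact ⟨⟨y, by rw [polar_comm _ y v]; exact hy⟩, ⟨y, hy⟩⟩

omit [Fintype F] [Fintype ι] [DecidableEq ι] in
theorem add_self_vec (h2 : (2 : F) = 0) (x : ι → F) : x + x = 0 := by
  rw [← two_smul F x, h2, zero_smul]

/-- Isometries in `Ω` preserve the polar form. -/
theorem omega_polar (Q : QuadraticForm F (ι → F)) {g : GL ι F}
    (hg : g ∈ Cfsg.Geo.omegaGL ⇑Q) (x y : ι → F) :
    polar Q ((g : Matrix ι ι F) *ᵥ x) ((g : Matrix ι ι F) *ᵥ y) = polar Q x y := by
  unfold polar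
  rw [← Matrix.mulVec_add, omega_isometry _ hg, omega_isometry _ hg, omega_isometry _ hg]

/-- In characteristic two every product of two reflections lies in `Ω`. -/
theorem exists_rr (Q : QuadraticForm F (ι → F)) (hS : Sep Q) (h2 : (2 : F) = 0)
    (hn : 5 ≤ Fintype.card ι) {a b : ι → F} (ha : Q a ≠ 0) (hb : Q b ≠ 0) :
    ∃ g : GL ι F, g ∈ Cfsg.Geo.omegaGL ⇑Q ∧
      ∀ x, (g : Matrix ι ι F) *ᵥ x = reflE Q a (reflE Q b x) := by
  have : CharP F 2 := CharTwo.of_one_ne_zero_of_two_eq_zero one_ne_zero h2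
  obtain ⟨l, hl⟩ := FiniteField.isSquare_of_char_two (ringChar.eq F 2) (Q a / Q b)
  have hl0 : l ≠ 0 := by
    rintro rfl
    rw [mul_zero] at hl
    exact (div_ne_zero ha hb) hl
  have hQ : Q a = Q (l • b) := by
    rw [q_smul, ← hl]
    field_simp
  obtain ⟨g, hg, hgx⟩ := exists_omega_refl_refl Q hS hn hQ ha
  refine ⟨g, hg, fun x => ?_⟩
  rw [hgx, reflE_smul Q hl0]

/-- An element of `Ω` fixing `v` and moving `w` to `w'`, when `w`, `w'` are not orthogonal. -/
theorem exists_fix_map (Q : QuadraticForm F (ι → F)) (hS : Sep Q) (h2 : (2 : F) = 0)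
    (hn : 13 ≤ Fintype.card ι) {v w w' : ι → F} (hQw : Q w = Q w')
    (hvw : polar Q v w = polar Q v w') (hww : polar Q w w' ≠ 0) :
    ∃ g : GL ι F, g ∈ Cfsg.Geo.omegaGL ⇑Q ∧ (g : Matrix ι ι F) *ᵥ v = v ∧
      (g : Matrix ι ι F) *ᵥ w = w' := by
  have hQ := nd_of_sep Q hS
  have hF2 : ∀ c : F, c + c = 0 := fun c => by rw [← two_mul, h2, zero_mul]
  have hQa : Q (w + w') = polar Q w w' := by
    rw [q_add, ← hQw, hF2, zero_add]
  have ha : Q (w + w') ≠ 0 := by rw [hQa]; exact hww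
  obtain ⟨b, hbU, hb⟩ := Cfsg.Agent.Lib.Helper94.QuadAbs.exists_nonsing_perp hQ
    (Submodule.span F {v, w'})
    (by have := Cfsg.Agent.Lib.Helper94.QuadAbs.finrank_span_pair_le (F := F) v w'; omega)
  have hbv : polar Q v b = 0 := hbU v (Submodule.subset_span (by simp))
  have hbw' : polar Q w' b = 0 := hbU w' (Submodule.subset_span (by simp))
  obtain ⟨g, hg, hgx⟩ := exists_rr Q hS h2 (by omega) hb ha
  refine ⟨g, hg, ?_, ?_⟩
  · have e0 : reflE Q (w + w') v = v :=
      reflE_of_orth (by rw [polar_add_right, hvw, hF2])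
    rw [hgx, e0, reflE_of_orth hbv]
  · rw [hgx]
    have e1 : reflE Q (w + w') w = w' := by
      rw [reflE_apply, polar_add_right, polar_self', h2, zero_mul, zero_add, hQa,
        inv_mul_cancel₀ hww, one_smul, sub_add_eq_sub_sub, sub_self, zero_sub]
      exact neg_eq_of_add_eq_zero_left (add_self_vec h2 w')
    rw [e1, reflE_of_orth hbw']

omit [Fintype F] [Fintype ι] [DecidableEq ι] in
/-- Distinct vectors of the same non-zero norm are independent (characteristic two). -/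
theorem not_mem_span (Q : QuadraticForm F (ι → F)) (h2 : (2 : F) = 0) {v w : ι → F}
    (hv : Q v ≠ 0) (hQ : Q w = Q v) (hne : w ≠ v) : w ∉ Submodule.span F {v} := by
  intro h
  obtain ⟨l, rfl⟩ := Submodule.mem_span_singleton.mp h
  rw [q_smul] at hQ
  have h1 : (l - 1) * (l - 1) = 0 := by
    have : (l * l - 1) * Q v = 0 := by linear_combination hQ
    rcases mul_eq_zero.mp this with h | h
    · linear_combination h - (l - 1) * h2
    · exact absurd h hv
  have h3 : l = 1 := by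
    have := mul_self_eq_zero.mp h1
    linear_combination this
  apply hne
  rw [h3, one_smul]

/-- An auxiliary vector for the two-step transitivity argument. -/
theorem exists_mid (Q : QuadraticForm F (ι → F)) (hS : Sep Q)
    (hn : 13 ≤ Fintype.card ι) {v w w' : ι → F} (hw : w ∉ Submodule.span F {v})
    (hw' : w' ∉ Submodule.span F {v}) :
    ∃ u, polar Q v u = 0 ∧ polar Q w u ≠ 0 ∧ polar Q w' u ≠ 0 ∧ Q u = polar Q w u := by
  have hQ := nd_of_sep Q hS
  obtain ⟨r₁, hr₁U, hr₁⟩ := Cfsg.Agent.Lib.Helper94.QuadAbs.exists_perp_ne hQ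
    (Submodule.span F {v}) w hw
  obtain ⟨r₂, hr₂U, hr₂⟩ := Cfsg.Agent.Lib.Helper94.QuadAbs.exists_perp_ne hQ
    (Submodule.span F {v}) w' hw'
  have hr₁v : polar Q v r₁ = 0 := hr₁U v (Submodule.mem_span_singleton_self v)
  have hr₂v : polar Q v r₂ = 0 := hr₂U v (Submodule.mem_span_singleton_self v)
  obtain ⟨u₀, hu₀v, hu₀w, hu₀w'⟩ :
      ∃ u₀, polar Q v u₀ = 0 ∧ polar Q w u₀ ≠ 0 ∧ polar Q w' u₀ ≠ 0 := by
    by_cases h1 : polar Q w' r₁ = 0
    · by_cases h2' : polar Q w r₂ = 0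
      · refine ⟨r₁ + r₂, ?_, ?_, ?_⟩
        · rw [polar_add_right, hr₁v, hr₂v, add_zero]
        · rw [polar_add_right, h2', add_zero]
          exact hr₁
        · rw [polar_add_right, h1, zero_add]
          exact hr₂
      · exact ⟨r₂, hr₂v, h2', hr₂⟩
    · exact ⟨r₁, hr₁v, hr₁, h1⟩
  obtain ⟨y1, y2, hy1U, hy2U, hQy1, hQy2, hy12⟩ :=
    Cfsg.Agent.Lib.Helper94.QuadAbs.exists_hyp_perp hQ (Submodule.span F {v, w, w'})
      (by
        have := Cfsg.Agent.Lib.Helper94.QuadAbs.finrank_span_triple_le (F := F) v w w'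
        omega)
  have hy1v : polar Q v y1 = 0 := hy1U v (Submodule.subset_span (by simp))
  have hy1w : polar Q w y1 = 0 := hy1U w (Submodule.subset_span (by simp))
  have hy1w' : polar Q w' y1 = 0 := hy1U w' (Submodule.subset_span (by simp))
  have hy2v : polar Q v y2 = 0 := hy2U v (Submodule.subset_span (by simp))
  have hy2w : polar Q w y2 = 0 := hy2U w (Submodule.subset_span (by simp))
  have hy2w' : polar Q w' y2 = 0 := hy2U w' (Submodule.subset_span (by simp))
  obtain ⟨y, hyv, hyw, hyw', hQy⟩ : ∃ y, polar Q v y = 0 ∧ polar Q w y = 0 ∧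
      polar Q w' y = 0 ∧ Q (u₀ + y) ≠ 0 := by
    by_cases h0 : Q u₀ = 0
    · by_cases h1 : polar Q u₀ y1 = 0
      · by_cases h2' : polar Q u₀ y2 = 0
        · refine ⟨y1 + y2, ?_, ?_, ?_, ?_⟩
          · rw [polar_add_right, hy1v, hy2v, add_zero]
          · rw [polar_add_right, hy1w, hy2w, add_zero]
          · rw [polar_add_right, hy1w', hy2w', add_zero]
          · rw [q_add, h0, q_add, hQy1, hQy2, hy12, polar_add_right, h1, h2']
            simp
        · refine ⟨y2, hy2v, hy2w, hy2w', ?_⟩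
          rw [q_add, h0, hQy2, zero_add, zero_add]
          exact h2'
      · refine ⟨y1, hy1v, hy1w, hy1w', ?_⟩
        rw [q_add, h0, hQy1, zero_add, zero_add]
        exact h1
    · refine ⟨0, ?_, ?_, ?_, ?_⟩
      · exact polar_zero_right _ v
      · exact polar_zero_right _ w
      · exact polar_zero_right _ w'
      · rw [add_zero]
        exact h0
  have hu₁v : polar Q v (u₀ + y) = 0 := by rw [polar_add_right, hu₀v, hyv, add_zero]
  have hu₁w : polar Q w (u₀ + y) ≠ 0 := by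
    rw [polar_add_right, hyw, add_zero]
    exact hu₀w
  have hu₁w' : polar Q w' (u₀ + y) ≠ 0 := by
    rw [polar_add_right, hyw', add_zero]
    exact hu₀w'
  refine ⟨(polar Q w (u₀ + y) / Q (u₀ + y)) • (u₀ + y), ?_, ?_, ?_, ?_⟩
  · rw [polar_smul_r, hu₁v, mul_zero]
  · rw [polar_smul_r]
    exact mul_ne_zero (div_ne_zero hu₁w hQy) hu₁w
  · rw [polar_smul_r]
    exact mul_ne_zero (div_ne_zero hu₁w hQy) hu₁w'
  · rw [q_smul, polar_smul_r]
    field_simp

/-- The stabiliser of `v` in `Ω` is transitive on each level set of `polar Q v`. -/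
theorem exists_fix_map' (Q : QuadraticForm F (ι → F)) (hS : Sep Q) (h2 : (2 : F) = 0)
    (hn : 13 ≤ Fintype.card ι) {v w w' : ι → F} (hv : Q v ≠ 0) (hQw : Q w = Q v)
    (hQw' : Q w' = Q v) (hwv : w ≠ v) (hw'v : w' ≠ v)
    (hvw : polar Q v w = polar Q v w') :
    ∃ g : GL ι F, g ∈ Cfsg.Geo.omegaGL ⇑Q ∧ (g : Matrix ι ι F) *ᵥ v = v ∧
      (g : Matrix ι ι F) *ᵥ w = w' := by
  by_cases hww : polar Q w w' = 0
  · obtain ⟨u, huv, huw, huw', hQu⟩ := exists_mid Q hS hn
      (not_mem_span Q h2 hv hQw hwv) (not_mem_span Q h2 hv hQw' hw'v)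
    have hF2 : ∀ c : F, c + c = 0 := fun c => by rw [← two_mul, h2, zero_mul]
    have hQ'' : Q (w + u) = Q w := by rw [q_add, hQu, add_assoc, hF2, add_zero]
    obtain ⟨g₁, hg₁, hg₁v, hg₁w⟩ := exists_fix_map Q hS h2 hn (v := v) (w := w)
      (w' := w + u) hQ''.symm (by rw [polar_add_right, huv, add_zero])
      (by
        rw [polar_add_right, polar_self', h2, zero_mul, zero_add]
        exact huw)
    obtain ⟨g₂, hg₂, hg₂v, hg₂w⟩ := exists_fix_map Q hS h2 hn (v := v) (w := w + u)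
      (w' := w') (by rw [hQ'', hQw, hQw'])
      (by
        rw [polar_add_right, huv, add_zero]
        exact hvw)
      (by
        rw [polar_add_left, hww, zero_add, polar_comm _ u w']
        exact huw')
    refine ⟨g₂ * g₁, Subgroup.mul_mem _ hg₂ hg₁, ?_, ?_⟩
    · rw [Units.val_mul, ← Matrix.mulVec_mulVec, hg₁v, hg₂v]
    · rw [Units.val_mul, ← Matrix.mulVec_mulVec, hg₁w, hg₂w]
  · exact exists_fix_map Q hS h2 hn (by rw [hQw, hQw']) hvw hww

/-- Two distinct vectors of the same norm have a common neighbour in every level graph. -/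
theorem exists_common (Q : QuadraticForm F (ι → F)) (hS : Sep Q) (h2 : (2 : F) = 0)
    (hn : 13 ≤ Fintype.card ι) {x y : ι → F} (hx : Q x ≠ 0) (hxy : Q y = Q x)
    (hne : y ≠ x) (c : F) :
    ∃ z, Q z = Q x ∧ polar Q x z = c ∧ polar Q y z = c := by
  have hQ := nd_of_sep Q hS
  have hy : y ∉ Submodule.span F {x} := not_mem_span Q h2 hx hxy hne
  have hx' : x ∉ Submodule.span F {y} :=
    not_mem_span Q h2 (by rw [hxy]; exact hx) hxy.symm (Ne.symm hne)
  obtain ⟨r, hrU, hr⟩ := Cfsg.Agent.Lib.Helper94.QuadAbs.exists_perp_ne hQ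
    (Submodule.span F {x}) y hy
  obtain ⟨r', hr'U, hr'⟩ := Cfsg.Agent.Lib.Helper94.QuadAbs.exists_perp_ne hQ
    (Submodule.span F {y}) x hx'
  have hrx : polar Q x r = 0 := hrU x (Submodule.mem_span_singleton_self x)
  have hr'y : polar Q y r' = 0 := hr'U y (Submodule.mem_span_singleton_self y)
  obtain ⟨z₀, hz₀⟩ : ∃ z₀, z₀ = (c / polar Q y r) • r + (c / polar Q x r') • r' := ⟨_, rfl⟩
  have hxz₀ : polar Q x z₀ = c := by
    rw [hz₀, polar_add_right, polar_smul_r, polar_smul_r, hrx, mul_zero, zero_add]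
    field_simp
  have hyz₀ : polar Q y z₀ = c := by
    rw [hz₀, polar_add_right, polar_smul_r, polar_smul_r, hr'y, mul_zero, add_zero]
    field_simp
  obtain ⟨t, htU, hQt⟩ := Cfsg.Agent.Lib.Helper94.QuadAbs.exists_norm_perp hQ
    (Submodule.span F {x, y, z₀})
    (by
      have := Cfsg.Agent.Lib.Helper94.QuadAbs.finrank_span_triple_le (F := F) x y z₀
      omega) (Q x - Q z₀)
  have htx : polar Q x t = 0 := htU x (Submodule.subset_span (by simp))
  have hty : polar Q y t = 0 := htU y (Submodule.subset_span (by simp))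
  have htz : polar Q z₀ t = 0 := htU z₀ (Submodule.subset_span (by simp))
  refine ⟨z₀ + t, ?_, ?_, ?_⟩
  · rw [q_add, hQt, htz]
    ring
  · rw [polar_add_right, hxz₀, htx, add_zero]
  · rw [polar_add_right, hyz₀, hty, add_zero]

/-- Some element of `Ω` moves a given non-singular vector. -/
theorem exists_moving (Q : QuadraticForm F (ι → F)) (hS : Sep Q) (h2 : (2 : F) = 0)
    (hn : 13 ≤ Fintype.card ι) {v : ι → F} (hv : Q v ≠ 0) :
    ∃ g : GL ι F, g ∈ Cfsg.Geo.omegaGL ⇑Q ∧ (g : Matrix ι ι F) *ᵥ v ≠ v := by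
  have hQ := nd_of_sep Q hS
  have hv0 : v ≠ 0 := by
    rintro rfl
    exact hv (map_zero Q)
  obtain ⟨a₀, ha₀⟩ : ∃ a₀, polar Q v a₀ ≠ 0 := by
    by_contra h
    push Not at h
    exact hv0 (hS v h)
  obtain ⟨t, htU, hQt⟩ := Cfsg.Agent.Lib.Helper94.QuadAbs.exists_norm_perp hQ
    (Submodule.span F {v, a₀})
    (by
      have := Cfsg.Agent.Lib.Helper94.QuadAbs.finrank_span_pair_le (F := F) v a₀
      omega) (Q v - Q a₀)
  have htv : polar Q v t = 0 := htU v (Submodule.subset_span (by simp))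
  have hta : polar Q a₀ t = 0 := htU a₀ (Submodule.subset_span (by simp))
  have hQx : Q (a₀ + t) = Q v := by
    rw [q_add, hQt, hta]
    ring
  have hpx : polar Q v (a₀ + t) ≠ 0 := by
    rw [polar_add_right, htv, add_zero]
    exact ha₀
  obtain ⟨g, hg, -, hgv⟩ := exists_fix_map Q hS h2 hn (v := 0) (w := v) (w' := a₀ + t)
    hQx.symm (by rw [polar_zero_left, polar_zero_left]) hpx
  refine ⟨g, hg, ?_⟩
  rw [hgv]
  intro h
  rw [h, polar_self', h2, zero_mul] at hpx
  exact hpx rfl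

/-- In even characteristic the stabiliser in `Ω` of a non-singular point is maximal. -/
theorem nonsing_pt_maximal (Q : QuadraticForm F (ι → F)) (hS : Sep Q) (h2 : (2 : F) = 0)
    (hn : 13 ≤ Fintype.card ι) (v : ι → F) (hv : Q v ≠ 0) :
    Cfsg.Geo.IsMaximalIn (Cfsg.Geo.omegaGL ⇑Q)
      (Cfsg.Geo.subspaceStabilizer (Submodule.span F {v}) ⊓ Cfsg.Geo.omegaGL ⇑Q) := by
  have hfix : ∀ g : GL ι F, g ∈ Cfsg.Geo.omegaGL ⇑Q →
      (g ∈ Cfsg.Geo.subspaceStabilizer (Submodule.span F {v}) ↔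
        (g : Matrix ι ι F) *ᵥ v = v) := by
    intro g hg
    constructor
    · intro h
      by_contra hne
      exact not_mem_span Q h2 hv (omega_isometry _ hg v) hne
        (((mem_stab_iff _ _).mp h v).mp (Submodule.mem_span_singleton_self v))
    · intro h
      exact stab_line g v 1 one_ne_zero (by rw [h, one_smul])
  have hmul : ∀ (a b : GL ι F) (x : ι → F), ((a * b : GL ι F) : Matrix ι ι F) *ᵥ x =
      (a : Matrix ι ι F) *ᵥ ((b : Matrix ι ι F) *ᵥ x) := by
    intro a b x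
    rw [Units.val_mul, Matrix.mulVec_mulVec]
  have hinv : ∀ (a : GL ι F) (x : ι → F),
      ((a⁻¹ : GL ι F) : Matrix ι ι F) *ᵥ ((a : Matrix ι ι F) *ᵥ x) = x := by
    intro a x
    rw [← hmul, inv_mul_cancel, Units.val_one, Matrix.one_mulVec]
  have hinv' : ∀ (a : GL ι F) (x : ι → F),
      (a : Matrix ι ι F) *ᵥ (((a⁻¹ : GL ι F) : Matrix ι ι F) *ᵥ x) = x := by
    intro a x
    rw [← hmul, mul_inv_cancel, Units.val_one, Matrix.one_mulVec]
  refine ⟨lt_of_le_of_ne inf_le_right ?_, ?_⟩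
  · intro heq
    obtain ⟨g, hgΩ, hgv⟩ := exists_moving Q hS h2 hn hv
    have hg : g ∈ Cfsg.Geo.subspaceStabilizer (Submodule.span F {v}) ⊓
        Cfsg.Geo.omegaGL ⇑Q := by
      rw [heq]
      exact hgΩ
    exact hgv ((hfix g hgΩ).mp hg.1)
  · intro M hHM hMΩ
    by_cases hMH : M = Cfsg.Geo.subspaceStabilizer (Submodule.span F {v}) ⊓
        Cfsg.Geo.omegaGL ⇑Q
    · exact Or.inl hMH
    · right
      obtain ⟨m₀, hm₀M, hm₀v⟩ : ∃ m ∈ M, (m : Matrix ι ι F) *ᵥ v ≠ v := by
        by_contra hcon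
        push Not at hcon
        exact hMH (le_antisymm
          (fun m hm => ⟨(hfix m (hMΩ hm)).mpr (hcon m hm), hMΩ hm⟩) hHM)
      obtain ⟨c, hc⟩ : ∃ c, c = polar Q v ((m₀ : Matrix ι ι F) *ᵥ v) := ⟨_, rfl⟩
      have key : ∀ m ∈ M, ∀ x' : ι → F, Q x' = Q v → x' ≠ (m : Matrix ι ι F) *ᵥ v →
          polar Q ((m : Matrix ι ι F) *ᵥ v) x' = c →
          ∃ m' ∈ M, (m' : Matrix ι ι F) *ᵥ v = x' := by
        intro m hm x' hQx' hne hpol
        have hmΩ := hMΩ hm
        have hm₀Ω := hMΩ hm₀M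
        have hmiΩ : m⁻¹ ∈ Cfsg.Geo.omegaGL ⇑Q := Subgroup.inv_mem _ hmΩ
        obtain ⟨h, hhΩ, hhv, hhw⟩ := exists_fix_map' Q hS h2 hn (v := v)
          (w := (m₀ : Matrix ι ι F) *ᵥ v) (w' := ((m⁻¹ : GL ι F) : Matrix ι ι F) *ᵥ x') hv
          (omega_isometry _ hm₀Ω v) (by rw [omega_isometry _ hmiΩ, hQx']) hm₀v
          (by
            intro h'
            apply hne
            rw [← h', hinv'])
          (by
            rw [← hc, ← hpol, ← omega_polar Q hmiΩ ((m : Matrix ι ι F) *ᵥ v) x', hinv])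
        have hhM : h ∈ M := hHM ⟨(hfix h hhΩ).mpr hhv, hhΩ⟩
        refine ⟨m * h * m₀, Subgroup.mul_mem _ (Subgroup.mul_mem _ hm hhM) hm₀M, ?_⟩
        rw [hmul, hmul, hhw, hinv']
      have all : ∀ x : ι → F, Q x = Q v → ∃ m ∈ M, (m : Matrix ι ι F) *ᵥ v = x := by
        intro x hQx
        have h1v : ((1 : GL ι F) : Matrix ι ι F) *ᵥ v = v := by
          rw [Units.val_one, Matrix.one_mulVec]
        by_cases hxv : x = v
        · exact ⟨1, Subgroup.one_mem _, by rw [h1v, hxv]⟩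
        · obtain ⟨z, hQz, hvz, hxz⟩ := exists_common Q hS h2 hn hv hQx hxv c
          by_cases hzv : z = v
          · rw [hzv] at hxz
            exact key 1 (Subgroup.one_mem _) x hQx (by rw [h1v]; exact hxv)
              (by rw [h1v, polar_comm _ v x]; exact hxz)
          · obtain ⟨m₁, hm₁, hm₁v⟩ := key 1 (Subgroup.one_mem _) z hQz
              (by rw [h1v]; exact hzv) (by rw [h1v]; exact hvz)
            by_cases hxz' : x = z
            · exact ⟨m₁, hm₁, by rw [hm₁v, hxz']⟩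
            · exact key m₁ hm₁ x hQx (by rw [hm₁v]; exact hxz')
                (by rw [hm₁v, polar_comm _ z x]; exact hxz)
      apply le_antisymm hMΩ
      intro g hg
      obtain ⟨m, hm, hmv⟩ := all ((g : Matrix ι ι F) *ᵥ v) (omega_isometry _ hg v)
      have hmg : m⁻¹ * g ∈ M := by
        apply hHM
        have hΩ : m⁻¹ * g ∈ Cfsg.Geo.omegaGL ⇑Q :=
          Subgroup.mul_mem _ (Subgroup.inv_mem _ (hMΩ hm)) hg
        refine ⟨(hfix _ hΩ).mpr ?_, hΩ⟩
        rw [hmul, ← hmv, hinv]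
      have e : g = m * (m⁻¹ * g) := by group
      rw [e]
      exact Subgroup.mul_mem _ hm hmg

end Cfsg.Agent.Lib.Helper37.NonsingPt
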