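import Mathlib
import Cfsg.Prelude.Def_GeometricClasses
import Cfsg.Agent.Lib.Helper37.FrameThree
import Cfsg.Agent.Lib.Helper37.FrameApply
import Cfsg.Agent.Lib.Helper37.PlaneTwo
import Cfsg.Agent.Lib.Helper37.NonsingPt

set_option autoImplicit false

namespace Cfsg.Agent.Lib.Helper37.DecTwo

open Module QuadraticMap Matrix
open Cfsg.Agent.Lib.Helper44.QSpace Cfsg.Agent.Lib.Helper44.OGroup Cfsg.Agent.Lib.Helper44.OMat
open Cfsg.Agent.Lib.Helper37.PlanePlus Cfsg.Agent.Lib.Helper37.FrameThree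
open Cfsg.Agent.Lib.Helper37.FrameApply Cfsg.Agent.Lib.Helper37.NonsingPt

variable {F : Type*} [Field F] {ι : Type} [Fintype ι] [DecidableEq ι]

/-- The stabiliser of a decomposition in `Ω` preserves the set of block vectors of norm `c`. -/
theorem hA_norm (Q : (ι → F) → F) {t : ℕ} (D : Fin t → Submodule F (ι → F)) (c : F) :
    ∀ g ∈ Cfsg.Geo.decompositionStabilizer D ⊓ Cfsg.Geo.omegaGL Q,
      ∀ v ∈ {v : ι → F | ∃ i, v ∈ D i ∧ Q v = c},
        (g : Matrix ι ι F) *ᵥ v ∈ {v : ι → F | ∃ i, v ∈ D i ∧ Q v = c} := by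
  rintro g ⟨hgD, hgΩ⟩ v ⟨i, hvi, hvQ⟩
  obtain ⟨σ, hσ⟩ := hgD
  refine ⟨σ i, ?_, ?_⟩
  · rw [← hσ i]
    exact ⟨v, hvi, by rw [Matrix.toLin'_apply]⟩
  · have := omega_isometry Q hgΩ v
    rw [this]
    exact hvQ

/-- A system of hyperbolic bases of the blocks of an orthogonal decomposition into planes,
with the nonsingular vectors `p i = s i + u i`. -/
structure HypSys (Q : QuadraticForm F (ι → F)) {t : ℕ} (D : Fin t → Submodule F (ι → F))
    (s u p : Fin t → (ι → F)) : Prop where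
  orth : ∀ i j, i ≠ j → ∀ x ∈ D i, ∀ y ∈ D j, polar Q x y = 0
  ms : ∀ i, s i ∈ D i
  mu : ∀ i, u i ∈ D i
  qs : ∀ i, Q (s i) = 0
  qu : ∀ i, Q (u i) = 0
  su : ∀ i, polar Q (s i) (u i) = 1
  span : ∀ i, ∀ w ∈ D i, ∃ α β : F, w = α • s i + β • u i
  hp : ∀ i, p i = s i + u i

omit [DecidableEq ι] in
theorem exists_hypSys (Q : QuadraticForm F (ι → F)) {t : ℕ} (D : Fin t → Submodule F (ι → F))
    (hD : Cfsg.Geo.IsNondegenerateMDecomposition (polar ⇑Q) 2 D)
    (hplus : ∀ i, Cfsg.Geo.IsPlusTypeOn ⇑Q (D i)) :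
    ∃ s u p : Fin t → (ι → F), HypSys Q D s u p := by
  have hex := fun i => Cfsg.Agent.Lib.Helper37.PlaneTwo.exists_hyp_basis Q (D i)
    (hD.decomp.finrank_eq i) (hD.nondegenerate i) (hplus i)
  choose s u hs hu hQs hQu hsu hsp using hex
  exact ⟨s, u, fun i => s i + u i, fun i j hij => hD.orthogonal i j hij, hs, hu, hQs, hQu, hsu,
    hsp, fun i => rfl⟩

section facts

variable {Q : QuadraticForm F (ι → F)} {t : ℕ} {D : Fin t → Submodule F (ι → F)}
  {s u p : Fin t → (ι → F)}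

omit [Fintype ι] [DecidableEq ι] in
theorem HypSys.us (H : HypSys Q D s u p) (i : Fin t) : polar Q (u i) (s i) = 1 := by
  rw [polar_comm]; exact H.su i

omit [Fintype ι] [DecidableEq ι] in
theorem HypSys.mp (H : HypSys Q D s u p) (i : Fin t) : p i ∈ D i := by
  rw [H.hp]; exact (D i).add_mem (H.ms i) (H.mu i)

omit [Fintype ι] [DecidableEq ι] in
theorem HypSys.qp (H : HypSys Q D s u p) (i : Fin t) : Q (p i) = 1 := by
  rw [H.hp, q_add, H.qs, H.qu, H.su]; ring

omit [Fintype ι] [DecidableEq ι] in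
theorem HypSys.ps (H : HypSys Q D s u p) (i : Fin t) : polar Q (p i) (s i) = 1 := by
  rw [H.hp, polar_add_left, polar_self', H.qs, H.us]; ring

omit [Fintype ι] [DecidableEq ι] in
theorem HypSys.pu (H : HypSys Q D s u p) (i : Fin t) : polar Q (p i) (u i) = 1 := by
  rw [H.hp, polar_add_left, polar_self', H.qu, H.su]; ring

omit [Fintype ι] [DecidableEq ι] in
theorem HypSys.sp (H : HypSys Q D s u p) (i : Fin t) : polar Q (s i) (p i) = 1 := by
  rw [polar_comm]; exact H.ps i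

omit [Fintype ι] [DecidableEq ι] in
theorem HypSys.pp (H : HypSys Q D s u p) (h2 : (2 : F) = 0) (i j : Fin t) :
    polar Q (p i) (p j) = 0 := by
  by_cases hij : i = j
  · subst hij
    rw [polar_self', h2, zero_mul]
  · exact H.orth i j hij _ (H.mp i) _ (H.mp j)

omit [Fintype ι] [DecidableEq ι] in
/-- The norm of a block vector in coordinates. -/
theorem HypSys.q_coord (H : HypSys Q D s u p) (i : Fin t) (α β : F) :
    Q (α • s i + β • u i) = α * β := by
  rw [q_add, q_smul, q_smul, polar_smul_l, polar_smul_r, H.qs, H.qu, H.su]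
  ring

omit [Fintype ι] [DecidableEq ι] in
theorem refl_one {a : ι → F} (ha : Q a = 1) (x : ι → F) :
    reflE Q a x = x - polar Q x a • a := by
  rw [reflE_apply, ha, inv_one, one_mul]

omit [Fintype ι] [DecidableEq ι] in
theorem HypSys.q_three (H : HypSys Q D s u p) (h2 : (2 : F) = 0) (i₀ i₁ i₂ : Fin t) :
    Q (p i₀ + p i₁ + p i₂) = 1 := by
  rw [q_add, q_add, H.qp, H.qp, H.qp, polar_add_left, H.pp h2, H.pp h2, H.pp h2]
  linear_combination h2

/-- The product of the reflections in `p i₀` and `p i₀ + p i₁ + p i₂` does not stabilise the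
decomposition. -/
theorem HypSys.gB_not_stab (H : HypSys Q D s u p) (h2 : (2 : F) = 0) {i₀ i₁ i₂ : Fin t}
    (h01 : i₀ ≠ i₁) (h02 : i₀ ≠ i₂) (h12 : i₁ ≠ i₂) (g : GL ι F)
    (hg : ∀ x, (g : Matrix ι ι F) *ᵥ x = reflE Q (p i₀) (reflE Q (p i₀ + p i₁ + p i₂) x)) :
    g ∉ Cfsg.Geo.decompositionStabilizer D := by
  rintro ⟨σ, hσ⟩
  have hmap : (g : Matrix ι ι F) *ᵥ s i₀ ∈ D (σ i₀) := by
    rw [← hσ i₀]
    exact ⟨s i₀, H.ms i₀, by rw [Matrix.toLin'_apply]⟩
  have hQb := H.q_three h2 i₀ i₁ i₂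
  have o1 : polar Q (s i₀) (p i₁) = 0 := H.orth i₀ i₁ h01 _ (H.ms i₀) _ (H.mp i₁)
  have o2 : polar Q (s i₀) (p i₂) = 0 := H.orth i₀ i₂ h02 _ (H.ms i₀) _ (H.mp i₂)
  have e1 : polar Q (s i₀) (p i₀ + p i₁ + p i₂) = 1 := by
    rw [polar_add_right, polar_add_right, H.sp, o1, o2]
    ring
  have e2 : polar Q (s i₀ - (p i₀ + p i₁ + p i₂)) (p i₀) = 1 := by
    rw [polar_sub_left, polar_add_left, polar_add_left, H.sp, H.pp h2, H.pp h2, H.pp h2]
    ring
  have ez : (g : Matrix ι ι F) *ᵥ s i₀ = s i₀ - (p i₀ + p i₁ + p i₂) - p i₀ := by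
    rw [hg, refl_one hQb, e1, one_smul, refl_one (H.qp i₀), e2, one_smul]
  rw [ez] at hmap
  have k0 : polar Q (s i₀ - (p i₀ + p i₁ + p i₂) - p i₀) (u i₀) = -1 := by
    rw [polar_sub_left, polar_sub_left, polar_add_left, polar_add_left, H.su, H.pu,
      H.orth i₁ i₀ h01.symm _ (H.mp i₁) _ (H.mu i₀), H.orth i₂ i₀ h02.symm _ (H.mp i₂) _ (H.mu i₀)]
    ring
  have k1 : polar Q (s i₀ - (p i₀ + p i₁ + p i₂) - p i₀) (s i₁) = -1 := by
    rw [polar_sub_left, polar_sub_left, polar_add_left, polar_add_left, H.ps,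
      H.orth i₀ i₁ h01 _ (H.ms i₀) _ (H.ms i₁), H.orth i₀ i₁ h01 _ (H.mp i₀) _ (H.ms i₁),
      H.orth i₂ i₁ h12.symm _ (H.mp i₂) _ (H.ms i₁)]
    ring
  have hs0 : σ i₀ = i₀ := by
    by_contra hne
    have := H.orth (σ i₀) i₀ hne _ hmap _ (H.mu i₀)
    rw [k0] at this
    simp at this
  have hs1 : σ i₀ = i₁ := by
    by_contra hne
    have := H.orth (σ i₀) i₁ hne _ hmap _ (H.ms i₁)
    rw [k1] at this
    simp at this
  exact h01 (hs0.symm.trans hs1)

end facts

section two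

variable [Fintype F]

/-- Over the field with two elements, the stabiliser in `Ω` of an orthogonal decomposition into
plus-type planes is not maximal. -/
theorem plus2_two_not_maximal (hq : Fintype.card F = 2) (Q : QuadraticForm F (ι → F))
    (hS : Sep Q) {t : ℕ} (D : Fin t → Submodule F (ι → F))
    (hD : Cfsg.Geo.IsNondegenerateMDecomposition (polar ⇑Q) 2 D)
    (hplus : ∀ i, Cfsg.Geo.IsPlusTypeOn ⇑Q (D i)) (hn : 6 ≤ Fintype.card ι) :
    ∃ K : Subgroup (GL ι F), Cfsg.Geo.decompositionStabilizer D ⊓ Cfsg.Geo.omegaGL ⇑Q < K ∧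
      K < Cfsg.Geo.omegaGL ⇑Q := by
  classical
  have ht2 := card_index D hD.decomp
  have ht : 3 ≤ t := by omega
  have h2 : (2 : F) = 0 := by
    have h := Nat.cast_card_eq_zero F
    rw [hq] at h
    exact_mod_cast h
  have hF : ∀ a : F, a = 0 ∨ a = 1 := by
    intro a
    have h := FiniteField.pow_card a
    rw [hq] at h
    have h' : a * (a - 1) = 0 := by linear_combination h
    rcases mul_eq_zero.mp h' with h0 | h0
    · exact Or.inl h0
    · exact Or.inr (sub_eq_zero.mp h0)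
  obtain ⟨s, u, p, H⟩ := exists_hypSys Q D hD hplus
  obtain ⟨i₀, i₁, i₂, h01, h02, h12⟩ : ∃ i₀ i₁ i₂ : Fin t, i₀ ≠ i₁ ∧ i₀ ≠ i₂ ∧ i₁ ≠ i₂ := by
    refine ⟨⟨0, by omega⟩, ⟨1, by omega⟩, ⟨2, by omega⟩, ?_, ?_, ?_⟩ <;> simp [Fin.ext_iff]
  -- the nonsingular vectors of the blocks
  have key : ∀ w, w ∈ {v : ι → F | ∃ i, v ∈ D i ∧ Q v = 1} → ∃ i, w = p i := by
    rintro w ⟨i, hw, hQw⟩
    obtain ⟨α, β, rfl⟩ := H.span i w hw
    rw [H.q_coord] at hQw
    refine ⟨i, ?_⟩
    rcases hF α with rfl | rfl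
    · simp at hQw
    · have hβ : β = 1 := by linear_combination hQw
      rw [hβ, one_smul, one_smul, H.hp]
  have pmem : ∀ i, p i ∈ {v : ι → F | ∃ i, v ∈ D i ∧ Q v = 1} := fun i => ⟨i, H.mp i, H.qp i⟩
  apply set_between (⇑Q) D {v : ι → F | ∃ i, v ∈ D i ∧ Q v = 1}
  · exact hA_norm (⇑Q) D 1
  · have hQb := H.q_three h2 i₀ i₁ i₂
    obtain ⟨g, hgΩ, hg⟩ := exists_rr Q hS h2 (by omega) (a := p i₀) (b := p i₀ + p i₁ + p i₂)
      (by rw [H.qp]; exact one_ne_zero) (by rw [hQb]; exact one_ne_zero)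
    refine ⟨g, hgΩ, ?_, H.gB_not_stab h2 h01 h02 h12 g hg⟩
    have f1 : ∀ i, polar Q (p i) (p i₀ + p i₁ + p i₂) = 0 := by
      intro i
      rw [polar_add_right, polar_add_right, H.pp h2, H.pp h2, H.pp h2]
      ring
    have fix : ∀ i, (g : Matrix ι ι F) *ᵥ p i = p i := by
      intro i
      rw [hg, reflE_of_orth (f1 i), reflE_of_orth (H.pp h2 i i₀)]
    intro w
    constructor
    · intro hw
      obtain ⟨i, rfl⟩ := key w hw
      rw [fix]
      exact pmem i
    · intro hw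
      obtain ⟨i, hi⟩ := key _ hw
      have e : (g : Matrix ι ι F) *ᵥ w = (g : Matrix ι ι F) *ᵥ p i := by rw [hi, fix]
      have e' : w = p i := Cfsg.Agent.Lib.Helper94.GLAux.gl_mulVec_injective g e
      rw [e']
      exact pmem i
  · have o1 : polar Q (s i₀) (p i₁) = 0 := H.orth i₀ i₁ h01 _ (H.ms i₀) _ (H.mp i₁)
    have hQb : Q (s i₀ + p i₁) = 1 := by
      rw [q_add, H.qs, H.qp, o1]
      ring
    obtain ⟨g, hgΩ, hg⟩ := exists_rr Q hS h2 (by omega) (a := p i₁) (b := s i₀ + p i₁)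
      (by rw [H.qp]; exact one_ne_zero) (by rw [hQb]; exact one_ne_zero)
    refine ⟨g, hgΩ, p i₀, pmem i₀, ?_⟩
    have e1 : polar Q (p i₀) (s i₀ + p i₁) = 1 := by
      rw [polar_add_right, H.ps, H.pp h2]
      ring
    have e2 : polar Q (p i₀ - (s i₀ + p i₁)) (p i₁) = 0 := by
      rw [polar_sub_left, polar_add_left, H.pp h2, H.pp h2, o1]
      ring
    have ez : (g : Matrix ι ι F) *ᵥ p i₀ = p i₀ - (s i₀ + p i₁) := by
      rw [hg, refl_one hQb, e1, one_smul, reflE_of_orth e2]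
    rw [ez]
    rintro ⟨i, hi, -⟩
    have k0 : polar Q (p i₀ - (s i₀ + p i₁)) (s i₀) = 1 := by
      rw [polar_sub_left, polar_add_left, H.ps, polar_self', H.qs,
        H.orth i₁ i₀ h01.symm _ (H.mp i₁) _ (H.ms i₀)]
      ring
    have k1 : polar Q (p i₀ - (s i₀ + p i₁)) (s i₁) = -1 := by
      rw [polar_sub_left, polar_add_left, H.ps, H.orth i₀ i₁ h01 _ (H.mp i₀) _ (H.ms i₁),
        H.orth i₀ i₁ h01 _ (H.ms i₀) _ (H.ms i₁)]
      ring
    have hs0 : i = i₀ := by
      by_contra hne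
      have := H.orth i i₀ hne _ hi _ (H.ms i₀)
      rw [k0] at this
      simp at this
    have hs1 : i = i₁ := by
      by_contra hne
      have := H.orth i i₁ hne _ hi _ (H.ms i₁)
      rw [k1] at this
      simp at this
    exact h01 (hs0.symm.trans hs1)

end two

section four

/-- Membership in the prime field of a field of characteristic two. -/
def IsF2 (c : F) : Prop := c * c = c

omit [Fintype ι] [DecidableEq ι] in
theorem isF2_zero : IsF2 (0 : F) := by
  unfold IsF2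
  ring

omit [Fintype ι] [DecidableEq ι] in
theorem isF2_add (h2 : (2 : F) = 0) {c d : F} (hc : IsF2 c) (hd : IsF2 d) : IsF2 (c + d) := by
  unfold IsF2 at *
  linear_combination hc + hd + c * d * h2

omit [Fintype ι] [DecidableEq ι] in
theorem isF2_sub (h2 : (2 : F) = 0) {c d : F} (hc : IsF2 c) (hd : IsF2 d) : IsF2 (c - d) := by
  unfold IsF2 at *
  linear_combination hc + hd + (d - c * d) * h2

omit [Fintype ι] [DecidableEq ι] in
theorem isF2_mul {c d : F} (hc : IsF2 c) (hd : IsF2 d) : IsF2 (c * d) := by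
  unfold IsF2 at *
  linear_combination d * d * hc + c * hd

variable [Fintype F]

/-- Over the field with four elements, the stabiliser in `Ω` of an orthogonal decomposition into
plus-type planes is not maximal: it preserves an `F₂`-structure. -/
theorem plus2_four_not_maximal (hq : Fintype.card F = 4) (Q : QuadraticForm F (ι → F))
    (hS : Sep Q) {t : ℕ} (D : Fin t → Submodule F (ι → F))
    (hD : Cfsg.Geo.IsNondegenerateMDecomposition (polar ⇑Q) 2 D)
    (hplus : ∀ i, Cfsg.Geo.IsPlusTypeOn ⇑Q (D i)) (hn : 6 ≤ Fintype.card ι) :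
    ∃ K : Subgroup (GL ι F), Cfsg.Geo.decompositionStabilizer D ⊓ Cfsg.Geo.omegaGL ⇑Q < K ∧
      K < Cfsg.Geo.omegaGL ⇑Q := by
  classical
  have ht2 := card_index D hD.decomp
  have ht : 3 ≤ t := by omega
  have h2 : (2 : F) = 0 := by
    have h := Nat.cast_card_eq_zero F
    rw [hq] at h
    have h4 : (2 : F) * 2 = 0 := by
      have : ((4 : ℕ) : F) = 2 * 2 := by norm_num
      rw [← this]
      exact h
    exact mul_self_eq_zero.mp h4
  have h3 : ∀ x : F, x ≠ 0 → x ^ 3 = 1 := by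
    intro x hx
    have := FiniteField.pow_card_sub_one_eq_one x hx
    rw [hq] at this
    exact this
  obtain ⟨s, u, p, H⟩ := exists_hypSys Q D hD hplus
  obtain ⟨i₀, i₁, i₂, h01, h02, h12⟩ : ∃ i₀ i₁ i₂ : Fin t, i₀ ≠ i₁ ∧ i₀ ≠ i₂ ∧ i₁ ≠ i₂ := by
    refine ⟨⟨0, by omega⟩, ⟨1, by omega⟩, ⟨2, by omega⟩, ?_, ?_, ?_⟩ <;> simp [Fin.ext_iff]
  obtain ⟨N, hN⟩ : ∃ N : Set (ι → F), N = {v : ι → F | ∃ i, v ∈ D i ∧ Q v = 1} := ⟨_, rfl⟩
  have pN : ∀ i, p i ∈ N := fun i => by rw [hN]; exact ⟨i, H.mp i, H.qp i⟩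
  -- the polar form takes values in the prime field on norm-one block vectors
  have key : ∀ y ∈ N, ∀ y' ∈ N, IsF2 (polar Q y y') := by
    intro y hy y' hy'
    rw [hN] at hy hy'
    obtain ⟨i, hy, hQy⟩ := hy
    obtain ⟨j, hy', hQy'⟩ := hy'
    by_cases hij : i = j
    · subst hij
      obtain ⟨α, α', rfl⟩ := H.span i y hy
      obtain ⟨β, β', rfl⟩ := H.span i y' hy'
      rw [H.q_coord] at hQy hQy'
      have e : polar Q (α • s i + α' • u i) (β • s i + β' • u i) = α * β' + α' * β := by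
        simp only [polar_add_left, polar_add_right, polar_smul_l, polar_smul_r, polar_self',
          H.qs, H.qu, H.su, H.us]
        ring
      rw [e]
      have huu : (α * β') * (α' * β) = 1 := by linear_combination β * β' * hQy + hQy'
      have hu0 : α * β' ≠ 0 := left_ne_zero_of_mul_eq_one huu
      have hu0' : α' * β ≠ 0 := right_ne_zero_of_mul_eq_one huu
      have c1 := h3 _ hu0
      have c2 := h3 _ hu0'
      have e1 : (α * β') ^ 2 = α' * β := by
        linear_combination (α' * β) * c1 - (α * β') ^ 2 * huu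
      have e2 : (α' * β) ^ 2 = α * β' := by
        linear_combination (α * β') * c2 - (α' * β) ^ 2 * huu
      unfold IsF2
      linear_combination e1 + e2 + (α * β') * (α' * β) * h2
    · rw [H.orth i j hij _ hy _ hy']
      exact isF2_zero
  obtain ⟨S, hSdef⟩ : ∃ S : Set (ι → F), S = {x : ι → F | ∀ y ∈ N, IsF2 (polar Q x y)} :=
    ⟨_, rfl⟩
  have memS : ∀ x, x ∈ S ↔ ∀ y ∈ N, IsF2 (polar Q x y) := fun x => by rw [hSdef]; rfl
  have hrefl : ∀ a, Q a = 1 → (∀ y ∈ N, IsF2 (polar Q a y)) → (∀ x ∈ S, IsF2 (polar Q x a)) →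
      ∀ x ∈ S, reflE Q a x ∈ S := by
    intro a ha h1 h2' x hx
    rw [memS]
    intro y hy
    rw [refl_one ha, polar_sub_left, polar_smul_l]
    exact isF2_sub h2 ((memS x).mp hx y hy) (isF2_mul (h2' x hx) (h1 y hy))
  apply set_between (⇑Q) D S
  · intro g hg x hx
    rw [memS]
    intro y hy
    have hginv := inv_mem hg
    have hy' : ((g⁻¹ : GL ι F) : Matrix ι ι F) *ᵥ y ∈ N := by
      have := hA_norm (⇑Q) D 1 g⁻¹ hginv y (by rw [hN] at hy; exact hy)
      rw [hN]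
      exact this
    have e : polar Q ((g : Matrix ι ι F) *ᵥ x) y = polar Q x (((g⁻¹ : GL ι F) : Matrix ι ι F) *ᵥ y) := by
      rw [← omega_polar Q hg.2 x, Cfsg.Agent.Lib.Helper94.GLAux.gl_mulVec_inv]
    rw [e]
    exact (memS x).mp hx _ hy'
  · have hQb := H.q_three h2 i₀ i₁ i₂
    obtain ⟨g, hgΩ, hg⟩ := exists_rr Q hS h2 (by omega) (a := p i₀) (b := p i₀ + p i₁ + p i₂)
      (by rw [H.qp]; exact one_ne_zero) (by rw [hQb]; exact one_ne_zero)
    refine ⟨g, hgΩ, ?_, H.gB_not_stab h2 h01 h02 h12 g hg⟩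
    have ha1 : ∀ y ∈ N, IsF2 (polar Q (p i₀) y) := key _ (pN i₀)
    have ha2 : ∀ x ∈ S, IsF2 (polar Q x (p i₀)) := fun x hx => (memS x).mp hx _ (pN i₀)
    have hb1 : ∀ y ∈ N, IsF2 (polar Q (p i₀ + p i₁ + p i₂) y) := by
      intro y hy
      rw [polar_add_left, polar_add_left]
      exact isF2_add h2 (isF2_add h2 (key _ (pN i₀) y hy) (key _ (pN i₁) y hy))
        (key _ (pN i₂) y hy)
    have hb2 : ∀ x ∈ S, IsF2 (polar Q x (p i₀ + p i₁ + p i₂)) := by
      intro x hx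
      rw [polar_add_right, polar_add_right]
      exact isF2_add h2 (isF2_add h2 ((memS x).mp hx _ (pN i₀)) ((memS x).mp hx _ (pN i₁)))
        ((memS x).mp hx _ (pN i₂))
    intro w
    constructor
    · intro hw
      rw [hg]
      exact hrefl _ (H.qp i₀) ha1 ha2 _ (hrefl _ hQb hb1 hb2 _ hw)
    · intro hw
      rw [hg] at hw
      have k1 := hrefl _ (H.qp i₀) ha1 ha2 _ hw
      rw [reflE_reflE] at k1
      have k2 := hrefl _ hQb hb1 hb2 _ k1
      rw [reflE_reflE] at k2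
      exact k2
  · obtain ⟨l, hl0, hl1⟩ : ∃ l : F, l ≠ 0 ∧ l ≠ 1 := by
      by_contra hcon
      push Not at hcon
      have hsub : (Finset.univ : Finset F) ⊆ {0, 1} := by
        intro x _
        by_cases hx : x = 0
        · simp [hx]
        · simp [hcon x hx]
      have hle : Fintype.card F ≤ 2 := by
        calc Fintype.card F = (Finset.univ : Finset F).card := Finset.card_univ.symm
          _ ≤ ({0, 1} : Finset F).card := Finset.card_le_card hsub
          _ ≤ 2 := Finset.card_le_two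
      omega
    have o1 : polar Q (p i₁) (s i₀) = 0 := H.orth i₁ i₀ h01.symm _ (H.mp i₁) _ (H.ms i₀)
    have o2 : polar Q (s i₀) (p i₁) = 0 := by rw [polar_comm]; exact o1
    have hQb : Q (p i₁ + l • s i₀) = 1 := by
      rw [q_add, q_smul, H.qp, H.qs, polar_smul_r, o1]
      ring
    obtain ⟨g, hgΩ, hg⟩ := exists_rr Q hS h2 (by omega) (a := p i₁) (b := p i₁ + l • s i₀)
      (by rw [H.qp]; exact one_ne_zero) (by rw [hQb]; exact one_ne_zero)
    refine ⟨g, hgΩ, p i₀, (memS _).mpr (key _ (pN i₀)), ?_⟩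
    have e1 : polar Q (p i₀) (p i₁ + l • s i₀) = l := by
      rw [polar_add_right, polar_smul_r, H.pp h2, H.ps]
      ring
    have e2 : polar Q (p i₀ - l • (p i₁ + l • s i₀)) (p i₁) = 0 := by
      rw [polar_sub_left, polar_smul_l, polar_add_left, polar_smul_l, H.pp h2, H.pp h2, o2]
      ring
    have ez : (g : Matrix ι ι F) *ᵥ p i₀ = p i₀ - l • (p i₁ + l • s i₀) := by
      rw [hg, refl_one hQb, e1, reflE_of_orth e2]
    rw [ez, memS]
    intro hz
    have k := hz (p i₀) (pN i₀)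
    have e3 : polar Q (p i₀ - l • (p i₁ + l • s i₀)) (p i₀) = -(l * l) := by
      rw [polar_sub_left, polar_smul_l, polar_add_left, polar_smul_l, H.pp h2, H.pp h2, H.sp]
      ring
    rw [e3] at k
    unfold IsF2 at k
    have k' : l * l * (l * l + 1) = 0 := by linear_combination k
    rcases mul_eq_zero.mp k' with h0 | h0
    · exact hl0 (mul_self_eq_zero.mp h0)
    · have h1 : (l + 1) * (l + 1) = 0 := by linear_combination h0 + l * h2
      have h1' : l + 1 = 0 := mul_self_eq_zero.mp h1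
      exact hl1 (by linear_combination h1' - h2)

end four

end Cfsg.Agent.Lib.Helper37.DecTwo
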