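import Mathlib
import Cfsg.Prelude.Def_GeometricClasses
import Cfsg.Agent.Lib.Helper37.DecTwo
import Cfsg.Agent.Lib.Helper94.OrthSiegel

set_option autoImplicit false

namespace Cfsg.Agent.Lib.Helper37.DecFour

open Module QuadraticMap Matrix
open Cfsg.Agent.Lib.Helper44.QSpace Cfsg.Agent.Lib.Helper44.OGroup Cfsg.Agent.Lib.Helper44.OMat
open Cfsg.Agent.Lib.Helper37.PlanePlus Cfsg.Agent.Lib.Helper37.FrameThree
open Cfsg.Agent.Lib.Helper37.FrameApply Cfsg.Agent.Lib.Helper37.NonsingPt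
open Cfsg.Agent.Lib.Helper37.DecTwo Cfsg.Agent.Lib.Helper94.OrthSiegel

variable {F : Type*} [Field F] {ι : Type} [Fintype ι] [DecidableEq ι]

omit [Fintype ι] [DecidableEq ι] in
/-- A hyperbolic partner of a singular vector, orthogonal to everything orthogonal to the data. -/
theorem hyp_partner (Q : QuadraticForm F (ι → F)) (W : Submodule F (ι → F)) {e x : ι → F}
    (heW : e ∈ W) (hQe : Q e = 0) (hxW : x ∈ W) (hx : polar Q x e ≠ 0) :
    ∃ f ∈ W, Q f = 0 ∧ polar Q e f = 1 ∧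
      ∀ z, polar Q x z = 0 → polar Q e z = 0 → polar Q f z = 0 := by
  obtain ⟨x₁, hx₁⟩ : ∃ x₁, x₁ = (polar Q x e)⁻¹ • x := ⟨_, rfl⟩
  have hx₁W : x₁ ∈ W := hx₁ ▸ W.smul_mem _ hxW
  have hx₁e : polar Q x₁ e = 1 := by rw [hx₁, polar_smul_l, inv_mul_cancel₀ hx]
  refine ⟨x₁ - Q x₁ • e, W.sub_mem hx₁W (W.smul_mem _ heW), ?_, ?_, ?_⟩
  · have e' : x₁ - Q x₁ • e = x₁ + (-(Q x₁)) • e := by rw [neg_smul, sub_eq_add_neg]
    rw [e', q_add, q_smul, polar_smul_r, hQe, hx₁e]
    ring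
  · rw [polar_comm, polar_sub_left, polar_smul_l, polar_self', hQe, hx₁e]
    ring
  · intro z hz1 hz2
    rw [polar_sub_left, polar_smul_l, hz2, hx₁, polar_smul_l, hz1]
    ring

omit [DecidableEq ι] in
/-- A plus-type 4-space has a hyperbolic basis. -/
theorem exists_hyp_basis4 (Q : QuadraticForm F (ι → F)) (W : Submodule F (ι → F))
    (hdim : finrank F W = 4) (hW : Cfsg.Geo.IsNondegenerateOn (polar ⇑Q) W)
    (hplus : Cfsg.Geo.IsPlusTypeOn ⇑Q W) :
    ∃ e₁ f₁ e₂ f₂ : ι → F, e₁ ∈ W ∧ f₁ ∈ W ∧ e₂ ∈ W ∧ f₂ ∈ W ∧ Q e₁ = 0 ∧ Q f₁ = 0 ∧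
      Q e₂ = 0 ∧ Q f₂ = 0 ∧ polar Q e₁ f₁ = 1 ∧ polar Q e₂ f₂ = 1 ∧ polar Q e₁ e₂ = 0 ∧
      polar Q e₁ f₂ = 0 ∧ polar Q f₁ e₂ = 0 ∧ polar Q f₁ f₂ = 0 ∧
      ∀ w ∈ W, ∃ α₁ β₁ α₂ β₂ : F, w = α₁ • e₁ + β₁ • f₁ + α₂ • e₂ + β₂ • f₂ := by
  classical
  obtain ⟨U, hUW, hUs, hUdim⟩ := hplus
  have hU2 : finrank F U = 2 := by omega
  have hUpol : ∀ x ∈ U, ∀ y ∈ U, polar Q x y = 0 := by
    intro x hx y hy
    have h1 : Q (x + y) = 0 := hUs _ (U.add_mem hx hy)
    have h2 : Q x = 0 := hUs x hx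
    have h3 : Q y = 0 := hUs y hy
    unfold polar
    rw [h1, h2, h3]
    ring
  obtain ⟨e₁, he₁U, he₁0⟩ : ∃ s ∈ U, s ≠ 0 := by
    have hne : U ≠ ⊥ := by
      intro h
      rw [h, finrank_bot] at hU2
      omega
    exact (Submodule.ne_bot_iff U).mp hne
  have he₁W : e₁ ∈ W := hUW he₁U
  have hQe₁ : Q e₁ = 0 := hUs e₁ he₁U
  obtain ⟨⟨x, hxW, hxe⟩, -⟩ := hW e₁ he₁W he₁0
  obtain ⟨f₁, hf₁W, hQf₁, he₁f₁, -⟩ := hyp_partner Q W he₁W hQe₁ hxW hxe
  have hf₁e₁ : polar Q f₁ e₁ = 1 := by rw [polar_comm]; exact he₁f₁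
  obtain ⟨y, hyU, hyn⟩ : ∃ y ∈ U, y ∉ Submodule.span F {e₁} := by
    by_contra hcon
    push Not at hcon
    have hle : U ≤ Submodule.span F {e₁} := fun y hy => hcon y hy
    have h1 := Submodule.finrank_mono hle
    rw [finrank_span_singleton he₁0] at h1
    omega
  obtain ⟨e₂, he₂⟩ : ∃ e₂, e₂ = y - polar Q y f₁ • e₁ := ⟨_, rfl⟩
  have he₂U : e₂ ∈ U := he₂ ▸ U.sub_mem hyU (U.smul_mem _ he₁U)
  have he₂W : e₂ ∈ W := hUW he₂U
  have hQe₂ : Q e₂ = 0 := hUs e₂ he₂U
  have he₂0 : e₂ ≠ 0 := by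
    intro h0
    apply hyn
    have : y = polar Q y f₁ • e₁ := by
      rw [he₂] at h0
      exact sub_eq_zero.mp h0
    rw [this]
    exact Submodule.smul_mem _ _ (Submodule.subset_span rfl)
  have he₁e₂ : polar Q e₁ e₂ = 0 := hUpol _ he₁U _ he₂U
  have he₂e₁ : polar Q e₂ e₁ = 0 := hUpol _ he₂U _ he₁U
  have he₂f₁ : polar Q e₂ f₁ = 0 := by
    rw [he₂, polar_sub_left, polar_smul_l, he₁f₁]
    ring
  have hf₁e₂ : polar Q f₁ e₂ = 0 := by rw [polar_comm]; exact he₂f₁
  obtain ⟨⟨x', hx'W, hx'e⟩, -⟩ := hW e₂ he₂W he₂0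
  obtain ⟨x'', hx''⟩ : ∃ x'', x'' = x' - polar Q x' f₁ • e₁ - polar Q x' e₁ • f₁ := ⟨_, rfl⟩
  have hx''W : x'' ∈ W :=
    hx'' ▸ W.sub_mem (W.sub_mem hx'W (W.smul_mem _ he₁W)) (W.smul_mem _ hf₁W)
  have k1 : polar Q x'' e₂ ≠ 0 := by
    rw [hx'', polar_sub_left, polar_sub_left, polar_smul_l, polar_smul_l, he₁e₂, hf₁e₂]
    simpa using hx'e
  have k2 : polar Q x'' e₁ = 0 := by
    rw [hx'', polar_sub_left, polar_sub_left, polar_smul_l, polar_smul_l, polar_self', hQe₁,
      hf₁e₁]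
    ring
  have k3 : polar Q x'' f₁ = 0 := by
    rw [hx'', polar_sub_left, polar_sub_left, polar_smul_l, polar_smul_l, polar_self', hQf₁,
      he₁f₁]
    ring
  obtain ⟨f₂, hf₂W, hQf₂, he₂f₂, hf₂z⟩ := hyp_partner Q W he₂W hQe₂ hx''W k1
  have hf₂e₂ : polar Q f₂ e₂ = 1 := by rw [polar_comm]; exact he₂f₂
  have hf₂e₁ : polar Q f₂ e₁ = 0 := hf₂z e₁ k2 he₂e₁
  have hf₂f₁ : polar Q f₂ f₁ = 0 := hf₂z f₁ k3 he₂f₁
  have he₁f₂ : polar Q e₁ f₂ = 0 := by rw [polar_comm]; exact hf₂e₁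
  have hf₁f₂ : polar Q f₁ f₂ = 0 := by rw [polar_comm]; exact hf₂f₁
  refine ⟨e₁, f₁, e₂, f₂, he₁W, hf₁W, he₂W, hf₂W, hQe₁, hQf₁, hQe₂, hQf₂, he₁f₁, he₂f₂, he₁e₂,
    he₁f₂, hf₁e₂, hf₁f₂, ?_⟩
  -- spanning
  have hli : LinearIndependent F ![e₁, f₁, e₂, f₂] := by
    rw [Fintype.linearIndependent_iff]
    intro c hc
    rw [Fin.sum_univ_four] at hc
    simp only [Matrix.cons_val_zero, Matrix.cons_val_one, Matrix.cons_val_two,
      Matrix.cons_val_three, Matrix.head_cons, Matrix.tail_cons] at hc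
    have c0 : c 0 = 0 := by
      have h := congrArg (fun z => polar Q z f₁) hc
      simp only [polar_add_left, polar_smul_l, he₁f₁, polar_self', hQf₁, he₂f₁, hf₂f₁,
        polar_zero_left] at h
      linear_combination h
    have c1 : c 1 = 0 := by
      have h := congrArg (fun z => polar Q z e₁) hc
      simp only [polar_add_left, polar_smul_l, hf₁e₁, polar_self', hQe₁, he₂e₁, hf₂e₁,
        polar_zero_left] at h
      linear_combination h
    have c2 : c 2 = 0 := by
      have h := congrArg (fun z => polar Q z f₂) hc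
      simp only [polar_add_left, polar_smul_l, he₁f₂, polar_self', hQf₂, he₂f₂, hf₁f₂,
        polar_zero_left] at h
      linear_combination h
    have c3 : c 3 = 0 := by
      have h := congrArg (fun z => polar Q z e₂) hc
      simp only [polar_add_left, polar_smul_l, he₁e₂, polar_self', hQe₂, hf₂e₂, hf₁e₂,
        polar_zero_left] at h
      linear_combination h
    intro i
    fin_cases i
    · exact c0
    · exact c1
    · exact c2
    · exact c3
  have hle : Submodule.span F (Set.range ![e₁, f₁, e₂, f₂]) ≤ W := by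
    rw [Submodule.span_le]
    rintro _ ⟨i, rfl⟩
    fin_cases i
    · exact he₁W
    · exact hf₁W
    · exact he₂W
    · exact hf₂W
  have hfr : finrank F (Submodule.span F (Set.range ![e₁, f₁, e₂, f₂])) = finrank F W := by
    rw [finrank_span_eq_card hli, hdim]
    rfl
  have heq := Submodule.eq_of_le_of_finrank_eq hle hfr
  intro w hw
  rw [← heq] at hw
  obtain ⟨c, hc⟩ := (Submodule.mem_span_range_iff_exists_fun F).mp hw
  rw [Fin.sum_univ_four] at hc
  simp only [Matrix.cons_val_zero, Matrix.cons_val_one, Matrix.cons_val_two,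
    Matrix.cons_val_three, Matrix.head_cons, Matrix.tail_cons] at hc
  exact ⟨c 0, c 1, c 2, c 3, hc.symm⟩

section six

variable [Fintype F]

omit [DecidableEq ι] in
/-- The six nonsingular vectors of a plus-type 4-space over the field with two elements: two
orthogonal anisotropic planes. -/
theorem exists_six (hq : Fintype.card F = 2) (Q : QuadraticForm F (ι → F))
    (W : Submodule F (ι → F)) (hdim : finrank F W = 4)
    (hW : Cfsg.Geo.IsNondegenerateOn (polar ⇑Q) W) (hplus : Cfsg.Geo.IsPlusTypeOn ⇑Q W) :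
    ∃ a b a' b' : ι → F, a ∈ W ∧ b ∈ W ∧ a' ∈ W ∧ b' ∈ W ∧ Q a = 1 ∧ Q b = 1 ∧ Q a' = 1 ∧
      Q b' = 1 ∧ polar Q a b = 1 ∧ polar Q a' b' = 1 ∧ polar Q a a' = 0 ∧ polar Q a b' = 0 ∧
      polar Q b a' = 0 ∧ polar Q b b' = 0 ∧
      ∀ v ∈ W, Q v = 1 →
        v = a ∨ v = b ∨ v = a + b ∨ v = a' ∨ v = b' ∨ v = a' + b' := by
  have h2 : (2 : F) = 0 := by
    have h := Nat.cast_card_eq_zero F
    rw [hq] at h
    exact_mod_cast h
  have h11 : (1 : F) + 1 = 0 := by linear_combination h2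
  have hF : ∀ a : F, a = 0 ∨ a = 1 := by
    intro a
    have h := FiniteField.pow_card a
    rw [hq] at h
    have h' : a * (a - 1) = 0 := by linear_combination h
    rcases mul_eq_zero.mp h' with h0 | h0
    · exact Or.inl h0
    · exact Or.inr (sub_eq_zero.mp h0)
  obtain ⟨e₁, f₁, e₂, f₂, he₁, hf₁, he₂, hf₂, q1, q2, q3, q4, p1, p2, p3, p4, p5, p6, hsp⟩ :=
    exists_hyp_basis4 Q W hdim hW hplus
  have p1' : polar Q f₁ e₁ = 1 := by rw [polar_comm]; exact p1
  have p2' : polar Q f₂ e₂ = 1 := by rw [polar_comm]; exact p2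
  have p3' : polar Q e₂ e₁ = 0 := by rw [polar_comm]; exact p3
  have p4' : polar Q f₂ e₁ = 0 := by rw [polar_comm]; exact p4
  have p5' : polar Q e₂ f₁ = 0 := by rw [polar_comm]; exact p5
  have p6' : polar Q f₂ f₁ = 0 := by rw [polar_comm]; exact p6
  refine ⟨e₁ + f₁, e₁ + e₂ + f₂, e₂ + f₂, e₁ + f₁ + e₂, W.add_mem he₁ hf₁,
    W.add_mem (W.add_mem he₁ he₂) hf₂, W.add_mem he₂ hf₂, W.add_mem (W.add_mem he₁ hf₁) he₂,
    ?_, ?_, ?_, ?_, ?_, ?_, ?_, ?_, ?_, ?_, ?_⟩
  · simp only [q_add, polar_add_left, polar_add_right, polar_self', q1, q2, q3, q4, p1, p2, p3,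
      p4, p5, p6, p1', p2', p3', p4', p5', p6']
    ring
  · simp only [q_add, polar_add_left, polar_add_right, polar_self', q1, q2, q3, q4, p1, p2, p3,
      p4, p5, p6, p1', p2', p3', p4', p5', p6']
    ring
  · simp only [q_add, polar_add_left, polar_add_right, polar_self', q1, q2, q3, q4, p1, p2, p3,
      p4, p5, p6, p1', p2', p3', p4', p5', p6']
    ring
  · simp only [q_add, polar_add_left, polar_add_right, polar_self', q1, q2, q3, q4, p1, p2, p3,
      p4, p5, p6, p1', p2', p3', p4', p5', p6']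
    ring
  · simp only [q_add, polar_add_left, polar_add_right, polar_self', q1, q2, q3, q4, p1, p2, p3,
      p4, p5, p6, p1', p2', p3', p4', p5', p6']
    ring
  · simp only [q_add, polar_add_left, polar_add_right, polar_self', q1, q2, q3, q4, p1, p2, p3,
      p4, p5, p6, p1', p2', p3', p4', p5', p6']
    ring
  · simp only [q_add, polar_add_left, polar_add_right, polar_self', q1, q2, q3, q4, p1, p2, p3,
      p4, p5, p6, p1', p2', p3', p4', p5', p6']
    ring
  · simp only [q_add, polar_add_left, polar_add_right, polar_self', q1, q2, q3, q4, p1, p2, p3,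
      p4, p5, p6, p1', p2', p3', p4', p5', p6']
    linear_combination h2
  · simp only [q_add, polar_add_left, polar_add_right, polar_self', q1, q2, q3, q4, p1, p2, p3,
      p4, p5, p6, p1', p2', p3', p4', p5', p6']
    linear_combination h2
  · simp only [q_add, polar_add_left, polar_add_right, polar_self', q1, q2, q3, q4, p1, p2, p3,
      p4, p5, p6, p1', p2', p3', p4', p5', p6']
    linear_combination h2
  · intro v hv hQv
    obtain ⟨α₁, β₁, α₂, β₂, rfl⟩ := hsp v hv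
    have hQ' : α₁ * β₁ + α₂ * β₂ = 1 := by
      rw [← hQv]
      simp only [q_add, q_smul, polar_add_left, polar_add_right, polar_smul_l, polar_smul_r,
        polar_self', q1, q2, q3, q4, p1, p2, p3, p4, p5, p6, p1', p2', p3', p4', p5', p6']
      ring
    clear hQv
    rcases hF α₁ with rfl | rfl <;> rcases hF β₁ with rfl | rfl <;>
      rcases hF α₂ with rfl | rfl <;> rcases hF β₂ with rfl | rfl <;>
      first
      | (exfalso; simp [h11] at hQ'; done)
      | (left; module)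
      | (right; left; module)
      | (right; right; right; left; module)
      | (right; right; right; right; left; module)
      | (right; right; left
         rw [show e₁ + f₁ + (e₁ + e₂ + f₂)
           = (0 : F) • e₁ + (1 : F) • f₁ + (1 : F) • e₂ + (1 : F) • f₂ + (2 : F) • e₁ by module,
           h2]
         module)
      | (right; right; right; right; right
         rw [show e₂ + f₂ + (e₁ + f₁ + e₂)
           = (1 : F) • e₁ + (1 : F) • f₁ + (0 : F) • e₂ + (1 : F) • f₂ + (2 : F) • e₂ by module,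
           h2]
         module)

end six

section main

variable [Fintype F]

/-- Over the field with two elements, the stabiliser in `Ω` of an orthogonal decomposition into
plus-type 4-spaces is not maximal: it preserves the finer decomposition into anisotropic
planes. -/
theorem plus4_two_not_maximal (hq : Fintype.card F = 2) (Q : QuadraticForm F (ι → F))
    (hS : Sep Q) {t : ℕ} (D : Fin t → Submodule F (ι → F))
    (hD : Cfsg.Geo.IsNondegenerateMDecomposition (polar ⇑Q) 4 D)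
    (hplus : ∀ i, Cfsg.Geo.IsPlusTypeOn ⇑Q (D i)) (hn : 8 ≤ Fintype.card ι) :
    ∃ K : Subgroup (GL ι F), Cfsg.Geo.decompositionStabilizer D ⊓ Cfsg.Geo.omegaGL ⇑Q < K ∧
      K < Cfsg.Geo.omegaGL ⇑Q := by
  classical
  have ht4 := card_index D hD.decomp
  have ht : 2 ≤ t := by omega
  have h2 : (2 : F) = 0 := by
    have h := Nat.cast_card_eq_zero F
    rw [hq] at h
    exact_mod_cast h
  have hQnd := nd_of_sep Q hS
  have hex := fun i => exists_six hq Q (D i) (hD.decomp.finrank_eq i) (hD.nondegenerate i)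
    (hplus i)
  choose a b a' b' ma mb ma' mb' qa qb qa' qb' ab a'b' aa' ab' ba' bb' hchar using hex
  have orth : ∀ i j, i ≠ j → ∀ x ∈ D i, ∀ y ∈ D j, polar Q x y = 0 :=
    fun i j hij => hD.orthogonal i j hij
  have disj := disj_of_decomp D hD.decomp
  have ba : ∀ i, polar Q (b i) (a i) = 1 := fun i => by rw [polar_comm]; exact ab i
  have b'a' : ∀ i, polar Q (b' i) (a' i) = 1 := fun i => by rw [polar_comm]; exact a'b' i
  have a'a : ∀ i, polar Q (a' i) (a i) = 0 := fun i => by rw [polar_comm]; exact aa' i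
  have b'a : ∀ i, polar Q (b' i) (a i) = 0 := fun i => by rw [polar_comm]; exact ab' i
  have a'b : ∀ i, polar Q (a' i) (b i) = 0 := fun i => by rw [polar_comm]; exact ba' i
  have b'b : ∀ i, polar Q (b' i) (b i) = 0 := fun i => by rw [polar_comm]; exact bb' i
  have self0 : ∀ x : ι → F, polar Q x x = 0 := fun x => by rw [polar_self', h2, zero_mul]
  have qab : ∀ i, Q (a i + b i) = 1 := by
    intro i
    rw [q_add, qa, qb, ab]
    linear_combination h2
  have qab' : ∀ i, Q (a' i + b' i) = 1 := by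
    intro i
    rw [q_add, qa', qb', a'b']
    linear_combination h2
  obtain ⟨i₁, i₂, h12⟩ : ∃ i₁ i₂ : Fin t, i₁ ≠ i₂ := by
    refine ⟨⟨0, by omega⟩, ⟨1, by omega⟩, ?_⟩
    simp [Fin.ext_iff]
  have h21 : i₂ ≠ i₁ := h12.symm
  apply set_between (⇑Q) D {v : ι → F | ∃ i, v ∈ D i ∧ Q v = 1}
  · exact hA_norm (⇑Q) D 1
  · -- the Siegel element swapping an anisotropic plane of `D i₁` with one of `D i₂`
    obtain ⟨s, hs⟩ : ∃ s, s = a' i₁ + a i₂ := ⟨_, rfl⟩
    obtain ⟨s', hs'⟩ : ∃ s', s' = b' i₁ + b i₂ := ⟨_, rfl⟩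
    have hQs : Q s = 0 := by
      rw [hs, q_add, qa', qa, orth i₁ i₂ h12 _ (ma' i₁) _ (ma i₂)]
      linear_combination h2
    have hQs' : Q s' = 0 := by
      rw [hs', q_add, qb', qb, orth i₁ i₂ h12 _ (mb' i₁) _ (mb i₂)]
      linear_combination h2
    have hss' : polar Q s s' = 0 := by
      rw [hs, hs', polar_add_left, polar_add_right, polar_add_right, a'b', ab,
        orth i₁ i₂ h12 _ (ma' i₁) _ (mb i₂), orth i₂ i₁ h21 _ (ma i₂) _ (mb' i₁)]
      linear_combination h2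
    have hs's : polar Q s' s = 0 := by rw [polar_comm]; exact hss'
    obtain ⟨g, hg⟩ : ∃ g : GL ι F, g = sg hQnd s s' := ⟨_, rfl⟩
    have hgΩ : g ∈ Cfsg.Geo.omegaGL ⇑Q := by
      rw [hg]
      exact sg_mem_omega hQnd (by omega) s s'
    have gform : ∀ x, (g : Matrix ι ι F) *ᵥ x = x + polar Q s x • s' + polar Q s' x • s := by
      intro x
      rw [hg, sg_mulVec hQnd s s' hQs hss' x]
      have hQs'' : (⇑Q) s' = 0 := hQs'
      rw [hQs'']
      have e : x + polar (⇑Q) s x • s' - polar (⇑Q) s' x • s - (0 * polar (⇑Q) s x) • s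
          = x + polar (⇑Q) s x • s' + polar (⇑Q) s' x • s
            - (2 : F) • (polar (⇑Q) s' x • s) := by module
      rw [e, h2, zero_smul, sub_zero]
    have gfix : ∀ x, polar Q s x = 0 → polar Q s' x = 0 → (g : Matrix ι ι F) *ᵥ x = x := by
      intro x h1 h1'
      rw [gform, h1, h1', zero_smul, zero_smul, add_zero, add_zero]
    have ps : ∀ x, polar Q s ((g : Matrix ι ι F) *ᵥ x) = polar Q s x := by
      intro x
      rw [gform, polar_add_right, polar_add_right, polar_smul_r, polar_smul_r, hss', self0]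
      ring
    have ps' : ∀ x, polar Q s' ((g : Matrix ι ι F) *ᵥ x) = polar Q s' x := by
      intro x
      rw [gform, polar_add_right, polar_add_right, polar_smul_r, polar_smul_r, hs's, self0]
      ring
    have ginv : ∀ x, (g : Matrix ι ι F) *ᵥ ((g : Matrix ι ι F) *ᵥ x) = x := by
      intro x
      rw [gform ((g : Matrix ι ι F) *ᵥ x), ps, ps', gform x]
      have e : x + polar Q s x • s' + polar Q s' x • s + polar Q s x • s' + polar Q s' x • s
          = x + (2 : F) • (polar Q s x • s' + polar Q s' x • s) := by module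
      rw [e, h2, zero_smul, add_zero]
    -- polar values of the centres on the six vectors of the two blocks
    have t1 : polar Q s (a i₁) = 0 := by
      rw [hs, polar_add_left, a'a, orth i₂ i₁ h21 _ (ma i₂) _ (ma i₁)]; ring
    have t2 : polar Q s (b i₁) = 0 := by
      rw [hs, polar_add_left, a'b, orth i₂ i₁ h21 _ (ma i₂) _ (mb i₁)]; ring
    have t3 : polar Q s (a' i₁) = 0 := by
      rw [hs, polar_add_left, self0, orth i₂ i₁ h21 _ (ma i₂) _ (ma' i₁)]; ring
    have t4 : polar Q s (b' i₁) = 1 := by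
      rw [hs, polar_add_left, a'b', orth i₂ i₁ h21 _ (ma i₂) _ (mb' i₁)]; ring
    have t5 : polar Q s' (a i₁) = 0 := by
      rw [hs', polar_add_left, b'a, orth i₂ i₁ h21 _ (mb i₂) _ (ma i₁)]; ring
    have t6 : polar Q s' (b i₁) = 0 := by
      rw [hs', polar_add_left, b'b, orth i₂ i₁ h21 _ (mb i₂) _ (mb i₁)]; ring
    have t7 : polar Q s' (a' i₁) = 1 := by
      rw [hs', polar_add_left, b'a', orth i₂ i₁ h21 _ (mb i₂) _ (ma' i₁)]; ring
    have t8 : polar Q s' (b' i₁) = 0 := by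
      rw [hs', polar_add_left, self0, orth i₂ i₁ h21 _ (mb i₂) _ (mb' i₁)]; ring
    have r1 : polar Q s (a i₂) = 0 := by
      rw [hs, polar_add_left, self0, orth i₁ i₂ h12 _ (ma' i₁) _ (ma i₂)]; ring
    have r2 : polar Q s (b i₂) = 1 := by
      rw [hs, polar_add_left, ab, orth i₁ i₂ h12 _ (ma' i₁) _ (mb i₂)]; ring
    have r3 : polar Q s (a' i₂) = 0 := by
      rw [hs, polar_add_left, aa', orth i₁ i₂ h12 _ (ma' i₁) _ (ma' i₂)]; ring
    have r4 : polar Q s (b' i₂) = 0 := by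
      rw [hs, polar_add_left, ab', orth i₁ i₂ h12 _ (ma' i₁) _ (mb' i₂)]; ring
    have r5 : polar Q s' (a i₂) = 1 := by
      rw [hs', polar_add_left, ba, orth i₁ i₂ h12 _ (mb' i₁) _ (ma i₂)]; ring
    have r6 : polar Q s' (b i₂) = 0 := by
      rw [hs', polar_add_left, self0, orth i₁ i₂ h12 _ (mb' i₁) _ (mb i₂)]; ring
    have r7 : polar Q s' (a' i₂) = 0 := by
      rw [hs', polar_add_left, ba', orth i₁ i₂ h12 _ (mb' i₁) _ (ma' i₂)]; ring
    have r8 : polar Q s' (b' i₂) = 0 := by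
      rw [hs', polar_add_left, bb', orth i₁ i₂ h12 _ (mb' i₁) _ (mb' i₂)]; ring
    -- images of the moved vectors
    have m1 : (g : Matrix ι ι F) *ᵥ a' i₁ = a i₂ := by
      rw [gform, t3, t7, hs]
      have e : a' i₁ + (0 : F) • s' + (1 : F) • (a' i₁ + a i₂) = a i₂ + (2 : F) • a' i₁ := by
        module
      rw [e, h2, zero_smul, add_zero]
    have m2 : (g : Matrix ι ι F) *ᵥ b' i₁ = b i₂ := by
      rw [gform, t4, t8, hs']
      have e : b' i₁ + (1 : F) • (b' i₁ + b i₂) + (0 : F) • s = b i₂ + (2 : F) • b' i₁ := by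
        module
      rw [e, h2, zero_smul, add_zero]
    have m3 : (g : Matrix ι ι F) *ᵥ a i₂ = a' i₁ := by
      rw [gform, r1, r5, hs]
      have e : a i₂ + (0 : F) • s' + (1 : F) • (a' i₁ + a i₂) = a' i₁ + (2 : F) • a i₂ := by
        module
      rw [e, h2, zero_smul, add_zero]
    have m4 : (g : Matrix ι ι F) *ᵥ b i₂ = b' i₁ := by
      rw [gform, r2, r6, hs']
      have e : b i₂ + (1 : F) • (b' i₁ + b i₂) + (0 : F) • s = b' i₁ + (2 : F) • b i₂ := by
        module
      rw [e, h2, zero_smul, add_zero]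
    have f1 := gfix _ t1 t5
    have f2 := gfix _ t2 t6
    have f3 := gfix _ r3 r7
    have f4 := gfix _ r4 r8
    have fwd : ∀ v, v ∈ {v : ι → F | ∃ i, v ∈ D i ∧ Q v = 1} →
        (g : Matrix ι ι F) *ᵥ v ∈ {v : ι → F | ∃ i, v ∈ D i ∧ Q v = 1} := by
      rintro v ⟨i, hv, hQv⟩
      by_cases hi1 : i = i₁
      · subst hi1
        rcases hchar i v hv hQv with rfl | rfl | rfl | rfl | rfl | rfl
        · rw [f1]; exact ⟨i, ma i, qa i⟩
        · rw [f2]; exact ⟨i, mb i, qb i⟩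
        · rw [Matrix.mulVec_add, f1, f2]; exact ⟨i, (D i).add_mem (ma i) (mb i), qab i⟩
        · rw [m1]; exact ⟨i₂, ma i₂, qa i₂⟩
        · rw [m2]; exact ⟨i₂, mb i₂, qb i₂⟩
        · rw [Matrix.mulVec_add, m1, m2]; exact ⟨i₂, (D i₂).add_mem (ma i₂) (mb i₂), qab i₂⟩
      · by_cases hi2 : i = i₂
        · subst hi2
          rcases hchar i v hv hQv with rfl | rfl | rfl | rfl | rfl | rfl
          · rw [m3]; exact ⟨i₁, ma' i₁, qa' i₁⟩
          · rw [m4]; exact ⟨i₁, mb' i₁, qb' i₁⟩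
          · rw [Matrix.mulVec_add, m3, m4]
            exact ⟨i₁, (D i₁).add_mem (ma' i₁) (mb' i₁), qab' i₁⟩
          · rw [f3]; exact ⟨i, ma' i, qa' i⟩
          · rw [f4]; exact ⟨i, mb' i, qb' i⟩
          · rw [Matrix.mulVec_add, f3, f4]; exact ⟨i, (D i).add_mem (ma' i) (mb' i), qab' i⟩
        · have z1 : polar Q s v = 0 := by
            rw [hs, polar_add_left, orth i₁ i (Ne.symm hi1) _ (ma' i₁) _ hv,
              orth i₂ i (Ne.symm hi2) _ (ma i₂) _ hv]
            ring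
          have z2 : polar Q s' v = 0 := by
            rw [hs', polar_add_left, orth i₁ i (Ne.symm hi1) _ (mb' i₁) _ hv,
              orth i₂ i (Ne.symm hi2) _ (mb i₂) _ hv]
            ring
          rw [gfix v z1 z2]
          exact ⟨i, hv, hQv⟩
    refine ⟨g, hgΩ, ?_, ?_⟩
    · intro v
      constructor
      · exact fwd v
      · intro hv
        have := fwd _ hv
        rw [ginv] at this
        exact this
    · rintro ⟨σ, hσ⟩
      have hmap : ∀ y ∈ D i₁, (g : Matrix ι ι F) *ᵥ y ∈ D (σ i₁) := by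
        intro y hy
        rw [← hσ i₁]
        exact ⟨y, hy, by rw [Matrix.toLin'_apply]⟩
      have k1 := hmap _ (ma i₁)
      have k2 := hmap _ (ma' i₁)
      rw [f1] at k1
      rw [m1] at k2
      have ne1 : a i₁ ≠ 0 := by
        intro h0
        have := qa i₁
        rw [h0, map_zero] at this
        exact zero_ne_one this
      have ne2 : a i₂ ≠ 0 := by
        intro h0
        have := qa i₂
        rw [h0, map_zero] at this
        exact zero_ne_one this
      have hs1 : σ i₁ = i₁ := by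
        by_contra hne
        exact ne1 (disj _ _ hne _ k1 (ma i₁))
      have hs2 : σ i₁ = i₂ := by
        by_contra hne
        exact ne2 (disj _ _ hne _ k2 (ma i₂))
      exact h12 (hs1.symm.trans hs2)
  · obtain ⟨x₀, hx₀⟩ : ∃ x₀, x₀ = b i₁ + a' i₁ := ⟨_, rfl⟩
    have hx₀D : x₀ ∈ D i₁ := hx₀ ▸ (D i₁).add_mem (mb i₁) (ma' i₁)
    have hQx₀ : Q x₀ = 0 := by
      rw [hx₀, q_add, qb, qa', ba']
      linear_combination h2
    have o1 : polar Q (a i₂) x₀ = 0 := orth i₂ i₁ h21 _ (ma i₂) _ hx₀D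
    have o2 : polar Q x₀ (a i₂) = 0 := by rw [polar_comm]; exact o1
    have hQy : Q (a i₂ + x₀) = 1 := by
      rw [q_add, qa, hQx₀, o1]
      ring
    obtain ⟨g, hgΩ, hg⟩ := exists_rr Q hS h2 (by omega) (a := a i₂) (b := a i₂ + x₀)
      (by rw [qa]; exact one_ne_zero) (by rw [hQy]; exact one_ne_zero)
    refine ⟨g, hgΩ, a i₁, ⟨i₁, ma i₁, qa i₁⟩, ?_⟩
    have e1 : polar Q (a i₁) (a i₂ + x₀) = 1 := by
      rw [polar_add_right, orth i₁ i₂ h12 _ (ma i₁) _ (ma i₂), hx₀, polar_add_right, ab, aa']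
      ring
    have e2 : polar Q (a i₁ - (a i₂ + x₀)) (a i₂) = 0 := by
      rw [polar_sub_left, polar_add_left, orth i₁ i₂ h12 _ (ma i₁) _ (ma i₂), self0, o2]
      ring
    have ez : (g : Matrix ι ι F) *ᵥ a i₁ = a i₁ - (a i₂ + x₀) := by
      rw [hg, refl_one hQy, e1, one_smul, reflE_of_orth e2]
    rw [ez]
    rintro ⟨i, hi, -⟩
    have k0 : polar Q (a i₁ - (a i₂ + x₀)) (a i₁) = -1 := by
      rw [polar_sub_left, polar_add_left, self0, orth i₂ i₁ h21 _ (ma i₂) _ (ma i₁), hx₀,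
        polar_add_left, ba, a'a]
      ring
    have k1 : polar Q (a i₁ - (a i₂ + x₀)) (b i₂) = -1 := by
      rw [polar_sub_left, polar_add_left, orth i₁ i₂ h12 _ (ma i₁) _ (mb i₂), ab,
        orth i₁ i₂ h12 _ hx₀D _ (mb i₂)]
      ring
    have hs0 : i = i₁ := by
      by_contra hne
      have := orth i i₁ hne _ hi _ (ma i₁)
      rw [k0] at this
      simp at this
    have hs1 : i = i₂ := by
      by_contra hne
      have := orth i i₂ hne _ hi _ (mb i₂)
      rw [k1] at this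
      simp at this
    exact h12 (hs0.symm.trans hs1)

end main

end Cfsg.Agent.Lib.Helper37.DecFour
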