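import Mathlib
import Cfsg.Prelude.Def_GeometricClasses
import Cfsg.Agent.Lib.Helper37.FrameThree
import Cfsg.Agent.Lib.Helper37.FrameApply
import Cfsg.Agent.Lib.Helper37.PlaneTwo

set_option autoImplicit false

namespace Cfsg.Agent.Lib.Helper37.DecOdd

open Module QuadraticMap Matrix
open Cfsg.Agent.Lib.Helper44.QSpace Cfsg.Agent.Lib.Helper44.OGroup Cfsg.Agent.Lib.Helper44.OMat
open Cfsg.Agent.Lib.Helper37.PlanePlus Cfsg.Agent.Lib.Helper37.FrameThree
open Cfsg.Agent.Lib.Helper37.FrameApply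

variable {F : Type*} [Field F] {ι : Type} [Fintype ι] [DecidableEq ι]

/-- Part (C) in odd characteristic: an element of `Ω` that does not preserve the frame set. -/
theorem exists_C_odd {Q : QuadraticForm F (ι → F)} {t : ℕ} {κ : Type*}
    {D : Fin t → Submodule F (ι → F)} {c : F} {u : Fin t → κ → (ι → F)} (h : IsFrame Q D c u)
    (h2 : (2 : F) ≠ 0) (hc : c ≠ 0) (ht : 4 ≤ t) [Nonempty κ] :
    ∃ g ∈ Cfsg.Geo.omegaGL ⇑Q, ∃ v ∈ {v : ι → F | ∃ i, v ∈ D i ∧ Q v = c},
      (g : Matrix ι ι F) *ᵥ v ∉ {v : ι → F | ∃ i, v ∈ D i ∧ Q v = c} := by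
  classical
  obtain ⟨i₀, i₁, i₂, i₃, h01, h02, h03, h12, h13, h23⟩ : ∃ i₀ i₁ i₂ i₃ : Fin t,
      i₀ ≠ i₁ ∧ i₀ ≠ i₂ ∧ i₀ ≠ i₃ ∧ i₁ ≠ i₂ ∧ i₁ ≠ i₃ ∧ i₂ ≠ i₃ := by
    refine ⟨⟨0, by omega⟩, ⟨1, by omega⟩, ⟨2, by omega⟩, ⟨3, by omega⟩, ?_, ?_, ?_, ?_, ?_, ?_⟩ <;>
      simp [Fin.ext_iff]
  obtain ⟨j⟩ := ‹Nonempty κ›
  obtain ⟨a₀, ha₀⟩ : ∃ a, a = u i₀ j := ⟨_, rfl⟩
  obtain ⟨a₁, ha₁⟩ : ∃ b, b = u i₁ j := ⟨_, rfl⟩
  obtain ⟨a₂, ha₂⟩ : ∃ b, b = u i₂ j := ⟨_, rfl⟩
  obtain ⟨a₃, ha₃⟩ : ∃ b, b = u i₃ j := ⟨_, rfl⟩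
  have hQ0 : Q a₀ = c := by rw [ha₀, h.val]
  have hQ1 : Q a₁ = c := by rw [ha₁, h.val]
  have hQ2 : Q a₂ = c := by rw [ha₂, h.val]
  have hQ3 : Q a₃ = c := by rw [ha₃, h.val]
  have p01 : polar Q a₀ a₁ = 0 := by rw [ha₀, ha₁]; exact h.polar_eq_zero (fun hh => h01 hh.1)
  have p02 : polar Q a₀ a₂ = 0 := by rw [ha₀, ha₂]; exact h.polar_eq_zero (fun hh => h02 hh.1)
  have p03 : polar Q a₀ a₃ = 0 := by rw [ha₀, ha₃]; exact h.polar_eq_zero (fun hh => h03 hh.1)
  have p12 : polar Q a₁ a₂ = 0 := by rw [ha₁, ha₂]; exact h.polar_eq_zero (fun hh => h12 hh.1)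
  have p13 : polar Q a₁ a₃ = 0 := by rw [ha₁, ha₃]; exact h.polar_eq_zero (fun hh => h13 hh.1)
  have p23 : polar Q a₂ a₃ = 0 := by rw [ha₂, ha₃]; exact h.polar_eq_zero (fun hh => h23 hh.1)
  have p10 : polar Q a₁ a₀ = 0 := by rw [polar_comm]; exact p01
  have p20 : polar Q a₂ a₀ = 0 := by rw [polar_comm]; exact p02
  have p30 : polar Q a₃ a₀ = 0 := by rw [polar_comm]; exact p03
  have p21 : polar Q a₂ a₁ = 0 := by rw [polar_comm]; exact p12
  have p31 : polar Q a₃ a₁ = 0 := by rw [polar_comm]; exact p13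
  have p32 : polar Q a₃ a₂ = 0 := by rw [polar_comm]; exact p23
  obtain ⟨y, hy⟩ : ∃ y, y = a₀ + a₁ + a₂ + a₃ := ⟨_, rfl⟩
  have hQy : Q y = 4 * c := by
    rw [hy, q_add, q_add, q_add, hQ0, hQ1, hQ2, hQ3, polar_add_left, polar_add_left,
      polar_add_left, p01, p02, p03, p12, p13, p23]
    ring
  have h4c : (4 : F) * c ≠ 0 := by
    have h4 : (4 : F) = 2 * 2 := by norm_num
    rw [h4]
    exact mul_ne_zero (mul_ne_zero h2 h2) hc
  obtain ⟨g, hgΩ, hg⟩ := exists_omega_refl h2 Q (a := a₀) (b := y)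
    (by rw [hQ0]; exact hc) (by rw [hQy]; exact h4c) ⟨2 * c, by rw [hQ0, hQy]; ring⟩
  refine ⟨g, hgΩ, a₁, ⟨i₁, ha₁ ▸ h.mem _ _, hQ1⟩, ?_⟩
  have e1 : polar Q a₁ y = 2 * c := by
    rw [hy, polar_add_right, polar_add_right, polar_add_right, p10, polar_self', hQ1, p12, p13]
    ring
  have ey0 : polar Q y a₀ = 2 * c := by
    rw [hy, polar_add_left, polar_add_left, polar_add_left, polar_self', hQ0, p10, p20, p30]
    ring
  have ey2 : polar Q y a₂ = 2 * c := by
    rw [hy, polar_add_left, polar_add_left, polar_add_left, polar_self', hQ2, p02, p12, p32]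
    ring
  have e2 : reflE Q y a₁ = a₁ - (2 : F)⁻¹ • y := by
    rw [reflE_apply, e1, hQy]
    have : ((4 : F) * c)⁻¹ * (2 * c) = (2 : F)⁻¹ := by
      have h4 : (4 : F) = 2 * 2 := by norm_num
      rw [h4]
      field_simp
    rw [this]
  have e3 : polar Q (a₁ - (2 : F)⁻¹ • y) a₀ = -c := by
    rw [polar_sub_left, polar_smul_l, p10, ey0]
    field_simp
    ring
  have e4 : reflE Q a₀ (a₁ - (2 : F)⁻¹ • y) = a₁ - (2 : F)⁻¹ • y + a₀ := by
    rw [reflE_apply, e3, hQ0]
    have : c⁻¹ * -c = -1 := by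
      field_simp
    rw [this]
    module
  rw [hg, e2, e4]
  rintro ⟨i, hi, -⟩
  have k0 : polar Q (a₁ - (2 : F)⁻¹ • y + a₀) a₀ = c := by
    rw [polar_add_left, e3, polar_self', hQ0]
    ring
  have k2 : polar Q (a₁ - (2 : F)⁻¹ • y + a₀) a₂ = -c := by
    rw [polar_add_left, polar_sub_left, polar_smul_l, p12, ey2, p02]
    field_simp
    ring
  have hi0 : i = i₀ := by
    by_contra hne
    apply hc
    rw [← k0]
    exact h.orth i i₀ hne _ hi _ (ha₀ ▸ h.mem _ _)
  have hi2 : i = i₂ := by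
    by_contra hne
    apply hc
    have := h.orth i i₂ hne _ hi _ (ha₂ ▸ h.mem _ _)
    rw [k2] at this
    exact neg_eq_zero.mp this
  exact h02 (hi0.symm.trans hi2)

/-- In odd characteristic, the stabiliser in `Ω` of an orthogonal decomposition admitting a
frame is not maximal. -/
theorem frame_not_maximal_odd (h2 : (2 : F) ≠ 0) (Q : QuadraticForm F (ι → F))
    {t : ℕ} {κ : Type*} (D : Fin t → Submodule F (ι → F)) (c : F) (hc : c ≠ 0)
    (u : Fin t → κ → (ι → F)) (ht : 4 ≤ t) (hfr : IsFrame Q D c u)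
    (hx : ∀ i, ∃ j, ∃ x ∈ D i, x ≠ 0 ∧ polar Q x (u i j) = 0) :
    ∃ K : Subgroup (GL ι F), Cfsg.Geo.decompositionStabilizer D ⊓ Cfsg.Geo.omegaGL ⇑Q < K ∧
      K < Cfsg.Geo.omegaGL ⇑Q := by
  have hne : Nonempty κ := by
    obtain ⟨j, -⟩ := hx ⟨0, by omega⟩
    exact ⟨j⟩
  apply set_between (⇑Q) D {v : ι → F | ∃ i, v ∈ D i ∧ Q v = c}
  · rintro g ⟨hgD, hgΩ⟩ v ⟨i, hvi, hvQ⟩
    obtain ⟨σ, hσ⟩ := hgD
    refine ⟨σ i, ?_, ?_⟩
    · rw [← hσ i]
      exact ⟨v, hvi, by rw [Matrix.toLin'_apply]⟩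
    · have := omega_isometry (⇑Q) hgΩ v
      rw [this]
      exact hvQ
  · exact hfr.exists_B h2 hc ht hx
  · exact exists_C_odd hfr h2 hc ht

section planes

variable [Fintype F]

omit [Fintype ι] [DecidableEq ι] in
theorem five_eq_zero (hq : Fintype.card F = 5) : (5 : F) = 0 := by
  have h := Nat.cast_card_eq_zero F
  rw [hq] at h
  exact_mod_cast h

omit [Fintype ι] [DecidableEq ι] in
theorem two_ne_zero_of_five (hq : Fintype.card F = 5) : (2 : F) ≠ 0 := by
  intro h
  have h5 := five_eq_zero hq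
  have h1 : (1 : F) = 0 := by linear_combination h5 - 2 * h
  exact one_ne_zero h1

omit [DecidableEq ι] in
/-- A plus-type plane over the field with three elements has exactly two vectors of norm 1. -/
theorem exists_frame1_plus3 (hq : Fintype.card F = 3) (Q : QuadraticForm F (ι → F))
    (W : Submodule F (ι → F)) (hdim : finrank F W = 2)
    (hW : Cfsg.Geo.IsNondegenerateOn (polar ⇑Q) W) (hplus : Cfsg.Geo.IsPlusTypeOn ⇑Q W) :
    ∃ a ∈ W, Q a = 1 ∧ (∀ v ∈ W, Q v = 1 → v = a ∨ v = -a) ∧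
      ∃ x ∈ W, x ≠ 0 ∧ polar Q x a = 0 := by
  obtain ⟨s, t, hs, ht, hQs, hQt, hst, hsp⟩ :=
    Cfsg.Agent.Lib.Helper37.PlaneTwo.exists_hyp_basis Q W hdim hW hplus
  have hts : polar Q t s = 1 := by rw [polar_comm]; exact hst
  refine ⟨s + t, W.add_mem hs ht, ?_, ?_, s - t, W.sub_mem hs ht, ?_, ?_⟩
  · rw [q_add, hQs, hQt, hst]
    ring
  · intro v hv hQv
    obtain ⟨α, β, rfl⟩ := hsp v hv
    rw [q_add, q_smul, q_smul, polar_smul_l, polar_smul_r, hQs, hQt, hst] at hQv
    have hαβ : α * β = 1 := by linear_combination hQv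
    rcases cases3 hq α with rfl | rfl | rfl
    · rw [zero_mul] at hαβ
      exact absurd hαβ zero_ne_one
    · left
      have : β = 1 := by linear_combination hαβ
      rw [this]
      module
    · right
      have : β = -1 := by linear_combination -hαβ
      rw [this]
      module
  · intro h0
    have : s = t := sub_eq_zero.mp h0
    rw [this, polar_self', hQt] at hst
    simp at hst
  · rw [polar_sub_left, polar_add_right, polar_add_right, polar_self', polar_self', hQs, hQt, hst,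
      hts]
    ring

omit [DecidableEq ι] in
/-- A plus-type plane over the field with five elements has exactly four vectors of norm 1,
forming an orthonormal frame up to signs. -/
theorem exists_frame2_plus5 (hq : Fintype.card F = 5) (Q : QuadraticForm F (ι → F))
    (W : Submodule F (ι → F)) (hdim : finrank F W = 2)
    (hW : Cfsg.Geo.IsNondegenerateOn (polar ⇑Q) W) (hplus : Cfsg.Geo.IsPlusTypeOn ⇑Q W) :
    ∃ a ∈ W, ∃ b ∈ W, Q a = 1 ∧ Q b = 1 ∧ polar Q a b = 0 ∧
      (∀ v ∈ W, Q v = 1 → (v = a ∨ v = -a) ∨ (v = b ∨ v = -b)) := by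
  have h5 := five_eq_zero hq
  obtain ⟨s, t, hs, ht, hQs, hQt, hst, hsp⟩ :=
    Cfsg.Agent.Lib.Helper37.PlaneTwo.exists_hyp_basis Q W hdim hW hplus
  have hts : polar Q t s = 1 := by rw [polar_comm]; exact hst
  refine ⟨s + t, W.add_mem hs ht, (2 : F) • s + (-2 : F) • t,
    W.add_mem (W.smul_mem _ hs) (W.smul_mem _ ht), ?_, ?_, ?_, ?_⟩
  · rw [q_add, hQs, hQt, hst]
    ring
  · rw [q_add, q_smul, q_smul, polar_smul_l, polar_smul_r, hQs, hQt, hst]
    linear_combination -h5
  · rw [polar_add_left, polar_add_right, polar_add_right, polar_smul_r, polar_smul_r,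
      polar_smul_r, polar_smul_r, polar_self', polar_self', hQs, hQt, hst, hts]
    ring
  · intro v hv hQv
    obtain ⟨α, β, rfl⟩ := hsp v hv
    rw [q_add, q_smul, q_smul, polar_smul_l, polar_smul_r, hQs, hQt, hst] at hQv
    have hαβ : α * β = 1 := by linear_combination hQv
    have hα0 : α ≠ 0 := by
      rintro rfl
      rw [zero_mul] at hαβ
      exact zero_ne_one hαβ
    have h4 : α ^ 4 = 1 := by
      have := FiniteField.pow_card_sub_one_eq_one α hα0
      rw [hq] at this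
      exact this
    have hfac : (α - 1) * (α + 1) * (α - 2) * (α + 2) = 0 := by
      linear_combination h4 + (1 - α ^ 2) * h5
    rcases mul_eq_zero.mp hfac with h' | h'
    · rcases mul_eq_zero.mp h' with h'' | h''
      · rcases mul_eq_zero.mp h'' with h''' | h'''
        · left; left
          have hα : α = 1 := by linear_combination h'''
          have hβ : β = 1 := by rw [hα] at hαβ; linear_combination hαβ
          rw [hα, hβ]
          module
        · left; right
          have hα : α = -1 := by linear_combination h'''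
          have hβ : β = -1 := by rw [hα] at hαβ; linear_combination -hαβ
          rw [hα, hβ]
          module
      · right; left
        have hα : α = 2 := by linear_combination h''
        have hβ : β = -2 := by rw [hα] at hαβ; linear_combination β * h5 - 2 * hαβ
        rw [hα, hβ]
    · right; right
      have hα : α = -2 := by linear_combination h'
      have hβ : β = 2 := by rw [hα] at hαβ; linear_combination β * h5 + 2 * hαβ
      rw [hα, hβ]
      module

/-- Over the field with three elements, the stabiliser in `Ω` of an orthogonal decomposition into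
plus-type planes is not maximal. -/
theorem plus2_three_not_maximal (hq : Fintype.card F = 3) (Q : QuadraticForm F (ι → F)) {t : ℕ}
    (D : Fin t → Submodule F (ι → F))
    (hD : Cfsg.Geo.IsNondegenerateMDecomposition (polar ⇑Q) 2 D)
    (hplus : ∀ i, Cfsg.Geo.IsPlusTypeOn ⇑Q (D i)) (hn : 8 ≤ Fintype.card ι) :
    ∃ K : Subgroup (GL ι F), Cfsg.Geo.decompositionStabilizer D ⊓ Cfsg.Geo.omegaGL ⇑Q < K ∧
      K < Cfsg.Geo.omegaGL ⇑Q := by
  classical
  have ht2 := card_index D hD.decomp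
  have ht : 4 ≤ t := by omega
  have hex := fun i => exists_frame1_plus3 hq Q (D i) (hD.decomp.finrank_eq i)
    (hD.nondegenerate i) (hplus i)
  choose a ha hQa hchar x hx hx0 hxa using hex
  have hfr : IsFrame Q D 1 (fun i (_ : Unit) => a i) := by
    refine ⟨fun i j hij => hD.orthogonal i j hij, disj_of_decomp D hD.decomp, fun i _ => ha i,
      fun i _ => hQa i, fun i j j' hjj => absurd rfl hjj, ?_⟩
    intro i v hv hQv
    exact ⟨(), hchar i v hv hQv⟩
  exact frame_not_maximal_odd (two_ne_zero_of_three hq) Q D 1 one_ne_zero _ ht hfr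
    (fun i => ⟨(), x i, hx i, hx0 i, hxa i⟩)

/-- Over the field with five elements, the stabiliser in `Ω` of an orthogonal decomposition into
plus-type planes is not maximal. -/
theorem plus2_five_not_maximal (hq : Fintype.card F = 5) (Q : QuadraticForm F (ι → F)) {t : ℕ}
    (D : Fin t → Submodule F (ι → F))
    (hD : Cfsg.Geo.IsNondegenerateMDecomposition (polar ⇑Q) 2 D)
    (hplus : ∀ i, Cfsg.Geo.IsPlusTypeOn ⇑Q (D i)) (hn : 8 ≤ Fintype.card ι) :
    ∃ K : Subgroup (GL ι F), Cfsg.Geo.decompositionStabilizer D ⊓ Cfsg.Geo.omegaGL ⇑Q < K ∧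
      K < Cfsg.Geo.omegaGL ⇑Q := by
  classical
  have ht2 := card_index D hD.decomp
  have ht : 4 ≤ t := by omega
  have hex := fun i => exists_frame2_plus5 hq Q (D i) (hD.decomp.finrank_eq i)
    (hD.nondegenerate i) (hplus i)
  choose a ha b hb hQa hQb hab hchar using hex
  have hba : ∀ i, polar Q (b i) (a i) = 0 := fun i => by rw [polar_comm]; exact hab i
  obtain ⟨u, hu0, hu1⟩ : ∃ u : Fin t → Fin 2 → (ι → F), (∀ i, u i 0 = a i) ∧
      (∀ i, u i 1 = b i) := ⟨fun i => ![a i, b i], fun i => rfl, fun i => rfl⟩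
  have hfr : IsFrame Q D 1 u := by
    refine ⟨fun i j hij => hD.orthogonal i j hij, disj_of_decomp D hD.decomp, ?_, ?_, ?_, ?_⟩
    · intro i j
      have hj : j = 0 ∨ j = 1 := by omega
      rcases hj with rfl | rfl
      · rw [hu0]; exact ha i
      · rw [hu1]; exact hb i
    · intro i j
      have hj : j = 0 ∨ j = 1 := by omega
      rcases hj with rfl | rfl
      · rw [hu0]; exact hQa i
      · rw [hu1]; exact hQb i
    · intro i j j' hjj
      have hj : j = 0 ∨ j = 1 := by omega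
      have hj' : j' = 0 ∨ j' = 1 := by omega
      rcases hj with rfl | rfl <;> rcases hj' with rfl | rfl
      · exact absurd rfl hjj
      · rw [hu0, hu1]; exact hab i
      · rw [hu0, hu1]; exact hba i
      · exact absurd rfl hjj
    · intro i v hv hQv
      rcases hchar i v hv hQv with h | h
      · exact ⟨0, by rw [hu0]; exact h⟩
      · exact ⟨1, by rw [hu1]; exact h⟩
  refine frame_not_maximal_odd (two_ne_zero_of_five hq) Q D 1 one_ne_zero u ht hfr
    (fun i => ⟨0, u i 1, ?_, ?_, ?_⟩)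
  · rw [hu1]; exact hb i
  · intro h0
    have h1 := hQb i
    rw [← hu1, h0, map_zero] at h1
    exact one_ne_zero h1.symm
  · rw [hu0, hu1]; exact hba i

end planes

end Cfsg.Agent.Lib.Helper37.DecOdd
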