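import Mathlib
import Cfsg.Prelude.Def_GeometricClasses

set_option autoImplicit false

namespace Cfsg.Agent.Lib.Helper37.TensorBasic

open Matrix
open scoped Kronecker

variable {F : Type*} [Field F] {ι : Type} [Fintype ι] [DecidableEq ι]

/-- The pure tensor `u ⊗ w` as a coordinate vector. -/
def ten {n₁ n₂ : ℕ} (u : Fin n₁ → F) (w : Fin n₂ → F) : Fin n₁ × Fin n₂ → F :=
  fun p => u p.1 * w p.2

theorem ten_add_right {n₁ n₂ : ℕ} (u : Fin n₁ → F) (w w' : Fin n₂ → F) :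
    ten u (w + w') = ten u w + ten u w' := by
  funext p
  simp [ten, mul_add]

theorem ten_add_left {n₁ n₂ : ℕ} (u u' : Fin n₁ → F) (w : Fin n₂ → F) :
    ten (u + u') w = ten u w + ten u' w := by
  funext p
  simp [ten, add_mul]

theorem ten_smul_right {n₁ n₂ : ℕ} (c : F) (u : Fin n₁ → F) (w : Fin n₂ → F) :
    ten u (c • w) = c • ten u w := by
  funext p
  simp [ten, mul_left_comm]

theorem ten_smul_left {n₁ n₂ : ℕ} (c : F) (u : Fin n₁ → F) (w : Fin n₂ → F) :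
    ten (c • u) w = c • ten u w := by
  funext p
  simp [ten, mul_assoc]

theorem ten_neg_left {n₁ n₂ : ℕ} (u : Fin n₁ → F) (w : Fin n₂ → F) :
    ten (-u) w = ten u (-w) := by
  funext p
  simp [ten]

theorem ten_neg_right {n₁ n₂ : ℕ} (u : Fin n₁ → F) (w : Fin n₂ → F) :
    ten u (-w) = -ten u w := by
  funext p
  simp [ten]

theorem ten_sub_right {n₁ n₂ : ℕ} (u : Fin n₁ → F) (w w' : Fin n₂ → F) :
    ten u (w - w') = ten u w - ten u w' := by
  funext p
  simp [ten, mul_sub]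

theorem kron_mulVec_ten {n₁ n₂ : ℕ} (A : Matrix (Fin n₁) (Fin n₁) F)
    (B : Matrix (Fin n₂) (Fin n₂) F) (u : Fin n₁ → F) (w : Fin n₂ → F) :
    (A ⊗ₖ B) *ᵥ ten u w = ten (A *ᵥ u) (B *ᵥ w) := by
  funext p
  obtain ⟨i, j⟩ := p
  simp only [Matrix.mulVec, dotProduct, ten, Fintype.sum_prod_type, Matrix.kronecker_apply,
    Finset.sum_mul_sum]
  refine Finset.sum_congr rfl fun k _ => Finset.sum_congr rfl fun l _ => ?_
  ring

/-- The coordinate isomorphism attached to a tensor structure. -/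
def phi {n₁ n₂ : ℕ} (e : ι ≃ Fin n₁ × Fin n₂) (P : GL ι F) (x : Fin n₁ × Fin n₂ → F) : ι → F :=
  (P : Matrix ι ι F) *ᵥ (x ∘ e)

theorem phi_add {n₁ n₂ : ℕ} (e : ι ≃ Fin n₁ × Fin n₂) (P : GL ι F)
    (x y : Fin n₁ × Fin n₂ → F) : phi e P (x + y) = phi e P x + phi e P y := by
  unfold phi
  rw [← Matrix.mulVec_add]
  rfl

theorem phi_sub {n₁ n₂ : ℕ} (e : ι ≃ Fin n₁ × Fin n₂) (P : GL ι F)
    (x y : Fin n₁ × Fin n₂ → F) : phi e P (x - y) = phi e P x - phi e P y := by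
  unfold phi
  rw [← Matrix.mulVec_sub]
  rfl

theorem phi_smul {n₁ n₂ : ℕ} (e : ι ≃ Fin n₁ × Fin n₂) (P : GL ι F) (c : F)
    (x : Fin n₁ × Fin n₂ → F) : phi e P (c • x) = c • phi e P x := by
  unfold phi
  rw [← Matrix.mulVec_smul]
  rfl

theorem phi_neg {n₁ n₂ : ℕ} (e : ι ≃ Fin n₁ × Fin n₂) (P : GL ι F)
    (x : Fin n₁ × Fin n₂ → F) : phi e P (-x) = -phi e P x := by
  unfold phi
  rw [← Matrix.mulVec_neg]
  rfl

theorem phi_injective {n₁ n₂ : ℕ} (e : ι ≃ Fin n₁ × Fin n₂) (P : GL ι F)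
    {x y : Fin n₁ × Fin n₂ → F} (h : phi e P x = phi e P y) : x = y := by
  unfold phi at h
  have h1 := congrArg (fun v => ((P⁻¹ : GL ι F) : Matrix ι ι F) *ᵥ v) h
  simp only [Matrix.mulVec_mulVec, ← Units.val_mul, inv_mul_cancel, Units.val_one,
    Matrix.one_mulVec] at h1
  funext p
  have h2 := congrFun h1 (e.symm p)
  simpa using h2

/-- Elements of the tensor product subgroup act on coordinates by a Kronecker product. -/
theorem tensor_mem {n₁ n₂ : ℕ} (e : ι ≃ Fin n₁ × Fin n₂) (P : GL ι F) {g : GL ι F}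
    (hg : g ∈ Cfsg.Geo.tensorProductSubgroup n₁ n₂ e P) :
    ∃ (a : GL (Fin n₁) F) (b : GL (Fin n₂) F), ∀ x : Fin n₁ × Fin n₂ → F,
      (g : Matrix ι ι F) *ᵥ phi e P x
        = phi e P (((a : Matrix (Fin n₁) (Fin n₁) F) ⊗ₖ (b : Matrix (Fin n₂) (Fin n₂) F)) *ᵥ x) := by
  obtain ⟨h, ⟨k, ⟨a, b, hk⟩, rfl⟩, rfl⟩ := hg
  refine ⟨a, b, fun x => ?_⟩
  have e1 : ((MulAut.conj P).toMonoidHom ((Cfsg.Geo.glReindex e.symm).toMonoidHom k) : GL ι F)
      = P * (Cfsg.Geo.glReindex e.symm k) * P⁻¹ := rfl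
  have e2 : ((Cfsg.Geo.glReindex e.symm k : GL ι F) : Matrix ι ι F)
      = (k : Matrix (Fin n₁ × Fin n₂) (Fin n₁ × Fin n₂) F).submatrix e e := by
    show Matrix.reindexAlgEquiv F F e.symm (k : Matrix (Fin n₁ × Fin n₂) (Fin n₁ × Fin n₂) F) = _
    rw [Matrix.coe_reindexAlgEquiv, Matrix.reindex_apply, Equiv.symm_symm]
  rw [e1]
  unfold phi
  rw [Matrix.mulVec_mulVec, ← Units.val_mul, inv_mul_cancel_right, Units.val_mul,
    ← Matrix.mulVec_mulVec, e2, Matrix.submatrix_mulVec_equiv, hk]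
  have e3 : (x ∘ ⇑e) ∘ ⇑e.symm = x := by
    funext p
    simp
  rw [e3]

/-- A bilinear form in terms of its Gram matrix. -/
theorem bilin_eq_gram {κ : Type} [Fintype κ] [DecidableEq κ] {f : (κ → F) → (κ → F) → F}
    (hf : Cfsg.Geo.IsBilinearForm f) (x y : κ → F) :
    f x y = ∑ a, ∑ b, x a * Cfsg.Geo.gramMatrix f a b * y b := by
  have hsum : ∀ (s : Finset κ) (c : κ → F) (v : κ → κ → F) (z : κ → F),
      f (∑ a ∈ s, c a • v a) z = ∑ a ∈ s, c a * f (v a) z := by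
    intro s c v z
    induction s using Finset.induction_on with
    | empty =>
      simp only [Finset.sum_empty]
      have h0 := hf.smul_left 0 0 z
      simpa using h0
    | insert a s ha ih =>
      rw [Finset.sum_insert ha, Finset.sum_insert ha, hf.add_left, hf.smul_left, ih]
  have hsum' : ∀ (s : Finset κ) (c : κ → F) (v : κ → κ → F) (z : κ → F),
      f z (∑ a ∈ s, c a • v a) = ∑ a ∈ s, c a * f z (v a) := by
    intro s c v z
    induction s using Finset.induction_on with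
    | empty =>
      simp only [Finset.sum_empty]
      have h0 := hf.smul_right 0 z 0
      simpa using h0
    | insert a s ha ih =>
      rw [Finset.sum_insert ha, Finset.sum_insert ha, hf.add_right, hf.smul_right, ih]
  conv_lhs => rw [pi_eq_sum_univ' x, pi_eq_sum_univ' y]
  rw [hsum]
  refine Finset.sum_congr rfl fun a _ => ?_
  rw [hsum', Finset.mul_sum]
  refine Finset.sum_congr rfl fun b _ => ?_
  unfold Cfsg.Geo.gramMatrix
  ring

/-- The tensor product form on pure tensors. -/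
theorem formOfGram_ten {n₁ n₂ : ℕ} {f₁ : (Fin n₁ → F) → (Fin n₁ → F) → F}
    {f₂ : (Fin n₂ → F) → (Fin n₂ → F) → F} (hf₁ : Cfsg.Geo.IsBilinearForm f₁)
    (hf₂ : Cfsg.Geo.IsBilinearForm f₂) (u u' : Fin n₁ → F) (w w' : Fin n₂ → F) :
    Cfsg.Geo.formOfGram id (Cfsg.Geo.gramMatrix f₁ ⊗ₖ Cfsg.Geo.gramMatrix f₂) (ten u w) (ten u' w')
      = f₁ u u' * f₂ w w' := by
  rw [bilin_eq_gram hf₁, bilin_eq_gram hf₂]
  unfold Cfsg.Geo.formOfGram
  simp only [Fintype.sum_prod_type, ten, Matrix.kronecker_apply, id, Finset.sum_mul_sum]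
  refine Finset.sum_congr rfl fun a _ => Finset.sum_congr rfl fun b _ =>
    Finset.sum_congr rfl fun a' _ => Finset.sum_congr rfl fun b' _ => ?_
  ring

/-- The value of a form with a tensor structure on images of pure tensors. -/
theorem form_phi_ten {n₁ n₂ : ℕ} {f : (ι → F) → (ι → F) → F}
    {f₁ : (Fin n₁ → F) → (Fin n₁ → F) → F} {f₂ : (Fin n₂ → F) → (Fin n₂ → F) → F}
    (hf₁ : Cfsg.Geo.IsBilinearForm f₁) (hf₂ : Cfsg.Geo.IsBilinearForm f₂)
    {e : ι ≃ Fin n₁ × Fin n₂} {P : GL ι F} {c : F}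
    (hc : ∀ x y : Fin n₁ × Fin n₂ → F, f (phi e P x) (phi e P y) =
      c * Cfsg.Geo.formOfGram id (Cfsg.Geo.gramMatrix f₁ ⊗ₖ Cfsg.Geo.gramMatrix f₂) x y)
    (u u' : Fin n₁ → F) (w w' : Fin n₂ → F) :
    f (phi e P (ten u w)) (phi e P (ten u' w')) = c * (f₁ u u' * f₂ w w') := by
  rw [hc, formOfGram_ten hf₁ hf₂]

end Cfsg.Agent.Lib.Helper37.TensorBasic
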