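import Mathlib
import Cfsg.Prelude.Def_GeometricClasses
import Cfsg.Agent.Lib.Helper37.TensorBasic
import Cfsg.Agent.Lib.Helper37.FrameExist

set_option autoImplicit false

namespace Cfsg.Agent.Lib.Helper37.TensorFrame

open Module QuadraticMap Matrix
open scoped Kronecker
open Cfsg.Agent.Lib.Helper44.QSpace Cfsg.Agent.Lib.Helper44.OGroup Cfsg.Agent.Lib.Helper44.OMat
open Cfsg.Agent.Lib.Helper37.PlanePlus Cfsg.Agent.Lib.Helper37.FrameThree
open Cfsg.Agent.Lib.Helper37.FrameExist Cfsg.Agent.Lib.Helper37.TensorBasic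

variable {F : Type*} [Field F] {ι : Type} [Fintype ι] [DecidableEq ι]

/-- A subgroup strictly between `H ⊓ G` and `G`, from a set of vectors preserved by `H ⊓ G`. -/
theorem set_between_gen (H G : Subgroup (GL ι F)) (S : Set (ι → F))
    (hA : ∀ g ∈ H ⊓ G, ∀ v ∈ S, (g : Matrix ι ι F) *ᵥ v ∈ S)
    (hB : ∃ g ∈ G, (∀ v, v ∈ S ↔ (g : Matrix ι ι F) *ᵥ v ∈ S) ∧ g ∉ H)
    (hC : ∃ g ∈ G, ∃ v ∈ S, (g : Matrix ι ι F) *ᵥ v ∉ S) :
    ∃ K : Subgroup (GL ι F), H ⊓ G < K ∧ K < G := by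
  refine ⟨Cfsg.stabilizing (Cfsg.glToMat ι F) S ⊓ G, ?_, ?_⟩
  · rw [SetLike.lt_iff_le_and_exists]
    refine ⟨?_, ?_⟩
    · intro g hg
      refine ⟨fun v => ⟨fun hv => hA g hg v hv, fun hv => ?_⟩, hg.2⟩
      have hg' := inv_mem hg
      have h1 := hA g⁻¹ hg' _ hv
      have e : ((g⁻¹ : GL ι F) : Matrix ι ι F) *ᵥ ((Cfsg.glToMat ι F) g *ᵥ v) = v := by
        show ((g⁻¹ : GL ι F) : Matrix ι ι F) *ᵥ ((g : Matrix ι ι F) *ᵥ v) = v
        rw [Matrix.mulVec_mulVec, ← Units.val_mul, inv_mul_cancel, Units.val_one,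
          Matrix.one_mulVec]
      rw [e] at h1
      exact h1
    · obtain ⟨g, hgG, hgS, hgH⟩ := hB
      exact ⟨g, ⟨hgS, hgG⟩, fun h => hgH h.1⟩
  · rw [SetLike.lt_iff_le_and_exists]
    refine ⟨inf_le_right, ?_⟩
    obtain ⟨g, hgG, v, hv, hgv⟩ := hC
    exact ⟨g, hgG, fun h => hgv ((h.1 v).mp hv)⟩

theorem omega_polar (Q : (ι → F) → F) {g : GL ι F} (hg : g ∈ Cfsg.Geo.omegaGL Q)
    (x y : ι → F) :
    polar Q ((g : Matrix ι ι F) *ᵥ x) ((g : Matrix ι ι F) *ᵥ y) = polar Q x y := by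
  unfold polar
  rw [← Matrix.mulVec_add, omega_isometry _ hg, omega_isometry _ hg, omega_isometry _ hg]

/-- A nondegenerate symmetric bilinear form on a 3-dimensional space over the field with three
elements has a frame: an orthogonal basis of vectors of equal norm `c₁`, and these and their
negatives are the only vectors of norm `c₁`. -/
theorem exists_form_frame [Fintype F] (hq : Fintype.card F = 3)
    {f₁ : (Fin 3 → F) → (Fin 3 → F) → F} (hf₁ : Cfsg.Geo.IsSymmetricForm f₁) :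
    ∃ c₁ : F, c₁ ≠ 0 ∧ ∃ u : Fin 3 → (Fin 3 → F), (∀ j, f₁ (u j) (u j) = c₁) ∧
      (∀ j j', j ≠ j' → f₁ (u j) (u j') = 0) ∧
      (∀ v, f₁ v v = c₁ → ∃ j, v = u j ∨ v = - u j) := by
  have h2 := two_ne_zero_of_three hq
  let B₁ : LinearMap.BilinForm F (Fin 3 → F) := LinearMap.mk₂ F f₁ hf₁.bilinear.add_left
    hf₁.bilinear.smul_left hf₁.bilinear.add_right hf₁.bilinear.smul_right
  let Q₁ : QuadraticForm F (Fin 3 → F) := LinearMap.BilinMap.toQuadraticMap B₁
  have hQ₁ : ∀ v, Q₁ v = f₁ v v := fun v => rfl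
  have hP₁ : ∀ x y, polar Q₁ x y = 2 * f₁ x y := by
    intro x y
    have h := LinearMap.BilinMap.polar_toQuadraticMap (B := B₁) x y
    have e1 : B₁ x y = f₁ x y := rfl
    have e2 : B₁ y x = f₁ y x := rfl
    rw [e1, e2, hf₁.symm y x] at h
    rw [two_mul]
    exact h
  have hdim : finrank F (⊤ : Submodule F (Fin 3 → F)) = 3 := by
    rw [finrank_top, Module.finrank_fintype_fun_eq_card, Fintype.card_fin]
  have hW : ∀ w ∈ (⊤ : Submodule F (Fin 3 → F)), w ≠ 0 →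
      ∃ x ∈ (⊤ : Submodule F (Fin 3 → F)), polar Q₁ x w ≠ 0 := by
    intro w _ hw
    obtain ⟨x, hx⟩ := (hf₁.nondegenerate w hw).1
    exact ⟨x, trivial, by rw [hP₁]; exact mul_ne_zero h2 hx⟩
  obtain ⟨c, hc, u₁, u₂, u₃, m₁, m₂, m₃, q₁, q₂, q₃, o12, o13, o23⟩ :=
    exists_frame3 hq Q₁ ⊤ hdim hW
  have hchar := char3 hq Q₁ ⊤ hdim hc m₁ m₂ m₃ q₁ q₂ q₃ o12 o13 o23
  have z12 : f₁ u₁ u₂ = 0 := by
    rw [hP₁] at o12
    exact (mul_eq_zero.mp o12).resolve_left h2
  have z13 : f₁ u₁ u₃ = 0 := by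
    rw [hP₁] at o13
    exact (mul_eq_zero.mp o13).resolve_left h2
  have z23 : f₁ u₂ u₃ = 0 := by
    rw [hP₁] at o23
    exact (mul_eq_zero.mp o23).resolve_left h2
  have z21 : f₁ u₂ u₁ = 0 := by rw [hf₁.symm]; exact z12
  have z31 : f₁ u₃ u₁ = 0 := by rw [hf₁.symm]; exact z13
  have z32 : f₁ u₃ u₂ = 0 := by rw [hf₁.symm]; exact z23
  obtain ⟨u, hu0, hu1, hu2⟩ : ∃ u : Fin 3 → (Fin 3 → F), u 0 = u₁ ∧ u 1 = u₂ ∧ u 2 = u₃ :=
    ⟨![u₁, u₂, u₃], rfl, rfl, rfl⟩
  refine ⟨c, hc, u, ?_, ?_, ?_⟩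
  · intro j
    have hj : j = 0 ∨ j = 1 ∨ j = 2 := by omega
    rcases hj with rfl | rfl | rfl
    · rw [hu0]; exact q₁
    · rw [hu1]; exact q₂
    · rw [hu2]; exact q₃
  · intro j j' hjj
    have hj : j = 0 ∨ j = 1 ∨ j = 2 := by omega
    have hj' : j' = 0 ∨ j' = 1 ∨ j' = 2 := by omega
    rcases hj with rfl | rfl | rfl <;> rcases hj' with rfl | rfl | rfl <;>
      first
      | exact absurd rfl hjj
      | (rw [hu0, hu1]; exact z12)
      | (rw [hu0, hu2]; exact z13)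
      | (rw [hu1, hu0]; exact z21)
      | (rw [hu1, hu2]; exact z23)
      | (rw [hu2, hu0]; exact z31)
      | (rw [hu2, hu1]; exact z32)
  · intro v hv
    rcases hchar v trivial hv with h | h | h
    · exact ⟨0, by rw [hu0]; exact h⟩
    · exact ⟨1, by rw [hu1]; exact h⟩
    · exact ⟨2, by rw [hu2]; exact h⟩

/-- Over the field with three elements, the stabiliser in `Ω` of a tensor decomposition whose
first factor is a 3-dimensional orthogonal space is not maximal. -/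
theorem tensor3_not_maximal [Fintype F] (hq : Fintype.card F = 3) (Q : QuadraticForm F (ι → F))
    (n₂ : ℕ) (hn₂ : 2 ≤ n₂) (e : ι ≃ Fin 3 × Fin n₂) (P : GL ι F)
    (f₁ : (Fin 3 → F) → (Fin 3 → F) → F) (f₂ : (Fin n₂ → F) → (Fin n₂ → F) → F)
    (hf₁ : Cfsg.Geo.IsSymmetricForm f₁) (hf₂ : Cfsg.Geo.IsSymmetricForm f₂)
    (hT : Cfsg.Geo.IsTensorFormStructure id (polar ⇑Q) f₁ f₂ e P) :
    ∃ K : Subgroup (GL ι F),
      Cfsg.Geo.tensorProductSubgroup 3 n₂ e P ⊓ Cfsg.Geo.omegaGL ⇑Q < K ∧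
        K < Cfsg.Geo.omegaGL ⇑Q := by
  classical
  have h3 := three_eq_zero hq
  have h2 := two_ne_zero_of_three hq
  obtain ⟨c, hc0, hc⟩ := hT
  have hpol : ∀ (x x' : Fin 3 → F) (w w' : Fin n₂ → F),
      polar Q (phi e P (ten x w)) (phi e P (ten x' w')) = c * (f₁ x x' * f₂ w w') :=
    fun x x' w w' => form_phi_ten hf₁.bilinear hf₂.bilinear hc x x' w w'
  obtain ⟨c₁, hc₁, u, huQ, huO, huC⟩ := exists_form_frame hq hf₁
  -- bilinear forms as linear maps
  let B₁ : LinearMap.BilinForm F (Fin 3 → F) := LinearMap.mk₂ F f₁ hf₁.bilinear.add_left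
    hf₁.bilinear.smul_left hf₁.bilinear.add_right hf₁.bilinear.smul_right
  let B₂ : LinearMap.BilinForm F (Fin n₂ → F) := LinearMap.mk₂ F f₂ hf₂.bilinear.add_left
    hf₂.bilinear.smul_left hf₂.bilinear.add_right hf₂.bilinear.smul_right
  have hB₁ : ∀ x y, f₁ x y = B₁ x y := fun _ _ => rfl
  have hB₂ : ∀ x y, f₂ x y = B₂ x y := fun _ _ => rfl
  -- a vector of nonzero norm for `f₂`
  obtain ⟨w₀, hw₀⟩ : ∃ w₀, f₂ w₀ w₀ ≠ 0 := by
    by_contra hcon
    push Not at hcon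
    have hv : (Pi.single (⟨0, by omega⟩ : Fin n₂) (1 : F) : Fin n₂ → F) ≠ 0 := by
      intro h
      have := congrFun h ⟨0, by omega⟩
      simp at this
    obtain ⟨x, hx⟩ := (hf₂.nondegenerate _ hv).1
    apply hx
    have h1 := hcon (x + Pi.single (⟨0, by omega⟩ : Fin n₂) (1 : F))
    rw [hB₂] at h1
    simp only [map_add, LinearMap.add_apply] at h1
    rw [← hB₂, ← hB₂, ← hB₂, ← hB₂, hcon, hcon, hf₂.symm _ x] at h1
    have h4 : 2 * f₂ x (Pi.single (⟨0, by omega⟩ : Fin n₂) (1 : F)) = 0 := by linear_combination h1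
    exact (mul_eq_zero.mp h4).resolve_left h2
  -- a nonzero vector orthogonal to `w₀`
  obtain ⟨z, hz0, hzw⟩ : ∃ z : Fin n₂ → F, z ≠ 0 ∧ f₂ z w₀ = 0 := by
    have hlt : finrank F F < finrank F (Fin n₂ → F) := by
      rw [Module.finrank_self, Module.finrank_fintype_fun_eq_card, Fintype.card_fin]
      omega
    have hker := LinearMap.ker_ne_bot_of_finrank_lt (f := B₂.flip w₀) hlt
    obtain ⟨z, hz, hz0⟩ := (Submodule.ne_bot_iff _).mp hker
    exact ⟨z, hz0, hz⟩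
  obtain ⟨γ, hγ⟩ : ∃ γ, γ = f₂ w₀ w₀ := ⟨_, rfl⟩
  have hγ0 : γ ≠ 0 := hγ ▸ hw₀
  have hw₀0 : w₀ ≠ 0 := by
    intro h
    apply hw₀
    rw [h, hB₂]
    simp
  -- the three blocks
  obtain ⟨T, hT⟩ : ∃ T : Fin 3 → (Fin n₂ → F) → (ι → F), T = fun j w => phi e P (ten (u j) w) :=
    ⟨_, rfl⟩
  have hTadd : ∀ j w w', T j (w + w') = T j w + T j w' := by
    intro j w w'
    rw [hT]
    show phi e P (ten (u j) (w + w')) = _
    rw [ten_add_right, phi_add]
  have hTsub : ∀ j w w', T j (w - w') = T j w - T j w' := by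
    intro j w w'
    rw [hT]
    show phi e P (ten (u j) (w - w')) = _
    rw [ten_sub_right, phi_sub]
  have hTsmul : ∀ j (t : F) w, T j (t • w) = t • T j w := by
    intro j t w
    rw [hT]
    show phi e P (ten (u j) (t • w)) = _
    rw [ten_smul_right, phi_smul]
  have hTT : ∀ j j' w w', polar Q (T j w) (T j' w') = c * (f₁ (u j) (u j') * f₂ w w') := by
    intro j j' w w'
    rw [hT]
    exact hpol _ _ _ _
  have hTne : ∀ j j' w w', j ≠ j' → polar Q (T j w) (T j' w') = 0 := by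
    intro j j' w w' hjj
    rw [hTT, huO j j' hjj]
    ring
  have hTeq : ∀ j w w', polar Q (T j w) (T j w') = c * (c₁ * f₂ w w') := by
    intro j w w'
    rw [hTT, huQ]
  obtain ⟨S, hS⟩ : ∃ S : Set (ι → F), S = {v | ∃ j w, v = T j w} := ⟨_, rfl⟩
  have hSmem : ∀ j w, T j w ∈ S := fun j w => by rw [hS]; exact ⟨j, w, rfl⟩
  -- the frame vectors
  obtain ⟨a, ha⟩ : ∃ a : Fin 3 → (ι → F), a = fun j => T j w₀ := ⟨_, rfl⟩
  have haj : ∀ j, a j = T j w₀ := fun j => by rw [ha]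
  obtain ⟨κ, hκ⟩ : ∃ κ, κ = Q (a 0) := ⟨_, rfl⟩
  have h2Q : ∀ j, 2 * Q (a j) = c * (c₁ * γ) := by
    intro j
    rw [← polar_self', haj, hTeq, hγ]
  have hQa : ∀ j, Q (a j) = κ := by
    intro j
    apply mul_left_cancel₀ h2
    rw [hκ, h2Q, h2Q]
  have h2κ : 2 * κ = c * (c₁ * γ) := by rw [← hQa 0, h2Q]
  have hκ0 : κ ≠ 0 := by
    intro h
    rw [h, mul_zero] at h2κ
    exact mul_ne_zero hc0 (mul_ne_zero hc₁ hγ0) h2κ.symm
  have haa : ∀ j j', j ≠ j' → polar Q (a j) (a j') = 0 := by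
    intro j j' hjj
    rw [haj, haj]
    exact hTne _ _ _ _ hjj
  -- reflections in block vectors preserve `S`
  have hrefl : ∀ j₀ w₁ v, v ∈ S → reflE Q (T j₀ w₁) v ∈ S := by
    intro j₀ w₁ v hv
    rw [hS] at hv
    obtain ⟨j, w, rfl⟩ := hv
    by_cases hj : j = j₀
    · subst hj
      rw [reflE_apply, ← hTsmul, ← hTsub]
      exact hSmem _ _
    · rw [reflE_of_orth (hTne _ _ _ _ hj)]
      exact hSmem _ _
  have hrefl_iff : ∀ j₀ w₁ v, v ∈ S ↔ reflE Q (T j₀ w₁) v ∈ S := by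
    intro j₀ w₁ v
    constructor
    · exact hrefl j₀ w₁ v
    · intro hv
      have h1 := hrefl j₀ w₁ _ hv
      rw [reflE_reflE] at h1
      exact h1
  have hu0 : ∀ j, u j ≠ 0 := by
    intro j h
    have h1 := huQ j
    rw [h, hB₁] at h1
    simp at h1
    exact hc₁ h1.symm
  apply set_between_gen _ _ S
  · -- (A)
    rintro g ⟨hgT, hgΩ⟩ v hv
    rw [hS] at hv
    obtain ⟨j, w, rfl⟩ := hv
    obtain ⟨a', b', hab⟩ := tensor_mem e P hgT
    have hstar : ∀ (x x' : Fin 3 → F) (w w' : Fin n₂ → F),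
        f₁ ((a' : Matrix (Fin 3) (Fin 3) F) *ᵥ x) ((a' : Matrix (Fin 3) (Fin 3) F) *ᵥ x') *
          f₂ ((b' : Matrix (Fin n₂) (Fin n₂) F) *ᵥ w) ((b' : Matrix (Fin n₂) (Fin n₂) F) *ᵥ w')
        = f₁ x x' * f₂ w w' := by
      intro x x' w w'
      have h1 := omega_polar (⇑Q) hgΩ (phi e P (ten x w)) (phi e P (ten x' w'))
      rw [hab, hab, kron_mulVec_ten, kron_mulVec_ten, hpol, hpol] at h1
      exact mul_left_cancel₀ hc0 h1
    obtain ⟨β, hβ⟩ : ∃ β, β = f₂ ((b' : Matrix (Fin n₂) (Fin n₂) F) *ᵥ w₀)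
        ((b' : Matrix (Fin n₂) (Fin n₂) F) *ᵥ w₀) := ⟨_, rfl⟩
    have hstar' : ∀ x x' : Fin 3 → F,
        f₁ ((a' : Matrix (Fin 3) (Fin 3) F) *ᵥ x) ((a' : Matrix (Fin 3) (Fin 3) F) *ᵥ x') * β
          = f₁ x x' * γ := by
      intro x x'
      rw [hβ, hγ]
      exact hstar x x' w₀ w₀
    have hβ0 : β ≠ 0 := by
      intro h
      have h1 := hstar' (u 0) (u 0)
      rw [h, mul_zero, huQ] at h1
      exact mul_ne_zero hc₁ hγ0 h1.symm
    have hiso : ∀ x x' : Fin 3 → F,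
        f₁ ((a' : Matrix (Fin 3) (Fin 3) F) *ᵥ x) ((a' : Matrix (Fin 3) (Fin 3) F) *ᵥ x')
          = f₁ x x' := by
      by_cases hβγ : β = γ
      · intro x x'
        have h1 := hstar' x x'
        rw [hβγ] at h1
        exact mul_right_cancel₀ hγ0 h1
      · exfalso
        have hβγ' := ne_cases hq hγ0 hβ0 hβγ
        have hanti : ∀ x x' : Fin 3 → F,
            f₁ ((a' : Matrix (Fin 3) (Fin 3) F) *ᵥ x) ((a' : Matrix (Fin 3) (Fin 3) F) *ᵥ x')
              = - f₁ x x' := by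
          intro x x'
          have h1 := hstar' x x'
          rw [hβγ'] at h1
          apply mul_right_cancel₀ hγ0
          linear_combination -h1
        obtain ⟨v₀, hv₀⟩ : ∃ v₀, v₀ = (a' : Matrix (Fin 3) (Fin 3) F) *ᵥ u 0 := ⟨_, rfl⟩
        obtain ⟨v₁, hv₁⟩ : ∃ v₁, v₁ = (a' : Matrix (Fin 3) (Fin 3) F) *ᵥ u 1 := ⟨_, rfl⟩
        obtain ⟨v₂, hv₂⟩ : ∃ v₂, v₂ = (a' : Matrix (Fin 3) (Fin 3) F) *ᵥ u 2 := ⟨_, rfl⟩
        have n0 : B₁ v₀ v₀ = -c₁ := by rw [← hB₁, hv₀, hanti, huQ]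
        have n1 : B₁ v₁ v₁ = -c₁ := by rw [← hB₁, hv₁, hanti, huQ]
        have n2 : B₁ v₂ v₂ = -c₁ := by rw [← hB₁, hv₂, hanti, huQ]
        have o01 : B₁ v₀ v₁ = 0 := by rw [← hB₁, hv₀, hv₁, hanti, huO 0 1 (by decide), neg_zero]
        have o10 : B₁ v₁ v₀ = 0 := by rw [← hB₁, hv₀, hv₁, hanti, huO 1 0 (by decide), neg_zero]
        have o02 : B₁ v₀ v₂ = 0 := by rw [← hB₁, hv₀, hv₂, hanti, huO 0 2 (by decide), neg_zero]
        have o20 : B₁ v₂ v₀ = 0 := by rw [← hB₁, hv₀, hv₂, hanti, huO 2 0 (by decide), neg_zero]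
        have o12 : B₁ v₁ v₂ = 0 := by rw [← hB₁, hv₁, hv₂, hanti, huO 1 2 (by decide), neg_zero]
        have o21 : B₁ v₂ v₁ = 0 := by rw [← hB₁, hv₁, hv₂, hanti, huO 2 1 (by decide), neg_zero]
        -- three vectors of norm `c₁`
        have es : f₁ (v₀ + v₁) (v₀ + v₁) = c₁ := by
          rw [hB₁]
          simp only [map_add, LinearMap.add_apply, n0, n1, o01, o10]
          linear_combination (-c₁) * h3
        have es' : f₁ (v₀ + v₂) (v₀ + v₂) = c₁ := by
          rw [hB₁]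
          simp only [map_add, LinearMap.add_apply, n0, n2, o02, o20]
          linear_combination (-c₁) * h3
        have ed' : f₁ (v₀ - v₂) (v₀ - v₂) = c₁ := by
          rw [hB₁]
          simp only [map_sub, LinearMap.sub_apply, n0, n2, o02, o20]
          linear_combination (-c₁) * h3
        have p1 : B₁ (v₀ + v₁) (v₀ + v₂) = -c₁ := by
          simp only [map_add, LinearMap.add_apply, n0, o02, o10, o12]
          ring
        have p2 : B₁ (v₀ + v₁) (v₀ - v₂) = -c₁ := by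
          simp only [map_add, map_sub, LinearMap.add_apply, n0, o02, o10, o12]
          ring
        have p3 : B₁ (v₀ + v₂) (v₀ - v₂) = 0 := by
          simp only [map_add, map_sub, LinearMap.add_apply, n0, n2, o02, o20]
          ring
        obtain ⟨j, hj⟩ := huC _ es
        obtain ⟨k, hk⟩ := huC _ es'
        obtain ⟨k', hk'⟩ := huC _ ed'
        have hnc : -c₁ ≠ 0 := neg_ne_zero.mpr hc₁
        -- frame vectors with different indices are orthogonal
        have hframe : ∀ (i i' : Fin 3) (p p' : Fin 3 → F), (p = u i ∨ p = -u i) →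
            (p' = u i' ∨ p' = -u i') → i ≠ i' → B₁ p p' = 0 := by
          intro i i' p p' hp hp' hii
          have h0 : B₁ (u i) (u i') = 0 := by rw [← hB₁]; exact huO i i' hii
          rcases hp with rfl | rfl <;> rcases hp' with rfl | rfl <;> simp [h0]
        have hjk : j = k := by
          by_contra hne
          exact hnc (p1.symm.trans (hframe j k _ _ hj hk hne))
        have hjk' : j = k' := by
          by_contra hne
          exact hnc (p2.symm.trans (hframe j k' _ _ hj hk' hne))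
        have hkk : k = k' := hjk.symm.trans hjk'
        subst hkk
        have h0 : B₁ (u k) (u k) = c₁ := by rw [← hB₁]; exact huQ k
        rcases hk with hk | hk <;> rcases hk' with hk' | hk' <;> rw [hk, hk'] at p3 <;>
          simp [h0] at p3 <;> exact hc₁ p3
    have hnorm : f₁ ((a' : Matrix (Fin 3) (Fin 3) F) *ᵥ u j)
        ((a' : Matrix (Fin 3) (Fin 3) F) *ᵥ u j) = c₁ := by rw [hiso, huQ]
    obtain ⟨j', hj'⟩ := huC _ hnorm
    have himg : (g : Matrix ι ι F) *ᵥ T j w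
        = phi e P (ten ((a' : Matrix (Fin 3) (Fin 3) F) *ᵥ u j)
            ((b' : Matrix (Fin n₂) (Fin n₂) F) *ᵥ w)) := by
      rw [hT]
      show (g : Matrix ι ι F) *ᵥ phi e P (ten (u j) w) = _
      rw [hab, kron_mulVec_ten]
    rw [himg]
    rcases hj' with hj' | hj'
    · rw [hj']
      have := hSmem j' ((b' : Matrix (Fin n₂) (Fin n₂) F) *ᵥ w)
      rw [hT] at this
      exact this
    · rw [hj', ten_neg_left]
      have := hSmem j' (-((b' : Matrix (Fin n₂) (Fin n₂) F) *ᵥ w))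
      rw [hT] at this
      exact this
  · -- (B)
    obtain ⟨g, hgΩ, hg⟩ := exists_omega_refl h2 Q (a := a 0) (b := a 1)
      (by rw [hQa]; exact hκ0) (by rw [hQa]; exact hκ0) ⟨κ, by rw [hQa, hQa]⟩
    refine ⟨g, hgΩ, ?_, ?_⟩
    · intro v
      rw [hg, haj, haj]
      exact (hrefl_iff 1 w₀ v).trans (hrefl_iff 0 w₀ _)
    · intro hgT
      obtain ⟨a', b', hab⟩ := tensor_mem e P hgT
      -- (i) `g` fixes the third block
      have hfix2 : ∀ w, (g : Matrix ι ι F) *ᵥ T 2 w = T 2 w := by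
        intro w
        rw [hg, haj, haj, reflE_of_orth (hTne _ _ _ _ (by decide)),
          reflE_of_orth (hTne _ _ _ _ (by decide))]
      have hcoord2 : ∀ (w : Fin n₂ → F) (i : Fin 3) (k : Fin n₂),
          ((a' : Matrix (Fin 3) (Fin 3) F) *ᵥ u 2) i * ((b' : Matrix (Fin n₂) (Fin n₂) F) *ᵥ w) k
            = u 2 i * w k := by
        intro w i k
        have h1 := hfix2 w
        rw [hT] at h1
        change (g : Matrix ι ι F) *ᵥ phi e P (ten (u 2) w) = phi e P (ten (u 2) w) at h1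
        rw [hab, kron_mulVec_ten] at h1
        exact congrFun (phi_injective e P h1) (i, k)
      obtain ⟨i₀, hi₀⟩ : ∃ i₀, u 2 i₀ ≠ 0 := by
        by_contra hcon
        push Not at hcon
        exact hu0 2 (funext hcon)
      obtain ⟨α, hα⟩ : ∃ α, α = ((a' : Matrix (Fin 3) (Fin 3) F) *ᵥ u 2) i₀ := ⟨_, rfl⟩
      have hαb : ∀ (w : Fin n₂ → F) (k : Fin n₂),
          α * ((b' : Matrix (Fin n₂) (Fin n₂) F) *ᵥ w) k = u 2 i₀ * w k := by
        intro w k
        rw [hα]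
        exact hcoord2 w i₀ k
      -- (ii) `g` fixes `T 0 z`
      have hfixz : (g : Matrix ι ι F) *ᵥ T 0 z = T 0 z := by
        rw [hg, haj, haj, reflE_of_orth (hTne _ _ _ _ (by decide)),
          reflE_of_orth (by rw [hTeq, hzw]; ring)]
      have hcoordz : ∀ (i : Fin 3) (k : Fin n₂),
          ((a' : Matrix (Fin 3) (Fin 3) F) *ᵥ u 0) i * ((b' : Matrix (Fin n₂) (Fin n₂) F) *ᵥ z) k
            = u 0 i * z k := by
        intro i k
        have h1 := hfixz
        rw [hT] at h1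
        change (g : Matrix ι ι F) *ᵥ phi e P (ten (u 0) z) = phi e P (ten (u 0) z) at h1
        rw [hab, kron_mulVec_ten] at h1
        exact congrFun (phi_injective e P h1) (i, k)
      -- (iii) `g` negates `a 0`
      have hneg : (g : Matrix ι ι F) *ᵥ T 0 w₀ = - T 0 w₀ := by
        rw [hg, haj, haj, reflE_of_orth (hTne _ _ _ _ (by decide)), ← haj,
          reflE_self (by rw [hQa]; exact hκ0)]
      have hcoordw : ∀ (i : Fin 3) (k : Fin n₂),
          ((a' : Matrix (Fin 3) (Fin 3) F) *ᵥ u 0) i * ((b' : Matrix (Fin n₂) (Fin n₂) F) *ᵥ w₀) k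
            = - (u 0 i * w₀ k) := by
        intro i k
        have h1 := hneg
        rw [hT] at h1
        change (g : Matrix ι ι F) *ᵥ phi e P (ten (u 0) w₀) = - phi e P (ten (u 0) w₀) at h1
        rw [hab, kron_mulVec_ten, ← phi_neg] at h1
        exact congrFun (phi_injective e P h1) (i, k)
      obtain ⟨k₁, hk₁⟩ : ∃ k₁, z k₁ ≠ 0 := by
        by_contra hcon
        push Not at hcon
        exact hz0 (funext hcon)
      obtain ⟨k₂, hk₂⟩ : ∃ k₂, w₀ k₂ ≠ 0 := by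
        by_contra hcon
        push Not at hcon
        exact hw₀0 (funext hcon)
      have hα0 : α ≠ 0 := by
        intro h
        have h1 := hαb w₀ k₂
        rw [h, zero_mul] at h1
        exact mul_ne_zero hi₀ hk₂ h1.symm
      apply hu0 0
      funext i
      have e1 : ((a' : Matrix (Fin 3) (Fin 3) F) *ᵥ u 0) i * u 2 i₀ = α * u 0 i := by
        apply mul_right_cancel₀ hk₁
        linear_combination α * hcoordz i k₁ - ((a' : Matrix (Fin 3) (Fin 3) F) *ᵥ u 0) i * hαb z k₁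
      have e2 : ((a' : Matrix (Fin 3) (Fin 3) F) *ᵥ u 0) i * u 2 i₀ = -(α * u 0 i) := by
        apply mul_right_cancel₀ hk₂
        linear_combination α * hcoordw i k₂ - ((a' : Matrix (Fin 3) (Fin 3) F) *ᵥ u 0) i * hαb w₀ k₂
      have e3 : 2 * (α * u 0 i) = 0 := by linear_combination e2 - e1
      have e4 := (mul_eq_zero.mp e3).resolve_left h2
      exact (mul_eq_zero.mp e4).resolve_left hα0
  · -- (C)
    have hQ01 : Q (a 0 + a 1) = 2 * κ := by
      rw [q_add, hQa, hQa, haa 0 1 (by decide)]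
      ring
    have hQ12 : Q (a 1 + a 2) = 2 * κ := by
      rw [q_add, hQa, hQa, haa 1 2 (by decide)]
      ring
    have h2κ0 : 2 * κ ≠ 0 := mul_ne_zero h2 hκ0
    obtain ⟨g, hgΩ, hg⟩ := exists_omega_refl h2 Q (a := a 0 + a 1) (b := a 1 + a 2)
      (by rw [hQ01]; exact h2κ0) (by rw [hQ12]; exact h2κ0) ⟨2 * κ, by rw [hQ01, hQ12]⟩
    refine ⟨g, hgΩ, T 0 (w₀ + z), hSmem _ _, ?_⟩
    have e1 : reflE Q (a 1 + a 2) (T 0 (w₀ + z)) = T 0 (w₀ + z) := by
      apply reflE_of_orth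
      rw [polar_add_right, haj, haj, hTne _ _ _ _ (by decide), hTne _ _ _ _ (by decide), add_zero]
    have e2 : reflE Q (a 0 + a 1) (T 0 (w₀ + z)) = T 0 z - T 1 w₀ := by
      have hcoef : (Q (a 0 + a 1))⁻¹ * polar Q (T 0 (w₀ + z)) (a 0 + a 1) = 1 := by
        rw [hQ01, polar_add_right, haj, haj, hTne 0 1 _ _ (by decide), hTeq, hB₂, map_add,
          LinearMap.add_apply, ← hB₂, ← hB₂, hzw, ← hγ, add_zero, add_zero, ← h2κ]
        exact inv_mul_cancel₀ h2κ0
      rw [reflE_apply, hcoef, one_smul, haj, haj, hTadd]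
      abel
    rw [hg, e1, e2, hS]
    rintro ⟨j, w, hjw⟩
    obtain ⟨w', hw'⟩ := (hf₂.nondegenerate z hz0).2
    have q1 : polar Q (T 0 z - T 1 w₀) (T 0 w') ≠ 0 := by
      rw [polar_sub_left, hTeq, hTne _ _ _ _ (by decide), sub_zero]
      exact mul_ne_zero hc0 (mul_ne_zero hc₁ hw')
    have q2 : polar Q (T 0 z - T 1 w₀) (T 1 w₀) ≠ 0 := by
      rw [polar_sub_left, hTeq, hTne _ _ _ _ (by decide), zero_sub, ← hγ]
      exact neg_ne_zero.mpr (mul_ne_zero hc0 (mul_ne_zero hc₁ hγ0))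
    have hj0 : j = 0 := by
      by_contra hne
      apply q1
      rw [hjw]
      exact hTne _ _ _ _ hne
    have hj1 : j = 1 := by
      by_contra hne
      apply q2
      rw [hjw]
      exact hTne _ _ _ _ hne
    rw [hj0] at hj1
    exact absurd hj1 (by decide)

end Cfsg.Agent.Lib.Helper37.TensorFrame
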