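import Mathlib
import Cfsg.Prelude.Def_GeometricClasses
import Cfsg.Agent.Lib.Helper37.TensorFrame

set_option autoImplicit false

namespace Cfsg.Agent.Lib.Helper37.DecompWt

open Module Matrix

variable {F : Type*} [Field F] {ι : Type} [Fintype ι] [DecidableEq ι]

/-- The sum of all members of the decomposition other than the `i`-th. -/
def comp {t : ℕ} (D : Fin t → Submodule F (ι → F)) (i : Fin t) : Submodule F (ι → F) :=
  ⨆ (j) (_ : j ≠ i), D j

omit [Fintype ι] [DecidableEq ι] in
theorem map_comp {t : ℕ} (D : Fin t → Submodule F (ι → F)) (f : (ι → F) →ₗ[F] (ι → F))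
    (σ : Equiv.Perm (Fin t)) (hσ : ∀ i, (D i).map f = D (σ i)) (i : Fin t) :
    (comp D i).map f = comp D (σ i) := by
  unfold comp
  rw [Submodule.map_iSup]
  simp_rw [Submodule.map_iSup, hσ]
  rw [← σ.iSup_comp (g := fun k => ⨆ (_ : k ≠ σ i), D k)]
  simp only [ne_eq, EmbeddingLike.apply_eq_iff_eq]

/-- The number of nonzero components of a vector, as an element of the field. -/
noncomputable def wt {t : ℕ} (D : Fin t → Submodule F (ι → F)) (v : ι → F) : F := by
  classical
  exact ∑ i, if v ∈ comp D i then (0 : F) else 1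

theorem wt_map {t : ℕ} (D : Fin t → Submodule F (ι → F)) (g : GL ι F)
    (σ : Equiv.Perm (Fin t))
    (hσ : ∀ i, (D i).map (Matrix.toLin' (g : Matrix ι ι F)) = D (σ i)) (v : ι → F) :
    wt D ((g : Matrix ι ι F) *ᵥ v) = wt D v := by
  classical
  unfold wt
  have hinj : Function.Injective (Matrix.toLin' (g : Matrix ι ι F)) := by
    intro x y hxy
    rw [Matrix.toLin'_apply, Matrix.toLin'_apply] at hxy
    have h1 := congrArg (fun w => ((g⁻¹ : GL ι F) : Matrix ι ι F) *ᵥ w) hxy
    simp only [Matrix.mulVec_mulVec, ← Units.val_mul, inv_mul_cancel, Units.val_one,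
      Matrix.one_mulVec] at h1
    exact h1
  have key : ∀ i, ((g : Matrix ι ι F) *ᵥ v ∈ comp D (σ i) ↔ v ∈ comp D i) := by
    intro i
    rw [← map_comp D _ σ hσ i]
    constructor
    · rintro ⟨w, hw, hwv⟩
      rw [← Matrix.toLin'_apply] at hwv
      rw [← hinj hwv]
      exact hw
    · intro hv
      rw [← Matrix.toLin'_apply]
      exact Submodule.mem_map_of_mem hv
  rw [← Equiv.sum_comp σ]
  refine Finset.sum_congr rfl fun i _ => ?_
  by_cases h : v ∈ comp D i
  · rw [if_pos h, if_pos ((key i).mpr h)]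
  · rw [if_neg h, if_neg (fun h' => h ((key i).mp h'))]

/-- Coordinates adapted to a decomposition. -/
theorem exists_coord {t m : ℕ} (D : Fin t → Submodule F (ι → F))
    (hD : Cfsg.Geo.IsMDecomposition m D) :
    ∃ E : (ι → F) ≃ₗ[F] (Fin t × Fin m → F),
      (∀ v i, v ∈ comp D i ↔ ∀ j, E v (i, j) = 0) ∧
      (∀ a, E.symm (Pi.single a 1) ∈ D a.1) ∧
      (∀ k, ∀ x ∈ D k, ∀ i j, i ≠ k → E x (i, j) = 0) := by
  classical
  have hint := DirectSum.isInternal_submodule_of_iSupIndep_of_iSup_eq_top hD.indep hD.iSup_eq_top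
  obtain ⟨b0, hb0⟩ : ∃ b0 : Basis (Σ _ : Fin t, Fin m) F (ι → F), b0 = hint.collectedBasis
    (fun i => Module.finBasisOfFinrankEq F (D i) (hD.finrank_eq i)) := ⟨_, rfl⟩
  have hb0m : ∀ a, b0 a ∈ D a.1 := by
    intro a
    rw [hb0]
    exact hint.collectedBasis_mem _ a
  have hb0r : ∀ k, ∀ x ∈ D k, ∀ i j, i ≠ k → b0.repr x ⟨i, j⟩ = 0 := by
    intro k x hx i j hik
    rw [hb0]
    exact hint.collectedBasis_repr_of_mem_ne _ (Ne.symm hik) hx
  obtain ⟨bas, hbas⟩ : ∃ bas : Basis (Fin t × Fin m) F (ι → F),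
      bas = b0.reindex (Equiv.sigmaEquivProd (Fin t) (Fin m)) := ⟨_, rfl⟩
  have hmem : ∀ a, bas a ∈ D a.1 := by
    intro a
    rw [hbas, Basis.reindex_apply]
    exact hb0m ((Equiv.sigmaEquivProd (Fin t) (Fin m)).symm a)
  have hrepr : ∀ k, ∀ x ∈ D k, ∀ i j, i ≠ k → bas.equivFun x (i, j) = 0 := by
    intro k x hx i j hik
    rw [Basis.equivFun_apply, hbas, Basis.repr_reindex_apply]
    exact hb0r k x hx i j hik
  have hsymm : ∀ a, bas.equivFun.symm (Pi.single a 1) = bas a := by
    intro a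
    apply bas.equivFun.injective
    rw [LinearEquiv.apply_symm_apply]
    ext b
    rw [Basis.equivFun_self, Pi.single_apply]
    by_cases h : a = b
    · rw [if_pos h, if_pos h.symm]
    · rw [if_neg h, if_neg (Ne.symm h)]
  refine ⟨bas.equivFun, ?_, ?_, hrepr⟩
  · intro v i
    constructor
    · intro hv
      unfold comp at hv
      intro j
      induction hv using Submodule.iSup_induction' with
      | mem k x hx =>
        by_cases hk : k ≠ i
        · rw [iSup_pos hk] at hx
          exact hrepr k x hx i j (Ne.symm hk)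
        · rw [iSup_neg hk, Submodule.mem_bot] at hx
          rw [hx, map_zero]
          rfl
      | zero => rw [map_zero]; rfl
      | add x y _ _ hx hy => rw [map_add, Pi.add_apply, hx, hy, add_zero]
    · intro hv
      have h1 := bas.sum_equivFun v
      rw [← h1]
      refine Submodule.sum_mem _ fun a _ => ?_
      by_cases ha : a.1 = i
      · have : bas.equivFun v a = 0 := by
          have := hv a.2
          rw [← ha] at this
          exact this
        rw [this, zero_smul]
        exact Submodule.zero_mem _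
      · refine Submodule.smul_mem _ _ ?_
        exact (le_iSup₂ (f := fun j (_ : j ≠ i) => D j) a.1 ha) (hmem a)
  · intro a
    rw [hsymm]
    exact hmem a

/-- The weight in coordinates. -/
noncomputable def W {t m : ℕ} (z : Fin t × Fin m → F) : F := by
  classical
  exact ∑ i, if (∀ j, z (i, j) = 0) then (0 : F) else 1

theorem W_single {t m : ℕ} (a : Fin t × Fin m) : W (Pi.single a (1 : F)) = 1 := by
  classical
  unfold W
  have : ∀ i : Fin t, (if (∀ j, (Pi.single a (1 : F) : Fin t × Fin m → F) (i, j) = 0)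
      then (0 : F) else 1) = if i = a.1 then 1 else 0 := by
    intro i
    by_cases h : i = a.1
    · rw [if_pos h, if_neg]
      intro h'
      have := h' a.2
      rw [h, Pi.single_eq_same] at this
      exact one_ne_zero this
    · rw [if_neg h, if_pos]
      intro j
      exact Pi.single_eq_of_ne (fun e => h (congrArg Prod.fst e)) _
  simp_rw [this]
  rw [Finset.sum_ite_eq' Finset.univ a.1 (fun _ => (1 : F)), if_pos (Finset.mem_univ _)]

theorem W_single_add {t m : ℕ} (a b : Fin t × Fin m) (hab : a.1 ≠ b.1) :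
    W ((Pi.single a (1 : F) + Pi.single b (1 : F) : Fin t × Fin m → F)) = 2 := by
  classical
  unfold W
  have : ∀ i : Fin t, (if (∀ j, (Pi.single a (1 : F) + Pi.single b (1 : F) :
      Fin t × Fin m → F) (i, j) = 0)
      then (0 : F) else 1) = (if i = a.1 then 1 else 0) + (if i = b.1 then 1 else 0) := by
    intro i
    by_cases h : i = a.1
    · have hb : i ≠ b.1 := fun e => hab (h.symm.trans e)
      rw [if_pos h, if_neg hb, if_neg, add_zero]
      intro h'
      have := h' a.2
      rw [h, Pi.add_apply, Pi.single_eq_same,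
        Pi.single_eq_of_ne (fun e => hab (congrArg Prod.fst e)), add_zero] at this
      exact one_ne_zero this
    · by_cases hb : i = b.1
      · rw [if_neg h, if_pos hb, if_neg, zero_add]
        intro h'
        have := h' b.2
        rw [hb, Pi.add_apply, Pi.single_eq_same,
          Pi.single_eq_of_ne (fun e => hab (congrArg Prod.fst e).symm), zero_add] at this
        exact one_ne_zero this
      · rw [if_neg h, if_neg hb, if_pos, add_zero]
        intro j
        rw [Pi.add_apply, Pi.single_eq_of_ne (fun e => h (congrArg Prod.fst e)),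
          Pi.single_eq_of_ne (fun e => hb (congrArg Prod.fst e)), add_zero]
  simp_rw [this]
  rw [Finset.sum_add_distrib, Finset.sum_ite_eq' Finset.univ a.1 (fun _ => (1 : F)),
    Finset.sum_ite_eq' Finset.univ b.1 (fun _ => (1 : F)), if_pos (Finset.mem_univ _),
    if_pos (Finset.mem_univ _)]
  norm_num

/-- The invertible matrix of a coordinate map of determinant one. -/
noncomputable def gOf {κ : Type} [Fintype κ] [DecidableEq κ] (E : (ι → F) ≃ₗ[F] (κ → F))
    (φ : (κ → F) →ₗ[F] (κ → F)) (hφ : LinearMap.det φ = 1) : GL ι F :=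
  Matrix.GeneralLinearGroup.mkOfDetNeZero
    (LinearMap.toMatrix' ((E.symm : (κ → F) →ₗ[F] (ι → F)) ∘ₗ φ ∘ₗ (E : (ι → F) →ₗ[F] (κ → F))))
    (by
      rw [LinearMap.det_toMatrix']
      have := LinearMap.det_conj φ E.symm
      rw [LinearEquiv.symm_symm] at this
      rw [this, hφ]
      exact one_ne_zero)

theorem gOf_det {κ : Type} [Fintype κ] [DecidableEq κ] (E : (ι → F) ≃ₗ[F] (κ → F))
    (φ : (κ → F) →ₗ[F] (κ → F)) (hφ : LinearMap.det φ = 1) :
    ((gOf E φ hφ : GL ι F) : Matrix ι ι F).det = 1 := by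
  show (LinearMap.toMatrix' ((E.symm : (κ → F) →ₗ[F] (ι → F)) ∘ₗ φ ∘ₗ
    (E : (ι → F) →ₗ[F] (κ → F)))).det = 1
  rw [LinearMap.det_toMatrix']
  have := LinearMap.det_conj φ E.symm
  rw [LinearEquiv.symm_symm] at this
  rw [this, hφ]

theorem gOf_mem {κ : Type} [Fintype κ] [DecidableEq κ] (E : (ι → F) ≃ₗ[F] (κ → F))
    (φ : (κ → F) →ₗ[F] (κ → F)) (hφ : LinearMap.det φ = 1) :
    gOf E φ hφ ∈ Cfsg.Geo.specialLinear ι F := by
  unfold Cfsg.Geo.specialLinear
  rw [MonoidHom.mem_ker]
  apply Units.ext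
  rw [Matrix.GeneralLinearGroup.val_det_apply, gOf_det, Units.val_one]

theorem gOf_mulVec {κ : Type} [Fintype κ] [DecidableEq κ] (E : (ι → F) ≃ₗ[F] (κ → F))
    (φ : (κ → F) →ₗ[F] (κ → F)) (hφ : LinearMap.det φ = 1) (v : ι → F) :
    ((gOf E φ hφ : GL ι F) : Matrix ι ι F) *ᵥ v = E.symm (φ (E v)) := by
  show (LinearMap.toMatrix' ((E.symm : (κ → F) →ₗ[F] (ι → F)) ∘ₗ φ ∘ₗ
    (E : (ι → F) →ₗ[F] (κ → F)))) *ᵥ v = _
  rw [← Matrix.toLin'_apply, Matrix.toLin'_toMatrix']
  rfl

/-- The stabiliser of a decomposition in `SL` is not maximal, given a non-monomial coordinate map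
of determinant one that preserves the weight. -/
theorem decomp_between {t m : ℕ} (D : Fin t → Submodule F (ι → F))
    (hD : Cfsg.Geo.IsMDecomposition m D)
    (φ : (Fin t × Fin m → F) →ₗ[F] (Fin t × Fin m → F)) (hφd : LinearMap.det φ = 1)
    (hφW : ∀ z, W (φ z) = W z)
    (hφ : ∃ a i₁ i₂ j₁ j₂, i₁ ≠ i₂ ∧ φ (Pi.single a 1) (i₁, j₁) ≠ 0 ∧
      φ (Pi.single a 1) (i₂, j₂) ≠ 0) :
    ∃ K : Subgroup (GL ι F), Cfsg.Geo.decompositionStabilizer D ⊓ Cfsg.Geo.specialLinear ι F < K ∧
      K < Cfsg.Geo.specialLinear ι F := by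
  classical
  obtain ⟨E, hE1, hE2, hE3⟩ := exists_coord D hD
  have hwt : ∀ v, wt D v = W (E v) := by
    intro v
    unfold wt W
    refine Finset.sum_congr rfl fun i _ => ?_
    by_cases h : v ∈ comp D i
    · rw [if_pos h, if_pos ((hE1 v i).mp h)]
    · rw [if_neg h, if_neg (fun h' => h ((hE1 v i).mpr h'))]
  apply Cfsg.Agent.Lib.Helper37.TensorFrame.set_between_gen _ _ {v | wt D v = 1}
  · rintro g ⟨hgH, -⟩ v hv
    obtain ⟨σ, hσ⟩ := hgH
    show wt D _ = 1
    rw [wt_map D g σ hσ]
    exact hv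
  · refine ⟨gOf E φ hφd, gOf_mem E φ hφd, fun v => ?_, ?_⟩
    · show wt D v = 1 ↔ wt D (_ *ᵥ v) = 1
      rw [hwt, hwt, gOf_mulVec, LinearEquiv.apply_symm_apply, hφW]
    · rintro ⟨σ, hσ⟩
      obtain ⟨a, i₁, i₂, j₁, j₂, hne, h1, h2⟩ := hφ
      have hx : ((gOf E φ hφd : GL ι F) : Matrix ι ι F) *ᵥ (E.symm (Pi.single a 1)) ∈
          D (σ a.1) := by
        rw [← hσ a.1, ← Matrix.toLin'_apply]
        exact Submodule.mem_map_of_mem (hE2 a)
      rw [gOf_mulVec, LinearEquiv.apply_symm_apply] at hx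
      have e1 : i₁ = σ a.1 := by
        by_contra hc
        have := hE3 _ _ hx i₁ j₁ hc
        rw [LinearEquiv.apply_symm_apply] at this
        exact h1 this
      have e2 : i₂ = σ a.1 := by
        by_contra hc
        have := hE3 _ _ hx i₂ j₂ hc
        rw [LinearEquiv.apply_symm_apply] at this
        exact h2 this
      exact hne (e1.trans e2.symm)
  · have ht := hD.two_le
    have hm := hD.pos
    obtain ⟨a₀, ha₀⟩ : ∃ a₀ : Fin t × Fin m, a₀ = (⟨0, by omega⟩, ⟨0, hm⟩) := ⟨_, rfl⟩
    obtain ⟨a₁, ha₁⟩ : ∃ a₁ : Fin t × Fin m, a₁ = (⟨1, by omega⟩, ⟨0, hm⟩) := ⟨_, rfl⟩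
    have hne : a₀.1 ≠ a₁.1 := by
      rw [ha₀, ha₁]
      intro h
      have := congrArg Fin.val h
      simp at this
    have hne' : a₁ ≠ a₀ := fun e => hne (congrArg Prod.fst e).symm
    have hd : LinearMap.det (LinearMap.transvection
        (LinearMap.proj a₀ : (Fin t × Fin m → F) →ₗ[F] F) (Pi.single a₁ 1)) = 1 := by
      rw [LinearMap.transvection.det, LinearMap.proj_apply, Pi.single_eq_of_ne hne'.symm,
        add_zero]
    refine ⟨gOf E _ hd, gOf_mem E _ hd, E.symm (Pi.single a₀ 1), ?_, ?_⟩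
    · show wt D _ = 1
      rw [hwt, LinearEquiv.apply_symm_apply, W_single]
    · show ¬ wt D _ = 1
      rw [hwt, gOf_mulVec, LinearEquiv.apply_symm_apply, LinearEquiv.apply_symm_apply,
        LinearMap.transvection.apply, LinearMap.proj_apply, Pi.single_eq_same, one_smul,
        W_single_add a₀ a₁ hne]
      intro h
      have : (1 : F) = 0 := by linear_combination h
      exact one_ne_zero this

end Cfsg.Agent.Lib.Helper37.DecompWt
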