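import Mathlib
import Cfsg.Prelude.Def_GeometricClasses

set_option autoImplicit false

namespace Cfsg.Agent.Lib.Helper37.KronF2

open Matrix
open scoped Kronecker

variable {F : Type*} [Field F]

theorem eq_zero_or_one [Fintype F] (hq : Fintype.card F = 2) (x : F) : x = 0 ∨ x = 1 := by
  classical
  by_contra h
  push Not at h
  have h1 : ({0, 1, x} : Finset F).card = 3 := by
    rw [Finset.card_insert_of_notMem, Finset.card_insert_of_notMem, Finset.card_singleton]
    · rw [Finset.mem_singleton]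
      exact h.2.symm
    · rw [Finset.mem_insert, Finset.mem_singleton]
      push Not
      exact ⟨zero_ne_one, h.1.symm⟩
  have h2 := Finset.card_le_univ ({0, 1, x} : Finset F)
  omega

theorem two_eq_zero [Fintype F] (hq : Fintype.card F = 2) : (2 : F) = 0 := by
  have := Nat.cast_card_eq_zero F
  rw [hq] at this
  exact_mod_cast this

theorem units_eq_one [Fintype F] (hq : Fintype.card F = 2) (u : Fˣ) : u = 1 := by
  apply Units.ext
  rcases eq_zero_or_one hq (u : F) with h | h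
  · exact absurd h u.ne_zero
  · rw [h, Units.val_one]

/-- Over the field with two elements the special linear group is everything. -/
theorem specialLinear_eq_top [Fintype F] (hq : Fintype.card F = 2) (ι : Type) [Fintype ι]
    [DecidableEq ι] : Cfsg.Geo.specialLinear ι F = ⊤ := by
  rw [eq_top_iff]
  intro g _
  unfold Cfsg.Geo.specialLinear
  rw [MonoidHom.mem_ker]
  exact units_eq_one hq _

/-- The matrix of multiplication by a primitive cube root of unity. -/
def ω (F : Type*) [Field F] : Matrix (Fin 2) (Fin 2) F := !![0, 1; 1, 1]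

omit [Field F] in
theorem mk2_congr {a b c d a' b' c' d' : F} (h1 : a = a') (h2 : b = b') (h3 : c = c')
    (h4 : d = d') : !![a, b; c, d] = !![a', b'; c', d'] := by
  subst h1 h2 h3 h4
  rfl

theorem ω_cube (h2 : (2 : F) = 0) : ω F * ω F * ω F = 1 := by
  unfold ω
  rw [Matrix.mul_fin_two, Matrix.mul_fin_two, Matrix.one_fin_two]
  exact mk2_congr (by ring) (by linear_combination h2) (by linear_combination h2)
    (by linear_combination h2)

theorem cases2 (hF : ∀ x : F, x = 0 ∨ x = 1) (h2 : (2 : F) = 0) (x y z w : F)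
    (hdet : x * w - y * z ≠ 0) : (y = z ∧ w = x + y) ∨ (w = x ∧ y = x + z) := by
  have h11 : (1 : F) + 1 = 0 := by linear_combination h2
  rcases hF x with rfl | rfl <;> rcases hF y with rfl | rfl <;> rcases hF z with rfl | rfl <;>
    rcases hF w with rfl | rfl <;> simp [h11] at hdet ⊢

/-- Every invertible `2 × 2` matrix over the field with two elements commutes with `ω` or
inverts it. -/
theorem gl2_normalizes [Fintype F] (hq : Fintype.card F = 2) (a : GL (Fin 2) F) :
    (a : Matrix (Fin 2) (Fin 2) F) * ω F = ω F * (a : Matrix (Fin 2) (Fin 2) F) ∨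
      (a : Matrix (Fin 2) (Fin 2) F) * ω F = ω F * ω F * (a : Matrix (Fin 2) (Fin 2) F) := by
  have h2 := two_eq_zero hq
  have hdet : (a : Matrix (Fin 2) (Fin 2) F).det ≠ 0 :=
    ((Matrix.isUnit_iff_isUnit_det _).mp a.isUnit).ne_zero
  rw [Matrix.det_fin_two] at hdet
  obtain ⟨x, hx⟩ : ∃ x, x = (a : Matrix (Fin 2) (Fin 2) F) 0 0 := ⟨_, rfl⟩
  obtain ⟨y, hy⟩ : ∃ y, y = (a : Matrix (Fin 2) (Fin 2) F) 0 1 := ⟨_, rfl⟩
  obtain ⟨z, hz⟩ : ∃ z, z = (a : Matrix (Fin 2) (Fin 2) F) 1 0 := ⟨_, rfl⟩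
  obtain ⟨w, hw⟩ : ∃ w, w = (a : Matrix (Fin 2) (Fin 2) F) 1 1 := ⟨_, rfl⟩
  have hA : (a : Matrix (Fin 2) (Fin 2) F) = !![x, y; z, w] := by
    rw [hx, hy, hz, hw]
    exact Matrix.eta_fin_two _
  rw [← hx, ← hy, ← hz, ← hw] at hdet
  rw [hA]
  unfold ω
  rcases cases2 (eq_zero_or_one hq) h2 x y z w hdet with ⟨h1, h3⟩ | ⟨h1, h3⟩
  · left
    subst h1 h3
    rw [Matrix.mul_fin_two, Matrix.mul_fin_two]
    exact mk2_congr (by ring) (by ring) (by ring) (by ring)
  · right
    subst h1 h3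
    rw [Matrix.mul_fin_two, Matrix.mul_fin_two, Matrix.mul_fin_two]
    exact mk2_congr (by ring) (by ring) (by linear_combination (-z) * h2)
      (by linear_combination (-w) * h2)

section kron

variable (m : ℕ)

/-- The operator `ω ⊗ 1`. -/
def Jm (F : Type*) [Field F] (m : ℕ) : Matrix (Fin 2 × Fin m) (Fin 2 × Fin m) F :=
  ω F ⊗ₖ (1 : Matrix (Fin m) (Fin m) F)

theorem Jm_sq : Jm F m * Jm F m = (ω F * ω F) ⊗ₖ (1 : Matrix (Fin m) (Fin m) F) := by
  unfold Jm
  rw [← Matrix.mul_kronecker_mul, one_mul]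

theorem Jm_cube (h2 : (2 : F) = 0) : Jm F m * Jm F m * Jm F m = 1 := by
  rw [Jm_sq]
  unfold Jm
  rw [← Matrix.mul_kronecker_mul, one_mul, ω_cube h2, Matrix.one_kronecker_one]

/-- The invertible matrices commuting with or inverting `ω ⊗ 1`. -/
def KJ (h2 : (2 : F) = 0) : Subgroup (GL (Fin 2 × Fin m) F) where
  carrier := {g | (g : Matrix (Fin 2 × Fin m) (Fin 2 × Fin m) F) * Jm F m
      = Jm F m * (g : Matrix (Fin 2 × Fin m) (Fin 2 × Fin m) F) ∨
    (g : Matrix (Fin 2 × Fin m) (Fin 2 × Fin m) F) * Jm F m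
      = Jm F m * Jm F m * (g : Matrix (Fin 2 × Fin m) (Fin 2 × Fin m) F)}
  mul_mem' {g h} hg hh := by
    have h3 := Jm_cube (F := F) m h2
    rcases hg with hg | hg <;> rcases hh with hh | hh
    · left
      rw [Units.val_mul, Matrix.mul_assoc, hh, ← Matrix.mul_assoc, hg, Matrix.mul_assoc]
    · right
      rw [Units.val_mul, Matrix.mul_assoc, hh, ← Matrix.mul_assoc, ← Matrix.mul_assoc, hg,
        Matrix.mul_assoc (Jm F m), hg]
      simp only [Matrix.mul_assoc]
    · right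
      rw [Units.val_mul, Matrix.mul_assoc, hh, ← Matrix.mul_assoc, hg]
      simp only [Matrix.mul_assoc]
    · left
      rw [Units.val_mul, Matrix.mul_assoc, hh, ← Matrix.mul_assoc, ← Matrix.mul_assoc, hg,
        Matrix.mul_assoc (Jm F m * Jm F m), hg]
      calc Jm F m * Jm F m * (Jm F m * Jm F m * (g : Matrix (Fin 2 × Fin m) (Fin 2 × Fin m) F))
            * (h : Matrix (Fin 2 × Fin m) (Fin 2 × Fin m) F)
          = (Jm F m * Jm F m * Jm F m) * Jm F m
              * ((g : Matrix (Fin 2 × Fin m) (Fin 2 × Fin m) F)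
                * (h : Matrix (Fin 2 × Fin m) (Fin 2 × Fin m) F)) := by
            simp only [Matrix.mul_assoc]
        _ = Jm F m * ((g : Matrix (Fin 2 × Fin m) (Fin 2 × Fin m) F)
                * (h : Matrix (Fin 2 × Fin m) (Fin 2 × Fin m) F)) := by
            rw [h3, Matrix.one_mul]
  one_mem' := by
    left
    rw [Units.val_one, Matrix.one_mul, Matrix.mul_one]
  inv_mem' {g} hg := by
    have h3 := Jm_cube (F := F) m h2
    have e1 : ((g⁻¹ : GL (Fin 2 × Fin m) F) : Matrix (Fin 2 × Fin m) (Fin 2 × Fin m) F)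
        * (g : Matrix (Fin 2 × Fin m) (Fin 2 × Fin m) F) = 1 := by
      rw [← Units.val_mul, inv_mul_cancel, Units.val_one]
    have e2 : (g : Matrix (Fin 2 × Fin m) (Fin 2 × Fin m) F)
        * ((g⁻¹ : GL (Fin 2 × Fin m) F) : Matrix (Fin 2 × Fin m) (Fin 2 × Fin m) F) = 1 := by
      rw [← Units.val_mul, mul_inv_cancel, Units.val_one]
    have hg0 : (g : Matrix (Fin 2 × Fin m) (Fin 2 × Fin m) F) * Jm F m
        = Jm F m * (g : Matrix (Fin 2 × Fin m) (Fin 2 × Fin m) F) ∨
      (g : Matrix (Fin 2 × Fin m) (Fin 2 × Fin m) F) * Jm F m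
        = Jm F m * Jm F m * (g : Matrix (Fin 2 × Fin m) (Fin 2 × Fin m) F) := hg
    show ((g⁻¹ : GL (Fin 2 × Fin m) F) : Matrix (Fin 2 × Fin m) (Fin 2 × Fin m) F) * Jm F m
        = Jm F m * ((g⁻¹ : GL (Fin 2 × Fin m) F) : Matrix (Fin 2 × Fin m) (Fin 2 × Fin m) F) ∨
      ((g⁻¹ : GL (Fin 2 × Fin m) F) : Matrix (Fin 2 × Fin m) (Fin 2 × Fin m) F) * Jm F m
        = Jm F m * Jm F m *
          ((g⁻¹ : GL (Fin 2 × Fin m) F) : Matrix (Fin 2 × Fin m) (Fin 2 × Fin m) F)
    obtain ⟨G, hG⟩ : ∃ G, G = (g : Matrix (Fin 2 × Fin m) (Fin 2 × Fin m) F) := ⟨_, rfl⟩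
    obtain ⟨Gi, hGi⟩ : ∃ Gi,
        Gi = ((g⁻¹ : GL (Fin 2 × Fin m) F) : Matrix (Fin 2 × Fin m) (Fin 2 × Fin m) F) :=
      ⟨_, rfl⟩
    obtain ⟨J, hJ⟩ : ∃ J, J = Jm F m := ⟨_, rfl⟩
    rw [← hG, ← hGi] at e1 e2
    rw [← hJ] at h3
    rw [← hG, ← hJ] at hg0
    rw [← hGi, ← hJ]
    have hg' : G * J = J * G ∨ G * J = J * J * G := hg0
    rcases hg' with hg' | hg'
    · left
      calc Gi * J = Gi * J * (G * Gi) := by rw [e2, Matrix.mul_one]
        _ = Gi * (J * G) * Gi := by simp only [Matrix.mul_assoc]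
        _ = Gi * (G * J) * Gi := by rw [hg']
        _ = (Gi * G) * J * Gi := by simp only [Matrix.mul_assoc]
        _ = J * Gi := by rw [e1, Matrix.one_mul]
    · right
      have h5 : J * Gi = Gi * (J * J) := by
        calc J * Gi = (Gi * G) * J * Gi := by rw [e1, Matrix.one_mul]
          _ = Gi * (G * J) * Gi := by simp only [Matrix.mul_assoc]
          _ = Gi * (J * J * G) * Gi := by rw [hg']
          _ = Gi * (J * J) * (G * Gi) := by simp only [Matrix.mul_assoc]
          _ = Gi * (J * J) := by rw [e2, Matrix.mul_one]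
      calc Gi * J = (J * J * J) * (Gi * J) := by rw [h3, Matrix.one_mul]
        _ = J * J * (J * Gi) * J := by simp only [Matrix.mul_assoc]
        _ = J * J * (Gi * (J * J)) * J := by rw [h5]
        _ = J * J * Gi * (J * J * J) := by simp only [Matrix.mul_assoc]
        _ = J * J * Gi := by rw [h3, Matrix.mul_one]

theorem mem_KJ (h2 : (2 : F) = 0) (g : GL (Fin 2 × Fin m) F) :
    g ∈ KJ m h2 ↔ ((g : Matrix (Fin 2 × Fin m) (Fin 2 × Fin m) F) * Jm F m
      = Jm F m * (g : Matrix (Fin 2 × Fin m) (Fin 2 × Fin m) F) ∨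
    (g : Matrix (Fin 2 × Fin m) (Fin 2 × Fin m) F) * Jm F m
      = Jm F m * Jm F m * (g : Matrix (Fin 2 × Fin m) (Fin 2 × Fin m) F)) := Iff.rfl

theorem kron_le_KJ [Fintype F] (hq : Fintype.card F = 2) :
    Cfsg.Geo.kroneckerSubgroup 2 m F ≤ KJ m (two_eq_zero hq) := by
  rintro g ⟨a, b, hg⟩
  rw [mem_KJ, hg, Jm_sq]
  unfold Jm
  rw [← Matrix.mul_kronecker_mul, ← Matrix.mul_kronecker_mul, ← Matrix.mul_kronecker_mul,
    Matrix.mul_one, Matrix.one_mul]
  rcases gl2_normalizes hq a with h | h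
  · left
    rw [h]
  · right
    rw [h]

/-- Over the field with two elements, the Kronecker subgroup `GL₂ ⊗ GL_m` is not maximal in
`GL_{2m}`. -/
theorem kron_between [Fintype F] (hq : Fintype.card F = 2) (hm : 2 ≤ m) :
    Cfsg.Geo.kroneckerSubgroup 2 m F < KJ m (two_eq_zero hq) ∧ KJ m (two_eq_zero hq) < ⊤ := by
  have h2 := two_eq_zero hq
  obtain ⟨k₀, k₁, hk⟩ : ∃ k₀ k₁ : Fin m, k₀ ≠ k₁ :=
    ⟨⟨0, by omega⟩, ⟨1, by omega⟩, by
      intro h
      have := congrArg Fin.val h
      simp at this⟩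
  constructor
  · rw [SetLike.lt_iff_le_and_exists]
    refine ⟨kron_le_KJ m hq, ?_⟩
    obtain ⟨X, hX⟩ : ∃ X : Matrix (Fin 2 × Fin m) (Fin 2 × Fin m) F,
        X = ω F ⊗ₖ (Matrix.single k₀ k₁ (1 : F)) := ⟨_, rfl⟩
    have hXX : X * X = 0 := by
      rw [hX, ← Matrix.mul_kronecker_mul, Matrix.single_mul_single_of_ne _ _ _ _ hk.symm _]
      exact Matrix.kroneckerMap_zero_right _ (fun _ => mul_zero _) _
    have hX2 : X + X = 0 := by
      rw [← two_smul F X, h2, zero_smul]
    have hsq : (1 + X) * (1 + X) = 1 := by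
      rw [Matrix.add_mul, Matrix.mul_add, Matrix.mul_add, Matrix.one_mul, Matrix.mul_one,
        Matrix.one_mul, hXX, add_zero, add_assoc, hX2, add_zero]
    refine ⟨⟨1 + X, 1 + X, hsq, hsq⟩, ?_, ?_⟩
    · rw [mem_KJ]
      left
      show (1 + X) * Jm F m = Jm F m * (1 + X)
      rw [Matrix.add_mul, Matrix.mul_add, Matrix.one_mul, Matrix.mul_one, hX]
      unfold Jm
      rw [← Matrix.mul_kronecker_mul, ← Matrix.mul_kronecker_mul, Matrix.mul_one, Matrix.one_mul]
    · rintro ⟨a, b, hg⟩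
      have hg' : (1 + X : Matrix (Fin 2 × Fin m) (Fin 2 × Fin m) F)
          = (a : Matrix (Fin 2) (Fin 2) F) ⊗ₖ (b : Matrix (Fin m) (Fin m) F) := hg
      have q1 := congrFun (congrFun hg' (0, k₀)) (0, k₁)
      have q2 := congrFun (congrFun hg' (0, k₀)) (0, k₀)
      have q3 := congrFun (congrFun hg' (0, k₀)) (1, k₁)
      rw [hX] at q1 q2 q3
      simp only [Matrix.add_apply, Matrix.kroneckerMap_apply, Matrix.one_apply,
        Matrix.single_apply, ω] at q1 q2 q3
      simp [hk, hk.symm] at q1 q2 q3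
      rcases q1 with q1 | q1
      · rw [q1] at q2
        simp at q2
      · rw [q1] at q3
        simp at q3
  · rw [SetLike.lt_iff_le_and_exists]
    refine ⟨le_top, ?_⟩
    obtain ⟨E, hE⟩ : ∃ E : Matrix (Fin 2 × Fin m) (Fin 2 × Fin m) F,
        E = Matrix.single ((0 : Fin 2), k₀) ((1 : Fin 2), k₀) (1 : F) := ⟨_, rfl⟩
    have hne : ((1 : Fin 2), k₀) ≠ ((0 : Fin 2), k₀) := by
      intro h
      have := congrArg Prod.fst h
      simp at this
    have hEE : E * E = 0 := by
      rw [hE, Matrix.single_mul_single_of_ne _ _ _ _ hne _]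
    have hE2 : E + E = 0 := by
      rw [← two_smul F E, h2, zero_smul]
    have hsq : (1 + E) * (1 + E) = 1 := by
      rw [Matrix.add_mul, Matrix.mul_add, Matrix.mul_add, Matrix.one_mul, Matrix.mul_one,
        Matrix.one_mul, hEE, add_zero, add_assoc, hE2, add_zero]
    refine ⟨⟨1 + E, 1 + E, hsq, hsq⟩, trivial, ?_⟩
    rw [mem_KJ]
    show ¬ ((1 + E) * Jm F m = Jm F m * (1 + E) ∨ (1 + E) * Jm F m = Jm F m * Jm F m * (1 + E))
    rintro (h | h)
    · have q := congrFun (congrFun h (0, k₀)) (0, k₀)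
      rw [Matrix.add_mul, Matrix.mul_add, Matrix.one_mul, Matrix.mul_one, Matrix.add_apply,
        Matrix.add_apply, hE, Matrix.single_mul_apply_same,
        Matrix.mul_single_apply_of_ne _ _ _ _ _ hne.symm] at q
      unfold Jm at q
      simp [ω] at q
    · have hne1 : ((0 : Fin 2), k₁) ≠ ((0 : Fin 2), k₀) := by
        intro h
        have := congrArg Prod.snd h
        exact hk this.symm
      have hne2 : ((0 : Fin 2), k₁) ≠ ((1 : Fin 2), k₀) := by
        intro h
        have := congrArg Prod.fst h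
        simp at this
      have q := congrFun (congrFun h (0, k₁)) (0, k₁)
      rw [Matrix.add_mul, Matrix.mul_add, Matrix.one_mul, Matrix.mul_one, Matrix.add_apply,
        Matrix.add_apply, hE, Matrix.single_mul_apply_of_ne _ _ _ _ _ hne1,
        Matrix.mul_single_apply_of_ne _ _ _ _ _ hne2, Jm_sq] at q
      unfold Jm at q
      simp [ω] at q

end kron

section transport

variable {ι : Type} [Fintype ι] [DecidableEq ι]

/-- Over the field with two elements, the stabiliser in `SL_n` of a tensor decomposition with a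
2-dimensional factor is not maximal. -/
theorem tensor2_not_maximal [Fintype F] (hq : Fintype.card F = 2) (m : ℕ) (hm : 2 ≤ m)
    (e : ι ≃ Fin 2 × Fin m) (P : GL ι F) :
    ∃ K : Subgroup (GL ι F),
      Cfsg.Geo.tensorProductSubgroup 2 m e P ⊓ Cfsg.Geo.specialLinear ι F < K ∧
        K < Cfsg.Geo.specialLinear ι F := by
  rw [specialLinear_eq_top hq, inf_top_eq]
  obtain ⟨h1, h2⟩ := kron_between m hq hm
  obtain ⟨θ, hθ⟩ : ∃ θ : GL (Fin 2 × Fin m) F ≃* GL ι F,
      θ = (Cfsg.Geo.glReindex e.symm).trans (MulAut.conj P) := ⟨_, rfl⟩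
  have hT : Cfsg.Geo.tensorProductSubgroup 2 m e P
      = (Cfsg.Geo.kroneckerSubgroup 2 m F).map θ.toMonoidHom := by
    unfold Cfsg.Geo.tensorProductSubgroup
    rw [Subgroup.map_map, hθ]
    rfl
  refine ⟨(KJ m (two_eq_zero hq)).map θ.toMonoidHom, ?_, ?_⟩
  · rw [hT]
    exact (Subgroup.map_lt_map_iff_of_injective θ.injective).mpr h1
  · have htop : (⊤ : Subgroup (GL ι F)) = (⊤ : Subgroup (GL (Fin 2 × Fin m) F)).map
        θ.toMonoidHom := (Subgroup.map_top_of_surjective _ θ.surjective).symm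
    rw [htop]
    exact (Subgroup.map_lt_map_iff_of_injective θ.injective).mpr h2

end transport

end Cfsg.Agent.Lib.Helper37.KronF2
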