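import Mathlib
import Cfsg.Prelude.Def_GeometricClasses
import Cfsg.Agent.Lib.Helper37.DecompWt
import Cfsg.Agent.Lib.Helper37.KronF2

set_option autoImplicit false

namespace Cfsg.Agent.Lib.Helper37.DecompCases

open Module Matrix
open Cfsg.Agent.Lib.Helper37.DecompWt

variable {F : Type*} [Field F] {κ : Type} [Fintype κ] [DecidableEq κ]

/-- The functional `z ↦ z ⬝ᵥ u`. -/
def dotL (u : κ → F) : (κ → F) →ₗ[F] F where
  toFun z := z ⬝ᵥ u
  map_add' x y := add_dotProduct x y u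
  map_smul' c x := by simp [smul_dotProduct]

omit [DecidableEq κ] in
theorem dotL_apply (u z : κ → F) : dotL u z = z ⬝ᵥ u := rfl

omit [DecidableEq κ] in
theorem R_apply (u' u z : κ → F) (a : κ) :
    LinearMap.transvection (dotL u') u z a = z a + (z ⬝ᵥ u') * u a := by
  rw [LinearMap.transvection.apply]
  rfl

theorem R_det (u' u : κ → F) :
    LinearMap.det (LinearMap.transvection (dotL u') u) = 1 + u ⬝ᵥ u' := by
  rw [LinearMap.transvection.det]
  rfl

theorem R_single (u' u : κ → F) (b : κ) :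
    LinearMap.transvection (dotL u') u (Pi.single b 1) = Pi.single b 1 + u' b • u := by
  rw [LinearMap.transvection.apply, dotL_apply, single_dotProduct, one_mul]

omit [DecidableEq κ] in
theorem P2_R (u' u : κ → F) (hu : ∑ a, u a = 0) (z : κ → F) :
    ∑ a, LinearMap.transvection (dotL u') u z a = ∑ a, z a := by
  simp_rw [R_apply]
  rw [Finset.sum_add_distrib, ← Finset.mul_sum, hu, mul_zero, add_zero]

omit [DecidableEq κ] in
theorem P3_R (h3 : (3 : F) = 0) (u : κ → F) (hu : u ⬝ᵥ u = 1) (z : κ → F) :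
    ∑ a, (LinearMap.transvection (dotL u) u z a) ^ 2 = ∑ a, (z a) ^ 2 := by
  have key : ∀ a, (LinearMap.transvection (dotL u) u z a) ^ 2 =
      (z a) ^ 2 + 2 * (z ⬝ᵥ u) * (z a * u a) + (z ⬝ᵥ u) ^ 2 * (u a * u a) := by
    intro a
    rw [R_apply]
    ring
  simp_rw [key]
  rw [Finset.sum_add_distrib, Finset.sum_add_distrib, ← Finset.mul_sum, ← Finset.mul_sum]
  have e1 : ∑ a, z a * u a = z ⬝ᵥ u := rfl
  have e2 : ∑ a, u a * u a = 1 := hu
  rw [e1, e2]
  linear_combination (z ⬝ᵥ u) ^ 2 * h3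

omit [Fintype κ] [DecidableEq κ] in
theorem sum_sq_char2 (h2 : (2 : F) = 0) (s : Finset κ) (f : κ → F) :
    (∑ a ∈ s, f a) ^ 2 = ∑ a ∈ s, (f a) ^ 2 := by
  classical
  induction s using Finset.induction_on with
  | empty => simp
  | insert a s ha ih =>
    rw [Finset.sum_insert ha, Finset.sum_insert ha, ← ih]
    linear_combination (f a * ∑ x ∈ s, f x) * h2

omit [DecidableEq κ] in
theorem P4_R (h2 : (2 : F) = 0) (u : κ → F) (hu1 : ∀ a, u a * u a = u a) (hu2 : ∑ a, u a = 0)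
    (z : κ → F) :
    ∑ a, (LinearMap.transvection (dotL u) u z a) ^ 3 = ∑ a, (z a) ^ 3 := by
  have key : ∀ a, (LinearMap.transvection (dotL u) u z a) ^ 3 =
      (z a) ^ 3 + 3 * (z ⬝ᵥ u) * (z a * u a) ^ 2 + 3 * (z ⬝ᵥ u) ^ 2 * (z a * u a) +
        (z ⬝ᵥ u) ^ 3 * u a := by
    intro a
    rw [R_apply]
    linear_combination (-3 * (z a) ^ 2 * (z ⬝ᵥ u) + 3 * (z a) * (z ⬝ᵥ u) ^ 2 +
      (z ⬝ᵥ u) ^ 3 * (u a + 1)) * hu1 a
  simp_rw [key]
  rw [Finset.sum_add_distrib, Finset.sum_add_distrib, Finset.sum_add_distrib, ← Finset.mul_sum,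
    ← Finset.mul_sum, ← Finset.mul_sum, ← sum_sq_char2 h2, hu2]
  have e1 : ∑ a, z a * u a = z ⬝ᵥ u := rfl
  rw [e1]
  linear_combination (3 * (z ⬝ᵥ u) ^ 3) * h2

/-- The indicator vector of the `j₀`-th coordinates of the blocks in `A`. -/
def indA {t m : ℕ} (F : Type*) [Field F] (A : Finset (Fin t)) (j₀ : Fin m) : Fin t × Fin m → F :=
  fun a => if a.1 ∈ A ∧ a.2 = j₀ then 1 else 0

theorem indA_of_mem {t m : ℕ} (A : Finset (Fin t)) (j₀ : Fin m) {i : Fin t} (hi : i ∈ A) :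
    indA F A j₀ (i, j₀) = 1 := if_pos ⟨hi, rfl⟩

theorem indA_of_ne {t m : ℕ} (A : Finset (Fin t)) (j₀ : Fin m) (i : Fin t) {j : Fin m}
    (hj : j ≠ j₀) : indA F A j₀ (i, j) = 0 := if_neg (fun h => hj h.2)

theorem indA_mul_self {t m : ℕ} (A : Finset (Fin t)) (j₀ : Fin m) (a : Fin t × Fin m) :
    indA F A j₀ a * indA F A j₀ a = indA F A j₀ a := by
  unfold indA
  split_ifs <;> simp

theorem sum_indA {t m : ℕ} (A : Finset (Fin t)) (j₀ : Fin m) :
    ∑ a, indA F A j₀ a = (A.card : F) := by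
  unfold indA
  rw [Fintype.sum_prod_type]
  have : ∀ i : Fin t, ∑ j : Fin m, (if (i ∈ A ∧ j = j₀) then (1 : F) else 0) =
      if i ∈ A then 1 else 0 := by
    intro i
    by_cases hi : i ∈ A
    · simp [hi]
    · simp [hi]
  simp_rw [this]
  rw [Finset.sum_boole]
  simp

theorem indA_dot_self {t m : ℕ} (A : Finset (Fin t)) (j₀ : Fin m) :
    indA F A j₀ ⬝ᵥ indA F A j₀ = (A.card : F) := by
  unfold dotProduct
  simp_rw [indA_mul_self]
  exact sum_indA A j₀

theorem exists_set {t : ℕ} (c : ℕ) (hc : 3 ≤ c) (hct : c ≤ t) :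
    ∃ A : Finset (Fin t), A.card = c ∧ ∃ i₁ i₂ i₃, i₁ ∈ A ∧ i₂ ∈ A ∧ i₃ ∈ A ∧ i₁ ≠ i₂ ∧
      i₁ ≠ i₃ ∧ i₂ ≠ i₃ := by
  refine ⟨Finset.univ.map (Fin.castLEEmb hct), by simp, Fin.castLE hct ⟨0, by omega⟩,
    Fin.castLE hct ⟨1, by omega⟩, Fin.castLE hct ⟨2, by omega⟩, ?_, ?_, ?_, ?_, ?_, ?_⟩
  · exact Finset.mem_map_of_mem _ (Finset.mem_univ _)
  · exact Finset.mem_map_of_mem _ (Finset.mem_univ _)
  · exact Finset.mem_map_of_mem _ (Finset.mem_univ _)
  · intro h
    have := congrArg Fin.val h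
    simp at this
  · intro h
    have := congrArg Fin.val h
    simp at this
  · intro h
    have := congrArg Fin.val h
    simp at this

variable [Fintype F]

theorem pow_card_sub_one [DecidableEq F] (x : F) :
    x ^ (Fintype.card F - 1) = if x = 0 then 0 else 1 := by
  by_cases hx : x = 0
  · rw [if_pos hx, hx, zero_pow]
    have := Fintype.one_lt_card (α := F)
    omega
  · rw [if_neg hx, FiniteField.pow_card_sub_one_eq_one x hx]

theorem W_one {t : ℕ} (z : Fin t × Fin 1 → F) :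
    W z = ∑ a, (z a) ^ (Fintype.card F - 1) := by
  classical
  unfold W
  rw [Fintype.sum_prod_type]
  refine Finset.sum_congr rfl fun i _ => ?_
  rw [Fin.sum_univ_one, pow_card_sub_one]
  simp [Fin.forall_fin_one]

theorem four_char (hq : Fintype.card F = 4) : (2 : F) = 0 := by
  have h := Nat.cast_card_eq_zero F
  rw [hq] at h
  have h4 : (2 : F) * 2 = 0 := by
    have : ((4 : ℕ) : F) = 2 * 2 := by norm_num
    rw [← this]
    exact h
  exact mul_self_eq_zero.mp h4

theorem three_char (hq : Fintype.card F = 3) : (3 : F) = 0 := by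
  have h := Nat.cast_card_eq_zero F
  rw [hq] at h
  exact_mod_cast h

/-- The non-monomial weight-preserving map for a decomposition into lines, `q ≤ 4`. -/
theorem case_one {t : ℕ} (ht : 4 ≤ t) (hq : Fintype.card F ≤ 4) :
    ∃ φ : (Fin t × Fin 1 → F) →ₗ[F] (Fin t × Fin 1 → F), LinearMap.det φ = 1 ∧
      (∀ z, W (φ z) = W z) ∧
      ∃ a i₁ i₂ j₁ j₂, i₁ ≠ i₂ ∧ φ (Pi.single a 1) (i₁, j₁) ≠ 0 ∧
        φ (Pi.single a 1) (i₂, j₂) ≠ 0 := by
  classical
  obtain ⟨A, hA, i₁, i₂, i₃, m₁, m₂, m₃, h12, h13, h23⟩ := exists_set (t := t) 4 (by omega) ht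
  obtain ⟨u, hu⟩ : ∃ u : Fin t × Fin 1 → F, u = indA F A 0 := ⟨_, rfl⟩
  have hu1 : ∀ a, u a * u a = u a := by
    intro a
    rw [hu]
    exact indA_mul_self A 0 a
  have hus : ∑ a, u a = 4 := by
    rw [hu, sum_indA, hA]
    norm_num
  have hud : u ⬝ᵥ u = 4 := by
    rw [hu, indA_dot_self, hA]
    norm_num
  have hum : ∀ i ∈ A, u (i, 0) = 1 := by
    intro i hi
    rw [hu]
    exact indA_of_mem A 0 hi
  have hval : ∀ i : Fin t, i ≠ i₁ → i ∈ A →
      ((Pi.single ((i₁, 0) : Fin t × Fin 1) (1 : F) + u (i₁, 0) • u : Fin t × Fin 1 → F))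
        (i, 0) ≠ 0 := by
    intro i hi hiA
    rw [Pi.add_apply, Pi.smul_apply, hum i hiA, hum i₁ m₁,
      Pi.single_eq_of_ne (fun e => hi (congrArg Prod.fst e)), zero_add, smul_eq_mul, mul_one]
    exact one_ne_zero
  have hcard : 1 < Fintype.card F := Fintype.one_lt_card
  have hcases : Fintype.card F = 2 ∨ Fintype.card F = 3 ∨ Fintype.card F = 4 := by omega
  rcases hcases with h | h | h
  · have h2 := Cfsg.Agent.Lib.Helper37.KronF2.two_eq_zero h
    refine ⟨LinearMap.transvection (dotL u) u, ?_, ?_, (i₁, 0), i₂, i₃, 0, 0, h23, ?_, ?_⟩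
    · rw [R_det, hud]
      linear_combination (2 : F) * h2
    · intro z
      rw [W_one, W_one, h]
      simp only [Nat.add_one_sub_one, pow_one]
      apply P2_R
      rw [hus]
      linear_combination (2 : F) * h2
    · rw [R_single]
      exact hval i₂ (Ne.symm h12) m₂
    · rw [R_single]
      exact hval i₃ (Ne.symm h13) m₃
  · have h3 := three_char h
    obtain ⟨b, hb⟩ : ∃ b : Fin t × Fin 1 → F, b = Pi.single (i₂, 0) 1 := ⟨_, rfl⟩
    have hbd : b ⬝ᵥ b = 1 := by
      rw [hb, single_dotProduct, Pi.single_eq_same, one_mul]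
    have hud1 : u ⬝ᵥ u = 1 := by
      rw [hud]
      linear_combination h3
    refine ⟨LinearMap.transvection (dotL u) u ∘ₗ LinearMap.transvection (dotL b) b, ?_, ?_,
      (i₁, 0), i₂, i₃, 0, 0, h23, ?_, ?_⟩
    · rw [LinearMap.det_comp, R_det, R_det, hud1, hbd]
      linear_combination h3
    · intro z
      rw [W_one, W_one, h]
      simp only [Nat.add_one_sub_one]
      rw [LinearMap.comp_apply, P3_R h3 u hud1, P3_R h3 b hbd]
    · have e : b (i₁, 0) = 0 := by
        rw [hb]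
        exact Pi.single_eq_of_ne (fun e => h12 (congrArg Prod.fst e)) _
      rw [LinearMap.comp_apply, R_single b b, e, zero_smul, add_zero, R_single]
      exact hval i₂ (Ne.symm h12) m₂
    · have e : b (i₁, 0) = 0 := by
        rw [hb]
        exact Pi.single_eq_of_ne (fun e => h12 (congrArg Prod.fst e)) _
      rw [LinearMap.comp_apply, R_single b b, e, zero_smul, add_zero, R_single]
      exact hval i₃ (Ne.symm h13) m₃
  · have h2 := four_char h
    refine ⟨LinearMap.transvection (dotL u) u, ?_, ?_, (i₁, 0), i₂, i₃, 0, 0, h23, ?_, ?_⟩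
    · rw [R_det, hud]
      linear_combination (2 : F) * h2
    · intro z
      rw [W_one, W_one, h]
      simp only [Nat.add_one_sub_one]
      apply P4_R h2 u hu1
      rw [hus]
      linear_combination (2 : F) * h2
    · rw [R_single]
      exact hval i₂ (Ne.symm h12) m₂
    · rw [R_single]
      exact hval i₃ (Ne.symm h13) m₃

/-- The non-monomial weight-preserving map for a decomposition into planes, `q = 2`. -/
theorem case_two {t : ℕ} (ht : 3 ≤ t) (hq : Fintype.card F = 2) :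
    ∃ φ : (Fin t × Fin 2 → F) →ₗ[F] (Fin t × Fin 2 → F), LinearMap.det φ = 1 ∧
      (∀ z, W (φ z) = W z) ∧
      ∃ a i₁ i₂ j₁ j₂, i₁ ≠ i₂ ∧ φ (Pi.single a 1) (i₁, j₁) ≠ 0 ∧
        φ (Pi.single a 1) (i₂, j₂) ≠ 0 := by
  classical
  obtain ⟨A, hA, i₁, i₂, i₃, m₁, m₂, m₃, h12, h13, h23⟩ := exists_set (t := t) 3 (by omega) ht
  have h2 := Cfsg.Agent.Lib.Helper37.KronF2.two_eq_zero hq
  have h01 := Cfsg.Agent.Lib.Helper37.KronF2.eq_zero_or_one hq
  obtain ⟨u, hu⟩ : ∃ u : Fin t × Fin 2 → F, u = indA F A 0 := ⟨_, rfl⟩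
  obtain ⟨u', hu'⟩ : ∃ u' : Fin t × Fin 2 → F, u' = indA F A 1 := ⟨_, rfl⟩
  obtain ⟨c, hc⟩ : ∃ c : Fin t → F, c = fun i => if i ∈ A then 1 else 0 := ⟨_, rfl⟩
  have hu0 : ∀ i, u (i, 0) = c i := by
    intro i
    rw [hu, hc]
    unfold indA
    simp
  have hu1 : ∀ i, u (i, 1) = 0 := by
    intro i
    rw [hu]
    exact indA_of_ne A 0 i (by decide)
  have hu'0 : ∀ i, u' (i, 0) = 0 := by
    intro i
    rw [hu']
    exact indA_of_ne A 1 i (by decide)
  have hu'1 : ∀ i, u' (i, 1) = c i := by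
    intro i
    rw [hu', hc]
    unfold indA
    simp
  have hcs : ∑ i, c i = 3 := by
    rw [hc, Finset.sum_boole]
    simp [hA]
  have hdot : ∀ z : Fin t × Fin 2 → F, z ⬝ᵥ u' = ∑ i, z (i, 1) * c i := by
    intro z
    unfold dotProduct
    rw [Fintype.sum_prod_type]
    refine Finset.sum_congr rfl fun i _ => ?_
    rw [Fin.sum_univ_two, hu'0, hu'1, mul_zero, zero_add]
  have hW : ∀ z : Fin t × Fin 2 → F, W z = ∑ i, (z (i, 0) + z (i, 1) + z (i, 0) * z (i, 1)) := by
    intro z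
    unfold W
    refine Finset.sum_congr rfl fun i _ => ?_
    simp only [Fin.forall_fin_two]
    rcases h01 (z (i, 0)) with e0 | e0 <;> rcases h01 (z (i, 1)) with e1 | e1
    · simp [e0, e1]
    · simp [e0, e1]
    · simp [e0, e1]
    · simp only [e0, e1, one_ne_zero, and_self, if_false]
      linear_combination -h2
  have hcm : ∀ i ∈ A, c i = 1 := by
    intro i hi
    rw [hc]
    exact if_pos hi
  have hval : ∀ i : Fin t, i ∈ A →
      ((Pi.single ((i₁, 1) : Fin t × Fin 2) (1 : F) + u' (i₁, 1) • u : Fin t × Fin 2 → F))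
        (i, 0) ≠ 0 := by
    intro i hiA
    rw [Pi.add_apply, Pi.smul_apply, hu'1, hu0, hcm i hiA, hcm i₁ m₁,
      Pi.single_eq_of_ne (fun e => by simpa using congrArg Prod.snd e), zero_add, smul_eq_mul,
      mul_one]
    exact one_ne_zero
  refine ⟨LinearMap.transvection (dotL u') u, ?_, ?_, (i₁, 1), i₂, i₃, 0, 0, h23, ?_, ?_⟩
  · rw [R_det]
    have : u ⬝ᵥ u' = 0 := by
      rw [hdot]
      refine Finset.sum_eq_zero fun i _ => ?_
      rw [hu1, zero_mul]
    rw [this, add_zero]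
  · intro z
    rw [hW, hW]
    have key : ∀ i, LinearMap.transvection (dotL u') u z (i, 0) +
        LinearMap.transvection (dotL u') u z (i, 1) +
        LinearMap.transvection (dotL u') u z (i, 0) * LinearMap.transvection (dotL u') u z (i, 1)
        = (z (i, 0) + z (i, 1) + z (i, 0) * z (i, 1)) + (z ⬝ᵥ u') * c i +
          (z ⬝ᵥ u') * (z (i, 1) * c i) := by
      intro i
      rw [R_apply, R_apply, hu0, hu1]
      ring
    simp_rw [key]
    rw [Finset.sum_add_distrib, Finset.sum_add_distrib, ← Finset.mul_sum, ← Finset.mul_sum,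
      ← hdot, hcs]
    rcases h01 (z ⬝ᵥ u') with e | e
    · rw [e]
      ring
    · rw [e]
      linear_combination (2 : F) * h2
  · rw [R_single]
    exact hval i₂ m₂
  · rw [R_single]
    exact hval i₃ m₃

end Cfsg.Agent.Lib.Helper37.DecompCases
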