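import Mathlib
import Cfsg.Prelude.Def_GeometricClasses
import Cfsg.Agent.Lib.Helper37.EluStmt
import Cfsg.Agent.Lib.Helper40.PrimeFix
import Cfsg.Agent.Lib.Helper40.PrimeElts
import Cfsg.Agent.Lib.Helper40.RootPow

/-!
# S5958: the assembly of the pieces of `EluStmt` (helper37)
-/

set_option autoImplicit false

namespace Cfsg.Agent.Lib.Helper37.EluAsm

open Cfsg Cfsg.Agent.Lib.Helper37.EluStmt Polynomial

universe u

theorem inj_of_pow {F V : Type*} [Field F] [AddCommGroup V] [Module F V] (φ : Module.End F V)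
    (r : ℕ) (hr : 0 < r) (h : φ ^ r = 1) : Function.Injective φ := by
  have h1 : φ ^ (r - 1) * φ = 1 := by rw [← pow_succ, Nat.sub_add_cancel hr, h]
  intro v w hvw
  have h2 := congrArg (fun g : Module.End F V => g v) h1
  have h3 := congrArg (fun g : Module.End F V => g w) h1
  simp only [Module.End.mul_apply, Module.End.one_apply] at h2 h3
  rw [← h2, ← h3, hvw]

theorem sum_finrank_eq {K V : Type*} [Field K] [AddCommGroup V] [Module K V]
    [FiniteDimensional K V] {ι : Type*} [Fintype ι] [DecidableEq ι] (W : ι → Submodule K V)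
    (h : iSupIndep W) :
    ∑ i, Module.finrank K (W i) = Module.finrank K ↥(⨆ i, W i) := by
  have hinj := h.dfinsupp_lsum_injective
  have h2 : Module.finrank K (Π₀ i, W i) = ∑ i, Module.finrank K (W i) := by
    rw [← Module.finrank_pi_fintype]
    exact (DFinsupp.linearEquivFunOnFintype (R := K) (M := fun i => W i)).finrank_eq
  rw [← h2, Submodule.iSup_eq_range_dfinsupp_lsum]
  exact (LinearMap.finrank_range_of_inj hinj).symm

/-- independent subspaces meet a subspace `K` in subspaces whose dimensions add up to at most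
`dim K` -/
theorem sum_finrank_inf_le {K V : Type*} [Field K] [AddCommGroup V] [Module K V]
    [FiniteDimensional K V] {ι : Type*} [Fintype ι] [DecidableEq ι] (W : ι → Submodule K V)
    (h : iSupIndep W) (U : Submodule K V) :
    ∑ i, Module.finrank K ↥(W i ⊓ U) ≤ Module.finrank K U := by
  have h1 : iSupIndep (fun i => W i ⊓ U) := h.mono (fun i => inf_le_left)
  rw [sum_finrank_eq _ h1]
  exact Submodule.finrank_mono (iSup_le fun i => inf_le_right)

theorem toLin_pow_one {F : Type*} [Field F] {n : ℕ} (x : Matrix (Fin n) (Fin n) F) (r : ℕ)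
    (hx : x ^ r = 1) : (Matrix.toLin' x) ^ r = 1 := by
  rw [← Matrix.toLin'_pow, hx, Matrix.toLin'_one]
  rfl

theorem order_pos {F : Type*} [Field F] [Fintype F] {p : ℕ} [Fact p.Prime] [CharP F p]
    (r : ℕ) [Fact r.Prime] (hrp : r ≠ p) :
    1 ≤ orderOf ((Fintype.card F : ℕ) : ZMod r) ∧
      orderOf ((Fintype.card F : ℕ) : ZMod r) ≤ r - 1 := by
  have hr : r.Prime := Fact.out
  have h1 := Cfsg.Agent.Lib.Helper40.PrimeFix.order_dvd (F := F) (p := p) r hrp
  have h2 : 0 < r - 1 := by have := hr.two_le; omega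
  exact ⟨Nat.pos_of_dvd_of_pos h1 h2, Nat.le_of_dvd h2 h1⟩

/-! ### the backward direction -/

theorem backward (hPeel : Peel.{u}) (hChar : CharFact.{u}) (hCyc : CycGen.{u})
    (hLine : LineDec.{u}) (hNA : NonPowA.{u}) (hNB : NonPowB.{u})
    {F : Type u} [Field F] [Fintype F] {p : ℕ} [Fact p.Prime] [CharP F p]
    (n a t : ℕ) (hn : 1 ≤ n) (hat : n = a * t) (ha : 1 ≤ a) (ht : 2 ≤ t)
    (r : ℕ) [Fact r.Prime] (hrp : r ≠ p)
    (c : ℕ) (hc : c = orderOf ((Fintype.card F : ℕ) : ZMod r))
    (hcond : (a = 1 ∧ 1 < c ∧ c = r - 1 ∧ n ≤ (n % c) * r) ∨ (c ≤ a ∧ n % c = t * (a % c)))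
    (x : Matrix (Fin n) (Fin n) F) (hdet : x.det = 1) (z : F)
    (hxr : x ^ r = z • (1 : Matrix (Fin n) (Fin n) F)) :
    ∃ D : Fin t → Submodule F (Fin n → F), Cfsg.Geo.IsMDecomposition a D ∧
      ∃ σ : Equiv.Perm (Fin t), ∀ j, (D j).map (Matrix.toLin' x) = D (σ j) := by
  classical
  have hr : r.Prime := Fact.out
  have hr0 : (r : F) ≠ 0 := Cfsg.Agent.Lib.Helper40.PrimeFix.cast_ne_zero' (p := p) r hrp
  obtain ⟨hc1, hcr⟩ := order_pos (F := F) (p := p) r hrp
  rw [← hc] at hc1 hcr
  have hz0 : z ≠ 0 := by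
    rintro rfl
    have h1 := congrArg Matrix.det hxr
    haveI hne : Nonempty (Fin n) := ⟨⟨0, by omega⟩⟩
    rw [Matrix.det_pow, hdet, one_pow, zero_smul, Matrix.det_zero] at h1
    exact one_ne_zero h1
  have hfr : Module.finrank F (Fin n → F) = n := Module.finrank_fin_fun F
  by_cases hpow : ∃ d : F, d ^ r = z
  · obtain ⟨d, hd⟩ := hpow
    have hd0 : d ≠ 0 := by
      rintro rfl
      rw [zero_pow hr.ne_zero] at hd
      exact hz0 hd.symm
    obtain ⟨x', hx'⟩ : ∃ x' : Matrix (Fin n) (Fin n) F, x' = d⁻¹ • x := ⟨_, rfl⟩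
    have hx'r : x' ^ r = 1 := by
      rw [hx', _root_.smul_pow, hxr, ← hd, smul_smul, inv_pow, inv_mul_cancel₀ (pow_ne_zero r hd0),
        one_smul]
    have hxx' : x = d • x' := by
      rw [hx', smul_smul, mul_inv_cancel₀ hd0, one_smul]
    have hmap : ∀ W : Submodule F (Fin n → F),
        W.map (Matrix.toLin' x) = W.map (Matrix.toLin' x') := by
      intro W
      rw [hxx', map_smul, Submodule.map_smul _ _ d hd0]
    have hφr : (Matrix.toLin' x') ^ r = 1 := toLin_pow_one x' r hx'r
    have hφinj : Function.Injective (Matrix.toLin' x') :=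
      inj_of_pow (Matrix.toLin' x') r hr.pos hφr
    rcases hcond with ⟨ha1, hc1', hcr', hnk⟩ | ⟨hca, hk⟩
    · -- lines
      obtain ⟨m, s, v, u, hms, hv, hu, hspan⟩ := hCyc F p r hrp (by rw [← hc]; omega)
        (Fin n → F) (Matrix.toLin' x') hφr
      rw [← hc, hfr] at hms
      have hsm : s ≤ m := by
        obtain ⟨J, hJ⟩ : ∃ J, J = m / c := ⟨_, rfl⟩
        obtain ⟨k, hk⟩ : ∃ k, k = m % c := ⟨_, rfl⟩
        have h1 : n % c = k := by
          rw [hk, ← hms, Nat.add_mul_mod_self_left]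
        have h2 : c * J + k = m := by
          rw [hJ, hk]
          exact Nat.div_add_mod m c
        have h3 : r = c + 1 := by omega
        rw [h3, h1] at hnk
        have h4 : c * (J + s) ≤ c * k := by
          have e1 : c * (J + s) + k = n := by
            rw [← hms, ← h2]
            ring
          have e2 : k * (c + 1) = c * k + k := by ring
          omega
        have h5 : J + s ≤ k := Nat.le_of_mul_le_mul_left h4 (by omega)
        omega
      have hms' : m + (r - 1) * s = Module.finrank F (Fin n → F) := by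
        rw [hfr, ← hcr', hms]
      have htn : t = Module.finrank F (Fin n → F) := by
        rw [hfr, hat, ha1, one_mul]
      obtain ⟨D, hD1, hD2, hD3, σ, hσ⟩ := hLine F (Fin n → F) (Matrix.toLin' x') r hr hr0 hφr
        m s v u hsm hms' hv hu hspan t htn
      refine ⟨D, ⟨ht, ha, ?_, hD2, hD3⟩, σ, ?_⟩
      · intro j
        rw [hD1 j, ha1]
      · intro j
        rw [hmap, hσ]
    · -- invariant subspaces
      obtain ⟨hss, E, M, hcp, hM, hEM⟩ := hChar F p r hrp n x' hx'r
      rw [← hc] at hEM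
      obtain ⟨b, hb⟩ : ∃ b, b = a / c := ⟨_, rfl⟩
      obtain ⟨l, hl⟩ : ∃ l, l = a % c := ⟨_, rfl⟩
      obtain ⟨J, hJ⟩ : ∃ J, J = E / c := ⟨_, rfl⟩
      obtain ⟨K, hK⟩ : ∃ K, K = Multiset.card M := ⟨_, rfl⟩
      rw [← hK] at hEM
      have hab : a = c * b + l := by
        rw [hb, hl]
        exact (Nat.div_add_mod a c).symm
      have hEmod : E % c = n % c := by
        rw [← hEM, Nat.add_mul_mod_self_left]
      have e1 : E = t * l + c * J := by
        have h2 := Nat.div_add_mod E c
        rw [hEmod, hk, ← hl, ← hJ] at h2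
        omega
      have e4 : J + K = t * b := by
        have h1 : c * (J + K) + t * l = c * (t * b) + t * l := by
          calc c * (J + K) + t * l = (t * l + c * J) + c * K := by ring
            _ = E + c * K := by rw [e1]
            _ = n := hEM
            _ = (c * b + l) * t := by rw [hat, hab]
            _ = c * (t * b) + t * l := by ring
        have h2 : c * (J + K) = c * (t * b) := Nat.add_right_cancel h1
        exact Nat.eq_of_mul_eq_mul_left (by omega) h2
      have hcp' : (Matrix.toLin' x').charpoly = (X - C 1) ^ E * M.prod := by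
        rw [Matrix.charpoly_toLin', hcp]
      have hM' : ∀ P ∈ M, P.Monic ∧ P.natDegree = c := by
        intro P hP
        rw [hc]
        exact hM P hP
      obtain ⟨D, hinv, hfin, hind, hsup⟩ := hPeel F (Fin n → F) (Matrix.toLin' x') hss
        c a t b l E J M hcp' hM' hab e1 (by rw [← hK]; exact e4)
      refine ⟨D, ⟨ht, ha, hfin, hind, hsup⟩, Equiv.refl _, ?_⟩
      intro j
      rw [hmap, Equiv.refl_apply]
      have hle : (D j).map (Matrix.toLin' x') ≤ D j := by
        rintro _ ⟨w, hw, rfl⟩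
        exact hinv j w hw
      have hfr' : Module.finrank F ((D j).map (Matrix.toLin' x')) = Module.finrank F (D j) :=
        (Submodule.equivMapOfInjective (Matrix.toLin' x') hφinj (D j)).finrank_eq.symm
      exact Submodule.eq_of_le_of_finrank_le hle (by rw [hfr'])
  · -- `z` is not an `r`-th power
    have hpow' : ∀ d : F, d ^ r ≠ z := fun d hd => hpow ⟨d, hd⟩
    obtain ⟨A, hA, -⟩ := Cfsg.Agent.Lib.Helper40.PrimeFix.structure_of_nonpower r hr0 x z hpow' hxr
    have hdvd : r ∣ a * t := by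
      rw [← hat, ← hA]
      exact dvd_mul_right r A
    rcases (Nat.Prime.dvd_mul hr).mp hdvd with h | h
    · obtain ⟨D, hD1, hD2, hD3, σ, hσ⟩ := hNA F p r hrp n a t hat ha h x z hpow' hxr
      exact ⟨D, ⟨ht, ha, hD1, hD2, hD3⟩, σ, hσ⟩
    · obtain ⟨D, hD1, hD2, hD3, σ, hσ⟩ := hNB F p r hrp n a t hat ha h x z hpow' hxr
      exact ⟨D, ⟨ht, ha, hD1, hD2, hD3⟩, σ, hσ⟩

/-! ### the forward direction -/

/-- an element with at least one non-trivial block is not scalar -/
theorem not_scalar {F : Type u} [Field F] [Fintype F] (r : ℕ) (hr : r.Prime)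
    (hroot : ∀ lam : F, lam ^ r = 1 → lam = 1) (n : ℕ) (x : Matrix (Fin n) (Fin n) F)
    (hxr : x ^ r = 1) (c s : ℕ) (hc : 1 ≤ c) (hs : 1 ≤ s)
    (hker : Module.finrank F (LinearMap.ker (Matrix.toLin' x - 1)) + c * s = n) :
    ∀ z : F, x ≠ z • (1 : Matrix (Fin n) (Fin n) F) := by
  intro z hz
  have hn : 1 ≤ n := by
    have : 1 ≤ c * s := Nat.mul_pos hc hs
    omega
  have h1 : z ^ r = 1 := by
    rw [hz, _root_.smul_pow, one_pow] at hxr
    have h2 := congrFun (congrFun hxr ⟨0, by omega⟩) ⟨0, by omega⟩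
    simpa using h2
  have h3 : z = 1 := hroot z h1
  rw [h3, one_smul] at hz
  have h4 : Matrix.toLin' x - 1 = 0 := by
    rw [hz, Matrix.toLin'_one]
    exact sub_self _
  rw [h4, LinearMap.ker_zero, finrank_top, Module.finrank_fin_fun] at hker
  have : 1 ≤ c * s := Nat.mul_pos hc hs
  omega

theorem forward (hPerm : PermDich.{u}) (hCF : CycFix.{u}) (hCR : CycRank.{u})
    (hFM : FixMod.{u}) (hOC : OrbCount.{u}) (hBlk : BlkElt.{u}) (hFree : FreeDvd.{u})
    (hDiv : DivGL.{u}) (hCau : CauchyOrd.{u})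
    {F : Type u} [Field F] [Fintype F] {p : ℕ} [Fact p.Prime] [CharP F p]
    (n a t : ℕ) (hat : n = a * t) (ha : 1 ≤ a) (ht : 2 ≤ t)
    (r : ℕ) [Fact r.Prime] (hrp : r ≠ p)
    (hΩ : r ∣ Nat.card {D : Fin t → Submodule F (Fin n → F) //
      Cfsg.Geo.IsMDecomposition a D} / Nat.factorial t)
    (c : ℕ) (hc : c = orderOf ((Fintype.card F : ℕ) : ZMod r))
    (hall : ∀ x : Matrix (Fin n) (Fin n) F, x.det = 1 → x ^ r = 1 →
      (∀ z : F, x ≠ z • (1 : Matrix (Fin n) (Fin n) F)) →
      ∃ D : Fin t → Submodule F (Fin n → F), Cfsg.Geo.IsMDecomposition a D ∧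
        ∃ σ : Equiv.Perm (Fin t), ∀ j, (D j).map (Matrix.toLin' x) = D (σ j)) :
    (a = 1 ∧ 1 < c ∧ c = r - 1 ∧ n ≤ (n % c) * r) ∨ (c ≤ a ∧ n % c = t * (a % c)) := by
  classical
  have hr : r.Prime := Fact.out
  have hr0 : (r : F) ≠ 0 := Cfsg.Agent.Lib.Helper40.PrimeFix.cast_ne_zero' (p := p) r hrp
  obtain ⟨hc1, hcr⟩ := order_pos (F := F) (p := p) r hrp
  rw [← hc] at hc1 hcr
  have hfr : Module.finrank F (Fin n → F) = n := Module.finrank_fin_fun F
  have han : a ≤ n := by
    rw [hat]
    exact Nat.le_mul_of_pos_right a (by omega)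
  by_contra hcon
  rw [not_or] at hcon
  obtain ⟨hA, hB⟩ := hcon
  have hc2 : 2 ≤ c := by
    by_contra h
    have h1 : c = 1 := by omega
    apply hB
    rw [h1]
    exact ⟨ha, by rw [Nat.mod_one, Nat.mod_one, mul_zero]⟩
  have hc2' : 2 ≤ orderOf ((Fintype.card F : ℕ) : ZMod r) := by rw [← hc]; exact hc2
  have hroot : ∀ lam : F, lam ^ r = 1 → lam = 1 := fun lam h =>
    Cfsg.Agent.Lib.Helper40.PrimeElts.root_trivial r hr (by rw [← hc]; omega) lam h
  -- common consequences of a stabilised decomposition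
  have hinvar : ∀ (x : Matrix (Fin n) (Fin n) F) (D : Fin t → Submodule F (Fin n → F))
      (σ : Equiv.Perm (Fin t)), (∀ j, (D j).map (Matrix.toLin' x) = D (σ j)) →
      ∀ j, σ j = j → ∀ v ∈ D j, Matrix.toLin' x v ∈ D j := by
    intro x D σ hσ j hj v hv
    have h1 : Matrix.toLin' x v ∈ (D j).map (Matrix.toLin' x) := Submodule.mem_map_of_mem hv
    rw [hσ, hj] at h1
    exact h1
  have hne : ∀ (D : Fin t → Submodule F (Fin n → F)), Cfsg.Geo.IsMDecomposition a D →
      ∀ j, D j ≠ ⊥ := by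
    intro D hD j h
    have h1 := hD.finrank_eq j
    rw [h, finrank_bot] at h1
    omega
  by_cases hca : c ≤ a
  · -- many blocks; `c ≤ a`
    have hk : n % c ≠ t * (a % c) := fun h => hB ⟨hca, h⟩
    have hs1 : 1 ≤ n / c := Nat.div_pos (hca.trans han) (by omega)
    obtain ⟨x, hdet, hxr, hker⟩ := hBlk F p r hrp hc2' n (n / c)
      (by rw [← hc]; exact Nat.mul_div_le n c)
    rw [← hc] at hker
    have hker' : Module.finrank F (LinearMap.ker (Matrix.toLin' x - 1)) = n % c := by
      have := Nat.div_add_mod n c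
      omega
    have hns := not_scalar r hr hroot n x hxr c (n / c) hc1 hs1 hker
    obtain ⟨D, hD, σ, hσ⟩ := hall x hdet hxr hns
    have hφr := toLin_pow_one x r hxr
    have hfix : ∀ j, σ j = j := by
      intro j
      rcases hPerm F (Fin n → F) (Matrix.toLin' x) r hr hφr t D σ hD.indep (hne D hD) hσ j
        with h | h
      · exact h
      · exfalso
        have h1 := hCF F (Fin n → F) (Matrix.toLin' x) r hr hφr t D σ hD.indep hσ j h
        rw [hD.finrank_eq, hker'] at h1
        have h2 := Nat.mod_lt n (show c > 0 by omega)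
        omega
    have hFM' : ∀ j, ∃ m : ℕ, a = Module.finrank F
        ↥(D j ⊓ LinearMap.ker (Matrix.toLin' x - 1)) + c * m := by
      intro j
      obtain ⟨m, hm⟩ := hFM F p r hrp (Fin n → F) (Matrix.toLin' x) hφr (D j)
        (hinvar x D σ hσ j (hfix j))
      rw [hD.finrank_eq, ← hc] at hm
      exact ⟨m, hm⟩
    have hsum := sum_finrank_inf_le D hD.indep (LinearMap.ker (Matrix.toLin' x - 1))
    rw [hker'] at hsum
    obtain ⟨l, hl⟩ : ∃ l, l = a % c := ⟨_, rfl⟩
    have hlow : ∀ j, l ≤ Module.finrank F ↥(D j ⊓ LinearMap.ker (Matrix.toLin' x - 1)) := by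
      intro j
      obtain ⟨m, hm⟩ := hFM' j
      have h1 : a % c = Module.finrank F ↥(D j ⊓ LinearMap.ker (Matrix.toLin' x - 1)) % c := by
        conv_lhs => rw [hm]
        rw [Nat.add_mul_mod_self_left]
      rw [hl, h1]
      exact Nat.mod_le _ _
    have hlow' : t * l ≤ ∑ j : Fin t,
        Module.finrank F ↥(D j ⊓ LinearMap.ker (Matrix.toLin' x - 1)) := by
      have h1 : ∑ _j : Fin t, l ≤ ∑ j : Fin t,
          Module.finrank F ↥(D j ⊓ LinearMap.ker (Matrix.toLin' x - 1)) :=
        Finset.sum_le_sum (fun j _ => hlow j)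
      rw [Finset.sum_const, Finset.card_univ, Fintype.card_fin, smul_eq_mul] at h1
      exact h1
    have htl : t * l ≤ n % c := hlow'.trans hsum
    have hlt : n % c < c := Nat.mod_lt n (by omega)
    apply hk
    rw [← hl]
    have h1 : n % c = (t * l) % c := by
      rw [hat, hl, Nat.mul_comm a t, Nat.mul_mod, Nat.mul_mod t (a % c), Nat.mod_mod]
    rw [h1]
    exact Nat.mod_eq_of_lt (by omega)
  · -- `a < c`
    have hac : a < c := by omega
    have hcn : c ≤ n := by
      have h1 := hFree F n a t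
      have h2 := hDiv F n a t hat ha ht
      have h3 : r ∣ Nat.card {D : Fin t → Submodule F (Fin n → F) //
          Cfsg.Geo.IsMDecomposition a D} := by
        rw [← Nat.mul_div_cancel' h1]
        exact Dvd.dvd.mul_left hΩ _
      have h4 := hCau F p r hrp n (h3.trans h2) hc2'
      rw [← hc] at h4
      exact h4
    by_cases hsp : a = 1 ∧ c = r - 1
    · -- lines, `c = r - 1`
      obtain ⟨ha1, hcr'⟩ := hsp
      have hnk : ¬ n ≤ (n % c) * r := fun h => hA ⟨ha1, by omega, hcr', h⟩
      have hs1 : 1 ≤ n / c := Nat.div_pos hcn (by omega)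
      obtain ⟨x, hdet, hxr, hker⟩ := hBlk F p r hrp hc2' n (n / c)
        (by rw [← hc]; exact Nat.mul_div_le n c)
      rw [← hc] at hker
      have hker' : Module.finrank F (LinearMap.ker (Matrix.toLin' x - 1)) = n % c := by
        have := Nat.div_add_mod n c
        omega
      have hns := not_scalar r hr hroot n x hxr c (n / c) hc1 hs1 hker
      obtain ⟨D, hD, σ, hσ⟩ := hall x hdet hxr hns
      have hφr := toLin_pow_one x r hxr
      have h1 := hOC F (Fin n → F) (Matrix.toLin' x) r hr hr0 hroot hφr t D σ hD.indep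
        (fun j => by rw [hD.finrank_eq, ha1]) hσ
      rw [hker'] at h1
      apply hnk
      rw [hat, ha1, one_mul, Nat.mul_comm]
      rw [hat, ha1, one_mul] at h1
      exact h1
    · -- a single block
      obtain ⟨x, hdet, hxr, hker⟩ := hBlk F p r hrp hc2' n 1 (by rw [← hc]; omega)
      rw [← hc] at hker
      have hns := not_scalar r hr hroot n x hxr c 1 hc1 le_rfl hker
      obtain ⟨D, hD, σ, hσ⟩ := hall x hdet hxr hns
      have hφr := toLin_pow_one x r hxr
      have hfix : ∀ j, σ j = j := by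
        intro j
        rcases hPerm F (Fin n → F) (Matrix.toLin' x) r hr hφr t D σ hD.indep (hne D hD) hσ j
          with h | h
        · exact h
        · exfalso
          have h1 := hCR F (Fin n → F) (Matrix.toLin' x) r hr hφr t D σ hD.indep hσ j h
          rw [hD.finrank_eq, hfr] at h1
          have h2 : (r - 1) * a ≤ c := by omega
          by_cases ha1 : a = 1
          · rw [ha1, mul_one] at h2
            exact hsp ⟨ha1, by omega⟩
          · have h3 : (r - 1) * 2 ≤ (r - 1) * a := Nat.mul_le_mul_left _ (by omega)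
            have := hr.two_le
            omega
      have hle : ∀ j, D j ≤ LinearMap.ker (Matrix.toLin' x - 1) := by
        intro j
        obtain ⟨m, hm⟩ := hFM F p r hrp (Fin n → F) (Matrix.toLin' x) hφr (D j)
          (hinvar x D σ hσ j (hfix j))
        rw [hD.finrank_eq, ← hc] at hm
        have hm0 : m = 0 := by
          by_contra h
          have h1 : c ≤ c * m := Nat.le_mul_of_pos_right c (by omega)
          omega
        rw [hm0, mul_zero, add_zero] at hm
        have h2 : D j ⊓ LinearMap.ker (Matrix.toLin' x - 1) = D j :=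
          Submodule.eq_of_le_of_finrank_eq inf_le_left (by rw [hD.finrank_eq, ← hm])
        rw [← h2]
        exact inf_le_right
      have htop : LinearMap.ker (Matrix.toLin' x - 1) = ⊤ := by
        rw [eq_top_iff, ← hD.iSup_eq_top]
        exact iSup_le hle
      rw [htop, finrank_top, hfr] at hker
      omega

/-! ### the theorem -/

theorem thm_of (hPeel : Peel.{u}) (hChar : CharFact.{u}) (hCyc : CycGen.{u})
    (hLine : LineDec.{u}) (hNA : NonPowA.{u}) (hNB : NonPowB.{u})
    (hPerm : PermDich.{u}) (hCF : CycFix.{u}) (hCR : CycRank.{u})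
    (hFM : FixMod.{u}) (hOC : OrbCount.{u}) (hBlk : BlkElt.{u}) (hFree : FreeDvd.{u})
    (hDiv : DivGL.{u}) (hCau : CauchyOrd.{u})
    {F : Type u} [Field F] [Fintype F] {p : ℕ} [Fact p.Prime] [CharP F p]
    (n a t : ℕ) (hn : 2 ≤ n) (hat : n = a * t) (ha : 1 ≤ a) (ht : 2 ≤ t)
    (r : ℕ) [Fact r.Prime] (hrp : r ≠ p)
    (hΩ : r ∣ Nat.card {D : Fin t → Submodule F (Fin n → F) //
      Cfsg.Geo.IsMDecomposition a D} / Nat.factorial t)
    (c : ℕ) (hc : c = orderOf ((Fintype.card F : ℕ) : ZMod r)) :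
    (∀ x : Matrix.SpecialLinearGroup (Fin n) F,
      (∃ z : F, ((x ^ r : Matrix.SpecialLinearGroup (Fin n) F) : Matrix (Fin n) (Fin n) F) =
        z • (1 : Matrix (Fin n) (Fin n) F)) →
      (∀ z : F, (x : Matrix (Fin n) (Fin n) F) ≠ z • (1 : Matrix (Fin n) (Fin n) F)) →
      ∃ D : Fin t → Submodule F (Fin n → F), Cfsg.Geo.IsMDecomposition a D ∧
        ∃ σ : Equiv.Perm (Fin t),
          ∀ j, (D j).map (Matrix.toLin' (x : Matrix (Fin n) (Fin n) F)) = D (σ j)) ↔
    ((a = 1 ∧ 1 < c ∧ c = r - 1 ∧ n ≤ (n % c) * r) ∨ (c ≤ a ∧ n % c = t * (a % c))) := by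
  constructor
  · intro h
    apply forward hPerm hCF hCR hFM hOC hBlk hFree hDiv hCau n a t hat ha ht r hrp hΩ c hc
    intro x hdet hxr hns
    obtain ⟨y, hy⟩ : ∃ y : Matrix.SpecialLinearGroup (Fin n) F,
        (y : Matrix (Fin n) (Fin n) F) = x := ⟨⟨x, hdet⟩, rfl⟩
    have h1 := h y ⟨1, by
      rw [Matrix.SpecialLinearGroup.coe_pow, hy, one_smul]
      exact hxr⟩ (by rw [hy]; exact hns)
    rw [hy] at h1
    exact h1
  · intro hcond x ⟨z, hz⟩ _
    rw [Matrix.SpecialLinearGroup.coe_pow] at hz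
    exact backward hPeel hChar hCyc hLine hNA hNB n a t (by omega) hat ha ht r hrp c hc hcond
      (x : Matrix (Fin n) (Fin n) F) x.det_coe z hz

end Cfsg.Agent.Lib.Helper37.EluAsm
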