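import Mathlib
import Cfsg.Agent.Lib.Helper24.ExStmt

/-!
# S5877, piece KEY (helper37)

If `cm y g` does not commute with one of its `g`-conjugates then `W ⊓ y W = 0` for the
eigenspace `W` of `g`, hence `2 d ≤ n`.
-/

set_option autoImplicit false

namespace Cfsg.Agent.Lib.Helper37.ExKEY

open Cfsg Cfsg.Agent.Lib.Helper24.ExStmt

universe u

variable {F : Type u} [Field F] {n : ℕ}

/-- the action of `GL_n(F)` on column vectors -/
def act (x : GLn n F) (w : Fin n → F) : Fin n → F :=
  (x : Matrix (Fin n) (Fin n) F).mulVec w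

theorem act_mul (x y : GLn n F) (w : Fin n → F) : act (x * y) w = act x (act y w) := by
  simp [act, Matrix.mulVec_mulVec]

theorem act_one (w : Fin n → F) : act (1 : GLn n F) w = w := by simp [act]

theorem act_smul (x : GLn n F) (a : F) (w : Fin n → F) : act x (a • w) = a • act x w := by
  simp [act, Matrix.mulVec_smul]

theorem act_zero (x : GLn n F) : act x (0 : Fin n → F) = 0 := by simp [act]

theorem act_inv_act (x : GLn n F) (w : Fin n → F) : act x⁻¹ (act x w) = w := by
  rw [← act_mul, inv_mul_cancel, act_one]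

theorem act_inv_of_fix (x : GLn n F) (w : Fin n → F) (h : act x w = w) : act x⁻¹ w = w := by
  have h1 := act_inv_act x w
  rwa [h] at h1

theorem act_inv_of_eig (x : GLn n F) (c : F) (hc : c ≠ 0) (w : Fin n → F)
    (h : act x w = c • w) : act x⁻¹ w = c⁻¹ • w := by
  have h1 : act x⁻¹ (act x w) = w := act_inv_act x w
  rw [h, act_smul] at h1
  calc act x⁻¹ w = c⁻¹ • (c • act x⁻¹ w) := by rw [smul_smul, inv_mul_cancel₀ hc, one_smul]
    _ = c⁻¹ • w := by rw [h1]

theorem act_pow_eig (x : GLn n F) (c : F) (w : Fin n → F) (h : act x w = c • w) (i : ℕ) :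
    act (x ^ i) w = c ^ i • w := by
  induction i with
  | zero => simp [act_one]
  | succ i ih => rw [pow_succ, act_mul, h, act_smul, ih, smul_smul, pow_succ, mul_comm]

theorem mem_eig_iff (g : GLn n F) (c : F) (w : Fin n → F) :
    w ∈ Module.End.eigenspace (Matrix.toLin' (g : Matrix (Fin n) (Fin n) F)) c ↔
      act g w = c • w := by
  rw [Module.End.mem_eigenspace_iff, Matrix.toLin'_apply]
  rfl

theorem main : BasA.{u} → Key.{u} := by
  intro hA F _ _ n r R S g hg y hy i hne c
  classical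
  obtain ⟨-, hA2, -⟩ := hA F n r R S
  set W := Module.End.eigenspace (Matrix.toLin' (g : Matrix (Fin n) (Fin n) F)) c with hW
  have hd : eDim g c = Module.finrank F W := rfl
  by_cases hc : c = 0
  · have h0 : W = ⊥ := by
      rw [Submodule.eq_bot_iff]
      intro w hw
      rw [hW, mem_eig_iff, hc, zero_smul] at hw
      have h1 := act_inv_act g w
      rw [hw, act_zero] at h1
      exact h1.symm
    rw [hd, h0, finrank_bot]
    omega
  have hgn : ∀ h, h ∈ R ⊔ Sc n F ↔ g * h * g⁻¹ ∈ R ⊔ Sc n F :=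
    Subgroup.mem_normalizer_iff.mp hg
  have hgin : ∀ j : ℕ, ∀ h, h ∈ R ⊔ Sc n F → g ^ j * h * (g ^ j)⁻¹ ∈ R ⊔ Sc n F := by
    intro j
    induction j with
    | zero => intro h hh; simpa using hh
    | succ j ih =>
      intro h hh
      have h1 := (hgn _).mp (ih h hh)
      have h2 : g ^ (j + 1) * h * (g ^ (j + 1))⁻¹ = g * (g ^ j * h * (g ^ j)⁻¹) * g⁻¹ := by
        rw [pow_succ']; group
      rw [h2]; exact h1
  set u := cm y g with hu
  have huRZ : u ∈ R ⊔ Sc n F := by
    have h1 : g * y⁻¹ * g⁻¹ ∈ R ⊔ Sc n F := (hgn _).mp (inv_mem hy)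
    have h2 : u = y * (g * y⁻¹ * g⁻¹) := by
      rw [hu]
      show y * g * y⁻¹ * g⁻¹ = y * (g * y⁻¹ * g⁻¹)
      group
    rw [h2]; exact mul_mem hy h1
  set v := g ^ i * u * (g ^ i)⁻¹ with hv
  have hvRZ : v ∈ R ⊔ Sc n F := hgin i u huRZ
  have hk := (hA2 u huRZ v hvRZ).1
  have hk1 : u * v * u⁻¹ * v⁻¹ ≠ 1 := by
    intro h
    apply hne
    have h2 : u * v = (u * v * u⁻¹ * v⁻¹) * (v * u) := by group
    rw [h2, h, one_mul]
  obtain ⟨κ, hκ⟩ := (Cfsg.Geo.mem_scalars_iff _).mp hk
  have hκ1 : (κ : F) ≠ 1 := by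
    intro h
    apply hk1
    apply Units.ext
    rw [hκ, h, one_smul, Units.val_one]
  -- the intersection is trivial
  set yW := W.map (Matrix.toLin' (y : Matrix (Fin n) (Fin n) F)) with hyW
  have hinf : W ⊓ yW = ⊥ := by
    rw [Submodule.eq_bot_iff]
    intro w hw
    obtain ⟨hw1, hw2⟩ := Submodule.mem_inf.mp hw
    obtain ⟨w', hw', hyw'⟩ := Submodule.mem_map.mp hw2
    rw [hW, mem_eig_iff] at hw1 hw'
    have hyw : act y w' = w := by
      rw [← hyw', Matrix.toLin'_apply]; rfl
    have hyinv : act y⁻¹ w = w' := by rw [← hyw, act_inv_act]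
    have hfu : act u w = w := by
      rw [hu]
      show act (y * g * y⁻¹ * g⁻¹) w = w
      rw [act_mul, act_mul, act_mul, act_inv_of_eig g c hc w hw1, act_smul, hyinv, act_smul, hw',
        smul_smul, inv_mul_cancel₀ hc, one_smul, hyw]
    have hfv : act v w = w := by
      have hci : c ^ i ≠ 0 := pow_ne_zero i hc
      have h1 : act (g ^ i) w = c ^ i • w := act_pow_eig g c w hw1 i
      rw [hv, act_mul, act_mul, act_inv_of_eig (g ^ i) (c ^ i) hci w h1, act_smul, hfu, act_smul,
        h1, smul_smul, inv_mul_cancel₀ hci, one_smul]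
    have hfk : act (u * v * u⁻¹ * v⁻¹) w = w := by
      rw [act_mul, act_mul, act_mul, act_inv_of_fix v w hfv, act_inv_of_fix u w hfu, hfv, hfu]
    have hfk' : act (u * v * u⁻¹ * v⁻¹) w = (κ : F) • w := by
      unfold act
      rw [hκ, Matrix.smul_mulVec, Matrix.one_mulVec]
    rw [hfk] at hfk'
    have h3 : ((κ : F) - 1) • w = 0 := by
      rw [sub_smul, one_smul, ← hfk', sub_self]
    rcases smul_eq_zero.mp h3 with h4 | h4
    · exact absurd (sub_eq_zero.mp h4) hκ1
    · exact h4
  have hyinj : Function.Injective (Matrix.toLin' (y : Matrix (Fin n) (Fin n) F)) := by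
    rw [← LinearMap.ker_eq_bot, Submodule.eq_bot_iff]
    intro w hw
    rw [LinearMap.mem_ker, Matrix.toLin'_apply] at hw
    have h1 := act_inv_act y w
    have h2 : act y w = 0 := hw
    rw [h2, act_zero] at h1
    exact h1.symm
  have hfy : Module.finrank F yW = Module.finrank F W :=
    ((Submodule.equivMapOfInjective (Matrix.toLin' (y : Matrix (Fin n) (Fin n) F)) hyinj
      W).finrank_eq).symm
  have hsum := Submodule.finrank_sup_add_finrank_inf_eq W yW
  rw [hinf, finrank_bot, hfy] at hsum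
  have hle := Submodule.finrank_le (W ⊔ yW)
  rw [Module.finrank_fin_fun] at hle
  rw [hd]
  omega

end Cfsg.Agent.Lib.Helper37.ExKEY
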