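import Mathlib
import Cfsg.Agent.Lib.Helper24.ExStmt

/-!
# S5877, piece SHIFT (helper37)

Pure linear algebra: if `g b g⁻¹ = s b` with a scalar `s ≠ 1` and `g` has prime order `ϖ`,
then every eigenspace of `g` has dimension at most `n / ϖ`.
-/

set_option autoImplicit false

namespace Cfsg.Agent.Lib.Helper37.ExSHIFT

open Cfsg Cfsg.Agent.Lib.Helper24.ExStmt

universe u

/-- the dimensions of finitely many independent subspaces add up to at most the dimension of
the space -/
theorem sum_finrank_le {K V : Type*} [Field K] [AddCommGroup V] [Module K V]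
    [FiniteDimensional K V] {ι : Type*} [Fintype ι] [DecidableEq ι] (W : ι → Submodule K V)
    (h : iSupIndep W) :
    ∑ i, Module.finrank K (W i) ≤ Module.finrank K V := by
  have hinj := h.dfinsupp_lsum_injective
  have h1 := LinearMap.finrank_le_finrank_of_injective hinj
  have h2 : Module.finrank K (Π₀ i, W i) = ∑ i, Module.finrank K (W i) := by
    rw [← Module.finrank_pi_fintype]
    exact (DFinsupp.linearEquivFunOnFintype (R := K) (M := fun i => W i)).finrank_eq
  omega

/-- the matrix of `sc n s` -/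
theorem coe_sc {F : Type u} [Field F] (n : ℕ) (s : Fˣ) :
    ((sc n s : GLn n F) : Matrix (Fin n) (Fin n) F) = (s : F) • (1 : Matrix (Fin n) (Fin n) F) := by
  simp [sc, Matrix.smul_one_eq_diagonal]

/-- an eigenvalue of a matrix of finite order is a root of unity -/
theorem eig_pow {F : Type u} [Field F] {n : ℕ} (G : Matrix (Fin n) (Fin n) F) (k : ℕ)
    (hG : G ^ k = 1) (μ : F) (w : Fin n → F) (hw : G.mulVec w = μ • w) (hw0 : w ≠ 0) :
    μ ^ k = 1 := by
  have h1 : ∀ j : ℕ, (G ^ j).mulVec w = μ ^ j • w := by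
    intro j
    induction j with
    | zero => simp
    | succ j ih =>
      rw [pow_succ, ← Matrix.mulVec_mulVec, hw, Matrix.mulVec_smul, ih, smul_smul, pow_succ,
        mul_comm]
  have h2 := h1 k
  rw [hG, Matrix.one_mulVec] at h2
  by_contra hne
  have h3 : (μ ^ k - 1) • w = 0 := by
    rw [sub_smul, one_smul, ← h2, sub_self]
  rcases smul_eq_zero.mp h3 with h4 | h4
  · exact hne (sub_eq_zero.mp h4)
  · exact hw0 h4

theorem main : Shift.{u} := by
  intro F _ n g b s hs hgb ϖ hϖ hord c
  classical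
  have hdle : eDim g c ≤ n := by
    have h1 := Submodule.finrank_le
      (Module.End.eigenspace (Matrix.toLin' (g : Matrix (Fin n) (Fin n) F)) c)
    rw [Module.finrank_fin_fun] at h1
    exact h1
  by_cases hd0 : eDim g c = 0
  · rw [hd0]; simp
  set G : Matrix (Fin n) (Fin n) F := (g : Matrix (Fin n) (Fin n) F) with hG
  set B : Matrix (Fin n) (Fin n) F := (b : Matrix (Fin n) (Fin n) F) with hB
  have hGB : G * B = (s : F) • (B * G) := by
    have h1 : g * b = sc n s * b * g := by rw [← hgb]; group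
    have h2 := congrArg (fun x : GLn n F => (x : Matrix (Fin n) (Fin n) F)) h1
    simp only [Units.val_mul, coe_sc] at h2
    rw [hG, hB, h2]
    simp
  have hBinj : ∀ w : Fin n → F, B.mulVec w = 0 → w = 0 := by
    intro w hw
    have h1 : ((b⁻¹ : GLn n F) : Matrix (Fin n) (Fin n) F) * B = 1 := by
      rw [hB, ← Units.val_mul, inv_mul_cancel, Units.val_one]
    have h2 : (((b⁻¹ : GLn n F) : Matrix (Fin n) (Fin n) F) * B).mulVec w = 0 := by
      rw [← Matrix.mulVec_mulVec, hw, Matrix.mulVec_zero]
    rwa [h1, Matrix.one_mulVec] at h2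
  -- the shift of eigenvectors
  have hshift : ∀ (μ : F) (w : Fin n → F), G.mulVec w = μ • w →
      G.mulVec (B.mulVec w) = (s * μ) • B.mulVec w := by
    intro μ w hw
    rw [Matrix.mulVec_mulVec, hGB, Matrix.smul_mulVec, ← Matrix.mulVec_mulVec, hw,
      Matrix.mulVec_smul, smul_smul]
  set f : Module.End F (Fin n → F) := Matrix.toLin' G with hf
  have hmem : ∀ (μ : F) (w : Fin n → F), w ∈ Module.End.eigenspace f μ ↔ G.mulVec w = μ • w := by
    intro μ w
    rw [Module.End.mem_eigenspace_iff, hf, Matrix.toLin'_apply]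
  have hβinj : Function.Injective (Matrix.toLin' B) := by
    rw [← LinearMap.ker_eq_bot, Submodule.eq_bot_iff]
    intro w hw
    rw [LinearMap.mem_ker, Matrix.toLin'_apply] at hw
    exact hBinj w hw
  have hstep : ∀ μ : F, Module.finrank F (Module.End.eigenspace f μ) ≤
      Module.finrank F (Module.End.eigenspace f (s * μ)) := by
    intro μ
    have h1 := (Submodule.equivMapOfInjective (Matrix.toLin' B) hβinj
      (Module.End.eigenspace f μ)).finrank_eq
    rw [h1]
    apply Submodule.finrank_mono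
    rintro _ ⟨w, hw, rfl⟩
    rw [hmem, Matrix.toLin'_apply]
    exact hshift μ w ((hmem μ w).mp hw)
  have hd : eDim g c = Module.finrank F (Module.End.eigenspace f c) := rfl
  have hall : ∀ j : ℕ, eDim g c ≤
      Module.finrank F (Module.End.eigenspace f ((s : F) ^ j * c)) := by
    intro j
    induction j with
    | zero => rw [pow_zero, one_mul, hd]
    | succ j ih =>
      refine ih.trans ?_
      have h1 := hstep ((s : F) ^ j * c)
      rwa [← mul_assoc, ← pow_succ'] at h1
  -- a non-zero eigenvector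
  have hne : Module.End.eigenspace f c ≠ ⊥ := by
    intro h
    apply hd0
    rw [hd, h, finrank_bot]
  obtain ⟨w, hw, hw0⟩ := (Submodule.ne_bot_iff _).mp hne
  have hGpow : G ^ ϖ = 1 := by
    have h1 : g ^ ϖ = 1 := by rw [← hord]; exact pow_orderOf_eq_one g
    have h2 := congrArg (fun x : GLn n F => (x : Matrix (Fin n) (Fin n) F)) h1
    simpa using h2
  have hw' : G.mulVec w = c • w := (hmem c w).mp hw
  have hc : c ^ ϖ = 1 := eig_pow G ϖ hGpow c w hw' hw0
  have hsc : ((s : F) * c) ^ ϖ = 1 :=
    eig_pow G ϖ hGpow _ (B.mulVec w) (hshift c w hw') (fun h => hw0 (hBinj w h))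
  have hc0 : c ≠ 0 := by
    rintro rfl
    rw [zero_pow hϖ.ne_zero] at hc
    exact zero_ne_one hc
  have hsϖ : s ^ ϖ = 1 := by
    apply Units.ext
    rw [Units.val_pow_eq_pow_val, Units.val_one]
    rw [mul_pow, hc, mul_one] at hsc
    exact hsc
  haveI : Fact ϖ.Prime := ⟨hϖ⟩
  haveI : Fact ϖ.Prime := ⟨hϖ⟩
  have hos : orderOf s = ϖ := orderOf_eq_prime hsϖ hs
  have hinj : Function.Injective (fun j : Fin ϖ => (s : F) ^ (j : ℕ) * c) := by
    intro i j hij
    have h1 : (s : F) ^ (i : ℕ) = (s : F) ^ (j : ℕ) := mul_right_cancel₀ hc0 hij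
    have h2 : s ^ (i : ℕ) = s ^ (j : ℕ) := by
      apply Units.ext
      rw [Units.val_pow_eq_pow_val, Units.val_pow_eq_pow_val]
      exact h1
    have h3 := pow_injOn_Iio_orderOf (x := s)
      (by rw [hos]; exact Set.mem_Iio.mpr i.2) (by rw [hos]; exact Set.mem_Iio.mpr j.2) h2
    exact Fin.ext h3
  have hind := (Module.End.eigenspaces_iSupIndep f).comp hinj
  have hsum := sum_finrank_le _ hind
  rw [Module.finrank_fin_fun] at hsum
  have hlow : ∑ j : Fin ϖ, eDim g c ≤ ∑ j : Fin ϖ,
      Module.finrank F (Module.End.eigenspace f ((s : F) ^ (j : ℕ) * c)) :=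
    Finset.sum_le_sum (fun j _ => hall j)
  rw [Finset.sum_const, Finset.card_univ, Fintype.card_fin, smul_eq_mul] at hlow
  exact hlow.trans hsum

end Cfsg.Agent.Lib.Helper37.ExSHIFT
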