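import Mathlib
import Cfsg.Agent.Lib.Helper37.InvolDiag

set_option autoImplicit false

open scoped Matrix

namespace Cfsg.Agent.Lib.Helper37.Heis3A

open Module

section general

variable {F : Type*} [Field F] {V : Type*} [AddCommGroup V] [Module F V]

/-- For an endomorphism of order 3 (char ≠ 3), generalized eigenvectors are eigenvectors. -/
theorem cube_apply_of_mem_maxGenEigenspace (h3 : (3 : F) ≠ 0) (g : Module.End F V)
    (hg : ∀ x : V, g (g (g x)) = x) (μ : F) (v : V) (hv : v ∈ g.maxGenEigenspace μ) :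
    g v = μ • v := by
  rw [Module.End.mem_maxGenEigenspace] at hv
  obtain ⟨k, hk⟩ := hv
  induction k generalizing v with
  | zero =>
    have : v = 0 := by simpa using hk
    simp [this]
  | succ k ih =>
    have hw : ((g - μ • (1 : Module.End F V)) ^ k) ((g - μ • (1 : Module.End F V)) v) = 0 := by
      rw [pow_succ] at hk
      exact hk
    have h1 := ih _ hw
    simp only [LinearMap.sub_apply, LinearMap.smul_apply, Module.End.one_apply, map_sub,
      map_smul] at h1
    obtain ⟨w, hw'⟩ : ∃ w : V, w = g v - μ • v := ⟨_, rfl⟩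
    have e1 : g v = μ • v + w := by
      rw [hw']
      abel
    have e2 : g w = μ • w := by
      rw [hw', map_sub, map_smul]
      exact h1
    have e3 : g (g v) = (μ * μ) • v + (2 * μ) • w := by
      rw [e1, map_add, map_smul, e1, e2]
      module
    have e4 : g (g (g v)) = (μ * μ * μ) • v + (3 * (μ * μ)) • w := by
      rw [e3, map_add, map_smul, map_smul, e1, e2]
      module
    rw [hg] at e4
    have e5 : g (g (g w)) = (μ * μ * μ) • w := by
      rw [e2, map_smul, e2, map_smul, map_smul, e2]
      module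
    rw [hg] at e5
    have hw0 : w = 0 := by
      by_cases hμ : μ * μ * μ = 1
      · rw [hμ, one_smul] at e4
        have h5 : (3 * (μ * μ)) • w = 0 := by
          calc (3 * (μ * μ)) • w = (v + (3 * (μ * μ)) • w) - v := by abel
            _ = 0 := by rw [← e4, sub_self]
        rcases smul_eq_zero.mp h5 with h | h
        · exfalso
          rcases mul_eq_zero.mp h with h' | h'
          · exact h3 h'
          · have hμ0 : μ = 0 := by
              rcases mul_eq_zero.mp h' with h'' | h'' <;> exact h''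
            rw [hμ0] at hμ
            simp at hμ
        · exact h
      · have h5 : (1 - μ * μ * μ) • w = 0 := by
          rw [sub_smul, one_smul, ← e5, sub_self]
        rcases smul_eq_zero.mp h5 with h | h
        · exact absurd (sub_eq_zero.mp h).symm hμ
        · exact h
    rw [e1, hw0, add_zero]

/-- For an endomorphism of order 3 (char ≠ 3, with a primitive cube root of unity) the
eigenspaces span. -/
theorem cube_iSup_maxGenEigenspace (h3 : (3 : F) ≠ 0) (ω : F) (hω : ω ^ 2 + ω + 1 = 0)
    (g : Module.End F V) (hg : ∀ x : V, g (g (g x)) = x) : ⨆ μ, g.maxGenEigenspace μ = ⊤ := by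
  have hω3 : ω ^ 3 = 1 := by linear_combination (ω - 1) * hω
  rw [eq_top_iff]
  intro v _
  have h0 : (3 : F)⁻¹ • (v + g v + g (g v)) ∈ g.maxGenEigenspace 1 := by
    apply Module.End.eigenspace_le_maxGenEigenspace
    rw [Module.End.mem_eigenspace_iff, one_smul, map_smul, map_add, map_add, hg]
    congr 1
    abel
  have h1 : (3 : F)⁻¹ • (v + ω ^ 2 • g v + ω • g (g v)) ∈ g.maxGenEigenspace ω := by
    apply Module.End.eigenspace_le_maxGenEigenspace
    rw [Module.End.mem_eigenspace_iff, map_smul, map_add, map_add, map_smul, map_smul, hg]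
    have e : ω • (3 : F)⁻¹ • (v + ω ^ 2 • g v + ω • g (g v)) =
        (3 : F)⁻¹ • (ω • v + (ω ^ 3) • g v + ω ^ 2 • g (g v)) := by module
    rw [e, hω3, one_smul]
    congr 1
    abel
  have h2 : (3 : F)⁻¹ • (v + ω • g v + ω ^ 2 • g (g v)) ∈ g.maxGenEigenspace (ω ^ 2) := by
    apply Module.End.eigenspace_le_maxGenEigenspace
    rw [Module.End.mem_eigenspace_iff, map_smul, map_add, map_add, map_smul, map_smul, hg]
    have e : ω ^ 2 • (3 : F)⁻¹ • (v + ω • g v + ω ^ 2 • g (g v)) =
        (3 : F)⁻¹ • (ω ^ 2 • v + (ω ^ 3) • g v + (ω ^ 3 * ω) • g (g v)) := by module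
    rw [e, hω3, one_smul, one_mul]
    congr 1
    abel
  have hsum : v = (3 : F)⁻¹ • (v + g v + g (g v)) +
      (3 : F)⁻¹ • (v + ω ^ 2 • g v + ω • g (g v)) +
      (3 : F)⁻¹ • (v + ω • g v + ω ^ 2 • g (g v)) := by
    have e : (3 : F)⁻¹ • (v + g v + g (g v)) + (3 : F)⁻¹ • (v + ω ^ 2 • g v + ω • g (g v)) +
        (3 : F)⁻¹ • (v + ω • g v + ω ^ 2 • g (g v)) =
        ((3 : F)⁻¹ * 3) • v + ((3 : F)⁻¹ * (ω ^ 2 + ω + 1)) • g v +
          ((3 : F)⁻¹ * (ω ^ 2 + ω + 1)) • g (g v) := by module
    rw [e, hω, mul_zero, zero_smul, zero_smul, add_zero, add_zero, inv_mul_cancel₀ h3, one_smul]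
  rw [hsum]
  exact Submodule.add_mem _ (Submodule.add_mem _ (Submodule.mem_iSup_of_mem 1 h0)
    (Submodule.mem_iSup_of_mem ω h1)) (Submodule.mem_iSup_of_mem (ω ^ 2) h2)

/-- A commuting family of split semisimple endomorphisms has a simultaneous eigenbasis. -/
theorem exists_eigenbasis_split [FiniteDimensional F V] {α : Type*}
    (f : α → Module.End F V) (hcomm : ∀ a b, f a * f b = f b * f a)
    (htop : ∀ a, ⨆ μ, (f a).maxGenEigenspace μ = ⊤)
    (heig : ∀ a μ v, v ∈ (f a).maxGenEigenspace μ → f a v = μ • v) :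
    ∃ (b : Basis (Fin (finrank F V)) F V) (ε : Fin (finrank F V) → α → F),
      ∀ i a, f a (b i) = ε i a • b i := by
  classical
  have hpair : Pairwise fun i j ↦ Commute (f i) (f j) := fun i j _ => hcomm i j
  have htop' :=
    Module.End.iSup_iInf_maxGenEigenspace_eq_top_of_iSup_maxGenEigenspace_eq_top_of_commute f hpair
      htop
  have hind := Module.End.independent_iInf_maxGenEigenspace_of_forall_mapsTo f
    (fun i j φ => Module.End.mapsTo_maxGenEigenspace_of_comm (hcomm j i : Commute (f j) (f i)) φ)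
  have hint := DirectSum.isInternal_submodule_of_iSupIndep_of_iSup_eq_top hind htop'
  let W : (α → F) → Submodule F V := fun χ => ⨅ a, (f a).maxGenEigenspace (χ a)
  let bW : ∀ χ, Basis (Fin (finrank F (W χ))) F (W χ) := fun χ => Module.finBasis F (W χ)
  let b := hint.collectedBasis bW
  have := FiniteDimensional.fintypeBasisIndex b
  let e := Fintype.equivFinOfCardEq (Module.finrank_eq_card_basis b).symm
  refine ⟨b.reindex e, fun i a => (e.symm i).1 a, ?_⟩
  intro i a
  have hmem : b (e.symm i) ∈ W (e.symm i).1 := hint.collectedBasis_mem bW _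
  rw [Basis.reindex_apply]
  exact heig a _ _ ((Submodule.mem_iInf _).mp hmem a)

end general

section matrix

variable {F : Type*} [Field F]

theorem mulVec_cube {ι : Type*} [Fintype ι] [DecidableEq ι] (M : Matrix ι ι F) (hM : M ^ 3 = 1)
    (u : ι → F) : M *ᵥ (M *ᵥ (M *ᵥ u)) = u := by
  have h : (M ^ 3) *ᵥ u = u := by rw [hM, Matrix.one_mulVec]
  rw [pow_succ, pow_two, ← Matrix.mulVec_mulVec, ← Matrix.mulVec_mulVec] at h
  exact h

theorem eig_cube {ι : Type*} [Fintype ι] [DecidableEq ι] (M : Matrix ι ι F) (hM : M ^ 3 = 1)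
    (u : ι → F) (c : F) (hu : u ≠ 0) (hMu : M *ᵥ u = c • u) : c ^ 3 = 1 := by
  have h1 := mulVec_cube M hM u
  rw [hMu, Matrix.mulVec_smul, hMu, Matrix.mulVec_smul, Matrix.mulVec_smul, hMu, smul_smul,
    smul_smul] at h1
  have h2 : (c ^ 3 - 1) • u = 0 := by
    rw [sub_smul, one_smul]
    have e : c ^ 3 = c * c * c := by ring
    rw [e, h1, sub_self]
  rcases smul_eq_zero.mp h2 with h | h
  · exact sub_eq_zero.mp h
  · exact absurd h hu

/-- A commuting family of matrices of order 3 (char ≠ 3, with a primitive cube root of unity)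
has a simultaneous eigenbasis. -/
theorem exists_eigenbasis_matrix_cube {ι : Type*} [Fintype ι] [DecidableEq ι]
    (h3 : (3 : F) ≠ 0) (ω : F) (hω : ω ^ 2 + ω + 1 = 0) {α : Type*} (m : α → Matrix ι ι F)
    (hcomm : ∀ a b, m a * m b = m b * m a) (hcube : ∀ a, m a ^ 3 = 1) :
    ∃ (b : Basis ι F (ι → F)) (ε : ι → α → F), ∀ i a, (m a) *ᵥ (b i) = ε i a • b i := by
  have hc : ∀ a (x : ι → F),
      Matrix.toLin' (m a) (Matrix.toLin' (m a) (Matrix.toLin' (m a) x)) = x := by
    intro a x
    rw [Matrix.toLin'_apply, Matrix.toLin'_apply, Matrix.toLin'_apply]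
    exact mulVec_cube (m a) (hcube a) x
  obtain ⟨b, ε, h⟩ := exists_eigenbasis_split (fun a => Matrix.toLin' (m a))
    (fun a b => by
      rw [Module.End.mul_eq_comp, Module.End.mul_eq_comp, ← Matrix.toLin'_mul,
        ← Matrix.toLin'_mul, hcomm])
    (fun a => cube_iSup_maxGenEigenspace h3 ω hω _ (hc a))
    (fun a μ v hv => cube_apply_of_mem_maxGenEigenspace h3 _ (hc a) μ v hv)
  have hcard : Fintype.card ι = finrank F (ι → F) := by simp
  let e : Fin (finrank F (ι → F)) ≃ ι := (Fintype.equivFinOfCardEq hcard).symm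
  refine ⟨b.reindex e, fun i a => ε (e.symm i) a, ?_⟩
  intro i a
  rw [Basis.reindex_apply]
  simpa [Matrix.toLin'_apply] using h (e.symm i) a

end matrix

section group

/-- In a group of order 27 all commutators are central. -/
theorem comm_central {G : Type*} [Group G] (hG : Nat.card G = 27) (a b c : G) :
    (a * b * a⁻¹ * b⁻¹) * c = c * (a * b * a⁻¹ * b⁻¹) := by
  have h3p : Fact (Nat.Prime 3) := ⟨Nat.prime_three⟩
  have hfin : Finite G := Nat.finite_of_card_ne_zero (by rw [hG]; norm_num)
  have hnt : Nontrivial G := Finite.one_lt_card_iff_nontrivial.mp (by rw [hG]; norm_num)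
  have hp : IsPGroup 3 G := IsPGroup.of_card (n := 3) (by rw [hG]; norm_num)
  have hZnt : Nontrivial (Subgroup.center G) := hp.center_nontrivial
  have hZ1 : 1 < Nat.card (Subgroup.center G) := Finite.one_lt_card_iff_nontrivial.mpr hZnt
  have hmul := Subgroup.card_mul_index (Subgroup.center G)
  rw [hG] at hmul
  have hidx : Nat.card (G ⧸ Subgroup.center G) = (Subgroup.center G).index := rfl
  have hcases : (Subgroup.center G).index = 1 ∨ (Subgroup.center G).index = 3 ∨
      (Subgroup.center G).index = 9 := by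
    have hdvd : (Subgroup.center G).index ∣ 3 ^ 3 := by
      norm_num
      exact Dvd.intro_left _ hmul
    obtain ⟨m, hm, hm'⟩ := (Nat.dvd_prime_pow Nat.prime_three).mp hdvd
    interval_cases m
    · left
      simpa using hm'
    · right
      left
      simpa using hm'
    · right
      right
      simpa using hm'
    · exfalso
      rw [hm'] at hmul
      have h27 : (3 : ℕ) ^ 3 = 27 := by norm_num
      rw [h27] at hmul
      omega
  have hcomm : ∀ x y : G ⧸ Subgroup.center G, x * y = y * x := by
    rcases hcases with h | h | h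
    · have hss : Subsingleton (G ⧸ Subgroup.center G) :=
        (Nat.card_eq_one_iff_unique.mp (by rw [hidx, h])).1
      intro x y
      rw [Subsingleton.elim x y]
    · have hc : IsCyclic (G ⧸ Subgroup.center G) :=
        isCyclic_of_prime_card (p := 3) (by rw [hidx, h])
      intro x y
      exact (IsCyclic.isMulCommutative (α := G ⧸ Subgroup.center G)).is_comm.comm x y
    · have hc : IsMulCommutative (G ⧸ Subgroup.center G) :=
        IsPGroup.isMulCommutative_of_card_eq_prime_sq (p := 3) (by rw [hidx, h]; norm_num)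
      intro x y
      exact hc.is_comm.comm x y
  have h1 : ((a * b * a⁻¹ * b⁻¹ : G) : G ⧸ Subgroup.center G) = 1 := by
    rw [QuotientGroup.mk_mul, QuotientGroup.mk_mul, QuotientGroup.mk_mul, hcomm (↑a) (↑b),
      QuotientGroup.mk_inv, QuotientGroup.mk_inv]
    group
  have h2 : a * b * a⁻¹ * b⁻¹ ∈ Subgroup.center G := (QuotientGroup.eq_one_iff _).mp h1
  exact (Subgroup.mem_center_iff.mp h2 c).symm

/-- Two non-commuting elements of a group of order 27 generate it. -/
theorem closure_eq_of_noncomm {G : Type*} [Group G] (R : Subgroup G) (hR : Nat.card R = 27)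
    (g h : G) (hg : g ∈ R) (hh : h ∈ R) (hgh : g * h ≠ h * g) :
    Subgroup.closure {g, h} = R := by
  have h3p : Fact (Nat.Prime 3) := ⟨Nat.prime_three⟩
  have hfin : Finite R := Nat.finite_of_card_ne_zero (by rw [hR]; norm_num)
  obtain ⟨C, hC⟩ : ∃ C : Subgroup G, C = Subgroup.closure {g, h} := ⟨_, rfl⟩
  rw [← hC]
  have hle : C ≤ R := by
    rw [hC, Subgroup.closure_le]
    intro x hx
    rcases hx with rfl | rfl
    · exact hg
    · exact hh
  have hgC : g ∈ C := by
    rw [hC]
    exact Subgroup.subset_closure (Set.mem_insert _ _)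
  have hhC : h ∈ C := by
    rw [hC]
    exact Subgroup.subset_closure (Set.mem_insert_of_mem _ rfl)
  have hnc : ¬ ∀ x y : ↥C, x * y = y * x := by
    intro hc
    apply hgh
    have := hc ⟨g, hgC⟩ ⟨h, hhC⟩
    exact congrArg Subtype.val this
  have hdvd : Nat.card C ∣ 3 ^ 3 := by
    have := Subgroup.card_dvd_of_le hle
    rw [hR] at this
    norm_num
    exact this
  obtain ⟨m, hm, hm'⟩ := (Nat.dvd_prime_pow Nat.prime_three).mp hdvd
  interval_cases m
  · exfalso
    apply hnc
    have hss : Subsingleton ↥C := (Nat.card_eq_one_iff_unique.mp (by simpa using hm')).1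
    intro x y
    rw [Subsingleton.elim x y]
  · exfalso
    apply hnc
    have hc : IsCyclic ↥C := isCyclic_of_prime_card (p := 3) (by simpa using hm')
    intro x y
    exact (IsCyclic.isMulCommutative (α := ↥C)).is_comm.comm x y
  · exfalso
    apply hnc
    have hc : IsMulCommutative ↥C := IsPGroup.isMulCommutative_of_card_eq_prime_sq (p := 3) hm'
    intro x y
    exact hc.is_comm.comm x y
  · apply Subgroup.eq_of_le_of_card_ge hle
    rw [hR, hm']
    norm_num

/-- An element conjugating two generators of a finite subgroup into it normalizes it. -/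
theorem mem_normalizer_of_closure {G : Type*} [Group G] (R : Subgroup G) [Finite R] (g h M : G)
    (hgen : Subgroup.closure {g, h} = R) (hg : M * g * M⁻¹ ∈ R) (hh : M * h * M⁻¹ ∈ R) :
    M ∈ Subgroup.normalizer (R : Set G) := by
  have hle0 : Subgroup.closure {g, h} ≤ R.comap (MulAut.conj M).toMonoidHom := by
    rw [Subgroup.closure_le]
    intro x hx
    rcases hx with rfl | rfl
    · exact hg
    · exact hh
  rw [hgen] at hle0
  have hcard : Nat.card (R.comap (MulAut.conj M).toMonoidHom) = Nat.card R := by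
    rw [Subgroup.comap_equiv_eq_map_symm']
    exact Subgroup.card_map_of_injective (MulEquiv.injective _)
  have hfinK : Finite ↥(R.comap (MulAut.conj M).toMonoidHom) :=
    Nat.finite_of_card_ne_zero (by rw [hcard]; exact Nat.card_pos.ne')
  have heq : R = R.comap (MulAut.conj M).toMonoidHom :=
    Subgroup.eq_of_le_of_card_ge hle0 (le_of_eq hcard)
  rw [Subgroup.mem_normalizer_iff]
  intro t
  constructor
  · intro ht
    have h1 : t ∈ R.comap (MulAut.conj M).toMonoidHom := by
      rw [← heq]
      exact ht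
    exact h1
  · intro ht
    have h1 : t ∈ R.comap (MulAut.conj M).toMonoidHom := ht
    rw [← heq] at h1
    exact h1

theorem five_le_of_prime {r : ℕ} (hr : r.Prime) (h2 : r ≠ 2) (h3 : r ≠ 3) : 5 ≤ r := by
  by_contra h
  push Not at h
  have := hr.two_le
  have h4 : r = 4 := by omega
  rw [h4] at hr
  exact absurd hr (by norm_num)

theorem not_dvd_two_three {r : ℕ} (hr : r.Prime) (h5 : 5 ≤ r) (a b : ℕ) :
    ¬ r ∣ 2 ^ a * 3 ^ b := by
  intro h
  rcases (Nat.Prime.dvd_mul hr).mp h with h2 | h2
  · have := (Nat.prime_dvd_prime_iff_eq hr Nat.prime_two).mp (hr.dvd_of_dvd_pow h2)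
    omega
  · have := (Nat.prime_dvd_prime_iff_eq hr Nat.prime_three).mp (hr.dvd_of_dvd_pow h2)
    omega

end group

end Cfsg.Agent.Lib.Helper37.Heis3A
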