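import Mathlib
import Cfsg.Prelude.Def_GeometricClasses
import Cfsg.Agent.Lib.Helper37.CubeUnip
import Cfsg.Agent.Lib.Helper37.Heis3A

set_option autoImplicit false

open scoped MatrixGroups Matrix

namespace Cfsg.Agent.Lib.Helper37.Heis3B

open Module Cfsg.Agent.Lib.Helper37.Heis3A

variable {F : Type*} [Field F]

theorem zeta_cube {ζ : F} (hζ : ζ ^ 2 + ζ + 1 = 0) : ζ ^ 3 = 1 := by
  linear_combination (ζ - 1) * hζ

theorem zeta_ne_one (h3 : (3 : F) ≠ 0) {ζ : F} (hζ : ζ ^ 2 + ζ + 1 = 0) : ζ ≠ 1 := by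
  rintro rfl
  apply h3
  linear_combination hζ

theorem zeta_ne_zero {ζ : F} (hζ : ζ ^ 2 + ζ + 1 = 0) : ζ ≠ 0 := by
  rintro rfl
  simp at hζ

/-- The cube roots of unity are the powers of a primitive one. -/
theorem cube_root_cases {ζ : F} (hζ : ζ ^ 2 + ζ + 1 = 0) (δ : F) (hδ : δ ^ 3 = 1) :
    δ = 1 ∨ δ = ζ ∨ δ = ζ ^ 2 := by
  have h : (δ - 1) * ((δ - ζ) * (δ - ζ ^ 2)) = 0 := by
    linear_combination hδ + (δ - 1) * (ζ - 1 - δ) * hζ
  rcases mul_eq_zero.mp h with h1 | h1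
  · left
    exact sub_eq_zero.mp h1
  · rcases mul_eq_zero.mp h1 with h2 | h2
    · right
      left
      exact sub_eq_zero.mp h2
    · right
      right
      exact sub_eq_zero.mp h2

theorem exists_pow_of_cube {ζ : F} (hζ : ζ ^ 2 + ζ + 1 = 0) (δ : F) (hδ : δ ^ 3 = 1) :
    ∃ a : ℕ, ζ ^ a = δ := by
  rcases cube_root_cases hζ δ hδ with h | h | h
  · exact ⟨0, by rw [h, pow_zero]⟩
  · exact ⟨1, by rw [h, pow_one]⟩
  · exact ⟨2, by rw [h]⟩

theorem ext_basis (B : Basis (Fin 3) F (Fin 3 → F)) (X Y : Matrix (Fin 3) (Fin 3) F)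
    (h : ∀ i, X *ᵥ B i = Y *ᵥ B i) : X = Y := by
  apply Matrix.toLin'.injective
  apply B.ext
  intro i
  rw [Matrix.toLin'_apply, Matrix.toLin'_apply]
  exact h i

theorem exists_scalar (s : F) (hs : s ≠ 0) :
    ∃ Sg : GL (Fin 3) F, (Sg : Matrix (Fin 3) (Fin 3) F) = s • (1 : Matrix (Fin 3) (Fin 3) F) := by
  refine ⟨⟨s • 1, s⁻¹ • 1, ?_, ?_⟩, rfl⟩
  · rw [Matrix.smul_mul, Matrix.mul_smul, Matrix.one_mul, smul_smul, mul_inv_cancel₀ hs,
      one_smul]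
  · rw [Matrix.smul_mul, Matrix.mul_smul, Matrix.one_mul, smul_smul, inv_mul_cancel₀ hs,
      one_smul]

theorem exists_gl_of_equiv (L : (Fin 3 → F) ≃ₗ[F] (Fin 3 → F)) :
    ∃ M : GL (Fin 3) F, ∀ v, (M : Matrix (Fin 3) (Fin 3) F) *ᵥ v = L v :=
  ⟨⟨LinearMap.toMatrix' (L : (Fin 3 → F) →ₗ[F] (Fin 3 → F)),
      LinearMap.toMatrix' (L.symm : (Fin 3 → F) →ₗ[F] (Fin 3 → F)),
      by rw [← LinearMap.toMatrix'_comp]; simp, by rw [← LinearMap.toMatrix'_comp]; simp⟩,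
    fun v => by
      show (LinearMap.toMatrix' (L : (Fin 3 → F) →ₗ[F] (Fin 3 → F))) *ᵥ v = L v
      rw [← Matrix.toLin'_apply, Matrix.toLin'_toMatrix']
      rfl⟩

theorem mem_SL_iff (g : GL (Fin 3) F) :
    g ∈ Cfsg.Geo.specialLinear (Fin 3) F ↔ (g : Matrix (Fin 3) (Fin 3) F).det = 1 := by
  unfold Cfsg.Geo.specialLinear
  rw [MonoidHom.mem_ker]
  constructor
  · intro h
    have := congrArg Units.val h
    simpa using this
  · intro h
    apply Units.ext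
    simpa using h

/-- Scalar multiples of elements of the normalizer lie in the normalizer. -/
theorem smul_mem_normalizer (R : Subgroup (GL (Fin 3) F)) (M M' : GL (Fin 3) F)
    (hM : M ∈ Cfsg.Geo.subgroupNormalizer R) (s : F) (hs : s ≠ 0)
    (hM' : (M' : Matrix (Fin 3) (Fin 3) F) = s • (M : Matrix (Fin 3) (Fin 3) F)) :
    M' ∈ Cfsg.Geo.subgroupNormalizer R := by
  obtain ⟨Sg, hSg⟩ := exists_scalar s hs
  have hcen : Sg ∈ Subgroup.center (GL (Fin 3) F) := by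
    rw [Subgroup.mem_center_iff]
    intro t
    apply Units.ext
    rw [Units.val_mul, Units.val_mul, hSg, Matrix.mul_smul, Matrix.smul_mul, Matrix.mul_one,
      Matrix.one_mul]
  have hSgN : Sg ∈ Cfsg.Geo.subgroupNormalizer R := Subgroup.center_le_normalizer _ hcen
  have e : M' = Sg * M := by
    apply Units.ext
    rw [Units.val_mul, hSg, hM', Matrix.smul_mul, Matrix.one_mul]
  rw [e]
  exact Subgroup.mul_mem _ hSgN hM

/-- The structure of a pair of matrices of order 3 whose commutator is central of order 3: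
a basis in which the first is diagonal and the second a cyclic shift. -/
theorem exists_basis (h3 : (3 : F) ≠ 0) (ω : F) (hω : ω ^ 2 + ω + 1 = 0)
    (g h z : Matrix (Fin 3) (Fin 3) F)
    (hg3 : g ^ 3 = 1) (hh3 : h ^ 3 = 1) (hz3 : z ^ 3 = 1) (hz1 : z ≠ 1)
    (hgh : g * h = z * h * g) (hzg : z * g = g * z) (hzh : z * h = h * z) :
    ∃ (ζ : F) (B : Basis (Fin 3) F (Fin 3 → F)), ζ ^ 2 + ζ + 1 = 0 ∧
      z = ζ • (1 : Matrix (Fin 3) (Fin 3) F) ∧
      (∀ i : Fin 3, g *ᵥ B i = ζ ^ (i : ℕ) • B i) ∧ (∀ i : Fin 3, h *ᵥ B i = B (i + 1)) ∧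
      g.det = 1 := by
  classical
  obtain ⟨b, ε, hb⟩ := exists_eigenbasis_matrix_cube h3 ω hω (fun a : Bool => if a then z else g)
    (by intro a c; cases a <;> cases c <;> simp [hzg])
    (by intro a; cases a <;> simp [hg3, hz3])
  have hbz : ∀ i, z *ᵥ b i = ε i true • b i := fun i => by simpa using hb i true
  have hbg : ∀ i, g *ᵥ b i = ε i false • b i := fun i => by simpa using hb i false
  have hex : ∃ i, ε i true ≠ 1 := by
    by_contra hall
    push Not at hall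
    apply hz1
    apply ext_basis b
    intro i
    rw [hbz, hall, one_smul, Matrix.one_mulVec]
  obtain ⟨i₀, hi₀⟩ := hex
  obtain ⟨ζ, hζdef⟩ : ∃ ζ : F, ζ = ε i₀ true := ⟨_, rfl⟩
  obtain ⟨δ, hδdef⟩ : ∃ δ : F, δ = ε i₀ false := ⟨_, rfl⟩
  obtain ⟨v, hvdef⟩ : ∃ v : Fin 3 → F, v = b i₀ := ⟨_, rfl⟩
  have hv0 : v ≠ 0 := by
    rw [hvdef]
    exact b.ne_zero i₀
  have hzv : z *ᵥ v = ζ • v := by
    rw [hvdef, hζdef]
    exact hbz i₀
  have hgv : g *ᵥ v = δ • v := by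
    rw [hvdef, hδdef]
    exact hbg i₀
  have hζ3 : ζ ^ 3 = 1 := eig_cube z hz3 v ζ hv0 hzv
  have hζ1 : ζ ≠ 1 := by
    rw [hζdef]
    exact hi₀
  have hζ : ζ ^ 2 + ζ + 1 = 0 := by
    have h1 : (ζ - 1) * (ζ ^ 2 + ζ + 1) = 0 := by linear_combination hζ3
    rcases mul_eq_zero.mp h1 with h | h
    · exact absurd (sub_eq_zero.mp h) hζ1
    · exact h
  have hζ0 : ζ ≠ 0 := zeta_ne_zero hζ
  have hδ3 : δ ^ 3 = 1 := eig_cube g hg3 v δ hv0 hgv
  have hshift : ∀ (u : Fin 3 → F) (c : F), z *ᵥ u = ζ • u → g *ᵥ u = c • u →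
      z *ᵥ (h *ᵥ u) = ζ • (h *ᵥ u) ∧ g *ᵥ (h *ᵥ u) = (c * ζ) • (h *ᵥ u) := by
    intro u c hzu hgu
    have e1 : z *ᵥ (h *ᵥ u) = ζ • (h *ᵥ u) := by
      rw [Matrix.mulVec_mulVec, hzh, ← Matrix.mulVec_mulVec, hzu, Matrix.mulVec_smul]
    refine ⟨e1, ?_⟩
    rw [Matrix.mulVec_mulVec, hgh, ← Matrix.mulVec_mulVec, ← Matrix.mulVec_mulVec, hgu,
      Matrix.mulVec_smul, Matrix.mulVec_smul, e1, smul_smul]
  have hhne : ∀ u : Fin 3 → F, u ≠ 0 → h *ᵥ u ≠ 0 := by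
    intro u hu h0
    have h1 := mulVec_cube h hh3 u
    rw [h0, Matrix.mulVec_zero, Matrix.mulVec_zero] at h1
    exact hu h1.symm
  obtain ⟨v₀, hv₀0, hzv₀, hgv₀⟩ : ∃ v₀ : Fin 3 → F, v₀ ≠ 0 ∧ z *ᵥ v₀ = ζ • v₀ ∧
      g *ᵥ v₀ = v₀ := by
    rcases cube_root_cases hζ δ hδ3 with hδ | hδ | hδ
    · exact ⟨v, hv0, hzv, by rw [hgv, hδ, one_smul]⟩
    · obtain ⟨e1, e2⟩ := hshift v δ hzv hgv
      obtain ⟨e3, e4⟩ := hshift _ _ e1 e2
      refine ⟨h *ᵥ (h *ᵥ v), hhne _ (hhne _ hv0), e3, ?_⟩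
      rw [e4, hδ]
      have e : ζ * ζ * ζ = 1 := by
        rw [← hζ3]
        ring
      rw [e, one_smul]
    · obtain ⟨e1, e2⟩ := hshift v δ hzv hgv
      refine ⟨h *ᵥ v, hhne _ hv0, e1, ?_⟩
      rw [e2, hδ]
      have e : ζ ^ 2 * ζ = 1 := by
        rw [← hζ3]
        ring
      rw [e, one_smul]
  obtain ⟨e1, e2⟩ := hshift v₀ 1 hzv₀ (by rw [hgv₀, one_smul])
  obtain ⟨e3, e4⟩ := hshift _ _ e1 e2
  rw [one_mul] at e2 e4
  obtain ⟨w, hw⟩ : ∃ w : Fin 3 → (Fin 3 → F), w = ![v₀, h *ᵥ v₀, h *ᵥ (h *ᵥ v₀)] := ⟨_, rfl⟩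
  obtain ⟨ρ, hρ⟩ : ∃ ρ : Fin 3 → F, ρ = ![1, ζ, ζ * ζ] := ⟨_, rfl⟩
  have hρ0 : ρ 0 = 1 := by rw [hρ]; rfl
  have hρ1 : ρ 1 = ζ := by rw [hρ]; rfl
  have hρ2 : ρ 2 = ζ * ζ := by rw [hρ]; rfl
  have hζζ1 : ζ * ζ ≠ 1 := by
    intro h2
    apply hζ1
    linear_combination hζ3 - ζ * h2
  have hζζ : ζ ≠ ζ * ζ := by
    intro h2
    apply hζ1
    apply mul_left_cancel₀ hζ0
    linear_combination -h2
  have hρinj : Function.Injective ρ := by
    intro i j hij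
    fin_cases i <;> fin_cases j
    · rfl
    · exfalso
      change ρ 0 = ρ 1 at hij
      rw [hρ0, hρ1] at hij
      exact hζ1 hij.symm
    · exfalso
      change ρ 0 = ρ 2 at hij
      rw [hρ0, hρ2] at hij
      exact hζζ1 hij.symm
    · exfalso
      change ρ 1 = ρ 0 at hij
      rw [hρ0, hρ1] at hij
      exact hζ1 hij
    · rfl
    · exfalso
      change ρ 1 = ρ 2 at hij
      rw [hρ1, hρ2] at hij
      exact hζζ hij
    · exfalso
      change ρ 2 = ρ 0 at hij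
      rw [hρ0, hρ2] at hij
      exact hζζ1 hij
    · exfalso
      change ρ 2 = ρ 1 at hij
      rw [hρ1, hρ2] at hij
      exact hζζ hij.symm
    · rfl
  have hw0' : w 0 = v₀ := by rw [hw]; rfl
  have hw1' : w 1 = h *ᵥ v₀ := by rw [hw]; rfl
  have hw2' : w 2 = h *ᵥ (h *ᵥ v₀) := by rw [hw]; rfl
  have hgw : ∀ i, g *ᵥ w i = ρ i • w i := by
    intro i
    fin_cases i
    · show g *ᵥ w 0 = ρ 0 • w 0
      rw [hw0', hρ0, hgv₀, one_smul]
    · show g *ᵥ w 1 = ρ 1 • w 1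
      rw [hw1', hρ1]
      exact e2
    · show g *ᵥ w 2 = ρ 2 • w 2
      rw [hw2', hρ2]
      exact e4
  have hw0 : ∀ i, w i ≠ 0 := by
    intro i
    fin_cases i
    · show w 0 ≠ 0
      rw [hw0']
      exact hv₀0
    · show w 1 ≠ 0
      rw [hw1']
      exact hhne _ hv₀0
    · show w 2 ≠ 0
      rw [hw2']
      exact hhne _ (hhne _ hv₀0)
  have hli : LinearIndependent F w := by
    apply Module.End.eigenvectors_linearIndependent' (Matrix.toLin' g) ρ hρinj w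
    intro i
    refine ⟨Module.End.mem_eigenspace_iff.mpr ?_, hw0 i⟩
    rw [Matrix.toLin'_apply]
    exact hgw i
  have hspan : Submodule.span F (Set.range w) = ⊤ :=
    hli.span_eq_top_of_card_eq_finrank' (by rw [Module.finrank_fintype_fun_eq_card])
  obtain ⟨B, hB⟩ : ∃ B : Basis (Fin 3) F (Fin 3 → F), ∀ i, B i = w i :=
    ⟨Basis.mk hli hspan.ge, fun i => by rw [Basis.mk_apply]⟩
  have hB0 : B 0 = v₀ := by rw [hB, hw0']
  have hB1 : B 1 = h *ᵥ v₀ := by rw [hB, hw1']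
  have hB2 : B 2 = h *ᵥ (h *ᵥ v₀) := by rw [hB, hw2']
  have hgB : ∀ i : Fin 3, g *ᵥ B i = ζ ^ (i : ℕ) • B i := by
    intro i
    fin_cases i
    · show g *ᵥ B 0 = ζ ^ 0 • B 0
      rw [hB0, pow_zero, one_smul]
      exact hgv₀
    · show g *ᵥ B 1 = ζ ^ 1 • B 1
      rw [hB1, pow_one]
      exact e2
    · show g *ᵥ B 2 = ζ ^ 2 • B 2
      rw [hB2, pow_two]
      exact e4
  refine ⟨ζ, B, hζ, ?_, hgB, ?_, ?_⟩
  · apply ext_basis B
    intro i
    rw [Matrix.smul_mulVec, Matrix.one_mulVec]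
    fin_cases i
    · show z *ᵥ B 0 = ζ • B 0
      rw [hB0]
      exact hzv₀
    · show z *ᵥ B 1 = ζ • B 1
      rw [hB1]
      exact e1
    · show z *ᵥ B 2 = ζ • B 2
      rw [hB2]
      exact e3
  · intro i
    fin_cases i
    · show h *ᵥ B 0 = B 1
      rw [hB0, hB1]
    · show h *ᵥ B 1 = B 2
      rw [hB1, hB2]
    · show h *ᵥ B 2 = B 0
      rw [hB2, hB0]
      exact mulVec_cube h hh3 v₀
  · rw [← LinearMap.det_toLin', Cfsg.Agent.Lib.Helper37.CubeUnip.det_of_diag B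
      (fun i : Fin 3 => ζ ^ (i : ℕ)) (Matrix.toLin' g)
      (fun j => by rw [Matrix.toLin'_apply]; exact hgB j), Fin.prod_univ_three]
    show ζ ^ 0 * ζ ^ 1 * ζ ^ 2 = 1
    linear_combination hζ3

/-- The standard form of an extraspecial group of order 27 and exponent 3 in `GL_3`. -/
structure IsStd (R : Subgroup (GL (Fin 3) F)) (g h : GL (Fin 3) F) (ζ : F)
    (B : Basis (Fin 3) F (Fin 3 → F)) : Prop where
  card : Nat.card R = 27
  g_mem : g ∈ R
  h_mem : h ∈ R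
  zeta : ζ ^ 2 + ζ + 1 = 0
  scalar_mem : ∀ s : GL (Fin 3) F,
    (s : Matrix (Fin 3) (Fin 3) F) = ζ • (1 : Matrix (Fin 3) (Fin 3) F) → s ∈ R
  g_apply : ∀ i : Fin 3, (g : Matrix (Fin 3) (Fin 3) F) *ᵥ B i = ζ ^ (i : ℕ) • B i
  h_apply : ∀ i : Fin 3, (h : Matrix (Fin 3) (Fin 3) F) *ᵥ B i = B (i + 1)
  gen : Subgroup.closure {g, h} = R
  det_g : (g : Matrix (Fin 3) (Fin 3) F).det = 1
  det_h : (h : Matrix (Fin 3) (Fin 3) F).det = 1

/-- Every non-abelian subgroup of order 27 and exponent 3 of `GL_3(F)` is in standard form. -/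
theorem exists_std (h3 : (3 : F) ≠ 0) (ω : F) (hω : ω ^ 2 + ω + 1 = 0)
    (R : Subgroup (GL (Fin 3) F)) (hR : Nat.card R = 27) (hRe : Monoid.exponent R = 3)
    (hRna : ¬ IsMulCommutative R) :
    ∃ (g h : GL (Fin 3) F) (ζ : F) (B : Basis (Fin 3) F (Fin 3 → F)), IsStd R g h ζ B := by
  classical
  have hex : ∃ a b : ↥R, a * b ≠ b * a := by
    by_contra hall
    push Not at hall
    exact hRna ⟨⟨hall⟩⟩
  obtain ⟨a, b, hab⟩ := hex
  have hcube : ∀ t : ↥R, t ^ 3 = 1 := by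
    intro t
    have h1 := Monoid.pow_exponent_eq_one t
    rw [hRe] at h1
    exact h1
  obtain ⟨c, hc⟩ : ∃ c : ↥R, c = a * b * a⁻¹ * b⁻¹ := ⟨_, rfl⟩
  have hcc : ∀ t : ↥R, c * t = t * c := by
    intro t
    rw [hc]
    exact comm_central hR a b t
  have hcc' : ∀ t : ↥R, c⁻¹ * t = t * c⁻¹ := by
    intro t
    calc c⁻¹ * t = c⁻¹ * (t * c) * c⁻¹ := by group
      _ = c⁻¹ * (c * t) * c⁻¹ := by rw [hcc t]
      _ = t * c⁻¹ := by group
  have hc1 : c ≠ 1 := by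
    intro h1
    apply hab
    rw [hc] at h1
    calc a * b = (a * b * a⁻¹ * b⁻¹) * (b * a) := by group
      _ = b * a := by rw [h1, one_mul]
  have hc1' : c⁻¹ ≠ 1 := by
    intro h1
    apply hc1
    rw [← inv_inv c, h1, inv_one]
  have hrel : a * b = c * b * a := by
    rw [hc]
    group
  have hrel' : b * a = c⁻¹ * a * b := by
    rw [mul_assoc, hrel]
    group
  have hval3 : ∀ t : ↥R, ((t : GL (Fin 3) F) : Matrix (Fin 3) (Fin 3) F) ^ 3 = 1 := by
    intro t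
    have h1 : ((t ^ 3 : ↥R) : GL (Fin 3) F) = 1 := by
      rw [hcube]
      rfl
    rw [Subgroup.coe_pow] at h1
    have h2 := congrArg Units.val h1
    rw [Units.val_pow_eq_pow_val] at h2
    exact h2
  have hne : ∀ t : ↥R, t ≠ 1 → ((t : GL (Fin 3) F) : Matrix (Fin 3) (Fin 3) F) ≠ 1 := by
    intro t ht h1
    apply ht
    apply Subtype.ext
    apply Units.ext
    exact h1
  have hmul : ∀ s t u : ↥R, s = t * u → ((s : GL (Fin 3) F) : Matrix (Fin 3) (Fin 3) F) =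
      ((t : GL (Fin 3) F) : Matrix (Fin 3) (Fin 3) F) *
        ((u : GL (Fin 3) F) : Matrix (Fin 3) (Fin 3) F) := by
    intro s t u h
    rw [h]
    rfl
  obtain ⟨ζ, B, hζ, hz, hgB, hhB, hdetg⟩ := exists_basis h3 ω hω
    ((a : GL (Fin 3) F) : Matrix (Fin 3) (Fin 3) F) ((b : GL (Fin 3) F) : Matrix (Fin 3) (Fin 3) F)
    ((c : GL (Fin 3) F) : Matrix (Fin 3) (Fin 3) F) (hval3 a) (hval3 b) (hval3 c) (hne c hc1)
    (by rw [← hmul (a * b) a b rfl, hrel, hmul (c * b * a) (c * b) a rfl, hmul (c * b) c b rfl])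
    (by rw [← hmul (c * a) c a rfl, hcc a, hmul (a * c) a c rfl])
    (by rw [← hmul (c * b) c b rfl, hcc b, hmul (b * c) b c rfl])
  obtain ⟨ζ', B', -, -, -, -, hdeth⟩ := exists_basis h3 ω hω
    ((b : GL (Fin 3) F) : Matrix (Fin 3) (Fin 3) F) ((a : GL (Fin 3) F) : Matrix (Fin 3) (Fin 3) F)
    ((c⁻¹ : ↥R) : GL (Fin 3) F) (hval3 b) (hval3 a) (hval3 c⁻¹) (hne c⁻¹ hc1')
    (by rw [← hmul (b * a) b a rfl, hrel', hmul (c⁻¹ * a * b) (c⁻¹ * a) b rfl,
      hmul (c⁻¹ * a) c⁻¹ a rfl])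
    (by rw [← hmul (c⁻¹ * b) c⁻¹ b rfl, hcc' b, hmul (b * c⁻¹) b c⁻¹ rfl])
    (by rw [← hmul (c⁻¹ * a) c⁻¹ a rfl, hcc' a, hmul (a * c⁻¹) a c⁻¹ rfl])
  refine ⟨a, b, ζ, B, ⟨hR, a.2, b.2, hζ, ?_, hgB, hhB, ?_, hdetg, hdeth⟩⟩
  · intro s hs
    have e : s = (c : GL (Fin 3) F) := by
      apply Units.ext
      rw [hs, hz]
    rw [e]
    exact c.2
  · apply closure_eq_of_noncomm R hR _ _ a.2 b.2
    intro h1
    apply hab
    apply Subtype.ext
    exact h1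

section std

variable {R : Subgroup (GL (Fin 3) F)} {g h : GL (Fin 3) F} {ζ : F}
  {B : Basis (Fin 3) F (Fin 3 → F)}

theorem le_SL (S : IsStd R g h ζ B) : R ≤ Cfsg.Geo.specialLinear (Fin 3) F := by
  rw [← S.gen, Subgroup.closure_le]
  intro x hx
  rcases hx with rfl | rfl
  · exact (mem_SL_iff _).2 S.det_g
  · exact (mem_SL_iff _).2 S.det_h

theorem g_pow_apply (S : IsStd R g h ζ B) (n : ℕ) (i : Fin 3) :
    ((g ^ n : GL (Fin 3) F) : Matrix (Fin 3) (Fin 3) F) *ᵥ B i = (ζ ^ (i : ℕ)) ^ n • B i := by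
  induction n with
  | zero => rw [pow_zero, pow_zero, one_smul, Units.val_one, Matrix.one_mulVec]
  | succ n ih =>
    rw [pow_succ, Units.val_mul, ← Matrix.mulVec_mulVec, S.g_apply, Matrix.mulVec_smul, ih,
      smul_smul, pow_succ]
    congr 1
    ring

/-- A matrix commuting with both generators is scalar. -/
theorem scalar_of_comm (h3 : (3 : F) ≠ 0) (S : IsStd R g h ζ B) (M : Matrix (Fin 3) (Fin 3) F)
    (hMg : M * (g : Matrix (Fin 3) (Fin 3) F) = (g : Matrix (Fin 3) (Fin 3) F) * M)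
    (hMh : M * (h : Matrix (Fin 3) (Fin 3) F) = (h : Matrix (Fin 3) (Fin 3) F) * M) :
    ∃ ξ : F, M = ξ • (1 : Matrix (Fin 3) (Fin 3) F) := by
  have hζ1 := zeta_ne_one h3 S.zeta
  have hζ3 := zeta_cube S.zeta
  obtain ⟨u, hu⟩ : ∃ u : Fin 3 → F, u = M *ᵥ B 0 := ⟨_, rfl⟩
  have hg0 : (g : Matrix (Fin 3) (Fin 3) F) *ᵥ B 0 = B 0 := by
    have := S.g_apply 0
    rw [this]
    show ζ ^ 0 • B 0 = B 0
    rw [pow_zero, one_smul]
  have hgu : (g : Matrix (Fin 3) (Fin 3) F) *ᵥ u = u := by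
    rw [hu, Matrix.mulVec_mulVec, ← hMg, ← Matrix.mulVec_mulVec, hg0]
  have hcoord : ∀ (j : Fin 3) (y : Fin 3 → F),
      B.repr ((g : Matrix (Fin 3) (Fin 3) F) *ᵥ y) j = ζ ^ (j : ℕ) * B.repr y j := by
    intro j y
    have e : (B.coord j) ∘ₗ Matrix.toLin' (g : Matrix (Fin 3) (Fin 3) F) =
        ζ ^ (j : ℕ) • B.coord j := by
      apply B.ext
      intro i
      rw [LinearMap.comp_apply, Matrix.toLin'_apply, S.g_apply, map_smul, LinearMap.smul_apply,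
        Basis.coord_apply, Basis.repr_self, Finsupp.single_apply]
      by_cases hij : i = j
      · rw [hij]
      · simp [hij]
    have h1 := congrArg (fun L : (Fin 3 → F) →ₗ[F] F => L y) e
    simpa [Basis.coord_apply] using h1
  have h1 := hcoord 1 u
  have h2 := hcoord 2 u
  rw [hgu] at h1 h2
  have hr1 : B.repr u 1 = 0 := by
    have e : (ζ - 1) * B.repr u 1 = 0 := by
      have e1 : ((1 : Fin 3) : ℕ) = 1 := rfl
      rw [e1, pow_one] at h1
      linear_combination -h1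
    rcases mul_eq_zero.mp e with h | h
    · exact absurd (sub_eq_zero.mp h) hζ1
    · exact h
  have hr2 : B.repr u 2 = 0 := by
    have e : (ζ ^ 2 - 1) * B.repr u 2 = 0 := by
      have e1 : ((2 : Fin 3) : ℕ) = 2 := rfl
      rw [e1] at h2
      linear_combination -h2
    rcases mul_eq_zero.mp e with h | h
    · exfalso
      apply hζ1
      linear_combination hζ3 - ζ * h
    · exact h
  obtain ⟨ξ, hξ⟩ : ∃ ξ : F, ξ = B.repr u 0 := ⟨_, rfl⟩
  have hM0 : M *ᵥ B 0 = ξ • B 0 := by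
    rw [← hu]
    have h4 := B.sum_repr u
    rw [Fin.sum_univ_three, hr1, hr2, zero_smul, zero_smul, add_zero, add_zero, ← hξ] at h4
    exact h4.symm
  have hstep : ∀ i : Fin 3, M *ᵥ B i = ξ • B i → M *ᵥ B (i + 1) = ξ • B (i + 1) := by
    intro i hi
    rw [← S.h_apply i, Matrix.mulVec_mulVec, hMh, ← Matrix.mulVec_mulVec, hi,
      Matrix.mulVec_smul]
  have hM1 : M *ᵥ B 1 = ξ • B 1 := hstep 0 hM0
  have hM2 : M *ᵥ B 2 = ξ • B 2 := hstep 1 hM1
  refine ⟨ξ, ?_⟩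
  apply ext_basis B
  intro i
  rw [Matrix.smul_mulVec, Matrix.one_mulVec]
  fin_cases i
  · exact hM0
  · exact hM1
  · exact hM2

theorem mem_normalizer_of (S : IsStd R g h ζ B) (M : GL (Fin 3) F)
    (hg : M * g * M⁻¹ ∈ R) (hh : M * h * M⁻¹ ∈ R) : M ∈ Cfsg.Geo.subgroupNormalizer R := by
  have hfin : Finite R := Nat.finite_of_card_ne_zero (by rw [S.card]; norm_num)
  exact mem_normalizer_of_closure R g h M S.gen hg hh

/-- The matrices that are diagonal in the standard basis with entries of equal cubes normalize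
the group. -/
theorem exists_diag_normalizer (S : IsStd R g h ζ B) (κ : Fin 3 → F) (c : F)
    (hc : c ≠ 0) (hκ : ∀ i, κ i ^ 3 = c) :
    ∃ M : GL (Fin 3) F, M ∈ Cfsg.Geo.subgroupNormalizer R ∧
      ∀ i, (M : Matrix (Fin 3) (Fin 3) F) *ᵥ B i = κ i • B i := by
  classical
  have hζ3 := zeta_cube S.zeta
  have hκ0 : ∀ i, κ i ≠ 0 := by
    intro i h0
    have h1 := hκ i
    rw [h0] at h1
    apply hc
    rw [← h1]
    simp
  obtain ⟨L, hL⟩ : ∃ L : (Fin 3 → F) ≃ₗ[F] (Fin 3 → F), ∀ i, L (B i) = κ i • B i :=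
    ⟨B.equiv (B.unitsSMul (fun i => Units.mk0 (κ i) (hκ0 i))) (Equiv.refl _), fun i => by
      rw [Basis.equiv_apply, Equiv.refl_apply, Basis.unitsSMul_apply]
      rfl⟩
  obtain ⟨M, hM⟩ := exists_gl_of_equiv L
  have hMB : ∀ i, (M : Matrix (Fin 3) (Fin 3) F) *ᵥ B i = κ i • B i := fun i => by
    rw [hM, hL]
  refine ⟨M, ?_, hMB⟩
  obtain ⟨a, ha⟩ : ∃ a : ℕ, κ 0 = κ 2 * ζ ^ a := by
    obtain ⟨a, ha⟩ := exists_pow_of_cube S.zeta (κ 0 * (κ 2)⁻¹)
      (by rw [mul_pow, inv_pow, hκ, hκ, mul_inv_cancel₀ hc])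
    refine ⟨a, ?_⟩
    rw [ha, mul_comm (κ 0), ← mul_assoc, mul_inv_cancel₀ (hκ0 2), one_mul]
  obtain ⟨m', hm'⟩ : ∃ m' : ℕ, κ 1 = κ 0 * ζ ^ m' := by
    obtain ⟨m', hm'⟩ := exists_pow_of_cube S.zeta (κ 1 * (κ 0)⁻¹)
      (by rw [mul_pow, inv_pow, hκ, hκ, mul_inv_cancel₀ hc])
    refine ⟨m', ?_⟩
    rw [hm', mul_comm (κ 1), ← mul_assoc, mul_inv_cancel₀ (hκ0 0), one_mul]
  obtain ⟨s, hs⟩ := exists_scalar ζ (zeta_ne_zero S.zeta)
  have hsR : s ∈ R := S.scalar_mem s hs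
  obtain ⟨E, hE⟩ : ∃ E : GL (Fin 3) F, E = s ^ a * g ^ (m' + 2 * a) := ⟨_, rfl⟩
  have hER : E ∈ R := by
    rw [hE]
    exact Subgroup.mul_mem _ (Subgroup.pow_mem _ hsR _) (Subgroup.pow_mem _ S.g_mem _)
  have hEB : ∀ i, (E : Matrix (Fin 3) (Fin 3) F) *ᵥ B i =
      (ζ ^ a * (ζ ^ (i : ℕ)) ^ (m' + 2 * a)) • B i := by
    intro i
    rw [hE, Units.val_mul, ← Matrix.mulVec_mulVec, g_pow_apply S, Matrix.mulVec_smul,
      Units.val_pow_eq_pow_val, hs, smul_pow, one_pow, Matrix.smul_mulVec, Matrix.one_mulVec,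
      smul_smul]
    congr 1
    ring
  apply mem_normalizer_of S M
  · have e : M * g * M⁻¹ = g := by
      apply mul_inv_eq_of_eq_mul
      apply Units.ext
      rw [Units.val_mul, Units.val_mul]
      apply ext_basis B
      intro i
      rw [← Matrix.mulVec_mulVec, ← Matrix.mulVec_mulVec, S.g_apply, Matrix.mulVec_smul, hMB,
        Matrix.mulVec_smul, S.g_apply, smul_comm]
    rw [e]
    exact S.g_mem
  · have e : M * h * M⁻¹ = E * h := by
      apply mul_inv_eq_of_eq_mul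
      apply Units.ext
      rw [Units.val_mul, Units.val_mul, Units.val_mul]
      apply ext_basis B
      intro i
      rw [← Matrix.mulVec_mulVec, ← Matrix.mulVec_mulVec, ← Matrix.mulVec_mulVec, S.h_apply,
        hMB, hMB, Matrix.mulVec_smul, Matrix.mulVec_smul, S.h_apply, hEB, smul_smul]
      congr 1
      fin_cases i
      · show κ 1 = κ 0 * (ζ ^ a * (ζ ^ 1) ^ (m' + 2 * a))
        have e : ζ ^ a * (ζ ^ 1) ^ (m' + 2 * a) = ζ ^ m' * (ζ ^ 3) ^ a := by ring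
        rw [e, hζ3, one_pow, mul_one]
        exact hm'
      · show κ 2 = κ 1 * (ζ ^ a * (ζ ^ 2) ^ (m' + 2 * a))
        have e : κ 1 * (ζ ^ a * (ζ ^ 2) ^ (m' + 2 * a)) = κ 2 * (ζ ^ 3) ^ (m' + 2 * a) := by
          rw [hm', ha]
          ring
        rw [e, hζ3, one_pow, mul_one]
      · show κ 0 = κ 2 * (ζ ^ a * (ζ ^ 0) ^ (m' + 2 * a))
        rw [pow_zero, one_pow, mul_one]
        exact ha
    rw [e]
    exact Subgroup.mul_mem _ hER S.h_mem

/-- The inversion of the standard basis normalizes the group. -/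
theorem exists_perm_normalizer (S : IsStd R g h ζ B) :
    ∃ M : GL (Fin 3) F, M ∈ Cfsg.Geo.subgroupNormalizer R ∧
      ∀ i, (M : Matrix (Fin 3) (Fin 3) F) *ᵥ B i = B (-i) := by
  classical
  have hζ3 := zeta_cube S.zeta
  obtain ⟨L, hL⟩ : ∃ L : (Fin 3 → F) ≃ₗ[F] (Fin 3 → F), ∀ i, L (B i) = B (-i) :=
    ⟨B.equiv B (Equiv.neg (Fin 3)), fun i => by
      rw [Basis.equiv_apply]
      rfl⟩
  obtain ⟨M, hM⟩ := exists_gl_of_equiv L
  have hMB : ∀ i, (M : Matrix (Fin 3) (Fin 3) F) *ᵥ B i = B (-i) := fun i => by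
    rw [hM, hL]
  refine ⟨M, ?_, hMB⟩
  have hpow : ∀ i : Fin 3, ζ ^ (i : ℕ) = (ζ ^ ((-i : Fin 3) : ℕ)) ^ 2 := by
    intro i
    fin_cases i
    · show ζ ^ 0 = (ζ ^ 0) ^ 2
      simp
    · show ζ ^ 1 = (ζ ^ 2) ^ 2
      linear_combination (-ζ) * hζ3
    · show ζ ^ 2 = (ζ ^ 1) ^ 2
      ring
  have hneg : ∀ i : Fin 3, -(i + 1) = -i + 1 + 1 := by decide
  apply mem_normalizer_of S M
  · have e : M * g * M⁻¹ = g ^ 2 := by
      apply mul_inv_eq_of_eq_mul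
      apply Units.ext
      rw [Units.val_mul, Units.val_mul]
      apply ext_basis B
      intro i
      rw [← Matrix.mulVec_mulVec, ← Matrix.mulVec_mulVec, S.g_apply, Matrix.mulVec_smul, hMB,
        g_pow_apply S, hpow i]
    rw [e]
    exact Subgroup.pow_mem _ S.g_mem _
  · have e : M * h * M⁻¹ = h ^ 2 := by
      apply mul_inv_eq_of_eq_mul
      apply Units.ext
      rw [Units.val_mul, Units.val_mul, pow_two, Units.val_mul]
      apply ext_basis B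
      intro i
      rw [← Matrix.mulVec_mulVec, ← Matrix.mulVec_mulVec, ← Matrix.mulVec_mulVec, S.h_apply,
        hMB, hMB, S.h_apply, S.h_apply, hneg i]
    rw [e]
    exact Subgroup.pow_mem _ S.h_mem _

/-- The normalizer contains a non-trivial involution of determinant 1. -/
theorem exists_invol_normalizer (S : IsStd R g h ζ B) :
    ∃ M : GL (Fin 3) F, M ∈ Cfsg.Geo.subgroupNormalizer R ∧
      (M : Matrix (Fin 3) (Fin 3) F) * (M : Matrix (Fin 3) (Fin 3) F) = 1 ∧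
      (M : Matrix (Fin 3) (Fin 3) F).det = 1 ∧ (M : Matrix (Fin 3) (Fin 3) F) ≠ 1 := by
  classical
  obtain ⟨M₀, hM₀N, hM₀⟩ := exists_perm_normalizer S
  have hsq : (M₀ : Matrix (Fin 3) (Fin 3) F) * (M₀ : Matrix (Fin 3) (Fin 3) F) = 1 := by
    apply ext_basis B
    intro i
    rw [← Matrix.mulVec_mulVec, hM₀, hM₀, neg_neg, Matrix.one_mulVec]
  have hdet : (M₀ : Matrix (Fin 3) (Fin 3) F).det = 1 ∨
      (M₀ : Matrix (Fin 3) (Fin 3) F).det = -1 := by
    have h1 : (M₀ : Matrix (Fin 3) (Fin 3) F).det * (M₀ : Matrix (Fin 3) (Fin 3) F).det = 1 := by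
      rw [← Matrix.det_mul, hsq, Matrix.det_one]
    exact mul_self_eq_one_iff.mp h1
  rcases hdet with hd | hd
  · refine ⟨M₀, hM₀N, hsq, hd, ?_⟩
    intro h1
    have h2 := hM₀ 1
    rw [h1, Matrix.one_mulVec] at h2
    have h4 := B.injective h2
    revert h4
    decide
  · obtain ⟨Sg, hSg⟩ := exists_scalar (-1 : F) (neg_ne_zero.mpr one_ne_zero)
    obtain ⟨M₁, hM₁⟩ : ∃ M₁ : GL (Fin 3) F, (M₁ : Matrix (Fin 3) (Fin 3) F) =
        (-1 : F) • (M₀ : Matrix (Fin 3) (Fin 3) F) :=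
      ⟨Sg * M₀, by rw [Units.val_mul, hSg, Matrix.smul_mul, Matrix.one_mul]⟩
    refine ⟨M₁, smul_mem_normalizer R M₀ M₁ hM₀N (-1) (neg_ne_zero.mpr one_ne_zero) hM₁, ?_, ?_,
      ?_⟩
    · rw [hM₁, Matrix.smul_mul, Matrix.mul_smul, smul_smul, hsq]
      simp
    · rw [hM₁, Matrix.det_smul, Fintype.card_fin, hd]
      ring
    · intro h1
      have h2 : (M₁ : Matrix (Fin 3) (Fin 3) F) *ᵥ B 1 = (-1 : F) • B (-1) := by
        rw [hM₁, Matrix.smul_mulVec, hM₀]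
      rw [h1, Matrix.one_mulVec] at h2
      have e : (-1 : Fin 3) = 2 := by decide
      rw [e] at h2
      have h4 := congrArg (fun v => B.repr v 1) h2
      simp [Finsupp.single_apply] at h4

theorem not_dvd_aux {r : ℕ} (hr : r.Prime) (h5 : 5 ≤ r) (n : ℕ) (hn : n = 3 ∨ n = 9)
    (h : 27 ≡ n [MOD r]) : False := by
  rcases hn with rfl | rfl
  · have h1 : r ∣ 27 - 3 := (Nat.modEq_iff_dvd' (by norm_num)).mp h.symm
    exact not_dvd_two_three hr h5 3 1 (by norm_num at h1 ⊢; exact h1)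
  · have h1 : r ∣ 27 - 9 := (Nat.modEq_iff_dvd' (by norm_num)).mp h.symm
    exact not_dvd_two_three hr h5 1 2 (by norm_num at h1 ⊢; exact h1)

/-- An element of the normalizer whose `r`-th power is scalar, for a prime `r ≥ 5`, is
scalar. -/
theorem scalar_of_normalizer (h3 : (3 : F) ≠ 0) (S : IsStd R g h ζ B) (x : GL (Fin 3) F)
    (hx : x ∈ Cfsg.Geo.subgroupNormalizer R) (r : ℕ) [Fact r.Prime] (hr5 : 5 ≤ r) (c : F)
    (hxr : ((x ^ r : GL (Fin 3) F) : Matrix (Fin 3) (Fin 3) F) =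
      c • (1 : Matrix (Fin 3) (Fin 3) F)) :
    ∃ ξ : F, (x : Matrix (Fin 3) (Fin 3) F) = ξ • (1 : Matrix (Fin 3) (Fin 3) F) := by
  classical
  have hrp : r.Prime := Fact.out
  have hfin : Finite R := Nat.finite_of_card_ne_zero (by rw [S.card]; norm_num)
  let _ : Fintype ↥R := Fintype.ofFinite _
  have hxN : ∀ t ∈ R, x * t * x⁻¹ ∈ R := fun t ht =>
    ((Subgroup.mem_normalizer_iff.1 hx) t).1 ht
  have hcen : ∀ t : GL (Fin 3) F, x ^ r * t = t * x ^ r := by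
    intro t
    apply Units.ext
    rw [Units.val_mul, Units.val_mul, hxr, Matrix.smul_mul, Matrix.mul_smul, Matrix.one_mul,
      Matrix.mul_one]
  let f : Function.End ↥R := fun t => ⟨x * t * x⁻¹, hxN t t.2⟩
  have hfpow : ∀ n : ℕ, ∀ t : ↥R,
      (((f ^ n) t : ↥R) : GL (Fin 3) F) = x ^ n * t * (x ^ n)⁻¹ := by
    intro n
    induction n with
    | zero =>
      intro t
      rw [pow_zero, pow_zero]
      show (t : GL (Fin 3) F) = 1 * t * 1⁻¹
      simp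
    | succ n ih =>
      intro t
      have e1 : (f ^ (n + 1)) t = f ((f ^ n) t) := by
        rw [pow_succ']
        rfl
      rw [e1]
      show x * ((f ^ n) t : GL (Fin 3) F) * x⁻¹ = _
      rw [ih, pow_succ']
      group
  have hf : f ^ r ^ 1 = 1 := by
    rw [pow_one]
    funext t
    apply Subtype.ext
    rw [hfpow, hcen, mul_inv_cancel_right]
    rfl
  have hmod := Equiv.Perm.card_fixedPoints_modEq (f := f) (p := r) (n := 1) hf
  obtain ⟨C, hC⟩ : ∃ C : Subgroup ↥R,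
      ∀ t : ↥R, t ∈ C ↔ x * (t : GL (Fin 3) F) = (t : GL (Fin 3) F) * x :=
    ⟨(Subgroup.centralizer {x}).subgroupOf R, fun t => by
      rw [Subgroup.mem_subgroupOf, Subgroup.mem_centralizer_iff]
      constructor
      · intro h1
        exact h1 x rfl
      · intro h1 y hy
        rw [Set.mem_singleton_iff.mp hy]
        exact h1⟩
  have hfix : ∀ t : ↥R, t ∈ Function.fixedPoints f ↔ t ∈ C := by
    intro t
    rw [hC]
    constructor
    · intro h1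
      have h2 : x * (t : GL (Fin 3) F) * x⁻¹ = (t : GL (Fin 3) F) := congrArg Subtype.val h1
      rw [mul_inv_eq_iff_eq_mul] at h2
      exact h2
    · intro h1
      apply Subtype.ext
      show x * (t : GL (Fin 3) F) * x⁻¹ = (t : GL (Fin 3) F)
      rw [h1, mul_inv_cancel_right]
  have hcardfix : Fintype.card (Function.fixedPoints f) = Nat.card C := by
    rw [← Nat.card_eq_fintype_card]
    exact Nat.card_congr (Equiv.subtypeEquivRight hfix)
  have hcardR : Fintype.card ↥R = 27 := by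
    rw [← Nat.card_eq_fintype_card, S.card]
  rw [hcardR, hcardfix] at hmod
  have e27 : (3 : ℕ) ^ 3 = 27 := by norm_num
  have e9 : (3 : ℕ) ^ 2 = 9 := by norm_num
  have hCdvd : Nat.card C ∣ 3 ^ 3 := by
    have h1 := Subgroup.card_subgroup_dvd_card C
    rw [S.card] at h1
    rw [e27]
    exact h1
  obtain ⟨s, hs⟩ := exists_scalar ζ (zeta_ne_zero S.zeta)
  have hsR : s ∈ R := S.scalar_mem s hs
  have hsC : (⟨s, hsR⟩ : ↥R) ∈ C := by
    rw [hC]
    apply Units.ext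
    rw [Units.val_mul, Units.val_mul, hs, Matrix.smul_mul, Matrix.mul_smul, Matrix.one_mul,
      Matrix.mul_one]
  have hs1 : (⟨s, hsR⟩ : ↥R) ≠ 1 := by
    intro h1
    have h2 : s = 1 := congrArg Subtype.val h1
    have h4 := congrArg Units.val h2
    rw [hs] at h4
    have h5 := congrFun (congrFun h4 0) 0
    simp at h5
    exact zeta_ne_one h3 S.zeta h5
  have hC1 : Nat.card C ≠ 1 := by
    intro h1
    have h2 := Subgroup.eq_bot_of_card_eq C h1
    rw [h2] at hsC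
    exact hs1 (Subgroup.mem_bot.mp hsC)
  have hC27 : Nat.card C = 27 := by
    obtain ⟨m, hm, hm'⟩ := (Nat.dvd_prime_pow Nat.prime_three).mp hCdvd
    interval_cases m
    · exfalso
      rw [pow_zero] at hm'
      exact hC1 hm'
    · exfalso
      rw [pow_one] at hm'
      exact not_dvd_aux hrp hr5 (Nat.card C) (Or.inl hm') hmod
    · exfalso
      rw [e9] at hm'
      exact not_dvd_aux hrp hr5 (Nat.card C) (Or.inr hm') hmod
    · rw [hm', e27]
  have hCtop : C = ⊤ := Subgroup.eq_top_of_card_eq C (by rw [hC27, S.card])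
  have hxg : x * g = g * x := by
    have h1 : (⟨g, S.g_mem⟩ : ↥R) ∈ C := by
      rw [hCtop]
      exact Subgroup.mem_top _
    exact (hC _).mp h1
  have hxh : x * h = h * x := by
    have h1 : (⟨h, S.h_mem⟩ : ↥R) ∈ C := by
      rw [hCtop]
      exact Subgroup.mem_top _
    exact (hC _).mp h1
  exact scalar_of_comm h3 S (x : Matrix (Fin 3) (Fin 3) F)
    (by rw [← Units.val_mul, hxg, Units.val_mul]) (by rw [← Units.val_mul, hxh, Units.val_mul])

end std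

end Cfsg.Agent.Lib.Helper37.Heis3B
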