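import Mathlib

set_option autoImplicit false

namespace Cfsg.Agent.Lib.Helper37.InvConj

open Module

variable {F V : Type*} [Field F] [AddCommGroup V] [Module F V]

/-- The binary form `α² - z β²` represents every element of a finite field. -/
theorem exists_norm [Fintype F] (z d : F) (hz : z ≠ 0) : ∃ α β : F, α ^ 2 - z * β ^ 2 = d := by
  classical
  by_cases h2 : Fintype.card F % 2 = 1
  · have hf : (Polynomial.X ^ 2 - Polynomial.C d : Polynomial F).degree = 2 := by
      rw [Polynomial.degree_X_pow_sub_C (by norm_num)]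
      rfl
    have hg : (Polynomial.C (-z) * Polynomial.X ^ 2 : Polynomial F).degree = 2 := by
      rw [Polynomial.degree_C_mul_X_pow 2 (neg_ne_zero.mpr hz)]
      rfl
    obtain ⟨a, b, hab⟩ := FiniteField.exists_root_sum_quadratic hf hg h2
    refine ⟨a, b, ?_⟩
    simp only [Polynomial.eval_sub, Polynomial.eval_pow, Polynomial.eval_X, Polynomial.eval_C,
      Polynomial.eval_mul] at hab
    linear_combination hab
  · have hchar : ringChar F = 2 := FiniteField.even_card_iff_char_two.mpr (by omega)
    obtain ⟨a, ha⟩ := FiniteField.isSquare_of_char_two hchar d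
    exact ⟨a, 0, by rw [ha]; ring⟩

/-- A plane `⟨v, x v⟩` has an `x`-invariant complement when `x² = z`. -/
theorem exists_split (x : V →ₗ[F] V) {z : F} (hxx : ∀ v, x (x v) = z • v) (v : V)
    (hnot : x v ∉ Submodule.span F {v}) :
    ∃ Y' : Submodule F V, (∀ y ∈ Y', x y ∈ Y') ∧ LinearIndependent F ![v, x v] ∧
      Disjoint Y' (Submodule.span F {v, x v}) ∧ Y' ⊔ Submodule.span F {v, x v} = ⊤ := by
  obtain ⟨f₀, hf₀, hf₀'⟩ := Submodule.exists_dual_map_eq_bot_of_notMem hnot inferInstance
  have hf₀v : f₀ v = 0 := by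
    have : f₀ v ∈ Submodule.map f₀ (Submodule.span F {v}) :=
      Submodule.mem_map_of_mem (Submodule.mem_span_singleton_self v)
    rw [hf₀'] at this
    exact (Submodule.mem_bot F).mp this
  obtain ⟨φ, hφv, hφx⟩ : ∃ φ : V →ₗ[F] F, φ v = 0 ∧ φ (x v) = 1 := by
    refine ⟨(f₀ (x v))⁻¹ • f₀, ?_, ?_⟩
    · rw [LinearMap.smul_apply, hf₀v, smul_zero]
    · rw [LinearMap.smul_apply, smul_eq_mul, inv_mul_cancel₀ hf₀]
  obtain ⟨Y', hY'⟩ : ∃ Y' : Submodule F V, Y' = LinearMap.ker φ ⊓ LinearMap.ker (φ ∘ₗ x) :=
    ⟨_, rfl⟩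
  have hmem : ∀ w, w ∈ Y' ↔ φ w = 0 ∧ φ (x w) = 0 := by
    intro w
    rw [hY', Submodule.mem_inf, LinearMap.mem_ker, LinearMap.mem_ker, LinearMap.comp_apply]
  refine ⟨Y', ?_, ?_, ?_, ?_⟩
  · intro y hy
    obtain ⟨h2, h3⟩ := (hmem y).mp hy
    rw [hmem]
    refine ⟨h3, ?_⟩
    rw [hxx, map_smul, h2, smul_zero]
  · rw [LinearIndependent.pair_iff]
    intro s t hst
    have e1 := congrArg φ hst
    have e2 := congrArg (fun w => φ (x w)) hst
    simp only [map_add, map_smul, hφv, hφx, hxx, smul_eq_mul, mul_zero, mul_one, zero_add,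
      add_zero, map_zero] at e1 e2
    exact ⟨e2, e1⟩
  · rw [Submodule.disjoint_def]
    intro w hw1 hw2
    obtain ⟨s, t, rfl⟩ := Submodule.mem_span_pair.mp hw2
    obtain ⟨h2, h3⟩ := (hmem _).mp hw1
    simp only [map_add, map_smul, hφv, hφx, hxx, smul_eq_mul, mul_zero, mul_one, zero_add,
      add_zero] at h2 h3
    rw [h2, h3, zero_smul, zero_smul, add_zero]
  · rw [eq_top_iff]
    intro w _
    have hw' : w - (φ (x w) • v + φ w • x v) ∈ Y' := by
      rw [hmem]
      constructor
      · simp only [map_sub, map_add, map_smul, hφv, hφx, smul_eq_mul, mul_zero, mul_one,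
          zero_add, sub_self]
      · simp only [map_sub, map_add, map_smul, hφv, hφx, hxx, smul_eq_mul, mul_zero,
          mul_one, add_zero, sub_self]
    have e : w = (w - (φ (x w) • v + φ w • x v)) + (φ (x w) • v + φ w • x v) := by abel
    rw [e]
    exact Submodule.add_mem _ (Submodule.mem_sup_left hw')
      (Submodule.mem_sup_right (Submodule.mem_span_pair.mpr ⟨_, _, rfl⟩))

/-- The centralizer of a linear map with scalar square contains maps of every determinant. -/
theorem exists_comm_det_lin [Fintype F] [FiniteDimensional F V] (hV : 0 < finrank F V)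
    (x : V →ₗ[F] V) {z : F} (hz : z ≠ 0) (hxx : ∀ v, x (x v) = z • v) (d : F) :
    ∃ C : V →ₗ[F] V, C ∘ₗ x = x ∘ₗ C ∧ LinearMap.det C = d := by
  classical
  by_cases hcase : ∀ v : V, ∃ c : F, x v = c • v
  · choose c hc using hcase
    obtain ⟨B⟩ : Nonempty (Basis (Fin (finrank F V)) F V) := ⟨Module.finBasis F V⟩
    obtain ⟨i₀⟩ : Nonempty (Fin (finrank F V)) := ⟨⟨0, hV⟩⟩
    obtain ⟨ε, hε⟩ : ∃ ε : Fin (finrank F V) → F, ε = fun i => if i = i₀ then d else 1 :=
      ⟨_, rfl⟩
    refine ⟨B.constr F (fun i => ε i • B i), ?_, ?_⟩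
    · apply B.ext
      intro i
      rw [LinearMap.comp_apply, LinearMap.comp_apply, Basis.constr_basis, hc, map_smul,
        Basis.constr_basis, map_smul, hc, smul_comm]
    · rw [← LinearMap.det_toMatrix B]
      have : LinearMap.toMatrix B B (B.constr F (fun i => ε i • B i)) = Matrix.diagonal ε := by
        ext i j
        rw [LinearMap.toMatrix_apply, Basis.constr_basis, map_smul, Finsupp.smul_apply,
          Basis.repr_self, Matrix.diagonal_apply, Finsupp.single_apply]
        by_cases hij : i = j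
        · subst hij
          simp
        · rw [if_neg (fun h => hij h.symm), if_neg hij, smul_zero]
      rw [this, Matrix.det_diagonal, hε, Finset.prod_ite_eq' Finset.univ i₀]
      simp
  · push Not at hcase
    obtain ⟨v, hv⟩ := hcase
    have hnot : x v ∉ Submodule.span F {v} := by
      intro h
      obtain ⟨c, hc⟩ := Submodule.mem_span_singleton.mp h
      exact hv c hc.symm
    obtain ⟨Y', hY'inv, hpair, hdisj, hsup⟩ := exists_split x hxx v hnot
    obtain ⟨α, β, hαβ⟩ := exists_norm z d hz
    obtain ⟨bY⟩ : Nonempty (Basis (Fin (finrank F Y')) F Y') := ⟨Module.finBasis F Y'⟩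
    have hliY : LinearIndependent F (fun i => ((bY i : Y') : V)) :=
      bY.linearIndependent.map' Y'.subtype (Submodule.ker_subtype Y')
    have hspanY : Submodule.span F (Set.range (fun i => ((bY i : Y') : V))) = Y' := by
      have h1 : Set.range (fun i => ((bY i : Y') : V)) = Y'.subtype '' Set.range bY := by
        rw [← Set.range_comp]
        rfl
      rw [h1, Submodule.span_image, bY.span_eq, Submodule.map_subtype_top]
    have hspan2 : Submodule.span F (Set.range ![v, x v]) = Submodule.span F {v, x v} := by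
      rw [Matrix.range_cons_cons_empty]
    have hli : LinearIndependent F (Sum.elim (fun i => ((bY i : Y') : V)) ![v, x v]) := by
      apply hliY.sum_type hpair
      rw [hspanY, hspan2]
      exact hdisj
    have hsp : ⊤ ≤ Submodule.span F
        (Set.range (Sum.elim (fun i => ((bY i : Y') : V)) ![v, x v])) := by
      rw [Set.Sum.elim_range, Submodule.span_union, hspanY, hspan2, hsup]
    obtain ⟨B, hB⟩ : ∃ B : Basis (Fin (finrank F Y') ⊕ Fin 2) F V,
        ∀ s, B s = Sum.elim (fun i => ((bY i : Y') : V)) ![v, x v] s :=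
      ⟨Basis.mk hli hsp, fun s => Basis.mk_apply hli hsp s⟩
    have hB0 : B (Sum.inr 0) = v := by rw [hB]; rfl
    have hB1 : B (Sum.inr 1) = x v := by rw [hB]; rfl
    have hBl : ∀ i, B (Sum.inl i) = ((bY i : Y') : V) := fun i => by rw [hB]; rfl
    obtain ⟨C, hC⟩ : ∃ C : V →ₗ[F] V, C = B.constr F
        (Sum.elim (fun i => B (Sum.inl i))
          ![α • B (Sum.inr 0) + β • B (Sum.inr 1), (β * z) • B (Sum.inr 0) + α • B (Sum.inr 1)]) :=
      ⟨_, rfl⟩
    have hCl : ∀ i, C (B (Sum.inl i)) = B (Sum.inl i) := by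
      intro i
      rw [hC, Basis.constr_basis]
      rfl
    have hC0 : C (B (Sum.inr 0)) = α • B (Sum.inr 0) + β • B (Sum.inr 1) := by
      rw [hC, Basis.constr_basis]
      rfl
    have hC1 : C (B (Sum.inr 1)) = (β * z) • B (Sum.inr 0) + α • B (Sum.inr 1) := by
      rw [hC, Basis.constr_basis]
      rfl
    have hCY' : ∀ y ∈ Submodule.span F (Set.range (fun i => B (Sum.inl i))), C y = y := by
      intro y h1
      induction h1 using Submodule.span_induction with
      | mem w hw =>
        obtain ⟨i, rfl⟩ := hw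
        exact hCl i
      | zero => rw [map_zero]
      | add a b _ _ ha hb => rw [map_add, ha, hb]
      | smul c a _ ha => rw [map_smul, ha]
    have hCY : ∀ y ∈ Y', C y = y := by
      intro y hy
      apply hCY'
      have : (fun i => B (Sum.inl i)) = fun i => ((bY i : Y') : V) := funext hBl
      rw [this, hspanY]
      exact hy
    refine ⟨C, ?_, ?_⟩
    · apply B.ext
      rintro (i | j)
      · rw [LinearMap.comp_apply, LinearMap.comp_apply, hCl]
        apply hCY
        rw [hBl]
        exact hY'inv _ (bY i).2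
      · fin_cases j
        · show C (x (B (Sum.inr 0))) = x (C (B (Sum.inr 0)))
          rw [hC0, hB0, ← hB1, hC1, map_add, map_smul, map_smul, hB1, hxx, hB0]
          module
        · show C (x (B (Sum.inr 1))) = x (C (B (Sum.inr 1)))
          rw [hC1, hB1, hxx, map_smul, ← hB0, hC0, map_add, map_smul, map_smul, hB0, hB1, hxx]
          module
    · rw [← LinearMap.det_toMatrix B]
      have : LinearMap.toMatrix B B C = Matrix.fromBlocks (1 : Matrix _ _ F) 0 0
          !![α, β * z; β, α] := by
        ext i j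
        rw [LinearMap.toMatrix_apply]
        rcases j with j | j
        · rw [hCl, Basis.repr_self]
          rcases i with i | i
          · simp [Matrix.one_apply, Finsupp.single_apply, eq_comm]
          · simp
        · fin_cases j
          · show (B.repr (C (B (Sum.inr 0)))) i = _
            rw [hC0]
            rcases i with i | i
            · simp
            · fin_cases i <;> simp
          · show (B.repr (C (B (Sum.inr 1)))) i = _
            rw [hC1]
            rcases i with i | i
            · simp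
            · fin_cases i <;> simp
      rw [this, Matrix.det_fromBlocks_zero₂₁, Matrix.det_one, one_mul, Matrix.det_fin_two_of,
        ← hαβ]
      ring

/-- Matrix form: the centralizer of a matrix with scalar square contains matrices of every
determinant. -/
theorem exists_comm_det [Fintype F] {n : ℕ} (hn : 0 < n) (x : Matrix (Fin n) (Fin n) F) {z : F}
    (hz : z ≠ 0) (hx : x * x = z • (1 : Matrix (Fin n) (Fin n) F)) (d : F) :
    ∃ C : Matrix (Fin n) (Fin n) F, C * x = x * C ∧ C.det = d := by
  have hV : 0 < finrank F (Fin n → F) := by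
    rw [Module.finrank_fintype_fun_eq_card, Fintype.card_fin]
    exact hn
  have hxx : ∀ v : Fin n → F, Matrix.toLin' x (Matrix.toLin' x v) = z • v := by
    intro v
    rw [Matrix.toLin'_apply, Matrix.toLin'_apply, Matrix.mulVec_mulVec, hx, Matrix.smul_mulVec,
      Matrix.one_mulVec]
  obtain ⟨C, hC, hdet⟩ := exists_comm_det_lin hV (Matrix.toLin' x) hz hxx d
  refine ⟨LinearMap.toMatrix' C, ?_, ?_⟩
  · have h1 := congrArg LinearMap.toMatrix' hC
    rw [LinearMap.toMatrix'_comp, LinearMap.toMatrix'_comp, LinearMap.toMatrix'_toLin'] at h1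
    exact h1
  · rw [← LinearMap.det_toLin', Matrix.toLin'_toMatrix', hdet]

/-- If a matrix of determinant 1 with scalar square is `GL`-conjugate into a subgroup, it is
`SL`-conjugate into it. -/
theorem exists_sl_conj [Fintype F] {n : ℕ} (hn : 0 < n) (x : Matrix.SpecialLinearGroup (Fin n) F)
    {z : F} (hx : (x : Matrix (Fin n) (Fin n) F) * (x : Matrix (Fin n) (Fin n) F) =
      z • (1 : Matrix (Fin n) (Fin n) F))
    (H : Subgroup (GL (Fin n) F)) (Q : GL (Fin n) F)
    (hQ : Q * Matrix.SpecialLinearGroup.toGL x * Q⁻¹ ∈ H) :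
    ∃ P : Matrix.SpecialLinearGroup (Fin n) F,
      P⁻¹ * x * P ∈ H.comap (Matrix.SpecialLinearGroup.toGL :
        Matrix.SpecialLinearGroup (Fin n) F →* GL (Fin n) F) := by
  have hz : z ≠ 0 := by
    intro h0
    rw [h0, zero_smul] at hx
    have h1 := congrArg Matrix.det hx
    haveI : Nonempty (Fin n) := Fin.pos_iff_nonempty.mp hn
    rw [Matrix.det_mul, x.2, Matrix.det_zero] at h1
    simp at h1
  have hQdet : (Q : Matrix (Fin n) (Fin n) F).det ≠ 0 :=
    (Matrix.GeneralLinearGroup.det Q).ne_zero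
  obtain ⟨C, hC, hdet⟩ := exists_comm_det hn (x : Matrix (Fin n) (Fin n) F) hz hx
    ((Q : Matrix (Fin n) (Fin n) F).det)⁻¹
  obtain ⟨R, hR⟩ : ∃ R : Matrix.SpecialLinearGroup (Fin n) F,
      (R : Matrix (Fin n) (Fin n) F) = (Q : Matrix (Fin n) (Fin n) F) * C :=
    ⟨⟨(Q : Matrix (Fin n) (Fin n) F) * C, by
      rw [Matrix.det_mul, hdet, mul_inv_cancel₀ hQdet]⟩, rfl⟩
  refine ⟨R⁻¹, ?_⟩
  rw [Subgroup.mem_comap, inv_inv, map_mul, map_mul, map_inv]
  have h1 : Matrix.SpecialLinearGroup.toGL R * Matrix.SpecialLinearGroup.toGL x *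
      (Matrix.SpecialLinearGroup.toGL R)⁻¹ = Q * Matrix.SpecialLinearGroup.toGL x * Q⁻¹ := by
    rw [mul_inv_eq_iff_eq_mul]
    have h2 : Matrix.SpecialLinearGroup.toGL R = Q * (Q⁻¹ * Matrix.SpecialLinearGroup.toGL R) := by
      rw [mul_inv_cancel_left]
    have h3 : (Q⁻¹ * Matrix.SpecialLinearGroup.toGL R) * Matrix.SpecialLinearGroup.toGL x =
        Matrix.SpecialLinearGroup.toGL x * (Q⁻¹ * Matrix.SpecialLinearGroup.toGL R) := by
      apply Units.ext
      have h4 : ((Q⁻¹ * Matrix.SpecialLinearGroup.toGL R : GL (Fin n) F) :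
          Matrix (Fin n) (Fin n) F) = C := by
        rw [Units.val_mul]
        show ((Q⁻¹ : GL (Fin n) F) : Matrix (Fin n) (Fin n) F) * (R : Matrix (Fin n) (Fin n) F) = C
        rw [hR, ← Matrix.mul_assoc, ← Units.val_mul, inv_mul_cancel, Units.val_one, Matrix.one_mul]
      rw [Units.val_mul, h4, Units.val_mul, h4]
      exact hC
    calc Matrix.SpecialLinearGroup.toGL R * Matrix.SpecialLinearGroup.toGL x
        = Q * ((Q⁻¹ * Matrix.SpecialLinearGroup.toGL R) * Matrix.SpecialLinearGroup.toGL x) := by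
          rw [← mul_assoc, mul_inv_cancel_left]
      _ = Q * Matrix.SpecialLinearGroup.toGL x * Q⁻¹ * Matrix.SpecialLinearGroup.toGL R := by
          rw [h3]
          group
  rw [h1]
  exact hQ

end Cfsg.Agent.Lib.Helper37.InvConj
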