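import Mathlib
import Cfsg.Prelude.Def_GeometricClasses
import Cfsg.Agent.Lib.Helper37.CubeUnip
import Cfsg.Agent.Lib.Helper37.InvolDiag
import Cfsg.Agent.Lib.Helper37.InvConj
import Cfsg.Agent.Lib.Helper37.Heis3A
import Cfsg.Agent.Lib.Helper37.Heis3B

set_option autoImplicit false

open scoped MatrixGroups Matrix

namespace Cfsg.Agent.Lib.Helper37.Heis3C

open Module Cfsg.Agent.Lib.Helper37.Heis3A Cfsg.Agent.Lib.Helper37.Heis3B

variable {F : Type*} [Field F]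

theorem det_ne_zero_of_GL (Q : GL (Fin 3) F) : (Q : Matrix (Fin 3) (Fin 3) F).det ≠ 0 :=
  ((Matrix.isUnit_iff_isUnit_det _).1 Q.isUnit).ne_zero

/-- A non-trivial involution of determinant 1 in dimension 3 has eigenvalues `1, -1, -1`. -/
theorem invol_signs (h2 : (2 : F) ≠ 0) (X : Matrix (Fin 3) (Fin 3) F)
    (hX : X * X = 1) (hXd : X.det = 1) (hX1 : X ≠ 1) :
    ∃ (b : Basis (Fin 3) F (Fin 3 → F)) (i₀ : Fin 3),
      X *ᵥ b i₀ = b i₀ ∧ ∀ i, i ≠ i₀ → X *ᵥ b i = - b i := by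
  classical
  obtain ⟨b, ε, h⟩ := Cfsg.Agent.Lib.Helper37.InvolDiag.exists_eigenbasis_matrix h2
    (fun _ : Unit => X) (fun _ _ => rfl) (fun _ => hX)
  obtain ⟨e, he⟩ : ∃ e : Fin 3 → F, e = fun i => ε i () := ⟨_, rfl⟩
  have hb : ∀ i, X *ᵥ b i = e i • b i := fun i => by rw [he]; exact h i ()
  have hpm : ∀ i, e i = 1 ∨ e i = -1 := fun i =>
    Cfsg.Agent.Lib.Helper37.InvolDiag.eps_eq_one_or X hX (b i) (b.ne_zero i) _ (hb i)
  have hdet := Cfsg.Agent.Lib.Helper37.InvolDiag.det_eq_prod_eps b X e hb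
  rw [hXd, Fin.prod_univ_three] at hdet
  have hne : (1 : F) ≠ -1 := by
    intro h1
    apply h2
    linear_combination h1
  have key : ∀ i₀ : Fin 3, e i₀ = 1 → (∀ i, i ≠ i₀ → e i = -1) →
      ∃ (b : Basis (Fin 3) F (Fin 3 → F)) (i₀ : Fin 3),
        X *ᵥ b i₀ = b i₀ ∧ ∀ i, i ≠ i₀ → X *ᵥ b i = - b i := by
    intro i₀ h1 hrest
    exact ⟨b, i₀, by rw [hb i₀, h1, one_smul],
      fun i hi => by rw [hb i, hrest i hi, neg_smul, one_smul]⟩
  rcases hpm 0 with h0 | h0 <;> rcases hpm 1 with h1 | h1 <;> rcases hpm 2 with h2' | h2' <;>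
    rw [h0, h1, h2'] at hdet
  · exfalso
    apply hX1
    apply ext_basis b
    intro i
    have hall : e i = 1 := by
      fin_cases i
      exacts [h0, h1, h2']
    rw [hb i, Matrix.one_mulVec, hall, one_smul]
  · exact absurd (hdet.trans (by ring)) hne
  · exact absurd (hdet.trans (by ring)) hne
  · refine key 0 h0 ?_
    intro i hi
    fin_cases i
    · exact absurd rfl hi
    · exact h1
    · exact h2'
  · exact absurd (hdet.trans (by ring)) hne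
  · refine key 1 h1 ?_
    intro i hi
    fin_cases i
    · exact h0
    · exact absurd rfl hi
    · exact h2'
  · refine key 2 h2' ?_
    intro i hi
    fin_cases i
    · exact h0
    · exact h1
    · exact absurd rfl hi
  · exact absurd (hdet.trans (by ring)) hne

/-- Two non-trivial involutions of determinant 1 in dimension 3 are conjugate. -/
theorem invol_conj (h2 : (2 : F) ≠ 0) (X Y : Matrix (Fin 3) (Fin 3) F)
    (hX : X * X = 1) (hY : Y * Y = 1) (hXd : X.det = 1) (hYd : Y.det = 1)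
    (hX1 : X ≠ 1) (hY1 : Y ≠ 1) :
    ∃ Q : GL (Fin 3) F,
      (Q : Matrix (Fin 3) (Fin 3) F) * X = Y * (Q : Matrix (Fin 3) (Fin 3) F) := by
  classical
  obtain ⟨b, i₀, hb0, hb⟩ := invol_signs h2 X hX hXd hX1
  obtain ⟨b', j₀, hb'0, hb'⟩ := invol_signs h2 Y hY hYd hY1
  obtain ⟨σ, hσ⟩ : ∃ σ : Equiv.Perm (Fin 3), σ = Equiv.swap i₀ j₀ := ⟨_, rfl⟩
  have hσ0 : σ i₀ = j₀ := by rw [hσ, Equiv.swap_apply_left]
  have hσne : ∀ i, i ≠ i₀ → σ i ≠ j₀ := by
    intro i hi h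
    apply hi
    apply σ.injective
    rw [h, hσ0]
  obtain ⟨Q, hQ⟩ := exists_gl_of_equiv (b.equiv b' σ)
  refine ⟨Q, ?_⟩
  apply ext_basis b
  intro i
  rw [← Matrix.mulVec_mulVec, ← Matrix.mulVec_mulVec, hQ, hQ, Basis.equiv_apply]
  by_cases hi : i = i₀
  · rw [hi, hb0, Basis.equiv_apply, hσ0, hb'0]
  · rw [hb i hi, map_neg, Basis.equiv_apply, hb' _ (hσne i hi)]

/-- A matrix with an eigenbasis commutes with matrices of every determinant. -/
theorem exists_comm_det_of_eigenbasis (X : Matrix (Fin 3) (Fin 3) F)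
    (b : Basis (Fin 3) F (Fin 3 → F)) (κ : Fin 3 → F) (hb : ∀ i, X *ᵥ b i = κ i • b i)
    (a : F) : ∃ C : Matrix (Fin 3) (Fin 3) F, C * X = X * C ∧ C.det = a := by
  classical
  obtain ⟨c, hc⟩ : ∃ c : Fin 3 → F, c = ![a, 1, 1] := ⟨_, rfl⟩
  obtain ⟨C, hC⟩ : ∃ C : (Fin 3 → F) →ₗ[F] (Fin 3 → F), ∀ i, C (b i) = c i • b i :=
    ⟨b.constr F (fun i => c i • b i), fun i => by rw [Basis.constr_basis]⟩
  refine ⟨LinearMap.toMatrix' C, ?_, ?_⟩
  · have h1 : C ∘ₗ Matrix.toLin' X = Matrix.toLin' X ∘ₗ C := by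
      apply b.ext
      intro i
      rw [LinearMap.comp_apply, LinearMap.comp_apply, Matrix.toLin'_apply,
        Matrix.toLin'_apply, hb i, map_smul, hC, Matrix.mulVec_smul, hb i, smul_comm]
    have h2 := congrArg LinearMap.toMatrix' h1
    rw [LinearMap.toMatrix'_comp, LinearMap.toMatrix'_comp, LinearMap.toMatrix'_toLin'] at h2
    exact h2
  · rw [LinearMap.det_toMatrix', Cfsg.Agent.Lib.Helper37.CubeUnip.det_of_diag b c C hC,
      Fin.prod_univ_three, hc]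
    simp

/-- Conjugation in `GL_3` can be replaced by conjugation in `SL_3` when the centralizer has
elements of the right determinant. -/
theorem exists_conj_SL (x : GL (Fin 3) F) (H : Subgroup (GL (Fin 3) F)) (Q : GL (Fin 3) F)
    (hQ : Q * x * Q⁻¹ ∈ H) (C : Matrix (Fin 3) (Fin 3) F)
    (hC : C * (x : Matrix (Fin 3) (Fin 3) F) = (x : Matrix (Fin 3) (Fin 3) F) * C)
    (hdet : (Q : Matrix (Fin 3) (Fin 3) F).det * C.det = 1) :
    ∃ g ∈ Cfsg.Geo.specialLinear (Fin 3) F, g⁻¹ * x * g ∈ H := by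
  have hCdet : C.det ≠ 0 := by
    intro h0
    rw [h0, mul_zero] at hdet
    exact zero_ne_one hdet
  obtain ⟨Cg, hCg⟩ : ∃ Cg : GL (Fin 3) F, (Cg : Matrix (Fin 3) (Fin 3) F) = C :=
    ⟨Matrix.GeneralLinearGroup.mkOfDetNeZero C hCdet, rfl⟩
  have hcomm : Cg * x = x * Cg := by
    apply Units.ext
    rw [Units.val_mul, Units.val_mul, hCg, hC]
  have h1 : ((Q * Cg : GL (Fin 3) F) : Matrix (Fin 3) (Fin 3) F).det = 1 := by
    rw [Units.val_mul, Matrix.det_mul, hCg, hdet]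
  refine ⟨(Q * Cg)⁻¹, Subgroup.inv_mem _ ((mem_SL_iff _).2 h1), ?_⟩
  have e : ((Q * Cg)⁻¹)⁻¹ * x * (Q * Cg)⁻¹ = Q * x * Q⁻¹ := by
    rw [inv_inv, mul_inv_rev, mul_assoc Q Cg x, hcomm]
    group
  rw [e]
  exact hQ

/-- Cube roots of cube roots of unity exist when `9 ∣ q - 1`. -/
theorem exists_cube_root [Fintype F] (h9 : 9 ∣ Fintype.card F - 1) (c : F) (hc : c ^ 3 = 1) :
    ∃ μ : F, μ ^ 3 = c := by
  classical
  have hc0 : c ≠ 0 := by
    intro h0
    rw [h0] at hc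
    simp at hc
  obtain ⟨u, hu⟩ : ∃ u : Fˣ, (u : F) = c := ⟨Units.mk0 c hc0, rfl⟩
  have hu3 : u ^ 3 = 1 := by
    apply Units.ext
    rw [Units.val_pow_eq_pow_val, hu, hc, Units.val_one]
  obtain ⟨w, hw⟩ := IsCyclic.exists_generator (α := Fˣ)
  have hord : orderOf w = Fintype.card F - 1 := by
    rw [orderOf_eq_card_of_forall_mem_zpowers hw, Nat.card_units, Nat.card_eq_fintype_card]
  obtain ⟨k, hk⟩ : ∃ k : ℕ, w ^ k = u := by
    have h1 := hw u
    rw [← mem_powers_iff_mem_zpowers, Submonoid.mem_powers_iff] at h1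
    exact h1
  have h3k : orderOf w ∣ 3 * k := by
    rw [orderOf_dvd_iff_pow_eq_one, mul_comm, pow_mul, hk, hu3]
  rw [hord] at h3k
  have h9k : 9 ∣ 3 * k := dvd_trans h9 h3k
  have h3 : 3 ∣ k := by omega
  obtain ⟨j, hj⟩ := h3
  refine ⟨((w ^ j : Fˣ) : F), ?_⟩
  rw [← hu, ← hk, hj, ← Units.val_pow_eq_pow_val, ← pow_mul, mul_comm]

section std

variable {R : Subgroup (GL (Fin 3) F)} {g h : GL (Fin 3) F} {ζ : F}
  {B : Basis (Fin 3) F (Fin 3 → F)}

/-- Elements of order 2 of `PSL_3` are conjugate into the normalizer. -/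
theorem conj_two [Fintype F] (h2 : (2 : F) ≠ 0) (S : IsStd R g h ζ B) (x : GL (Fin 3) F)
    (hx : x ∈ Cfsg.Geo.specialLinear (Fin 3) F)
    (hx2 : ∃ z : F, ((x ^ 2 : GL (Fin 3) F) : Matrix (Fin 3) (Fin 3) F) =
      z • (1 : Matrix (Fin 3) (Fin 3) F))
    (hxns : ∀ z : F, (x : Matrix (Fin 3) (Fin 3) F) ≠ z • (1 : Matrix (Fin 3) (Fin 3) F)) :
    ∃ g' ∈ Cfsg.Geo.specialLinear (Fin 3) F,
      g'⁻¹ * x * g' ∈ Cfsg.Geo.subgroupNormalizer R := by
  classical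
  obtain ⟨c, hc⟩ := hx2
  obtain ⟨X, hX⟩ : ∃ X : Matrix (Fin 3) (Fin 3) F, X = (x : Matrix (Fin 3) (Fin 3) F) :=
    ⟨_, rfl⟩
  have hXd : X.det = 1 := by rw [hX]; exact (mem_SL_iff x).1 hx
  have hXX : X * X = c • (1 : Matrix (Fin 3) (Fin 3) F) := by
    rw [hX, ← hc, pow_two, Units.val_mul]
  have hc3 : c ^ 3 = 1 := by
    have h1 := congrArg Matrix.det hXX
    rw [Matrix.det_mul, hXd, Matrix.det_smul, Matrix.det_one, Fintype.card_fin, mul_one,
      mul_one] at h1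
    exact h1.symm
  have hc0 : c ≠ 0 := by
    intro h0
    rw [h0] at hc3
    simp at hc3
  have hccc : c * c * c = 1 := by rw [← hc3]; ring
  have hX' : (c • X) * (c • X) = 1 := by
    rw [Matrix.smul_mul, Matrix.mul_smul, hXX, smul_smul, smul_smul, hccc, one_smul]
  have hX'd : (c • X).det = 1 := by
    rw [Matrix.det_smul, Fintype.card_fin, hc3, hXd, mul_one]
  have hX'1 : c • X ≠ 1 := by
    intro h1
    apply hxns c⁻¹
    rw [← hX]
    have h4 : c⁻¹ • (c • X) = c⁻¹ • (1 : Matrix (Fin 3) (Fin 3) F) :=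
      congrArg (fun M : Matrix (Fin 3) (Fin 3) F => c⁻¹ • M) h1
    rw [smul_smul, inv_mul_cancel₀ hc0, one_smul] at h4
    exact h4
  obtain ⟨M, hMN, hMM, hMd, hM1⟩ := exists_invol_normalizer S
  obtain ⟨Q, hQ⟩ := invol_conj h2 (c • X) (M : Matrix (Fin 3) (Fin 3) F) hX' hMM hX'd hMd
    hX'1 hM1
  obtain ⟨Sg, hSg⟩ := exists_scalar c⁻¹ (inv_ne_zero hc0)
  have hM' : ((Sg * M : GL (Fin 3) F) : Matrix (Fin 3) (Fin 3) F) =
      c⁻¹ • (M : Matrix (Fin 3) (Fin 3) F) := by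
    rw [Units.val_mul, hSg, Matrix.smul_mul, Matrix.one_mul]
  have hM'N : Sg * M ∈ Cfsg.Geo.subgroupNormalizer R :=
    smul_mem_normalizer R M (Sg * M) hMN c⁻¹ (inv_ne_zero hc0) hM'
  have hQx : Q * x = (Sg * M) * Q := by
    apply Units.ext
    rw [Units.val_mul, Units.val_mul, hM', Matrix.smul_mul, ← hQ, Matrix.mul_smul, smul_smul,
      inv_mul_cancel₀ hc0, one_smul, hX]
  have hQmem : Q * x * Q⁻¹ ∈ Cfsg.Geo.subgroupNormalizer R := by
    rw [hQx, mul_assoc, mul_inv_cancel, mul_one]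
    exact hM'N
  obtain ⟨C, hC, hCd⟩ := Cfsg.Agent.Lib.Helper37.InvConj.exists_comm_det (by norm_num : 0 < 3)
    X hc0 hXX ((Q : Matrix (Fin 3) (Fin 3) F).det)⁻¹
  rw [hX] at hC
  exact exists_conj_SL x _ Q hQmem C hC (by rw [hCd, mul_inv_cancel₀ (det_ne_zero_of_GL Q)])

/-- Elements of order 3 of `PSL_3` are conjugate into the normalizer when `9 ∣ q - 1`. -/
theorem conj_three [Fintype F] (h3 : (3 : F) ≠ 0) (h9 : 9 ∣ Fintype.card F - 1)
    (S : IsStd R g h ζ B) (x : GL (Fin 3) F)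
    (hx : x ∈ Cfsg.Geo.specialLinear (Fin 3) F)
    (hx3 : ∃ z : F, ((x ^ 3 : GL (Fin 3) F) : Matrix (Fin 3) (Fin 3) F) =
      z • (1 : Matrix (Fin 3) (Fin 3) F)) :
    ∃ g' ∈ Cfsg.Geo.specialLinear (Fin 3) F,
      g'⁻¹ * x * g' ∈ Cfsg.Geo.subgroupNormalizer R := by
  classical
  obtain ⟨c, hc⟩ := hx3
  obtain ⟨X, hX⟩ : ∃ X : Matrix (Fin 3) (Fin 3) F, X = (x : Matrix (Fin 3) (Fin 3) F) :=
    ⟨_, rfl⟩
  have hXd : X.det = 1 := by rw [hX]; exact (mem_SL_iff x).1 hx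
  have hX3 : X ^ 3 = c • (1 : Matrix (Fin 3) (Fin 3) F) := by
    rw [hX, ← hc, Units.val_pow_eq_pow_val]
  have hc3 : c ^ 3 = 1 := by
    have h1 := congrArg Matrix.det hX3
    rw [Matrix.det_pow, hXd, Matrix.det_smul, Matrix.det_one, Fintype.card_fin, mul_one,
      one_pow] at h1
    exact h1.symm
  have hc0 : c ≠ 0 := by
    intro h0
    rw [h0] at hc3
    simp at hc3
  obtain ⟨μ, hμ⟩ := exists_cube_root h9 c hc3
  have hμ0 : μ ≠ 0 := by
    intro h0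
    rw [h0] at hμ
    apply hc0
    rw [← hμ]
    simp
  obtain ⟨Y, hY⟩ : ∃ Y : Matrix (Fin 3) (Fin 3) F, Y = μ⁻¹ • X := ⟨_, rfl⟩
  have hY3 : Y ^ 3 = 1 := by
    rw [hY, smul_pow, hX3, smul_smul, inv_pow, hμ, inv_mul_cancel₀ hc0, one_smul]
  have hXY : X = μ • Y := by
    rw [hY, smul_smul, mul_inv_cancel₀ hμ0, one_smul]
  obtain ⟨b, ε, hbε⟩ := exists_eigenbasis_matrix_cube h3 ζ S.zeta (fun _ : Unit => Y)
    (fun _ _ => rfl) (fun _ => hY3)
  obtain ⟨κ, hκ⟩ : ∃ κ : Fin 3 → F, κ = fun i => μ * ε i () := ⟨_, rfl⟩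
  have hYb : ∀ i, Y *ᵥ b i = ε i () • b i := fun i => hbε i ()
  have hXb : ∀ i, X *ᵥ b i = κ i • b i := by
    intro i
    rw [hXY, Matrix.smul_mulVec, hYb i, smul_smul, hκ]
  have hκ3 : ∀ i, κ i ^ 3 = c := by
    intro i
    rw [hκ]
    show (μ * ε i ()) ^ 3 = c
    rw [mul_pow, hμ, eig_cube Y hY3 (b i) (ε i ()) (b.ne_zero i) (hYb i), mul_one]
  obtain ⟨M, hMN, hM⟩ := exists_diag_normalizer S κ c hc0 hκ3
  obtain ⟨Q, hQ⟩ := exists_gl_of_equiv (b.equiv B (Equiv.refl _))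
  have hQx : Q * x = M * Q := by
    apply Units.ext
    rw [Units.val_mul, Units.val_mul]
    apply ext_basis b
    intro i
    rw [← Matrix.mulVec_mulVec, ← Matrix.mulVec_mulVec, hQ, hQ, Basis.equiv_apply,
      Equiv.refl_apply, ← hX, hXb i, map_smul, Basis.equiv_apply, Equiv.refl_apply, hM]
  have hQmem : Q * x * Q⁻¹ ∈ Cfsg.Geo.subgroupNormalizer R := by
    rw [hQx, mul_assoc, mul_inv_cancel, mul_one]
    exact hMN
  obtain ⟨C, hC, hCd⟩ := exists_comm_det_of_eigenbasis X b κ hXb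
    ((Q : Matrix (Fin 3) (Fin 3) F).det)⁻¹
  rw [hX] at hC
  exact exists_conj_SL x _ Q hQmem C hC (by rw [hCd, mul_inv_cancel₀ (det_ne_zero_of_GL Q)])

end std

/-- The order of `SL_3(q)` times `q - 1` is the order of `GL_3(q)`. -/
theorem card_SL_mul [Fintype F] :
    Nat.card (Cfsg.Geo.specialLinear (Fin 3) F) * (Fintype.card F - 1) =
      Nat.card (GL (Fin 3) F) := by
  classical
  have hsurj : Function.Surjective (Matrix.GeneralLinearGroup.det : GL (Fin 3) F →* Fˣ) := by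
    intro u
    have hd : (Matrix.diagonal ![(u : F), 1, 1]).det = (u : F) := by
      rw [Matrix.det_diagonal, Fin.prod_univ_three]
      simp
    refine ⟨Matrix.GeneralLinearGroup.mkOfDetNeZero (Matrix.diagonal ![(u : F), 1, 1]) ?_, ?_⟩
    · rw [hd]
      exact u.ne_zero
    · apply Units.ext
      exact hd
  have h := Subgroup.card_mul_index (Matrix.GeneralLinearGroup.det : GL (Fin 3) F →* Fˣ).ker
  rw [Subgroup.index_ker, MonoidHom.range_eq_top.mpr hsurj, Subgroup.card_top, Nat.card_units,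
    Nat.card_eq_fintype_card (α := F)] at h
  exact h

theorem arith_81 (m N : ℕ) (hm : m % 3 ≠ 0)
    (hN : N * (3 * m) = ∏ i : Fin 3, ((3 * m + 1) ^ 3 - (3 * m + 1) ^ (i : ℕ))) :
    ¬ 81 ∣ N := by
  rw [Fin.prod_univ_three] at hN
  have e0 : (3 * m + 1) ^ 3 - (3 * m + 1) ^ ((0 : Fin 3) : ℕ) =
      9 * m * (3 * m ^ 2 + 3 * m + 1) := by
    apply Nat.sub_eq_of_eq_add
    show (3 * m + 1) ^ 3 = 9 * m * (3 * m ^ 2 + 3 * m + 1) + (3 * m + 1) ^ 0
    ring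
  have e1 : (3 * m + 1) ^ 3 - (3 * m + 1) ^ ((1 : Fin 3) : ℕ) =
      (3 * m + 1) * (3 * m) * (3 * m + 2) := by
    apply Nat.sub_eq_of_eq_add
    show (3 * m + 1) ^ 3 = (3 * m + 1) * (3 * m) * (3 * m + 2) + (3 * m + 1) ^ 1
    ring
  have e2 : (3 * m + 1) ^ 3 - (3 * m + 1) ^ ((2 : Fin 3) : ℕ) = (3 * m + 1) ^ 2 * (3 * m) := by
    apply Nat.sub_eq_of_eq_add
    show (3 * m + 1) ^ 3 = (3 * m + 1) ^ 2 * (3 * m) + (3 * m + 1) ^ 2
    ring
  rw [e0, e1, e2] at hN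
  have hm0 : 0 < 3 * m := by omega
  obtain ⟨P, hP⟩ : ∃ P : ℕ,
      P = m ^ 2 * (3 * m ^ 2 + 3 * m + 1) * (3 * m + 1) ^ 3 * (3 * m + 2) := ⟨_, rfl⟩
  have hN' : N = 27 * P := by
    apply Nat.eq_of_mul_eq_mul_right hm0
    rw [hN, hP]
    ring
  rintro ⟨k, hk⟩
  have h3 : 3 ∣ P := ⟨k, by omega⟩
  rw [hP] at h3
  have p3 : Nat.Prime 3 := by norm_num
  rcases (Nat.Prime.dvd_mul p3).mp h3 with h | h
  · rcases (Nat.Prime.dvd_mul p3).mp h with h | h
    · rcases (Nat.Prime.dvd_mul p3).mp h with h | h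
      · have h4 := p3.dvd_of_dvd_pow h
        omega
      · have e : 3 * m ^ 2 + 3 * m + 1 = 3 * (m ^ 2 + m) + 1 := by ring
        rw [e] at h
        have h4 := (Nat.dvd_add_right (dvd_mul_right 3 (m ^ 2 + m))).mp h
        norm_num at h4
    · have h4 := p3.dvd_of_dvd_pow h
      omega
  · omega

section std2

variable {R : Subgroup (GL (Fin 3) F)} {g h : GL (Fin 3) F} {ζ : F}
  {B : Basis (Fin 3) F (Fin 3 → F)}

/-- When `p ≡ 4, 7 (mod 9)`, the prime 3 does not divide the index of the normalizer. -/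
theorem not_three_dvd [Fintype F] {p : ℕ} (hF : Fintype.card F = p) (hp3 : p % 3 = 1)
    (hp9 : p % 9 ≠ 1) (S : IsStd R g h ζ B) :
    ¬ 3 ∣ (Cfsg.Geo.subgroupNormalizer R).relIndex (Cfsg.Geo.specialLinear (Fin 3) F) := by
  classical
  intro h3
  have hRle : R ≤ Cfsg.Geo.subgroupNormalizer R ⊓ Cfsg.Geo.specialLinear (Fin 3) F :=
    le_inf Subgroup.le_normalizer (le_SL S)
  have h27 : 27 ∣
      Nat.card ↥(Cfsg.Geo.subgroupNormalizer R ⊓ Cfsg.Geo.specialLinear (Fin 3) F) := by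
    rw [← S.card]
    exact Subgroup.card_dvd_of_le hRle
  have hmul : Nat.card ↥(Cfsg.Geo.subgroupNormalizer R ⊓ Cfsg.Geo.specialLinear (Fin 3) F) *
      (Cfsg.Geo.subgroupNormalizer R).relIndex (Cfsg.Geo.specialLinear (Fin 3) F) =
      Nat.card ↥(Cfsg.Geo.specialLinear (Fin 3) F) := by
    have h := Subgroup.relIndex_mul_relIndex (⊥ : Subgroup (GL (Fin 3) F))
      (Cfsg.Geo.subgroupNormalizer R ⊓ Cfsg.Geo.specialLinear (Fin 3) F)
      (Cfsg.Geo.specialLinear (Fin 3) F) bot_le inf_le_right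
    rw [Subgroup.relIndex_bot_left, Subgroup.relIndex_bot_left, Subgroup.inf_relIndex_right]
      at h
    exact h
  have h81 : 81 ∣ Nat.card ↥(Cfsg.Geo.specialLinear (Fin 3) F) := by
    rw [← hmul]
    exact Nat.mul_dvd_mul h27 h3
  obtain ⟨m, hm⟩ : ∃ m, p = 3 * m + 1 := ⟨p / 3, by omega⟩
  have hm3 : m % 3 ≠ 0 := by omega
  have hcard := card_SL_mul (F := F)
  rw [Matrix.card_GL_field, hF, hm] at hcard
  have e : 3 * m + 1 - 1 = 3 * m := by omega
  rw [e] at hcard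
  exact arith_81 m _ hm3 hcard h81

/-- For a prime `r ≥ 5` dividing the index, some element of order `r` is not conjugate into
the normalizer. -/
theorem exists_bad_of_ge_five [Fintype F] (h3 : (3 : F) ≠ 0) (S : IsStd R g h ζ B) (r : ℕ)
    [Fact r.Prime] (hr5 : 5 ≤ r)
    (hΩ : r ∣ (Cfsg.Geo.subgroupNormalizer R).relIndex (Cfsg.Geo.specialLinear (Fin 3) F)) :
    ¬ (∀ x ∈ Cfsg.Geo.specialLinear (Fin 3) F,
      (∃ z : F, ((x ^ r : GL (Fin 3) F) : Matrix (Fin 3) (Fin 3) F) =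
        z • (1 : Matrix (Fin 3) (Fin 3) F)) →
      (∀ z : F, (x : Matrix (Fin 3) (Fin 3) F) ≠ z • (1 : Matrix (Fin 3) (Fin 3) F)) →
      ∃ g ∈ Cfsg.Geo.specialLinear (Fin 3) F,
        g⁻¹ * x * g ∈ Cfsg.Geo.subgroupNormalizer R) := by
  classical
  intro hall
  have hrp : r.Prime := Fact.out
  have hdvd : r ∣ Nat.card ↥(Cfsg.Geo.specialLinear (Fin 3) F) :=
    dvd_trans hΩ (Subgroup.relIndex_dvd_card _ _)
  obtain ⟨x, hx⟩ := exists_prime_orderOf_dvd_card' r hdvd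
  have hxr : (x : GL (Fin 3) F) ^ r = 1 := by
    have h1 : x ^ r = 1 := by rw [← hx]; exact pow_orderOf_eq_one x
    have h2 := congrArg Subtype.val h1
    rw [Subgroup.coe_pow, Subgroup.coe_one] at h2
    exact h2
  have hx1 : (x : GL (Fin 3) F) ≠ 1 := by
    intro h1
    have h4 : x = 1 := Subtype.ext h1
    rw [h4, orderOf_one] at hx
    have := hrp.one_lt
    omega
  have hns : ∀ z : F, ((x : GL (Fin 3) F) : Matrix (Fin 3) (Fin 3) F) ≠
      z • (1 : Matrix (Fin 3) (Fin 3) F) := by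
    intro z hz
    have hd : ((x : GL (Fin 3) F) : Matrix (Fin 3) (Fin 3) F).det = 1 := (mem_SL_iff _).1 x.2
    rw [hz, Matrix.det_smul, Matrix.det_one, Fintype.card_fin, mul_one] at hd
    have hzr : z ^ r = 1 := by
      have h1 := congrArg (fun u : GL (Fin 3) F => (u : Matrix (Fin 3) (Fin 3) F)) hxr
      simp only [Units.val_pow_eq_pow_val, Units.val_one] at h1
      rw [hz, smul_pow, one_pow] at h1
      have h2 := congrFun (congrFun h1 0) 0
      simpa using h2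
    have hcop : Nat.gcd 3 r = 1 := by
      rw [← Nat.coprime_iff_gcd_eq_one, Nat.coprime_primes (by norm_num) hrp]
      omega
    have ho : orderOf z ∣ 1 := by
      rw [← hcop]
      exact Nat.dvd_gcd (orderOf_dvd_of_pow_eq_one hd) (orderOf_dvd_of_pow_eq_one hzr)
    have hz1 : z = 1 := orderOf_eq_one_iff.mp (Nat.dvd_one.mp ho)
    apply hx1
    apply Units.ext
    rw [hz, hz1, one_smul, Units.val_one]
  obtain ⟨g', hg', hconj⟩ := hall x x.2 ⟨1, by rw [hxr, Units.val_one, one_smul]⟩ hns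
  have hy : (g'⁻¹ * (x : GL (Fin 3) F) * g') ^ r = 1 := by
    have h1 : (g'⁻¹ * (x : GL (Fin 3) F) * g') ^ r = g'⁻¹ * (x : GL (Fin 3) F) ^ r * g' := by
      have h4 := conj_pow (a := g'⁻¹) (b := (x : GL (Fin 3) F)) (i := r)
      rw [inv_inv] at h4
      exact h4
    rw [h1, hxr, mul_one, inv_mul_cancel]
  obtain ⟨ξ, hξ⟩ := scalar_of_normalizer h3 S (g'⁻¹ * (x : GL (Fin 3) F) * g') hconj r hr5 1
    (by rw [hy, Units.val_one, one_smul])
  apply hns ξ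
  have hxe : (x : GL (Fin 3) F) = g' * (g'⁻¹ * (x : GL (Fin 3) F) * g') * g'⁻¹ := by group
  rw [hxe, Units.val_mul, Units.val_mul, hξ, Matrix.mul_smul, Matrix.mul_one, Matrix.smul_mul,
    ← Units.val_mul, mul_inv_cancel, Units.val_one]

end std2

end Cfsg.Agent.Lib.Helper37.Heis3C
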