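import Mathlib
import Cfsg.Prelude.Def_GeometricClasses
import Cfsg.Prelude.Def_LieClassical
import Cfsg.Agent.Lib.Helper40.HermAdj
import Cfsg.Agent.Lib.Helper40.UnitDet
import Cfsg.Agent.Lib.Helper37.Heis3A
import Cfsg.Agent.Lib.Helper37.Heis3B
import Cfsg.Agent.Lib.Helper37.Heis3C

set_option autoImplicit false

open scoped MatrixGroups Matrix

namespace Cfsg.Agent.Lib.Helper37.Heis3U

open Module Cfsg.Agent.Lib.Helper37.Heis3A Cfsg.Agent.Lib.Helper37.Heis3B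
  Cfsg.Agent.Lib.Helper37.Heis3C Cfsg.Agent.Lib.Helper40.HermAdj

universe u

variable {F : Type u} [Field F]

/-- An element of `SL_3` whose `r`-th power is scalar has order dividing `3r`. -/
theorem pow_eq_one_of_scalar (x : GL (Fin 3) F) (hx : x ∈ Cfsg.Geo.specialLinear (Fin 3) F)
    (r : ℕ) (hxr : ∃ z : F, ((x ^ r : GL (Fin 3) F) : Matrix (Fin 3) (Fin 3) F) =
      z • (1 : Matrix (Fin 3) (Fin 3) F)) : x ^ (r * 3) = 1 := by
  obtain ⟨c, hc⟩ := hxr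
  have hd : (x : Matrix (Fin 3) (Fin 3) F).det = 1 := (mem_SL_iff x).1 hx
  have hc3 : c ^ 3 = 1 := by
    have h1 := congrArg Matrix.det hc
    rw [Units.val_pow_eq_pow_val, Matrix.det_pow, hd, one_pow, Matrix.det_smul, Matrix.det_one,
      Fintype.card_fin, mul_one] at h1
    exact h1.symm
  apply Units.ext
  rw [pow_mul, Units.val_pow_eq_pow_val, hc, smul_pow, one_pow, hc3, one_smul, Units.val_one]

section std

variable {R : Subgroup (GL (Fin 3) F)} {g h : GL (Fin 3) F} {ζ : F}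
  {B : Basis (Fin 3) F (Fin 3 → F)}

theorem adj_comm_aux (φ : F →+* F) (Mm A A' : Matrix (Fin 3) (Fin 3) F)
    (hMa : A' * Mm = Mm * A) (h1 : adj φ A' * A' = 1) (h2 : adj φ A * A = 1) :
    (adj φ Mm * Mm) * A = A * (adj φ Mm * Mm) := by
  have h2' : A * adj φ A = 1 := mul_eq_one_comm.mp h2
  obtain ⟨P, hPdef⟩ : ∃ P : Matrix (Fin 3) (Fin 3) F, P = adj φ Mm * Mm := ⟨_, rfl⟩
  rw [← hPdef]
  have e1 : adj φ (Mm * A) * (Mm * A) = adj φ A * P * A := by
    rw [adj_mul, hPdef]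
    simp only [mul_assoc]
  have e2 : adj φ (A' * Mm) * (A' * Mm) = P := by
    rw [adj_mul, hPdef]
    calc adj φ Mm * adj φ A' * (A' * Mm) = adj φ Mm * (adj φ A' * A') * Mm := by
          simp only [mul_assoc]
      _ = adj φ Mm * Mm := by rw [h1, mul_one]
  have hP : adj φ A * P * A = P := by rw [← e1, ← hMa, e2]
  calc P * A = (A * adj φ A) * P * A := by rw [h2', one_mul]
    _ = A * (adj φ A * P * A) := by simp only [mul_assoc]
    _ = A * P := by rw [hP]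

/-- If `R` consists of unitary matrices and `M` normalizes `R`, then `adj M * M` centralizes
`R`. -/
theorem adj_comm_of_normalizer (φ : F →+* F)
    (hRU : ∀ a ∈ R, adj φ (a : Matrix (Fin 3) (Fin 3) F) * (a : Matrix (Fin 3) (Fin 3) F) = 1)
    (M : GL (Fin 3) F) (hM : M ∈ Cfsg.Geo.subgroupNormalizer R) (a : GL (Fin 3) F)
    (ha : a ∈ R) :
    (adj φ (M : Matrix (Fin 3) (Fin 3) F) * (M : Matrix (Fin 3) (Fin 3) F)) *
        (a : Matrix (Fin 3) (Fin 3) F) =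
      (a : Matrix (Fin 3) (Fin 3) F) *
        (adj φ (M : Matrix (Fin 3) (Fin 3) F) * (M : Matrix (Fin 3) (Fin 3) F)) := by
  have ha' : M * a * M⁻¹ ∈ R := ((Subgroup.mem_normalizer_iff.1 hM) a).1 ha
  have hMa : ((M * a * M⁻¹ : GL (Fin 3) F) : Matrix (Fin 3) (Fin 3) F) *
      (M : Matrix (Fin 3) (Fin 3) F) =
      (M : Matrix (Fin 3) (Fin 3) F) * (a : Matrix (Fin 3) (Fin 3) F) := by
    rw [← Units.val_mul, ← Units.val_mul, inv_mul_cancel_right]
  exact adj_comm_aux φ _ _ _ hMa (hRU _ ha') (hRU a ha)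

/-- An element of determinant 1 of the normalizer of a unitary extraspecial group is
unitary (`p ≡ 2 (mod 3)`). -/
theorem unitary_of_normalizer (h3 : (3 : F) ≠ 0) (S : IsStd R g h ζ B) (φ : F →+* F)
    (hφ2 : ∀ x, φ (φ x) = x) {p : ℕ} (hφ : ∀ x, φ x = x ^ p) (hp3 : p % 3 = 2)
    (hRU : ∀ a ∈ R, adj φ (a : Matrix (Fin 3) (Fin 3) F) * (a : Matrix (Fin 3) (Fin 3) F) = 1)
    (M : GL (Fin 3) F) (hM : M ∈ Cfsg.Geo.subgroupNormalizer R)
    (hdet : (M : Matrix (Fin 3) (Fin 3) F).det = 1) :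
    adj φ (M : Matrix (Fin 3) (Fin 3) F) * (M : Matrix (Fin 3) (Fin 3) F) = 1 := by
  obtain ⟨P, hP⟩ : ∃ P : Matrix (Fin 3) (Fin 3) F,
      P = adj φ (M : Matrix (Fin 3) (Fin 3) F) * (M : Matrix (Fin 3) (Fin 3) F) := ⟨_, rfl⟩
  have hg := adj_comm_of_normalizer φ hRU M hM g S.g_mem
  have hh := adj_comm_of_normalizer φ hRU M hM h S.h_mem
  rw [← hP] at hg hh ⊢
  obtain ⟨ξ, hξ⟩ := scalar_of_comm h3 S P hg hh
  have hdetP : P.det = 1 := by
    rw [hP, Matrix.det_mul, Cfsg.Agent.Lib.Helper40.UnitDet.det_adj, hdet, map_one, mul_one]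
  have hξ3 : ξ ^ 3 = 1 := by
    rw [hξ, Matrix.det_smul, Matrix.det_one, Fintype.card_fin, mul_one] at hdetP
    exact hdetP
  have hξ0 : ξ ≠ 0 := by
    intro h0
    rw [h0] at hξ3
    simp at hξ3
  have hadjP : adj φ P = P := by rw [hP, adj_mul, adj_adj φ hφ2]
  have hφξ : φ ξ = ξ := by
    rw [hξ] at hadjP
    have h1 := congrFun (congrFun hadjP 0) 0
    rw [adj_apply] at h1
    simpa using h1
  have hξp : ξ ^ (p - 1) = 1 := by
    have h1 : ξ ^ (p - 1) * ξ = 1 * ξ := by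
      rw [← pow_succ, one_mul]
      have e : p - 1 + 1 = p := by omega
      rw [e, ← hφ, hφξ]
    exact mul_right_cancel₀ hξ0 h1
  have hcop : Nat.gcd 3 (p - 1) = 1 := by
    rw [← Nat.coprime_iff_gcd_eq_one, Nat.Prime.coprime_iff_not_dvd Nat.prime_three]
    omega
  have ho : orderOf ξ ∣ 1 := by
    rw [← hcop]
    exact Nat.dvd_gcd (orderOf_dvd_of_pow_eq_one hξ3) (orderOf_dvd_of_pow_eq_one hξp)
  have hξ1 : ξ = 1 := orderOf_eq_one_iff.mp (Nat.dvd_one.mp ho)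
  rw [hξ, hξ1, one_smul]

/-- Conjugacy into the normalizer by `SL_3` can be improved to conjugacy by `SU_3`. -/
theorem exists_conj_SU [Fintype F] (h3 : (3 : F) ≠ 0) (S : IsStd R g h ζ B) {p : ℕ}
    (hF : Fintype.card F = p ^ 2) (hp3 : p % 3 = 2) (hRU : R ≤ Cfsg.GU 3 F p)
    (x : GL (Fin 3) F) (hx : x ∈ Cfsg.GU 3 F p ⊓ Cfsg.Geo.specialLinear (Fin 3) F)
    (N : ℕ) (hN : (N : F) ≠ 0) (hxN : x ^ N = 1)
    (hconj : ∃ g' ∈ Cfsg.Geo.specialLinear (Fin 3) F,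
      g'⁻¹ * x * g' ∈ Cfsg.Geo.subgroupNormalizer R) :
    ∃ g' ∈ Cfsg.GU 3 F p ⊓ Cfsg.Geo.specialLinear (Fin 3) F,
      g'⁻¹ * x * g' ∈ Cfsg.Geo.subgroupNormalizer R := by
  classical
  obtain ⟨φ, hφ, hφ2, l, hl⟩ := exists_phi hF
  obtain ⟨g', hg', hconj⟩ := hconj
  obtain ⟨M, hMdef⟩ : ∃ M : GL (Fin 3) F, M = g'⁻¹ * x * g' := ⟨_, rfl⟩
  rw [← hMdef] at hconj
  have hxU : adj φ (x : Matrix (Fin 3) (Fin 3) F) * (x : Matrix (Fin 3) (Fin 3) F) = 1 :=
    (mem_GU_iff φ hφ x).1 hx.1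
  have hMS : M ∈ Cfsg.Geo.specialLinear (Fin 3) F := by
    rw [hMdef]
    exact Subgroup.mul_mem _ (Subgroup.mul_mem _ (Subgroup.inv_mem _ hg') hx.2) hg'
  have hMd : (M : Matrix (Fin 3) (Fin 3) F).det = 1 := (mem_SL_iff M).1 hMS
  have hMU : adj φ (M : Matrix (Fin 3) (Fin 3) F) * (M : Matrix (Fin 3) (Fin 3) F) = 1 :=
    unitary_of_normalizer h3 S φ hφ2 hφ hp3 (fun a ha => (mem_GU_iff φ hφ a).1 (hRU ha)) M
      hconj hMd
  have hMN : (M : Matrix (Fin 3) (Fin 3) F) ^ N = 1 := by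
    have h5 : M ^ N = 1 := by
      rw [hMdef]
      have h4 := conj_pow (a := g'⁻¹) (b := x) (i := N)
      rw [inv_inv] at h4
      rw [h4, hxN, mul_one, inv_mul_cancel]
    rw [← Units.val_pow_eq_pow_val, h5, Units.val_one]
  have hxN' : (x : Matrix (Fin 3) (Fin 3) F) ^ N = 1 := by
    rw [← Units.val_pow_eq_pow_val, hxN, Units.val_one]
  have hcp : (x : Matrix (Fin 3) (Fin 3) F).charpoly =
      (M : Matrix (Fin 3) (Fin 3) F).charpoly := by
    rw [hMdef, Units.val_mul, Units.val_mul, Matrix.charpoly_mul_comm, ← mul_assoc,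
      ← Units.val_mul, mul_inv_cancel, Units.val_one, one_mul]
  obtain ⟨U, hUU, hUd, hUx⟩ := Cfsg.Agent.Lib.Helper40.UnitDet.su_conj_core φ hφ2 l hl
    (x : Matrix (Fin 3) (Fin 3) F) (M : Matrix (Fin 3) (Fin 3) F) hxU hMU N hN hxN' hMN hcp
  have hU0 : U.det ≠ 0 := by
    rw [hUd]
    exact one_ne_zero
  obtain ⟨Ug, hUg⟩ : ∃ Ug : GL (Fin 3) F, (Ug : Matrix (Fin 3) (Fin 3) F) = U :=
    ⟨Matrix.GeneralLinearGroup.mkOfDetNeZero U hU0, rfl⟩
  have hUgU : Ug ∈ Cfsg.GU 3 F p := (mem_GU_iff φ hφ Ug).2 (by rw [hUg]; exact hUU)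
  have hUgS : Ug ∈ Cfsg.Geo.specialLinear (Fin 3) F :=
    (mem_SL_iff Ug).2 (by rw [hUg]; exact hUd)
  have hUgx : Ug * x = M * Ug := by
    apply Units.ext
    rw [Units.val_mul, Units.val_mul, hUg, hUx]
  refine ⟨Ug⁻¹, Subgroup.mem_inf.2 ⟨Subgroup.inv_mem _ hUgU, Subgroup.inv_mem _ hUgS⟩, ?_⟩
  rw [inv_inv, hUgx, mul_assoc, mul_inv_cancel, mul_one]
  exact hconj

/-- When `q ≡ 4, 7 (mod 9)`, the prime 3 does not divide the index of the normalizer in any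
subgroup of `SL_3(q)` containing `R`. -/
theorem not_three_dvd_sub [Fintype F] {q : ℕ} (hF : Fintype.card F = q) (hq3 : q % 3 = 1)
    (hq9 : q % 9 ≠ 1) (S : IsStd R g h ζ B) (K : Subgroup (GL (Fin 3) F))
    (hK : K ≤ Cfsg.Geo.specialLinear (Fin 3) F) (hRK : R ≤ K) :
    ¬ 3 ∣ (Cfsg.Geo.subgroupNormalizer R).relIndex K := by
  classical
  intro h3
  have hRle : R ≤ Cfsg.Geo.subgroupNormalizer R ⊓ K := le_inf Subgroup.le_normalizer hRK
  have h27 : 27 ∣ Nat.card ↥(Cfsg.Geo.subgroupNormalizer R ⊓ K) := by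
    rw [← S.card]
    exact Subgroup.card_dvd_of_le hRle
  have hmul : Nat.card ↥(Cfsg.Geo.subgroupNormalizer R ⊓ K) *
      (Cfsg.Geo.subgroupNormalizer R).relIndex K = Nat.card ↥K := by
    have h := Subgroup.relIndex_mul_relIndex (⊥ : Subgroup (GL (Fin 3) F))
      (Cfsg.Geo.subgroupNormalizer R ⊓ K) K bot_le inf_le_right
    rw [Subgroup.relIndex_bot_left, Subgroup.relIndex_bot_left, Subgroup.inf_relIndex_right]
      at h
    exact h
  have h81 : 81 ∣ Nat.card ↥(Cfsg.Geo.specialLinear (Fin 3) F) := by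
    refine dvd_trans ?_ (Subgroup.card_dvd_of_le hK)
    rw [← hmul]
    exact Nat.mul_dvd_mul h27 h3
  obtain ⟨m, hm⟩ : ∃ m, q = 3 * m + 1 := ⟨q / 3, by omega⟩
  have hm3 : m % 3 ≠ 0 := by omega
  have hcard := card_SL_mul (F := F)
  rw [Matrix.card_GL_field, hF, hm] at hcard
  have e : 3 * m + 1 - 1 = 3 * m := by omega
  rw [e] at hcard
  exact arith_81 m _ hm3 hcard h81

/-- For a prime `r ≥ 5` dividing the index in a subgroup `K` of `SL_3`, some element of `K`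
of order `r` is not `K`-conjugate into the normalizer. -/
theorem exists_bad_of_ge_five_sub [Fintype F] (h3 : (3 : F) ≠ 0) (S : IsStd R g h ζ B)
    (K : Subgroup (GL (Fin 3) F)) (hK : K ≤ Cfsg.Geo.specialLinear (Fin 3) F) (r : ℕ)
    [Fact r.Prime] (hr5 : 5 ≤ r)
    (hΩ : r ∣ (Cfsg.Geo.subgroupNormalizer R).relIndex K) :
    ¬ (∀ x ∈ K,
      (∃ z : F, ((x ^ r : GL (Fin 3) F) : Matrix (Fin 3) (Fin 3) F) =
        z • (1 : Matrix (Fin 3) (Fin 3) F)) →
      (∀ z : F, (x : Matrix (Fin 3) (Fin 3) F) ≠ z • (1 : Matrix (Fin 3) (Fin 3) F)) →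
      ∃ g ∈ K, g⁻¹ * x * g ∈ Cfsg.Geo.subgroupNormalizer R) := by
  classical
  intro hall
  have hrp : r.Prime := Fact.out
  have hdvd : r ∣ Nat.card ↥K := dvd_trans hΩ (Subgroup.relIndex_dvd_card _ _)
  obtain ⟨x, hx⟩ := exists_prime_orderOf_dvd_card' r hdvd
  have hxr : (x : GL (Fin 3) F) ^ r = 1 := by
    have h1 : x ^ r = 1 := by rw [← hx]; exact pow_orderOf_eq_one x
    have h2 := congrArg Subtype.val h1
    rw [Subgroup.coe_pow, Subgroup.coe_one] at h2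
    exact h2
  have hx1 : (x : GL (Fin 3) F) ≠ 1 := by
    intro h1
    have h4 : x = 1 := Subtype.ext h1
    rw [h4, orderOf_one] at hx
    have := hrp.one_lt
    omega
  have hns : ∀ z : F, ((x : GL (Fin 3) F) : Matrix (Fin 3) (Fin 3) F) ≠
      z • (1 : Matrix (Fin 3) (Fin 3) F) := by
    intro z hz
    have hd : ((x : GL (Fin 3) F) : Matrix (Fin 3) (Fin 3) F).det = 1 :=
      (mem_SL_iff _).1 (hK x.2)
    rw [hz, Matrix.det_smul, Matrix.det_one, Fintype.card_fin, mul_one] at hd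
    have hzr : z ^ r = 1 := by
      have h1 := congrArg (fun u : GL (Fin 3) F => (u : Matrix (Fin 3) (Fin 3) F)) hxr
      simp only [Units.val_pow_eq_pow_val, Units.val_one] at h1
      rw [hz, smul_pow, one_pow] at h1
      have h2 := congrFun (congrFun h1 0) 0
      simpa using h2
    have hcop : Nat.gcd 3 r = 1 := by
      rw [← Nat.coprime_iff_gcd_eq_one, Nat.coprime_primes (by norm_num) hrp]
      omega
    have ho : orderOf z ∣ 1 := by
      rw [← hcop]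
      exact Nat.dvd_gcd (orderOf_dvd_of_pow_eq_one hd) (orderOf_dvd_of_pow_eq_one hzr)
    have hz1 : z = 1 := orderOf_eq_one_iff.mp (Nat.dvd_one.mp ho)
    apply hx1
    apply Units.ext
    rw [hz, hz1, one_smul, Units.val_one]
  obtain ⟨g', hg', hconj⟩ := hall x x.2 ⟨1, by rw [hxr, Units.val_one, one_smul]⟩ hns
  have hy : (g'⁻¹ * (x : GL (Fin 3) F) * g') ^ r = 1 := by
    have h1 : (g'⁻¹ * (x : GL (Fin 3) F) * g') ^ r = g'⁻¹ * (x : GL (Fin 3) F) ^ r * g' := by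
      have h4 := conj_pow (a := g'⁻¹) (b := (x : GL (Fin 3) F)) (i := r)
      rw [inv_inv] at h4
      exact h4
    rw [h1, hxr, mul_one, inv_mul_cancel]
  obtain ⟨ξ, hξ⟩ := scalar_of_normalizer h3 S (g'⁻¹ * (x : GL (Fin 3) F) * g') hconj r hr5 1
    (by rw [hy, Units.val_one, one_smul])
  apply hns ξ
  have hxe : (x : GL (Fin 3) F) = g' * (g'⁻¹ * (x : GL (Fin 3) F) * g') * g'⁻¹ := by group
  rw [hxe, Units.val_mul, Units.val_mul, hξ, Matrix.mul_smul, Matrix.mul_one, Matrix.smul_mul,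
    ← Units.val_mul, mul_inv_cancel, Units.val_one]

end std

end Cfsg.Agent.Lib.Helper37.Heis3U
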