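import Mathlib
import Cfsg.Prelude.Def_Classical
import Cfsg.Prelude.Def_GeometricClasses
import Cfsg.Agent.Lib.Helper37.HypStmt

/-!
# S5992: final assembly from the pieces `Invol`, `B1S`, `B2S`, `NDiv`.
-/

set_option autoImplicit false

universe u

open scoped Matrix

namespace Cfsg.Agent.Lib.Helper37.HypAsm

open Cfsg.Agent.Lib.Helper37.HypStmt

theorem thm_of (hInv : Invol.{u}) (hB1 : B1S.{u}) (hB2 : B2S.{u}) (hND : NDiv.{u})
    {F : Type u} [Field F] [Fintype F] {p : ℕ} [Fact p.Prime] [CharP F p]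
    (hqodd : Odd (Fintype.card F))
    (d m : ℕ) (hd : 3 ≤ d) (hm : 2 ≤ m) (hme : Even m) (hmn : m ≤ 2 * d)
    (r : ℕ) [Fact r.Prime] (hrp : r ≠ p)
    (hrΩ : r ∣ Nat.card {W : Submodule F (Unit ⊕ (Fin d ⊕ Fin d) → F) //
      Module.finrank F ↥W = m ∧
        Cfsg.Geo.IsNondegenerateOn (QuadraticMap.polar (Cfsg.quadFormOdd d F)) W ∧
        Cfsg.Geo.IsPlusTypeOn (Cfsg.quadFormOdd d F) W})
    (i c : ℕ) (hi : i = orderOf ((Fintype.card F : ℕ) : ZMod r))
    (hc : c = if Even i then i else 2 * i) :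
    (∀ x : Matrix.GeneralLinearGroup (Unit ⊕ (Fin d ⊕ Fin d)) F,
      x ∈ Cfsg.Geo.omegaGL (Cfsg.quadFormOdd d F) → orderOf x = r →
      ∃ W : Submodule F (Unit ⊕ (Fin d ⊕ Fin d) → F),
        (Module.finrank F ↥W = m ∧
          Cfsg.Geo.IsNondegenerateOn (QuadraticMap.polar (Cfsg.quadFormOdd d F)) W ∧
          Cfsg.Geo.IsPlusTypeOn (Cfsg.quadFormOdd d F) W) ∧
        W.map (Matrix.toLin' (x : Matrix (Unit ⊕ (Fin d ⊕ Fin d)) (Unit ⊕ (Fin d ⊕ Fin d)) F))
          ≤ W) ↔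
    (r = 2 ∨
     (2 < r ∧ Odd i ∧ c ≤ m ∧ (m % c = 0 ∨ (0 < m % c ∧ m % c < (2 * d + 1) % c))) ∨
     (2 < r ∧ Even i ∧ i ≤ m ∧ m % c < (2 * d + 1) % c ∧ (0 < m % c ∨ Even (m / i)))) := by
  have hcc : c = cc i := hc
  subst hcc
  subst hi
  have hrpr : r.Prime := Fact.out
  by_cases hr2 : r = 2
  · constructor
    · intro _
      exact Or.inl hr2
    · intro _ x hx hxr
      rw [hr2] at hxr
      exact hInv F hqodd d m hd hm hme hmn x hx hxr
  · have h2r : 2 < r := by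
      have := hrpr.two_le
      omega
    constructor
    · intro hL
      by_contra hR
      have hcond : ¬ Cond d m (orderOf ((Fintype.card F : ℕ) : ZMod r)) := by
        intro hC
        apply hR
        rcases hC with h | h
        · exact Or.inr (Or.inl ⟨h2r, h⟩)
        · exact Or.inr (Or.inr ⟨h2r, h⟩)
      have hk := hND F p hqodd d m hd hm hme hmn r hrp hrΩ
      obtain ⟨x, hxΩ, hxr, hxW⟩ := hB2 F p hqodd d m hd hm hme hmn r hr2 hrp hk hcond
      obtain ⟨W, hW, hS⟩ := hL x hxΩ hxr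
      exact hxW W hW hS
    · intro hR x hx hxr
      have hC : Cond d m (orderOf ((Fintype.card F : ℕ) : ZMod r)) := by
        rcases hR with h | ⟨_, h⟩ | ⟨_, h⟩
        · exact absurd h hr2
        · exact Or.inl h
        · exact Or.inr h
      exact hB1 F p hqodd d m hd hm hme hmn r hr2 hrp hC x hx hxr

end Cfsg.Agent.Lib.Helper37.HypAsm
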