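import Mathlib

/-!
# Cyclic subspaces of an endomorphism (helper lemmas for S5992 block finding)
-/

set_option autoImplicit false

universe u v

open Polynomial

namespace Cfsg.Agent.Lib.Helper37.HypCyc

variable {F : Type u} [Field F] {V : Type v} [AddCommGroup V] [Module F V]

/-- the cyclic subspace `F[φ] u` -/
noncomputable def cyc (φ : Module.End F V) (u : V) : Submodule F V :=
  LinearMap.range ((LinearMap.applyₗ u : Module.End F V →ₗ[F] V) ∘ₗ (aeval φ).toLinearMap)

theorem mem_cyc (φ : Module.End F V) (u v : V) :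
    v ∈ cyc φ u ↔ ∃ f : F[X], aeval φ f u = v := by
  unfold cyc
  rw [LinearMap.mem_range]
  rfl

theorem self_mem_cyc (φ : Module.End F V) (u : V) : u ∈ cyc φ u :=
  (mem_cyc φ u u).mpr ⟨1, by rw [map_one, Module.End.one_apply]⟩

theorem aeval_comm_apply (φ : Module.End F V) (f g : F[X]) (u : V) :
    aeval φ f (aeval φ g u) = aeval φ g (aeval φ f u) := by
  rw [← Module.End.mul_apply, ← Module.End.mul_apply, ← map_mul, ← map_mul, mul_comm]

theorem cyc_map (φ : Module.End F V) (u : V) {v : V} (hv : v ∈ cyc φ u) : φ v ∈ cyc φ u := by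
  obtain ⟨f, rfl⟩ := (mem_cyc φ u v).mp hv
  refine (mem_cyc φ u _).mpr ⟨X * f, ?_⟩
  rw [map_mul, aeval_X, Module.End.mul_apply]

theorem aeval_mem (φ : Module.End F V) (W : Submodule F V) (hW : ∀ v ∈ W, φ v ∈ W) (f : F[X])
    {v : V} (hv : v ∈ W) : aeval φ f v ∈ W := by
  induction f using Polynomial.induction_on' with
  | add a b ha hb =>
    rw [map_add, LinearMap.add_apply]
    exact W.add_mem ha hb
  | monomial n a =>
    rw [aeval_monomial, Module.End.mul_apply, Module.algebraMap_end_apply]
    apply W.smul_mem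
    induction n with
    | zero => simpa using hv
    | succ n ih =>
      rw [pow_succ', Module.End.mul_apply]
      exact hW _ ih

theorem cyc_le (φ : Module.End F V) (W : Submodule F V) (hW : ∀ v ∈ W, φ v ∈ W) {u : V}
    (hu : u ∈ W) : cyc φ u ≤ W := by
  intro v hv
  obtain ⟨f, rfl⟩ := (mem_cyc φ u v).mp hv
  exact aeval_mem φ W hW f hu

theorem cyc_ker (φ : Module.End F V) (P : F[X]) {u : V} (hu : aeval φ P u = 0) {v : V}
    (hv : v ∈ cyc φ u) : aeval φ P v = 0 := by
  obtain ⟨f, rfl⟩ := (mem_cyc φ u v).mp hv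
  rw [aeval_comm_apply, hu, map_zero]

theorem finrank_cyc_le [FiniteDimensional F V] (φ : Module.End F V) (P : F[X]) (hP : P.Monic)
    {u : V} (hu : aeval φ P u = 0) : Module.finrank F (cyc φ u) ≤ P.natDegree := by
  have hle : cyc φ u ≤ (Polynomial.degreeLT F P.natDegree).map
      ((LinearMap.applyₗ u : Module.End F V →ₗ[F] V) ∘ₗ (aeval φ).toLinearMap) := by
    intro v hv
    obtain ⟨f, rfl⟩ := (mem_cyc φ u v).mp hv
    refine ⟨f %ₘ P, ?_, ?_⟩
    · rw [SetLike.mem_coe, Polynomial.mem_degreeLT]
      calc (f %ₘ P).degree < P.degree := degree_modByMonic_lt f hP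
        _ = P.natDegree := degree_eq_natDegree hP.ne_zero
    · show aeval φ (f %ₘ P) u = aeval φ f u
      conv_rhs => rw [← modByMonic_add_div f P]
      rw [map_add, LinearMap.add_apply, mul_comm, map_mul, Module.End.mul_apply, hu, map_zero,
        add_zero]
  calc Module.finrank F (cyc φ u)
      ≤ Module.finrank F ((Polynomial.degreeLT F P.natDegree).map
          ((LinearMap.applyₗ u : Module.End F V →ₗ[F] V) ∘ₗ (aeval φ).toLinearMap)) :=
        Submodule.finrank_mono hle
    _ ≤ Module.finrank F (Polynomial.degreeLT F P.natDegree) := Submodule.finrank_map_le _ _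
    _ = P.natDegree := by
        rw [LinearEquiv.finrank_eq (Polynomial.degreeLTEquiv F P.natDegree), Module.finrank_fin_fun]

/-- a vector killed by a product of polynomials in `φ` yields a nonzero vector killed by one
of the factors -/
theorem exists_factor (φ : Module.End F V) (L : Multiset F[X]) :
    ∀ v : V, v ≠ 0 → aeval φ L.prod v = 0 →
    ∃ P ∈ L, ∃ g : F[X], aeval φ g v ≠ 0 ∧ aeval φ P (aeval φ g v) = 0 := by
  induction L using Multiset.induction_on with
  | empty =>
    intro v hv h
    rw [Multiset.prod_zero, map_one, Module.End.one_apply] at h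
    exact absurd h hv
  | cons P L ih =>
    intro v hv h
    by_cases hP : aeval φ P v = 0
    · refine ⟨P, Multiset.mem_cons_self P L, 1, ?_, ?_⟩
      · rw [map_one, Module.End.one_apply]
        exact hv
      · rw [map_one, Module.End.one_apply]
        exact hP
    · rw [Multiset.prod_cons, mul_comm, map_mul, Module.End.mul_apply] at h
      obtain ⟨P', hP', g, hg, hg'⟩ := ih (aeval φ P v) hP h
      refine ⟨P', Multiset.mem_cons_of_mem hP', g * P, ?_, ?_⟩
      · rw [map_mul, Module.End.mul_apply]
        exact hg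
      · rw [map_mul, Module.End.mul_apply]
        exact hg'

end Cfsg.Agent.Lib.Helper37.HypCyc
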