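import Mathlib

set_option autoImplicit false

namespace Cfsg.Agent.Lib.Helper37.PairForm

open Module

variable {F V : Type*} [Field F] [AddCommGroup V] [Module F V]

/-- A linear map acting on the planes of a basis of pairs with constant determinant `l` is a
similitude, with multiplier `l`, of a nondegenerate alternating form. -/
theorem exists_form {K : Type*} [Fintype K] [DecidableEq K] (B : Basis (K ⊕ K) F V)
    (x : V →ₗ[F] V) (l : F)
    (hx : ∀ k, ∃ α β γ δ : F, x (B (Sum.inl k)) = α • B (Sum.inl k) + β • B (Sum.inr k) ∧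
      x (B (Sum.inr k)) = γ • B (Sum.inl k) + δ • B (Sum.inr k) ∧ α * δ - β * γ = l) :
    ∃ g : LinearMap.BilinForm F V, g.IsAlt ∧ (∀ u, (∀ v, g u v = 0) → u = 0) ∧
      ∀ u v, g (x u) (x v) = l * g u v := by
  classical
  choose α β γ δ h1 h2 h3 using hx
  obtain ⟨g, hgdef⟩ : ∃ g : LinearMap.BilinForm F V, g = ∑ k,
      (LinearMap.BilinForm.linMulLin (B.coord (Sum.inl k)) (B.coord (Sum.inr k)) -
        LinearMap.BilinForm.linMulLin (B.coord (Sum.inr k)) (B.coord (Sum.inl k))) := ⟨_, rfl⟩
  have hg : ∀ u v, g u v = ∑ k, (B.repr u (Sum.inl k) * B.repr v (Sum.inr k) -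
      B.repr u (Sum.inr k) * B.repr v (Sum.inl k)) := by
    intro u v
    rw [hgdef]
    simp only [LinearMap.sum_apply, LinearMap.sub_apply, LinearMap.BilinForm.linMulLin_apply,
      Basis.coord_apply]
  have hL1 : ∀ k, B.coord (Sum.inl k) ∘ₗ x =
      α k • B.coord (Sum.inl k) + γ k • B.coord (Sum.inr k) := by
    intro k
    apply B.ext
    rintro (j | j)
    · simp only [LinearMap.comp_apply, h1, map_add, map_smul, Basis.coord_apply, Basis.repr_self,
        LinearMap.add_apply, LinearMap.smul_apply, Finsupp.single_apply, smul_eq_mul]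
      by_cases hjk : j = k
      · subst hjk
        simp
      · simp [hjk]
    · simp only [LinearMap.comp_apply, h2, map_add, map_smul, Basis.coord_apply, Basis.repr_self,
        LinearMap.add_apply, LinearMap.smul_apply, Finsupp.single_apply, smul_eq_mul]
      by_cases hjk : j = k
      · subst hjk
        simp
      · simp [hjk]
  have hL2 : ∀ k, B.coord (Sum.inr k) ∘ₗ x =
      β k • B.coord (Sum.inl k) + δ k • B.coord (Sum.inr k) := by
    intro k
    apply B.ext
    rintro (j | j)
    · simp only [LinearMap.comp_apply, h1, map_add, map_smul, Basis.coord_apply, Basis.repr_self,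
        LinearMap.add_apply, LinearMap.smul_apply, Finsupp.single_apply, smul_eq_mul]
      by_cases hjk : j = k
      · subst hjk
        simp
      · simp [hjk]
    · simp only [LinearMap.comp_apply, h2, map_add, map_smul, Basis.coord_apply, Basis.repr_self,
        LinearMap.add_apply, LinearMap.smul_apply, Finsupp.single_apply, smul_eq_mul]
      by_cases hjk : j = k
      · subst hjk
        simp
      · simp [hjk]
  have hr1 : ∀ u k, B.repr (x u) (Sum.inl k) =
      α k * B.repr u (Sum.inl k) + γ k * B.repr u (Sum.inr k) := by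
    intro u k
    have := LinearMap.congr_fun (hL1 k) u
    simpa only [LinearMap.comp_apply, Basis.coord_apply, LinearMap.add_apply,
      LinearMap.smul_apply, smul_eq_mul] using this
  have hr2 : ∀ u k, B.repr (x u) (Sum.inr k) =
      β k * B.repr u (Sum.inl k) + δ k * B.repr u (Sum.inr k) := by
    intro u k
    have := LinearMap.congr_fun (hL2 k) u
    simpa only [LinearMap.comp_apply, Basis.coord_apply, LinearMap.add_apply,
      LinearMap.smul_apply, smul_eq_mul] using this
  refine ⟨g, ?_, ?_, ?_⟩
  · intro u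
    rw [hg]
    apply Finset.sum_eq_zero
    intro k _
    ring
  · intro u hu
    apply B.repr.injective
    ext i
    rw [map_zero, Finsupp.zero_apply]
    rcases i with k | k
    · have := hu (B (Sum.inr k))
      rw [hg] at this
      simpa [Finsupp.single_apply] using this
    · have := hu (B (Sum.inl k))
      rw [hg] at this
      simpa [Finsupp.single_apply] using this
  · intro u v
    rw [hg, hg, Finset.mul_sum]
    apply Finset.sum_congr rfl
    intro k _
    rw [hr1, hr1, hr2, hr2]
    linear_combination (B.repr u (Sum.inl k) * B.repr v (Sum.inr k) -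
      B.repr u (Sum.inr k) * B.repr v (Sum.inl k)) * h3 k

/-- A finite type all of whose fibres over `t` have even size splits into pairs inside the
fibres. -/
theorem exists_pairing.{u, w} {I : Type w} {T : Type u} [Fintype I] [DecidableEq I] [Fintype T]
    [DecidableEq T] (t : I → T) (heven : ∀ τ, Even (Fintype.card {i // t i = τ})) :
    ∃ (K : Type u) (_ : Fintype K) (e : K ⊕ K ≃ I),
      ∀ k, t (e (Sum.inl k)) = t (e (Sum.inr k)) := by
  classical
  choose m hm using heven
  have he : ∀ τ, Nonempty (Fin (m τ) ⊕ Fin (m τ) ≃ {i // t i = τ}) := fun τ =>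
    Fintype.card_eq.mp (by rw [Fintype.card_sum, Fintype.card_fin, hm])
  obtain ⟨eτ⟩ : Nonempty (∀ τ, Fin (m τ) ⊕ Fin (m τ) ≃ {i // t i = τ}) :=
    ⟨fun τ => Classical.choice (he τ)⟩
  refine ⟨Σ τ, Fin (m τ), inferInstance,
    (Equiv.sigmaSumDistrib _ _).symm.trans ((Equiv.sigmaCongrRight eτ).trans
      (Equiv.sigmaFiberEquiv t)), ?_⟩
  rintro ⟨τ, j⟩
  show t ((eτ τ (Sum.inl j)).1) = t ((eτ τ (Sum.inr j)).1)
  rw [(eτ τ (Sum.inl j)).2, (eτ τ (Sum.inr j)).2]

end Cfsg.Agent.Lib.Helper37.PairForm
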