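import Mathlib
import Cfsg.Agent.Lib.Helper37.MonoBasis
import Cfsg.Agent.Lib.Helper37.EquiPart
import Cfsg.Agent.Lib.Helper37.InvolDiag
import Cfsg.Agent.Lib.Helper37.PairForm

set_option autoImplicit false

namespace Cfsg.Agent.Lib.Helper37.InvPairs

open Module

variable {F V : Type*} [Field F] [AddCommGroup V] [Module F V]

/-- A linear map with `x² = z` on a space of even dimension, where any two square roots of `z`
have product `-z`, acts on the planes of a basis of pairs with determinant `-z`. -/
theorem mono_pairs [FiniteDimensional F V] (x : V →ₗ[F] V) {z : F}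
    (hxx : ∀ v, x (x v) = z • v) (heven : Even (finrank F V))
    (hfix : ∀ a b : F, a * a = z → b * b = z → a * b = -z) :
    ∃ (K : Type) (_ : Fintype K) (B : Basis (K ⊕ K) F V), ∀ k, ∃ α β γ δ : F,
      x (B (Sum.inl k)) = α • B (Sum.inl k) + β • B (Sum.inr k) ∧
      x (B (Sum.inr k)) = γ • B (Sum.inl k) + δ • B (Sum.inr k) ∧ α * δ - β * γ = -z := by
  classical
  obtain ⟨I, hI, b, π, μ, hli, hspan, hπ, hxb⟩ :=
    Cfsg.Agent.Lib.Helper37.MonoBasis.exists_mono x hxx _ ⊤ rfl (fun _ _ => trivial)
  have hcard : Fintype.card I = finrank F V := by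
    have h1 := finrank_span_eq_card hli
    rw [hspan, finrank_top] at h1
    exact h1.symm
  have hb0 : ∀ i, b i ≠ 0 := hli.ne_zero
  have hμ : ∀ i, μ i * μ (π i) = z := by
    intro i
    have h1 := hxx (b i)
    rw [hxb, map_smul, hxb, hπ, smul_smul] at h1
    have h2 : (μ i * μ (π i) - z) • b i = 0 := by rw [sub_smul, h1, sub_self]
    rcases smul_eq_zero.mp h2 with h3 | h3
    · exact sub_eq_zero.mp h3
    · exact absurd h3 (hb0 i)
  let _ : LinearOrder I := LinearOrder.lift' (Fintype.equivFin I) (Fintype.equivFin I).injective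
  obtain ⟨t, ht⟩ : ∃ t : I → Option (Finset I),
      t = fun i => if π i = i then none else some {i, π i} := ⟨_, rfl⟩
  have ht_none : ∀ i, t i = none ↔ π i = i := by
    intro i
    rw [ht]
    by_cases h : π i = i <;> simp [h]
  have ht_some : ∀ i S, t i = some S ↔ π i ≠ i ∧ {i, π i} = S := by
    intro i S
    rw [ht]
    by_cases h : π i = i <;> simp [h]
  have hevenfib : ∀ τ, Even (Fintype.card {i // t i = τ}) := by
    intro τ
    cases τ with
    | none =>
      have h1 : Fintype.card {i // t i = none} = Fintype.card {i // π i = i} :=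
        Fintype.card_congr (Equiv.subtypeEquivRight ht_none)
      have h2 := Cfsg.Agent.Lib.Helper37.EquiPart.card_split π hπ Finset.univ
        (fun i _ => Finset.mem_univ _)
      rw [Finset.card_univ, hcard] at h2
      rw [h1, Fintype.card_subtype]
      obtain ⟨r, hr⟩ := heven
      rw [Nat.even_iff]
      omega
    | some S =>
      by_cases hne : Nonempty {i // t i = some S}
      · obtain ⟨⟨i₁, hi₁⟩⟩ := hne
        obtain ⟨h1, h2⟩ := (ht_some i₁ S).mp hi₁
        have h3 : ∀ i, t i = some S ↔ i = i₁ ∨ i = π i₁ := by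
          intro i
          rw [ht_some]
          constructor
          · rintro ⟨-, h4⟩
            have : i ∈ ({i, π i} : Finset I) := Finset.mem_insert_self _ _
            rw [h4, ← h2] at this
            simpa using this
          · rintro (rfl | rfl)
            · exact ⟨h1, h2⟩
            · rw [hπ]
              exact ⟨fun h => h1 h.symm, by rw [← h2, Finset.pair_comm]⟩
        have h4 : Fintype.card {i // t i = some S} = Fintype.card {i // i = i₁ ∨ i = π i₁} :=
          Fintype.card_congr (Equiv.subtypeEquivRight h3)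
        rw [h4, Fintype.card_subtype]
        have h5 : (Finset.univ.filter (fun i => i = i₁ ∨ i = π i₁)) = {i₁, π i₁} := by
          ext i
          simp
        rw [h5, Finset.card_pair (fun h => h1 h.symm)]
        exact even_two
      · rw [not_nonempty_iff] at hne
        rw [Fintype.card_eq_zero]
        exact Even.zero
  obtain ⟨K, hK, e, he⟩ := Cfsg.Agent.Lib.Helper37.PairForm.exists_pairing t hevenfib
  obtain ⟨bI, hbI⟩ : ∃ bI : Basis I F V, ∀ i, bI i = b i :=
    ⟨Basis.mk hli (by rw [hspan]), fun i => Basis.mk_apply hli _ i⟩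
  refine ⟨K, hK, bI.reindex e.symm, ?_⟩
  intro k
  have hne : e (Sum.inl k) ≠ e (Sum.inr k) := fun h => by
    have := e.injective h
    exact Sum.inl_ne_inr this
  rw [Basis.reindex_apply, Basis.reindex_apply, Equiv.symm_symm, hbI, hbI]
  by_cases hfixk : π (e (Sum.inl k)) = e (Sum.inl k)
  · have h1 : t (e (Sum.inr k)) = none := by
      rw [← he k]
      exact (ht_none _).mpr hfixk
    have h2 := (ht_none _).mp h1
    refine ⟨μ (e (Sum.inl k)), 0, 0, μ (e (Sum.inr k)), ?_, ?_, ?_⟩
    · rw [hxb, hfixk, zero_smul, add_zero]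
    · rw [hxb, h2, zero_smul, zero_add]
    · have h3 := hμ (e (Sum.inl k))
      have h4 := hμ (e (Sum.inr k))
      rw [hfixk] at h3
      rw [h2] at h4
      rw [mul_zero, sub_zero]
      exact hfix _ _ h3 h4
  · have h1 : t (e (Sum.inr k)) = some {e (Sum.inl k), π (e (Sum.inl k))} := by
      rw [← he k]
      exact (ht_some _ _).mpr ⟨hfixk, rfl⟩
    obtain ⟨h2, h3⟩ := (ht_some _ _).mp h1
    have h4 : e (Sum.inr k) = π (e (Sum.inl k)) := by
      have : e (Sum.inr k) ∈ ({e (Sum.inr k), π (e (Sum.inr k))} : Finset I) :=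
        Finset.mem_insert_self _ _
      rw [h3] at this
      simp only [Finset.mem_insert, Finset.mem_singleton] at this
      rcases this with h5 | h5
      · exact absurd h5.symm hne
      · exact h5
    refine ⟨0, μ (e (Sum.inl k)), μ (e (Sum.inr k)), 0, ?_, ?_, ?_⟩
    · rw [hxb, ← h4, zero_smul, zero_add]
    · rw [hxb, h4, hπ, zero_smul, add_zero]
    · have h5 := hμ (e (Sum.inl k))
      rw [← h4] at h5
      rw [h5]
      ring

/-- The product of a family of signs. -/
theorem prod_signs {I : Type*} [Fintype I] [DecidableEq F] (ε : I → F)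
    (hε : ∀ i, ε i = 1 ∨ ε i = -1) :
    ∏ i, ε i = (-1) ^ Fintype.card {i // ¬ ε i = 1} := by
  classical
  have h1 : ∀ i, ε i = if ε i = 1 then 1 else -1 := by
    intro i
    rcases hε i with h | h
    · rw [if_pos h, h]
    · by_cases h' : ε i = 1
      · rw [if_pos h', h']
      · rw [if_neg h', h]
  rw [Finset.prod_congr rfl (fun i _ => h1 i), Finset.prod_ite, Finset.prod_const_one, one_mul,
    Finset.prod_const, Fintype.card_subtype]

/-- A matrix with `x² = c²` in odd characteristic, with an even number of eigenvalues `-c`, acts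
on the planes of a basis of pairs with determinant `c²`. -/
theorem eigen_pairs (h2 : (2 : F) ≠ 0) {n : ℕ} (hn : Even n) (A : Matrix (Fin n) (Fin n) F) (c : F)
    (hc : c ≠ 0) (hAA : A * A = (c * c) • (1 : Matrix (Fin n) (Fin n) F)) (hdet : A.det = 1)
    (hno : c ^ n ≠ -1) :
    ∃ (K : Type) (_ : Fintype K) (B : Basis (K ⊕ K) F (Fin n → F)), ∀ k, ∃ α β γ δ : F,
      Matrix.toLin' A (B (Sum.inl k)) = α • B (Sum.inl k) + β • B (Sum.inr k) ∧
      Matrix.toLin' A (B (Sum.inr k)) = γ • B (Sum.inl k) + δ • B (Sum.inr k) ∧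
      α * δ - β * γ = c * c := by
  classical
  have hyy : (c⁻¹ • A) * (c⁻¹ • A) = 1 := by
    rw [Matrix.smul_mul, Matrix.mul_smul, hAA, smul_smul, smul_smul]
    have : c⁻¹ * c⁻¹ * (c * c) = 1 := by field_simp
    rw [this, one_smul]
  obtain ⟨b, ε, hb⟩ := Cfsg.Agent.Lib.Helper37.InvolDiag.exists_eigenbasis_matrix h2
    (fun _ : Unit => c⁻¹ • A) (fun _ _ => rfl) (fun _ => hyy)
  have hε : ∀ i, ε i () = 1 ∨ ε i () = -1 := fun i =>
    Cfsg.Agent.Lib.Helper37.InvolDiag.eps_eq_one_or (c⁻¹ • A) hyy (b i) (b.ne_zero i) _ (hb i ())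
  have hAb : ∀ i, A.mulVec (b i) = (c * ε i ()) • b i := by
    intro i
    have h1 := hb i ()
    rw [Matrix.smul_mulVec] at h1
    have h3 := congrArg (fun w => c • w) h1
    simp only [smul_smul, mul_inv_cancel₀ hc, one_smul] at h3
    exact h3
  have hdet' := Cfsg.Agent.Lib.Helper37.InvolDiag.det_eq_prod_eps b A (fun i => c * ε i ()) hAb
  rw [hdet, Finset.prod_mul_distrib, Finset.prod_const, Finset.card_univ, Fintype.card_fin,
    prod_signs (fun i => ε i ()) hε] at hdet'
  have hodd : Even (Fintype.card {i // ¬ ε i () = 1}) := by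
    by_contra hcon
    rw [Nat.not_even_iff_odd] at hcon
    rw [hcon.neg_one_pow] at hdet'
    apply hno
    linear_combination hdet'
  obtain ⟨t, ht⟩ : ∃ t : Fin n → Bool, t = fun i => decide (ε i () = 1) := ⟨_, rfl⟩
  have hevenfib : ∀ τ, Even (Fintype.card {i // t i = τ}) := by
    have hfalse : Fintype.card {i // t i = false} = Fintype.card {i // ¬ ε i () = 1} :=
      Fintype.card_congr (Equiv.subtypeEquivRight (fun i => by rw [ht]; simp))
    have htrue : Fintype.card {i // t i = true} = Fintype.card {i // ε i () = 1} :=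
      Fintype.card_congr (Equiv.subtypeEquivRight (fun i => by rw [ht]; simp))
    have hsum := Fintype.card_subtype_compl (fun i : Fin n => ε i () = 1)
    rw [Fintype.card_fin] at hsum
    have hle := Fintype.card_subtype_le (fun i : Fin n => ε i () = 1)
    rw [Fintype.card_fin] at hle
    intro τ
    cases τ with
    | false => rw [hfalse]; exact hodd
    | true =>
      rw [htrue]
      obtain ⟨r, hr⟩ := hodd
      obtain ⟨s, hs⟩ := hn
      rw [Nat.even_iff]
      omega
  obtain ⟨K, hK, e, he⟩ := Cfsg.Agent.Lib.Helper37.PairForm.exists_pairing t hevenfib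
  refine ⟨K, hK, b.reindex e.symm, ?_⟩
  intro k
  rw [Basis.reindex_apply, Basis.reindex_apply, Equiv.symm_symm]
  refine ⟨c * ε (e (Sum.inl k)) (), 0, 0, c * ε (e (Sum.inr k)) (), ?_, ?_, ?_⟩
  · rw [Matrix.toLin'_apply, hAb, zero_smul, add_zero]
  · rw [Matrix.toLin'_apply, hAb, zero_smul, zero_add]
  · have h1 := he k
    rw [ht] at h1
    simp only [decide_eq_decide] at h1
    have h3 : ε (e (Sum.inl k)) () * ε (e (Sum.inr k)) () = 1 := by
      rcases hε (e (Sum.inl k)) with h4 | h4
      · rw [h4, h1.mp h4, one_mul]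
      · rcases hε (e (Sum.inr k)) with h5 | h5
        · rw [h1.mpr h5] at h4
          exact absurd h4 (fun h => h2 (by linear_combination h))
        · rw [h4, h5]
          ring
    linear_combination (c * c) * h3

end Cfsg.Agent.Lib.Helper37.InvPairs
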