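import Mathlib

set_option autoImplicit false

namespace Cfsg.Agent.Lib.Helper37.NegOnePow

variable {F : Type*} [Field F] [Fintype F]

/-- If the 2-part of `n` is smaller than that of `q - 1`, some element has `n`-th power `-1`. -/
theorem exists_pow_eq_neg_one (n : ℕ) (hn : n ≠ 0)
    (h : padicValNat 2 n < padicValNat 2 (Fintype.card F - 1)) : ∃ c : F, c ^ n = -1 := by
  classical
  obtain ⟨k, m, hm, rfl⟩ := Nat.exists_eq_two_pow_mul_odd hn
  have hmd : ¬ (2 ∣ m) := fun h2 => (Nat.not_even_iff_odd.mpr hm) (even_iff_two_dvd.mpr h2)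
  have hm0 : m ≠ 0 := fun h0 => hmd (h0 ▸ dvd_zero 2)
  have hk : padicValNat 2 (2 ^ k * m) = k := by
    rw [padicValNat.mul (pow_ne_zero _ (by norm_num)) hm0, padicValNat.prime_pow,
      padicValNat.eq_zero_of_not_dvd hmd, add_zero]
  rw [hk] at h
  have hq1 : Fintype.card F - 1 ≠ 0 := by
    intro h0
    rw [h0] at h
    simp at h
  have hdvd : 2 ^ (k + 1) ∣ Fintype.card F - 1 := (padicValNat_dvd_iff_le hq1).mpr h
  obtain ⟨e, he⟩ := hdvd
  obtain ⟨g, hg⟩ := IsCyclic.exists_generator (α := Fˣ)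
  have hord : orderOf g = Fintype.card F - 1 := by
    rw [orderOf_eq_card_of_forall_mem_zpowers hg, Nat.card_eq_fintype_card, Fintype.card_units]
  have he0 : e ≠ 0 := by
    intro h0
    rw [h0, mul_zero] at he
    exact hq1 he
  have hy1 : (g ^ (e * 2 ^ k)) ^ 2 = 1 := by
    have h3 : e * 2 ^ k * 2 = orderOf g := by
      rw [hord, he]
      ring
    rw [← pow_mul, h3, pow_orderOf_eq_one]
  have hy2 : g ^ (e * 2 ^ k) ≠ 1 := by
    apply pow_ne_one_of_lt_orderOf (mul_ne_zero he0 (pow_ne_zero _ (by norm_num)))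
    rw [hord, he]
    have : 0 < e * 2 ^ k := Nat.pos_of_ne_zero (mul_ne_zero he0 (pow_ne_zero _ (by norm_num)))
    have h3 : 2 ^ (k + 1) * e = 2 * (e * 2 ^ k) := by ring
    omega
  have hy3 : ((g ^ (e * 2 ^ k) : Fˣ) : F) = -1 := by
    have h1 : ((g ^ (e * 2 ^ k) : Fˣ) : F) ^ 2 = 1 := by
      rw [← Units.val_pow_eq_pow_val, hy1, Units.val_one]
    rcases sq_eq_one_iff.mp h1 with h2 | h2
    · exact absurd (Units.ext h2) hy2
    · exact h2
  refine ⟨((g ^ e : Fˣ) : F), ?_⟩
  rw [pow_mul, ← Units.val_pow_eq_pow_val, ← pow_mul, hy3, hm.neg_one_pow]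

/-- If some element has `n`-th power `-1` (and `2 ≠ 0`), the 2-part of `n` is smaller than that of
`q - 1`. -/
theorem padic_lt_of_pow_eq_neg_one (h2 : (2 : F) ≠ 0) (n : ℕ) (hn : n ≠ 0) (c : F)
    (hc : c ^ n = -1) : padicValNat 2 n < padicValNat 2 (Fintype.card F - 1) := by
  classical
  obtain ⟨k, m, hm, rfl⟩ := Nat.exists_eq_two_pow_mul_odd hn
  have hmd : ¬ (2 ∣ m) := fun h2 => (Nat.not_even_iff_odd.mpr hm) (even_iff_two_dvd.mpr h2)
  have hm0 : m ≠ 0 := fun h0 => hmd (h0 ▸ dvd_zero 2)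
  have hk : padicValNat 2 (2 ^ k * m) = k := by
    rw [padicValNat.mul (pow_ne_zero _ (by norm_num)) hm0, padicValNat.prime_pow,
      padicValNat.eq_zero_of_not_dvd hmd, add_zero]
  rw [hk]
  have hne : (-1 : F) ≠ 1 := by
    intro h1
    apply h2
    linear_combination -h1
  have hd1 : (c ^ m) ^ 2 ^ k = -1 := by
    rw [← pow_mul, mul_comm, hc]
  have hd0 : c ^ m ≠ 0 := by
    intro h0
    rw [h0, zero_pow (pow_ne_zero _ (by norm_num))] at hd1
    exact neg_ne_zero.mpr one_ne_zero hd1.symm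
  have hord : orderOf (Units.mk0 (c ^ m) hd0) = 2 ^ (k + 1) := by
    apply orderOf_eq_prime_pow
    · intro h1
      have := congrArg Units.val h1
      rw [Units.val_pow_eq_pow_val, Units.val_mk0, hd1, Units.val_one] at this
      exact hne this
    · apply Units.ext
      rw [Units.val_pow_eq_pow_val, Units.val_mk0, pow_succ, pow_mul, hd1, Units.val_one]
      ring
  have hdvd : 2 ^ (k + 1) ∣ Fintype.card F - 1 := by
    rw [← hord, ← Fintype.card_units]
    exact orderOf_dvd_card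
  have hq1 : Fintype.card F - 1 ≠ 0 := by
    have := Fintype.one_lt_card (α := F)
    omega
  exact (padicValNat_dvd_iff_le hq1).mp hdvd

end Cfsg.Agent.Lib.Helper37.NegOnePow
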