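import Mathlib
import Cfsg.Agent.Lib.Helper37.InvConj

set_option autoImplicit false

namespace Cfsg.Agent.Lib.Helper37.NonsqDet

open Module

universe u v

variable {F : Type v} [Field F]

/-- A linear map whose square is a non-square scalar `z` lives on a space of even dimension `2m`
and has determinant `(-z)^m`. -/
theorem det_of_nonsq {z : F} (hz : ∀ c : F, c * c ≠ z) :
    ∀ (n : ℕ) (V : Type u) [AddCommGroup V] [Module F V] [FiniteDimensional F V]
      (x : V →ₗ[F] V), (∀ v, x (x v) = z • v) → finrank F V = n →
      ∃ m, n = 2 * m ∧ LinearMap.det x = (-z) ^ m := by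
  intro n
  induction n using Nat.strong_induction_on with
  | _ n ih =>
    intro V _ _ _ x hxx hn
    by_cases h0 : n = 0
    · subst h0
      exact ⟨0, rfl, by rw [LinearMap.det_eq_one_of_finrank_eq_zero hn, pow_zero]⟩
    · have hpos : 0 < finrank F V := by omega
      obtain ⟨v, hv⟩ := Module.finrank_pos_iff_exists_ne_zero.mp hpos
      have hnot : x v ∉ Submodule.span F {v} := by
        intro h
        obtain ⟨c, hc⟩ := Submodule.mem_span_singleton.mp h
        have h1 := hxx v
        rw [← hc, map_smul, ← hc, smul_smul] at h1
        have h2 : (c * c - z) • v = 0 := by rw [sub_smul, h1, sub_self]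
        rcases smul_eq_zero.mp h2 with h3 | h3
        · exact hz c (sub_eq_zero.mp h3)
        · exact hv h3
      obtain ⟨-, -, hpair, -, -⟩ := Cfsg.Agent.Lib.Helper37.InvConj.exists_split x hxx v hnot
      obtain ⟨W, hW⟩ : ∃ W : Submodule F V, W = Submodule.span F (Set.range ![v, x v]) :=
        ⟨_, rfl⟩
      have hWmem : ∀ w, w ∈ W ↔ ∃ s t : F, s • v + t • x v = w := by
        intro w
        rw [hW, Matrix.range_cons_cons_empty, Submodule.mem_span_pair]
      have he : W ≤ W.comap x := by
        intro w hw
        obtain ⟨s, t, rfl⟩ := (hWmem w).mp hw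
        rw [Submodule.mem_comap, hWmem]
        refine ⟨t * z, s, ?_⟩
        rw [map_add, map_smul, map_smul, hxx]
        module
      have hdet := LinearMap.det_eq_det_mul_det W x he
      -- determinant on the plane
      have hdetW : LinearMap.det (x.restrict he) = -z := by
        subst hW
        obtain ⟨bW, hbW⟩ : ∃ bW : Basis (Fin 2) F (Submodule.span F (Set.range ![v, x v])),
            ∀ i, ((bW i : Submodule.span F (Set.range ![v, x v])) : V) = ![v, x v] i :=
          ⟨Basis.span hpair, fun i => congrArg Subtype.val (Basis.span_apply hpair i)⟩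
        have h1 : (x.restrict he) (bW 0) = bW 1 := by
          apply Subtype.ext
          rw [LinearMap.coe_restrict_apply, hbW, hbW]
          rfl
        have h2 : (x.restrict he) (bW 1) = z • bW 0 := by
          apply Subtype.ext
          rw [LinearMap.coe_restrict_apply, Submodule.coe_smul, hbW, hbW]
          exact hxx v
        rw [← LinearMap.det_toMatrix bW]
        have : LinearMap.toMatrix bW bW (x.restrict he) = !![0, z; 1, 0] := by
          ext i j
          rw [LinearMap.toMatrix_apply]
          fin_cases j
          · show (bW.repr ((x.restrict he) (bW 0))) i = _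
            rw [h1, Basis.repr_self]
            fin_cases i <;> simp
          · show (bW.repr ((x.restrict he) (bW 1))) i = _
            rw [h2, map_smul, Basis.repr_self]
            fin_cases i <;> simp
        rw [this, Matrix.det_fin_two_of]
        ring
      have hfrW : finrank F W = 2 := by
        rw [hW, finrank_span_eq_card hpair, Fintype.card_fin]
      have hfrQ : finrank F (V ⧸ W) = n - 2 := by
        have := Submodule.finrank_quotient_add_finrank W
        omega
      have hle : 2 ≤ n := by
        have := Submodule.finrank_le W
        omega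
      have hxxQ : ∀ q : V ⧸ W, (W.mapQ W x he) ((W.mapQ W x he) q) = z • q := by
        intro q
        obtain ⟨w, rfl⟩ := Submodule.mkQ_surjective W q
        rw [Submodule.mkQ_apply, Submodule.mapQ_apply, Submodule.mapQ_apply, hxx,
          Submodule.Quotient.mk_smul]
      obtain ⟨m', hm', hdet'⟩ := ih (n - 2) (by omega) (V ⧸ W) (W.mapQ W x he) hxxQ hfrQ
      refine ⟨m' + 1, by omega, ?_⟩
      rw [hdet, hdetW, hdet', pow_succ]
      ring

end Cfsg.Agent.Lib.Helper37.NonsqDet
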