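import Mathlib
import Cfsg.Prelude.Def_Classical
import Cfsg.Prelude.Def_GeometricClasses
import Cfsg.Agent.Lib.Helper37.HypStmt
import Cfsg.Agent.Lib.Helper45.OMiStmt

/-!
# S5991: transfer library between the minus form on `M (e + 1) → F` and the odd form on
`I (e + 1) → F` (the minus twin of `Helper94.OPEmb`; `d = e + 1`)

`emb (z₁, z₂) = (t = z₁ + (a/2) z₂, x_last = z₂, y_last = β z₂)`, `β = bet a b = b - (a/2)²`,
the other coordinates unchanged; `w0 = e_(x,last) - β e_(y,last)` (`Q w0 = -β`) spans the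
orthogonal complement of the image; every `w` is `tau w • w0 + emb (prj w)`;
`hat x w = emb (x (prj w)) + tau w • w0`, `hatG : GL (M (e+1)) F →* GL (I (e+1)) F`.
Hypotheses: `h2 : (2 : F) ≠ 0`, `hβ : bet a b ≠ 0` (`bet_ne_zero h2 hab`).
-/

set_option autoImplicit false

universe u

open scoped Matrix

namespace Cfsg.Agent.Lib.Helper37.OMiEmb

open Cfsg.Agent.Lib.Helper37.HypStmt Cfsg.Agent.Lib.Helper45.OMiStmt

variable {F : Type u} [Field F] {e : ℕ}

/-- `a / 2` -/
def al (a : F) : F := a / 2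

/-- `β = b - (a/2)²` -/
def bet (a b : F) : F := b - al a ^ 2

/-- `(2 β)⁻¹` -/
def gam (a b : F) : F := (2 * bet a b)⁻¹

theorem al_add (h2 : (2 : F) ≠ 0) (a : F) : al a + al a = a := by
  unfold al
  rw [← add_div, ← two_mul, mul_div_cancel_left₀ a h2]

theorem gam_spec (h2 : (2 : F) ≠ 0) {a b : F} (hβ : bet a b ≠ 0) : 2 * bet a b * gam a b = 1 :=
  mul_inv_cancel₀ (mul_ne_zero h2 hβ)

theorem bet_ne_zero (h2 : (2 : F) ≠ 0) {a b : F} (hab : Aniso a b) : bet a b ≠ 0 := by
  intro h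
  have hα := al_add h2 a
  unfold bet at h
  have h1 := hab (-(al a)) 1 (by linear_combination h + al a * hα)
  exact one_ne_zero h1.2

/-- the vector `w0` -/
def w0 (e : ℕ) (F : Type u) [Field F] (a b : F) : I (e + 1) → F :=
  Sum.elim (fun _ => 0)
    (Sum.elim (Fin.lastCases 1 (fun _ => 0)) (Fin.lastCases (-bet a b) (fun _ => 0)))

theorem w0_0 (a b : F) : w0 e F a b (Sum.inl ()) = 0 := rfl

theorem w0_x (a b : F) (i : Fin e) : w0 e F a b (Sum.inr (Sum.inl i.castSucc)) = 0 := by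
  simp [w0]

theorem w0_xl (a b : F) : w0 e F a b (Sum.inr (Sum.inl (Fin.last e))) = 1 := by
  simp [w0]

theorem w0_y (a b : F) (i : Fin e) : w0 e F a b (Sum.inr (Sum.inr i.castSucc)) = 0 := by
  simp [w0]

theorem w0_yl (a b : F) : w0 e F a b (Sum.inr (Sum.inr (Fin.last e))) = -bet a b := by
  simp [w0]

/-- the `w0`-coordinate -/
def tau (e : ℕ) (F : Type u) [Field F] (a b : F) : (I (e + 1) → F) →ₗ[F] F where
  toFun w := (bet a b * w (Sum.inr (Sum.inl (Fin.last e))) -
    w (Sum.inr (Sum.inr (Fin.last e)))) * gam a b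
  map_add' := by
    intro v w
    simp only [Pi.add_apply]
    ring
  map_smul' := by
    intro c v
    simp only [Pi.smul_apply, smul_eq_mul, RingHom.id_apply]
    ring

theorem tau_apply (a b : F) (w : I (e + 1) → F) :
    tau e F a b w = (bet a b * w (Sum.inr (Sum.inl (Fin.last e))) -
      w (Sum.inr (Sum.inr (Fin.last e)))) * gam a b := rfl

namespace Core

/-- clean index type of the minus form -/
abbrev Mc (e : ℕ) : Type := (Fin e ⊕ Fin e) ⊕ Fin 2

/-- embedding of the minus space into the odd space -/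
def embC (e : ℕ) (F : Type u) [Field F] (a b : F) : (Mc e → F) →ₗ[F] (I (e + 1) → F) where
  toFun v := Sum.elim (fun _ => v (Sum.inr 0) + al a * v (Sum.inr 1))
    (Sum.elim (Fin.lastCases (v (Sum.inr 1)) (fun i => v (Sum.inl (Sum.inl i))))
      (Fin.lastCases (bet a b * v (Sum.inr 1)) (fun i => v (Sum.inl (Sum.inr i)))))
  map_add' := by
    intro v w
    ext s
    rcases s with s | s | s
    · simp only [Sum.elim_inl, Pi.add_apply]
      ring
    · refine Fin.lastCases ?_ (fun i => ?_) s <;> simp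
    · refine Fin.lastCases ?_ (fun i => ?_) s <;> simp [mul_add]
  map_smul' := by
    intro c v
    ext s
    rcases s with s | s | s
    · simp only [Sum.elim_inl, Pi.smul_apply, smul_eq_mul, RingHom.id_apply]
      ring
    · refine Fin.lastCases ?_ (fun i => ?_) s <;> simp
    · refine Fin.lastCases ?_ (fun i => ?_) s <;> simp [mul_left_comm]

theorem embC_0 (a b : F) (v : Mc e → F) :
    embC e F a b v (Sum.inl ()) = v (Sum.inr 0) + al a * v (Sum.inr 1) := rfl

theorem embC_x (a b : F) (v : Mc e → F) (i : Fin e) :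
    embC e F a b v (Sum.inr (Sum.inl i.castSucc)) = v (Sum.inl (Sum.inl i)) := by
  simp [embC]

theorem embC_xl (a b : F) (v : Mc e → F) :
    embC e F a b v (Sum.inr (Sum.inl (Fin.last e))) = v (Sum.inr 1) := by
  simp [embC]

theorem embC_y (a b : F) (v : Mc e → F) (i : Fin e) :
    embC e F a b v (Sum.inr (Sum.inr i.castSucc)) = v (Sum.inl (Sum.inr i)) := by
  simp [embC]

theorem embC_yl (a b : F) (v : Mc e → F) :
    embC e F a b v (Sum.inr (Sum.inr (Fin.last e))) = bet a b * v (Sum.inr 1) := by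
  simp [embC]

/-- projection of the odd space onto the minus space -/
def prjC (e : ℕ) (F : Type u) [Field F] (a b : F) : (I (e + 1) → F) →ₗ[F] (Mc e → F) where
  toFun w := Sum.elim (Sum.elim (fun i => w (Sum.inr (Sum.inl i.castSucc)))
      (fun i => w (Sum.inr (Sum.inr i.castSucc))))
    (fun k => if k = 0 then
        w (Sum.inl ()) - al a * ((bet a b * w (Sum.inr (Sum.inl (Fin.last e))) +
          w (Sum.inr (Sum.inr (Fin.last e)))) * gam a b)
      else (bet a b * w (Sum.inr (Sum.inl (Fin.last e))) +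
          w (Sum.inr (Sum.inr (Fin.last e)))) * gam a b)
  map_add' := by
    intro v w
    ext s
    rcases s with (s | s) | s
    · rfl
    · rfl
    · simp only [Sum.elim_inr, Pi.add_apply]
      split_ifs <;> ring
  map_smul' := by
    intro c v
    ext s
    rcases s with (s | s) | s
    · rfl
    · rfl
    · simp only [Sum.elim_inr, Pi.smul_apply, smul_eq_mul, RingHom.id_apply]
      split_ifs <;> ring

theorem prjC_x (a b : F) (w : I (e + 1) → F) (i : Fin e) :
    prjC e F a b w (Sum.inl (Sum.inl i)) = w (Sum.inr (Sum.inl i.castSucc)) := rfl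

theorem prjC_y (a b : F) (w : I (e + 1) → F) (i : Fin e) :
    prjC e F a b w (Sum.inl (Sum.inr i)) = w (Sum.inr (Sum.inr i.castSucc)) := rfl

theorem prjC_z1 (a b : F) (w : I (e + 1) → F) :
    prjC e F a b w (Sum.inr 0) =
      w (Sum.inl ()) - al a * ((bet a b * w (Sum.inr (Sum.inl (Fin.last e))) +
          w (Sum.inr (Sum.inr (Fin.last e)))) * gam a b) := rfl

theorem prjC_z2 (a b : F) (w : I (e + 1) → F) :
    prjC e F a b w (Sum.inr 1) =
      (bet a b * w (Sum.inr (Sum.inl (Fin.last e))) +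
          w (Sum.inr (Sum.inr (Fin.last e)))) * gam a b := rfl

theorem prjC_embC (h2 : (2 : F) ≠ 0) {a b : F} (hβ : bet a b ≠ 0) (v : Mc e → F) :
    prjC e F a b (embC e F a b v) = v := by
  have hγ := gam_spec h2 hβ
  have h0 : prjC e F a b (embC e F a b v) (Sum.inr 0) = v (Sum.inr 0) := by
    rw [prjC_z1, embC_0, embC_xl, embC_yl]
    linear_combination (-(al a * v (Sum.inr 1))) * hγ
  have h1 : prjC e F a b (embC e F a b v) (Sum.inr 1) = v (Sum.inr 1) := by
    rw [prjC_z2, embC_xl, embC_yl]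
    linear_combination (v (Sum.inr 1)) * hγ
  ext s
  rcases s with (i | i) | k
  · rw [prjC_x, embC_x]
  · rw [prjC_y, embC_y]
  · revert k
    rw [Fin.forall_fin_two]
    exact ⟨h0, h1⟩

theorem tau_embC (a b : F) (v : Mc e → F) : tau e F a b (embC e F a b v) = 0 := by
  rw [tau_apply, embC_xl, embC_yl]
  ring

theorem prjC_w0 (a b : F) : prjC e F a b (w0 e F a b) = 0 := by
  have h0 : prjC e F a b (w0 e F a b) (Sum.inr 0) = 0 := by
    rw [prjC_z1, w0_0, w0_xl, w0_yl]
    ring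
  have h1 : prjC e F a b (w0 e F a b) (Sum.inr 1) = 0 := by
    rw [prjC_z2, w0_xl, w0_yl]
    ring
  ext s
  rcases s with (i | i) | k
  · rw [prjC_x, w0_x]
    rfl
  · rw [prjC_y, w0_y]
    rfl
  · revert k
    rw [Fin.forall_fin_two]
    exact ⟨h0, h1⟩

theorem decompC (h2 : (2 : F) ≠ 0) {a b : F} (hβ : bet a b ≠ 0) (w : I (e + 1) → F) :
    w = tau e F a b w • w0 e F a b + embC e F a b (prjC e F a b w) := by
  have hγ := gam_spec h2 hβ
  ext s
  rcases s with s | j | j
  · cases s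
    rw [Pi.add_apply, Pi.smul_apply, smul_eq_mul, w0_0, embC_0, prjC_z1, prjC_z2]
    ring
  · refine Fin.lastCases ?_ (fun i => ?_) j
    · rw [Pi.add_apply, Pi.smul_apply, smul_eq_mul, w0_xl, embC_xl, prjC_z2, tau_apply]
      linear_combination (-(w (Sum.inr (Sum.inl (Fin.last e))))) * hγ
    · rw [Pi.add_apply, Pi.smul_apply, smul_eq_mul, w0_x, embC_x, prjC_x]
      ring
  · refine Fin.lastCases ?_ (fun i => ?_) j
    · rw [Pi.add_apply, Pi.smul_apply, smul_eq_mul, w0_yl, embC_yl, prjC_z2, tau_apply]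
      linear_combination (-(w (Sum.inr (Sum.inr (Fin.last e))))) * hγ
    · rw [Pi.add_apply, Pi.smul_apply, smul_eq_mul, w0_y, embC_y, prjC_y]
      ring

theorem quadOdd_eqC (h2 : (2 : F) ≠ 0) {a b : F} (hβ : bet a b ≠ 0) (w : I (e + 1) → F) :
    Cfsg.quadFormOdd (e + 1) F w =
      Cfsg.quadFormMinus e F a b (prjC e F a b w) - bet a b * tau e F a b w ^ 2 := by
  have hγ := gam_spec h2 hβ
  have hα := al_add h2 a
  unfold Cfsg.quadFormOdd Cfsg.quadFormMinus
  rw [Fin.sum_univ_castSucc]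
  simp only [prjC_x, prjC_y, prjC_z1, prjC_z2, tau_apply]
  unfold bet at hγ ⊢
  linear_combination
    ((w (Sum.inl ()) - al a * (((b - al a ^ 2) * w (Sum.inr (Sum.inl (Fin.last e))) +
          w (Sum.inr (Sum.inr (Fin.last e)))) * gam a b)) *
      (((b - al a ^ 2) * w (Sum.inr (Sum.inl (Fin.last e))) +
          w (Sum.inr (Sum.inr (Fin.last e)))) * gam a b)) * hα -
    (w (Sum.inr (Sum.inl (Fin.last e))) * w (Sum.inr (Sum.inr (Fin.last e))) *
      (2 * (b - al a ^ 2) * gam a b + 1)) * hγ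

end Core

open Core

/-- embedding of the minus space into the odd space (`d = e + 1`) -/
def emb (e : ℕ) (F : Type u) [Field F] (a b : F) : (M (e + 1) → F) →ₗ[F] (I (e + 1) → F) :=
  embC e F a b

/-- projection of the odd space onto the minus space -/
def prj (e : ℕ) (F : Type u) [Field F] (a b : F) : (I (e + 1) → F) →ₗ[F] (M (e + 1) → F) :=
  prjC e F a b

section basic

variable (h2 : (2 : F) ≠ 0) {a b : F} (hβ : bet a b ≠ 0)

include h2 hβ in
theorem prj_emb (v : M (e + 1) → F) : prj e F a b (emb e F a b v) = v :=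
  prjC_embC h2 hβ v

theorem tau_emb (a b : F) (v : M (e + 1) → F) : tau e F a b (emb e F a b v) = 0 :=
  tau_embC a b v

theorem prj_w0 (a b : F) : prj e F a b (w0 e F a b) = 0 :=
  prjC_w0 a b

include h2 hβ in
theorem tau_w0 : tau e F a b (w0 e F a b) = 1 := by
  have hγ := gam_spec h2 hβ
  rw [tau_apply, w0_xl, w0_yl]
  linear_combination hγ

include h2 hβ in
/-- decomposition of a vector of the odd space -/
theorem eq_smul_w0_add (w : I (e + 1) → F) :
    w = tau e F a b w • w0 e F a b + emb e F a b (prj e F a b w) :=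
  decompC h2 hβ w

include h2 hβ in
theorem quadOdd_eq (w : I (e + 1) → F) :
    Cfsg.quadFormOdd (e + 1) F w =
      Cfsg.quadFormMinus (e + 1 - 1) F a b (prj e F a b w) - bet a b * tau e F a b w ^ 2 :=
  quadOdd_eqC h2 hβ w

include h2 hβ in
theorem emb_inj : Function.Injective (emb e F a b) := by
  intro u v h
  have := congrArg (prj e F a b) h
  rwa [prj_emb h2 hβ, prj_emb h2 hβ] at this

include h2 hβ in
theorem emb_prj (w : I (e + 1) → F) (h : tau e F a b w = 0) :
    emb e F a b (prj e F a b w) = w := by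
  have h1 := eq_smul_w0_add h2 hβ w
  rw [h, zero_smul, zero_add] at h1
  exact h1.symm

include h2 hβ in
theorem quadOdd_emb (v : M (e + 1) → F) :
    Cfsg.quadFormOdd (e + 1) F (emb e F a b v) = Cfsg.quadFormMinus (e + 1 - 1) F a b v := by
  rw [quadOdd_eq h2 hβ, prj_emb h2 hβ, tau_emb]
  ring

include h2 hβ in
theorem polar_emb (u v : M (e + 1) → F) :
    QuadraticMap.polar (Cfsg.quadFormOdd (e + 1) F) (emb e F a b u) (emb e F a b v) =
      QuadraticMap.polar (Cfsg.quadFormMinus (e + 1 - 1) F a b) u v := by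
  unfold QuadraticMap.polar
  rw [← map_add, quadOdd_emb h2 hβ, quadOdd_emb h2 hβ, quadOdd_emb h2 hβ]

theorem quadMinus_zero (a b : F) (k : ℕ) :
    Cfsg.quadFormMinus k F a b (0 : (Fin k ⊕ Fin k) ⊕ Fin 2 → F) = 0 := by
  unfold Cfsg.quadFormMinus
  simp

include h2 hβ in
/-- `polar Q_odd u w0 = - 2 β tau u` -/
theorem polar_w0 (u : I (e + 1) → F) :
    QuadraticMap.polar (Cfsg.quadFormOdd (e + 1) F) u (w0 e F a b) =
      -(2 * bet a b * tau e F a b u) := by
  unfold QuadraticMap.polar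
  rw [quadOdd_eq h2 hβ, quadOdd_eq h2 hβ u, quadOdd_eq h2 hβ (w0 e F a b), map_add, map_add,
    prj_w0, tau_w0 h2 hβ, add_zero]
  have h0 := quadMinus_zero a b (e + 1 - 1)
  rw [h0]
  ring

include h2 hβ in
theorem tau_eq_zero_of_polar (u : I (e + 1) → F)
    (h : QuadraticMap.polar (Cfsg.quadFormOdd (e + 1) F) u (w0 e F a b) = 0) :
    tau e F a b u = 0 := by
  rw [polar_w0 h2 hβ, neg_eq_zero] at h
  exact (mul_eq_zero.mp h).resolve_left (mul_ne_zero h2 hβ)

include h2 hβ in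
theorem polar_emb_w0 (v : M (e + 1) → F) :
    QuadraticMap.polar (Cfsg.quadFormOdd (e + 1) F) (emb e F a b v) (w0 e F a b) = 0 := by
  rw [polar_w0 h2 hβ, tau_emb]
  ring

include h2 hβ in
theorem w0_ne_zero : w0 e F a b ≠ 0 := by
  intro h
  have h1 := tau_w0 (e := e) h2 hβ
  rw [h, map_zero] at h1
  exact zero_ne_one h1

end basic

/-- the linear map `emb ∘ x ∘ prj + tau ⊗ w0` -/
def hatL (a b : F) (x : Matrix (M (e + 1)) (M (e + 1)) F) :
    (I (e + 1) → F) →ₗ[F] (I (e + 1) → F) :=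
  (emb e F a b) ∘ₗ (Matrix.toLin' x) ∘ₗ (prj e F a b) + (tau e F a b).smulRight (w0 e F a b)

theorem hatL_apply (a b : F) (x : Matrix (M (e + 1)) (M (e + 1)) F) (w : I (e + 1) → F) :
    hatL a b x w = emb e F a b (x *ᵥ prj e F a b w) + tau e F a b w • w0 e F a b := by
  unfold hatL
  rw [LinearMap.add_apply, LinearMap.comp_apply, LinearMap.comp_apply, Matrix.toLin'_apply,
    LinearMap.smulRight_apply]

/-- the matrix of the extension of `x` to the odd space fixing `w0` -/
def hat (a b : F) (x : Matrix (M (e + 1)) (M (e + 1)) F) : Matrix (I (e + 1)) (I (e + 1)) F :=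
  LinearMap.toMatrix' (hatL a b x)

theorem hat_mulVec (a b : F) (x : Matrix (M (e + 1)) (M (e + 1)) F) (w : I (e + 1) → F) :
    hat a b x *ᵥ w = emb e F a b (x *ᵥ prj e F a b w) + tau e F a b w • w0 e F a b := by
  unfold hat
  rw [LinearMap.toMatrix'_mulVec, hatL_apply]

section derived

variable (h2 : (2 : F) ≠ 0) {a b : F} (hβ : bet a b ≠ 0)

include h2 hβ

theorem hat_one : hat a b (1 : Matrix (M (e + 1)) (M (e + 1)) F) = 1 := by
  unfold hat
  have h : hatL a b (1 : Matrix (M (e + 1)) (M (e + 1)) F) = LinearMap.id := by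
    apply LinearMap.ext
    intro w
    rw [hatL_apply, Matrix.one_mulVec, LinearMap.id_apply]
    exact (add_comm _ _).trans (eq_smul_w0_add h2 hβ w).symm
  rw [h, LinearMap.toMatrix'_id]

theorem hat_mul (x y : Matrix (M (e + 1)) (M (e + 1)) F) :
    hat a b (x * y) = hat a b x * hat a b y := by
  unfold hat
  have h : hatL a b (x * y) = hatL a b x ∘ₗ hatL a b y := by
    apply LinearMap.ext
    intro w
    rw [LinearMap.comp_apply, hatL_apply a b x, hatL_apply a b y, hatL_apply a b (x * y),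
      map_add, map_add, map_smul, map_smul, prj_emb h2 hβ, prj_w0, tau_emb, tau_w0 h2 hβ,
      smul_zero, add_zero, zero_add, smul_eq_mul, mul_one, Matrix.mulVec_mulVec]
  rw [h, LinearMap.toMatrix'_comp]

theorem prj_hat_mulVec (x : Matrix (M (e + 1)) (M (e + 1)) F) (w : I (e + 1) → F) :
    prj e F a b (hat a b x *ᵥ w) = x *ᵥ prj e F a b w := by
  rw [hat_mulVec, map_add, map_smul, prj_emb h2 hβ, prj_w0, smul_zero, add_zero]

theorem tau_hat_mulVec (x : Matrix (M (e + 1)) (M (e + 1)) F) (w : I (e + 1) → F) :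
    tau e F a b (hat a b x *ᵥ w) = tau e F a b w := by
  rw [hat_mulVec, map_add, map_smul, tau_emb, tau_w0 h2 hβ, zero_add, smul_eq_mul, mul_one]

theorem hat_mulVec_emb (x : Matrix (M (e + 1)) (M (e + 1)) F) (v : M (e + 1) → F) :
    hat a b x *ᵥ emb e F a b v = emb e F a b (x *ᵥ v) := by
  rw [hat_mulVec, prj_emb h2 hβ, tau_emb, zero_smul, add_zero]

theorem hat_mulVec_w0 (x : Matrix (M (e + 1)) (M (e + 1)) F) :
    hat a b x *ᵥ w0 e F a b = w0 e F a b := by
  rw [hat_mulVec, prj_w0, Matrix.mulVec_zero, map_zero, tau_w0 h2 hβ, one_smul, zero_add]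

/-- `hat` as a group homomorphism -/
def hatG : Matrix.GeneralLinearGroup (M (e + 1)) F →* Matrix.GeneralLinearGroup (I (e + 1)) F where
  toFun x := ⟨hat a b (x : Matrix (M (e + 1)) (M (e + 1)) F),
    hat a b ((x⁻¹ : Matrix.GeneralLinearGroup (M (e + 1)) F) : Matrix (M (e + 1)) (M (e + 1)) F),
    by rw [← hat_mul h2 hβ, Units.mul_inv, hat_one h2 hβ],
    by rw [← hat_mul h2 hβ, Units.inv_mul, hat_one h2 hβ]⟩
  map_one' := by
    apply Units.ext
    exact hat_one h2 hβ
  map_mul' := by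
    intro x y
    apply Units.ext
    exact hat_mul h2 hβ _ _

theorem coe_hatG (x : Matrix.GeneralLinearGroup (M (e + 1)) F) :
    ((hatG h2 hβ x : Matrix.GeneralLinearGroup (I (e + 1)) F) : Matrix (I (e + 1)) (I (e + 1)) F) =
      hat a b (x : Matrix (M (e + 1)) (M (e + 1)) F) := rfl

theorem hatG_mem (x : Matrix.GeneralLinearGroup (M (e + 1)) F)
    (hx : x ∈ Cfsg.isometryGroup F (Cfsg.quadFormMinus (e + 1 - 1) F a b)) :
    hatG h2 hβ x ∈ Cfsg.isometryGroup F (Cfsg.quadFormOdd (e + 1) F) := by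
  intro u v
  show Cfsg.quadFormOdd (e + 1) F (hat a b (x : Matrix (M (e + 1)) (M (e + 1)) F) *ᵥ u) =
    Cfsg.quadFormOdd (e + 1) F u
  rw [quadOdd_eq h2 hβ, quadOdd_eq h2 hβ u, prj_hat_mulVec h2 hβ, tau_hat_mulVec h2 hβ]
  congr 1
  exact hx (prj e F a b u) (prj e F a b u)

theorem hatG_pow_eq_one (x : Matrix.GeneralLinearGroup (M (e + 1)) F) (r : ℕ) (h : x ^ r = 1) :
    hatG h2 hβ x ^ r = 1 := by
  rw [← map_pow, h, map_one]

/-- fixed vectors of `hat x` -/
theorem mem_Fx_hat (x : Matrix (M (e + 1)) (M (e + 1)) F) (w : I (e + 1) → F) :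
    w ∈ Fx (hat a b x) ↔ prj e F a b w ∈ FxM x := by
  rw [mem_Fx, mem_FxM]
  constructor
  · intro h
    have := congrArg (prj e F a b) h
    rwa [prj_hat_mulVec h2 hβ] at this
  · intro h
    rw [hat_mulVec, h]
    exact (add_comm _ _).trans (eq_smul_w0_add h2 hβ w).symm

theorem w0_mem_Fx_hat (x : Matrix (M (e + 1)) (M (e + 1)) F) : w0 e F a b ∈ Fx (hat a b x) := by
  rw [mem_Fx]
  exact hat_mulVec_w0 h2 hβ x

theorem emb_mem_Fx_hat (x : Matrix (M (e + 1)) (M (e + 1)) F) (v : M (e + 1) → F) :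
    emb e F a b v ∈ Fx (hat a b x) ↔ v ∈ FxM x := by
  rw [mem_Fx_hat h2 hβ, prj_emb h2 hβ]

/-- `Fix (hat x) = ⟨w0⟩ ⊕ emb (Fix x)` -/
theorem Fx_hat (x : Matrix (M (e + 1)) (M (e + 1)) F) :
    Fx (hat a b x) = Submodule.span F {w0 e F a b} ⊔ (FxM x).map (emb e F a b) := by
  apply le_antisymm
  · intro w hw
    rw [eq_smul_w0_add h2 hβ w]
    apply Submodule.add_mem_sup
    · exact Submodule.smul_mem _ _ (Submodule.subset_span rfl)
    · exact Submodule.mem_map_of_mem ((mem_Fx_hat h2 hβ x w).mp hw)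
  · apply sup_le
    · rw [Submodule.span_le]
      rintro _ rfl
      exact w0_mem_Fx_hat h2 hβ x
    · rintro _ ⟨v, hv, rfl⟩
      exact (emb_mem_Fx_hat h2 hβ x v).mpr hv

theorem finrank_map_emb (W : Submodule F (M (e + 1) → F)) :
    Module.finrank F ↥(W.map (emb e F a b)) = Module.finrank F ↥W :=
  (Submodule.equivMapOfInjective (emb e F a b) (emb_inj h2 hβ) W).finrank_eq.symm

theorem span_w0_inf_map_emb (W : Submodule F (M (e + 1) → F)) :
    Submodule.span F {w0 e F a b} ⊓ W.map (emb e F a b) = ⊥ := by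
  rw [eq_bot_iff]
  rintro w ⟨h1, h2'⟩
  obtain ⟨c, rfl⟩ := Submodule.mem_span_singleton.mp h1
  obtain ⟨v, -, hv⟩ := h2'
  have h3 := congrArg (tau e F a b) hv
  rw [tau_emb, map_smul, tau_w0 h2 hβ, smul_eq_mul, mul_one] at h3
  rw [← h3, zero_smul]
  exact Submodule.zero_mem _

/-- `dim Fix (hat x) = dim Fix x + 1` -/
theorem finrank_Fx_hat (x : Matrix (M (e + 1)) (M (e + 1)) F) :
    Module.finrank F ↥(Fx (hat a b x)) = Module.finrank F ↥(FxM x) + 1 := by
  have h1 := Submodule.finrank_sup_add_finrank_inf_eq (Submodule.span F {w0 e F a b})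
    ((FxM x).map (emb e F a b))
  rw [span_w0_inf_map_emb h2 hβ, finrank_bot, add_zero, finrank_map_emb h2 hβ] at h1
  rw [finrank_span_singleton (w0_ne_zero h2 hβ)] at h1
  rw [Fx_hat h2 hβ, h1, add_comm]

theorem ndeg_map_emb (W : Submodule F (M (e + 1) → F)) :
    NDeg (e + 1) F (W.map (emb e F a b)) ↔ NDegM (e + 1) F a b W := by
  constructor
  · intro h w hw hw0
    have hw0' : emb e F a b w ≠ 0 := fun h0 => hw0 (emb_inj h2 hβ (by rw [h0, map_zero]))
    obtain ⟨⟨y, hy, hy0⟩, ⟨z, hz, hz0⟩⟩ := h (emb e F a b w) (Submodule.mem_map_of_mem hw) hw0'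
    obtain ⟨y', hy', rfl⟩ := hy
    obtain ⟨z', hz', rfl⟩ := hz
    rw [polar_emb h2 hβ] at hy0 hz0
    exact ⟨⟨y', hy', hy0⟩, ⟨z', hz', hz0⟩⟩
  · intro h w hw hw0
    obtain ⟨w', hw', rfl⟩ := hw
    have hw0' : w' ≠ 0 := by
      rintro rfl
      exact hw0 (map_zero _)
    obtain ⟨⟨y, hy, hy0⟩, ⟨z, hz, hz0⟩⟩ := h w' hw' hw0'
    refine ⟨⟨emb e F a b y, Submodule.mem_map_of_mem hy, ?_⟩,
      ⟨emb e F a b z, Submodule.mem_map_of_mem hz, ?_⟩⟩
    · rw [polar_emb h2 hβ]; exact hy0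
    · rw [polar_emb h2 hβ]; exact hz0

theorem stab_map_emb (x : Matrix (M (e + 1)) (M (e + 1)) F) (W : Submodule F (M (e + 1) → F)) :
    Stab (hat a b x) (W.map (emb e F a b)) ↔ StabM x W := by
  constructor
  · intro h v hv
    obtain ⟨w, hw, rfl⟩ := hv
    have h1 : Matrix.toLin' (hat a b x) (emb e F a b w) ∈ W.map (emb e F a b) :=
      h (Submodule.mem_map_of_mem (Submodule.mem_map_of_mem hw))
    rw [Matrix.toLin'_apply, hat_mulVec_emb h2 hβ] at h1
    obtain ⟨w', hw', hw'e⟩ := h1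
    rw [Matrix.toLin'_apply, ← emb_inj h2 hβ hw'e]
    exact hw'
  · intro h v hv
    obtain ⟨v', hv', rfl⟩ := hv
    obtain ⟨w, hw, rfl⟩ := hv'
    rw [Matrix.toLin'_apply, hat_mulVec_emb h2 hβ]
    apply Submodule.mem_map_of_mem
    have h1 : Matrix.toLin' x w ∈ W := h (Submodule.mem_map_of_mem hw)
    rw [Matrix.toLin'_apply] at h1
    exact h1

theorem map_emb_inf_Fx (x : Matrix (M (e + 1)) (M (e + 1)) F) (W : Submodule F (M (e + 1) → F)) :
    W.map (emb e F a b) ⊓ Fx (hat a b x) = (W ⊓ FxM x).map (emb e F a b) := by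
  ext w
  constructor
  · rintro ⟨⟨v, hv, rfl⟩, h2'⟩
    exact Submodule.mem_map_of_mem ⟨hv, (emb_mem_Fx_hat h2 hβ x v).mp h2'⟩
  · rintro ⟨v, ⟨hv1, hv2⟩, rfl⟩
    exact ⟨Submodule.mem_map_of_mem hv1, (emb_mem_Fx_hat h2 hβ x v).mpr hv2⟩

/-- a subspace of the odd space with vanishing `w0`-coordinate comes from the minus space -/
theorem map_comap_emb (E : Submodule F (I (e + 1) → F)) (hE : ∀ u ∈ E, tau e F a b u = 0) :
    (E.comap (emb e F a b)).map (emb e F a b) = E := by
  ext w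
  constructor
  · rintro ⟨v, hv, rfl⟩
    exact hv
  · intro hw
    refine ⟨prj e F a b w, ?_, emb_prj h2 hβ w (hE w hw)⟩
    show emb e F a b (prj e F a b w) ∈ E
    rw [emb_prj h2 hβ w (hE w hw)]
    exact hw

end derived

end Cfsg.Agent.Lib.Helper37.OMiEmb
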