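import Mathlib
import Cfsg.Agent.Lib.Helper94.OPStmt
import Cfsg.Agent.Lib.Helper60.S8GLEMB
import Cfsg.Agent.Lib.Helper8.OFSQOM

/-!
# S5989 / NEGSQEX: if `d` is even or `q ≡ 1 (mod 8)`, `Omega^+_(2d)(q)` contains an element with
`x * x = -1`.

`d = e + e`: `x = psi g`, `g = [a, b]` a literal commutator in `GL_d` with `g * g = -1`
(`a = [[1, -1], [1, 1]]`, `b = [[0, 1], [1, 0]]`, `g = [[0, -1], [1, 0]]` in `e × e` blocks), so
`x = [psi a, psi b]` is a commutator of isometries.  `q ≡ 1 (mod 8)`: `x = (psi (ζ • 1))²` with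
`ζ ^ 4 = -1`.
-/

set_option autoImplicit false

universe u

open scoped Matrix
open scoped commutatorElement

namespace Cfsg.Agent.Lib.Helper37.OPNEGSQEX

open Cfsg.Agent.Lib.Helper94.OPStmt Cfsg.Agent.Lib.Helper60.S8GLEMB

section

variable {F : Type u} [Field F]

theorem psi_neg_one (k : ℕ) : (psi F k (-1)).val = -1 := by
  rw [psi_val, inv_neg_one, Units.val_neg, Units.val_one, Matrix.transpose_neg,
    Matrix.transpose_one]
  ext i j
  rcases i with i | i <;> rcases j with j | j <;> simp [Matrix.one_apply]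

/-- `psi g` squares to `-1` when `g` does -/
theorem psi_sq (k : ℕ) (g : Matrix.GeneralLinearGroup (Fin k) F) (hg : g * g = -1) :
    (psi F k g).val * (psi F k g).val = -1 := by
  rw [← Units.val_mul, ← map_mul, hg, psi_neg_one]

/-- a commutator of two elements of the isometry group lies in `Omega` -/
theorem comm_mem_omega (k : ℕ) (a b : Matrix.GeneralLinearGroup (Fin k) F) :
    psi F k ⁅a, b⁆ ∈ Cfsg.Geo.omegaGL (Cfsg.quadFormPlus k F) := by
  unfold Cfsg.Geo.omegaGL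
  refine ⟨⁅(⟨psi F k a, psi_mem F k a⟩ : ↥(Cfsg.isometryGroup F (Cfsg.quadFormPlus k F))),
    ⟨psi F k b, psi_mem F k b⟩⁆, ?_, ?_⟩
  · exact Subgroup.commutator_mem_commutator (Subgroup.mem_top _) (Subgroup.mem_top _)
  · rw [map_commutatorElement, map_commutatorElement]
    rfl

end

theorem two_ne_zero_of_odd {F : Type u} [Field F] [Fintype F] (hq : Odd (Fintype.card F)) :
    (2 : F) ≠ 0 := by
  intro h
  have hch : ringChar F = 2 :=
    CharP.ringChar_of_prime_eq_zero Nat.prime_two (by exact_mod_cast h)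
  have := FiniteField.even_card_of_char_two hch
  rcases hq with ⟨m, hm⟩
  omega

theorem even_case {F : Type u} [Field F] (h2 : (2 : F) ≠ 0) (e : ℕ) :
    ∃ g : Matrix.GeneralLinearGroup (Fin (e + e)) F, g * g = -1 ∧
      ∃ a b : Matrix.GeneralLinearGroup (Fin (e + e)) F, g = ⁅a, b⁆ := by
  obtain ⟨A, hA⟩ : ∃ A : Matrix (Fin e ⊕ Fin e) (Fin e ⊕ Fin e) F,
      A = Matrix.fromBlocks 1 (-1) 1 1 := ⟨_, rfl⟩
  obtain ⟨A', hA'⟩ : ∃ A' : Matrix (Fin e ⊕ Fin e) (Fin e ⊕ Fin e) F,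
      A' = (2 : F)⁻¹ • Matrix.fromBlocks 1 1 (-1) 1 := ⟨_, rfl⟩
  obtain ⟨B, hB⟩ : ∃ B : Matrix (Fin e ⊕ Fin e) (Fin e ⊕ Fin e) F,
      B = Matrix.fromBlocks 0 1 1 0 := ⟨_, rfl⟩
  obtain ⟨J, hJ⟩ : ∃ J : Matrix (Fin e ⊕ Fin e) (Fin e ⊕ Fin e) F,
      J = Matrix.fromBlocks 0 (-1) 1 0 := ⟨_, rfl⟩
  have h22 : (2 : F)⁻¹ • ((1 : Matrix (Fin e) (Fin e) F) + 1) = 1 := by
    rw [← two_smul F (1 : Matrix (Fin e) (Fin e) F), smul_smul, inv_mul_cancel₀ h2, one_smul]
  have hAA' : A * A' = 1 := by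
    rw [hA, hA', Matrix.mul_smul, Matrix.fromBlocks_multiply, Matrix.fromBlocks_smul]
    simp only [Matrix.one_mul, Matrix.mul_one, Matrix.neg_mul, Matrix.mul_neg, neg_neg,
      add_neg_cancel, neg_add_cancel, smul_zero]
    rw [h22, Matrix.fromBlocks_one]
  have hA'A : A' * A = 1 := by
    rw [hA, hA', Matrix.smul_mul, Matrix.fromBlocks_multiply, Matrix.fromBlocks_smul]
    simp only [Matrix.one_mul, Matrix.mul_one, Matrix.neg_mul, Matrix.mul_neg, neg_neg,
      add_neg_cancel, neg_add_cancel, smul_zero]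
    rw [h22, Matrix.fromBlocks_one]
  have hBB : B * B = 1 := by
    rw [hB, Matrix.fromBlocks_multiply]
    simp [Matrix.fromBlocks_one]
  have hJJ : J * J = -1 := by
    rw [hJ, Matrix.fromBlocks_multiply]
    simp only [Matrix.zero_mul, Matrix.mul_zero, Matrix.one_mul, Matrix.mul_one, zero_add,
      add_zero, Matrix.neg_mul, Matrix.mul_neg]
    rw [← Matrix.fromBlocks_one, Matrix.fromBlocks_neg, neg_zero]
  have hJ1 : J * (-J) = 1 := by rw [Matrix.mul_neg, hJJ, neg_neg]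
  have hJ2 : (-J) * J = 1 := by rw [Matrix.neg_mul, hJJ, neg_neg]
  have hAB : A * B = J * B * A := by
    rw [hA, hB, hJ, Matrix.fromBlocks_multiply, Matrix.fromBlocks_multiply,
      Matrix.fromBlocks_multiply]
    simp
  obtain ⟨a₀, ha₀⟩ : ∃ a₀ : Matrix.GeneralLinearGroup (Fin e ⊕ Fin e) F, a₀.val = A :=
    ⟨⟨A, A', hAA', hA'A⟩, rfl⟩
  obtain ⟨b₀, hb₀⟩ : ∃ b₀ : Matrix.GeneralLinearGroup (Fin e ⊕ Fin e) F, b₀.val = B :=
    ⟨⟨B, B, hBB, hBB⟩, rfl⟩
  obtain ⟨j₀, hj₀⟩ : ∃ j₀ : Matrix.GeneralLinearGroup (Fin e ⊕ Fin e) F, j₀.val = J :=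
    ⟨⟨J, -J, hJ1, hJ2⟩, rfl⟩
  have hcomm : ⁅a₀, b₀⁆ = j₀ := by
    have h1 : a₀ * b₀ = j₀ * b₀ * a₀ := by
      apply Units.ext
      rw [Units.val_mul, Units.val_mul, Units.val_mul, ha₀, hb₀, hj₀]
      exact hAB
    rw [commutatorElement_def, h1]
    group
  have hjj : j₀ * j₀ = -1 := by
    apply Units.ext
    rw [Units.val_mul, hj₀, hJJ, Units.val_neg, Units.val_one]
  obtain ⟨Φ, hΦ⟩ : ∃ Φ : Matrix.GeneralLinearGroup (Fin e ⊕ Fin e) F ≃*
      Matrix.GeneralLinearGroup (Fin (e + e)) F, Φ = Units.mapEquiv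
        (Matrix.reindexAlgEquiv F F (finSumFinEquiv : Fin e ⊕ Fin e ≃ Fin (e + e))).toRingEquiv.toMulEquiv :=
    ⟨_, rfl⟩
  have hΦneg : Φ (-1) = -1 := by
    apply Units.ext
    rw [hΦ, Units.coe_mapEquiv, Units.val_neg, Units.val_one, Units.val_neg, Units.val_one]
    simp
  refine ⟨Φ j₀, ?_, Φ a₀, Φ b₀, ?_⟩
  · rw [← map_mul, hjj, hΦneg]
  · rw [← hcomm, map_commutatorElement]

theorem main : NegSqEx.{u} := by
  intro F _ _ hodd d hd hcase
  classical
  have h2 : (2 : F) ≠ 0 := two_ne_zero_of_odd hodd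
  by_cases hev : Even d
  · obtain ⟨e, rfl⟩ := hev
    obtain ⟨g, hgg, a, b, hgab⟩ := even_case h2 e
    refine ⟨psi F (e + e) g, ?_, psi_sq (e + e) g hgg⟩
    rw [hgab]
    exact comm_mem_omega (e + e) a b
  · have hq8 : Fintype.card F % 8 = 1 := by
      rcases hcase with h | h
      · exact absurd h hev
      · exact h
    have hchar : ringChar F ≠ 2 := by
      intro hch
      have := FiniteField.even_card_of_char_two hch
      rcases hodd with ⟨m, hm⟩
      omega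
    -- `ι` with `ι * ι = -1`
    have hm1 : IsSquare (-1 : F) := by
      rw [FiniteField.isSquare_iff hchar (neg_ne_zero.mpr one_ne_zero)]
      have h4 : Fintype.card F / 2 = 2 * (Fintype.card F / 4) := by omega
      rw [h4, pow_mul]
      simp
    obtain ⟨ι, hι⟩ := hm1
    have hι0 : ι ≠ 0 := by
      rintro rfl
      simp at hι
    have hιsq : IsSquare ι := by
      rw [FiniteField.isSquare_iff hchar hι0]
      have h8 : Fintype.card F / 2 = 4 * (Fintype.card F / 8) := by omega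
      have hι4 : ι ^ 4 = 1 := by
        have : ι ^ 4 = (ι * ι) * (ι * ι) := by ring
        rw [this, ← hι]
        simp
      rw [h8, pow_mul, hι4, one_pow]
    obtain ⟨ζ, hζ⟩ := hιsq
    have hζ0 : ζ ≠ 0 := by
      rintro rfl
      apply hι0
      rw [hζ, mul_zero]
    have hζ4 : ζ * ζ * (ζ * ζ) = -1 := by rw [← hζ, ← hι]
    obtain ⟨y, hy⟩ : ∃ y : Matrix.GeneralLinearGroup (Fin d) F,
        y.val = ζ • (1 : Matrix (Fin d) (Fin d) F) :=
      ⟨⟨ζ • 1, ζ⁻¹ • 1, by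
        rw [Matrix.smul_mul, Matrix.mul_smul, Matrix.one_mul, smul_smul, mul_inv_cancel₀ hζ0,
          one_smul], by
        rw [Matrix.smul_mul, Matrix.mul_smul, Matrix.one_mul, smul_smul, inv_mul_cancel₀ hζ0,
          one_smul]⟩, rfl⟩
    have hyy : (y * y) * (y * y) = -1 := by
      apply Units.ext
      have e1 : ∀ s t : F, (s • (1 : Matrix (Fin d) (Fin d) F)) * (t • 1) = (s * t) • 1 := by
        intro s t
        rw [Matrix.smul_mul, Matrix.one_mul, smul_smul]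
      rw [Units.val_mul, Units.val_mul, hy, Units.val_neg, Units.val_one, e1, e1, hζ4, neg_smul,
        one_smul]
    refine ⟨psi F d (y * y), ?_, psi_sq d (y * y) hyy⟩
    rw [map_mul]
    exact Cfsg.Agent.Lib.Helper8.OFSQOM.main h2 d (by omega) (psi F d y) (psi_mem F d y)

end Cfsg.Agent.Lib.Helper37.OPNEGSQEX
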