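import Mathlib
import Cfsg.Agent.Lib.Helper37.OPNEGSQEX
import Cfsg.Agent.Lib.Helper57.OMMSQOM
import Cfsg.Agent.Lib.Helper44.NegPairs

/-!
# An element of `Omega^-_(2d)(q)` with square `-1` (`d` odd, `q ≡ 7 (mod 8)`)

`X = diag(psi g, s⁻¹ • [[-a, -2b], [2, a]])` with `g * g = -1` in `GL_(d-1)` and
`s * s = 4 b - a ^ 2` is an isometry of `quadFormMinus (d - 1) F a b` with `X * X = -1`; and if
`2 = t * t` then `X = h * h` for the isometry `h = t⁻¹ • (1 + X)`, so `X` lies in `Omega`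
(squares of isometries, `Helper57.OMMSQOM`).
-/

set_option autoImplicit false

universe u

open scoped Matrix

namespace Cfsg.Agent.Lib.Helper37.OMiNegSq

open Cfsg.Agent.Lib.Helper60.S8GLEMB Cfsg.Agent.Lib.Helper41.OMStmt
open Cfsg.Agent.Lib.Helper44.QSpace Cfsg.Agent.Lib.Helper37.OPNEGSQEX

/-- if `2 = t * t`, an isometry with square `-1` is the square of an isometry -/
theorem sq_of_neg_sq {F : Type u} [Field F] (h2 : (2 : F) ≠ 0) {ι : Type} [Fintype ι]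
    [DecidableEq ι] (Q : QuadraticForm F (ι → F)) (X : Matrix ι ι F) (hXX : X * X = -1)
    (hX : ∀ u, Q (X *ᵥ u) = Q u) (t : F) (ht : t * t = 2) :
    ∃ h : Matrix.GeneralLinearGroup ι F, h.val * h.val = X ∧ ∀ u, Q (h.val *ᵥ u) = Q u := by
  have ht0 : t ≠ 0 := by
    rintro rfl
    apply h2
    rw [← ht, mul_zero]
  have htt : t⁻¹ * t⁻¹ * 2 = 1 := by
    rw [← ht]
    field_simp
  have hpol : ∀ u, Q (u + X *ᵥ u) = 2 * Q u := by
    intro u
    have h1 : X *ᵥ (u + X *ᵥ u) = X *ᵥ u + (-1 : F) • u := by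
      rw [Matrix.mulVec_add, Matrix.mulVec_mulVec, hXX, Matrix.neg_mulVec, Matrix.one_mulVec,
        neg_smul, one_smul]
    have h3 := hX (u + X *ᵥ u)
    rw [h1, q_add, q_add, q_smul, hX, polar_smul_r, QuadraticMap.polar_comm Q (X *ᵥ u) u] at h3
    have h4 : 2 * QuadraticMap.polar Q u (X *ᵥ u) = 0 := by linear_combination -h3
    have h5 : QuadraticMap.polar Q u (X *ᵥ u) = 0 := by
      rcases mul_eq_zero.mp h4 with h | h
      · exact absurd h h2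
      · exact h
    rw [q_add, hX, h5]
    ring
  have e1 : (1 + X) * (1 - X) = (2 : F) • (1 : Matrix ι ι F) := by
    have : (1 + X) * (1 - X) = 1 - X * X := by noncomm_ring
    rw [this, hXX, sub_neg_eq_add, two_smul]
  have e2 : (1 - X) * (1 + X) = (2 : F) • (1 : Matrix ι ι F) := by
    have : (1 - X) * (1 + X) = 1 - X * X := by noncomm_ring
    rw [this, hXX, sub_neg_eq_add, two_smul]
  have e3 : (1 + X) * (1 + X) = (2 : F) • X := by
    have : (1 + X) * (1 + X) = 1 + X * X + (X + X) := by noncomm_ring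
    rw [this, hXX, add_neg_cancel, zero_add, two_smul]
  refine ⟨⟨t⁻¹ • (1 + X), t⁻¹ • (1 - X), ?_, ?_⟩, ?_, ?_⟩
  · rw [Matrix.smul_mul, Matrix.mul_smul, smul_smul, e1, smul_smul, htt, one_smul]
  · rw [Matrix.smul_mul, Matrix.mul_smul, smul_smul, e2, smul_smul, htt, one_smul]
  · show (t⁻¹ • (1 + X)) * (t⁻¹ • (1 + X)) = X
    rw [Matrix.smul_mul, Matrix.mul_smul, smul_smul, e3, smul_smul, htt, one_smul]
  · intro u
    show Q ((t⁻¹ • (1 + X)) *ᵥ u) = Q u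
    rw [Matrix.smul_mulVec, Matrix.add_mulVec, Matrix.one_mulVec, q_smul, hpol]
    linear_combination Q u * htt

/-- an isometry of the minus form with square `-1`, `q ≡ 3 (mod 4)` -/
theorem neg_sq_iso {F : Type u} [Field F] [Fintype F] (hodd : Odd (Fintype.card F))
    (hq4 : Fintype.card F % 4 = 3) (k : ℕ) (g : Matrix.GeneralLinearGroup (Fin k) F)
    (hg : g * g = -1) (a b : F)
    (hab : ∀ x y : F, x ^ 2 + a * x * y + b * y ^ 2 = 0 → x = 0 ∧ y = 0) :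
    ∃ X : Matrix ((Fin k ⊕ Fin k) ⊕ Fin 2) ((Fin k ⊕ Fin k) ⊕ Fin 2) F, X * X = -1 ∧
      ∀ u, Cfsg.quadFormMinus k F a b (X *ᵥ u) = Cfsg.quadFormMinus k F a b u := by
  classical
  have h2 : (2 : F) ≠ 0 := two_ne_zero_of_odd hodd
  have hchar : ringChar F ≠ 2 := by
    intro hch
    have := FiniteField.even_card_of_char_two hch
    rcases hodd with ⟨m, hm⟩
    omega
  have hΔ : ¬ IsSquare (a ^ 2 - 4 * b) := by
    rintro ⟨c, hc⟩
    have h := hab (c - a) 2 (by linear_combination -hc)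
    exact h2 h.2
  have hn0 : a ^ 2 - 4 * b ≠ 0 := by
    intro h
    apply hΔ
    rw [h]
    exact ⟨0, by simp⟩
  have hm1 : ¬ IsSquare (-1 : F) := by
    rw [FiniteField.isSquare_neg_one_iff]
    omega
  have hone : (-1 : F) ≠ 0 := neg_ne_zero.mpr one_ne_zero
  have hA : (a ^ 2 - 4 * b) ^ (Fintype.card F / 2) = -1 :=
    (FiniteField.pow_dichotomy hchar hn0).resolve_left
      (fun h => hΔ ((FiniteField.isSquare_iff hchar hn0).mpr h))
  have hB : (-1 : F) ^ (Fintype.card F / 2) = -1 :=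
    (FiniteField.pow_dichotomy hchar hone).resolve_left
      (fun h => hm1 ((FiniteField.isSquare_iff hchar hone).mpr h))
  have hn0' : 4 * b - a ^ 2 ≠ 0 := by
    intro h
    apply hn0
    linear_combination -h
  have hsq : IsSquare (4 * b - a ^ 2) := by
    rw [FiniteField.isSquare_iff hchar hn0']
    have : 4 * b - a ^ 2 = (-1) * (a ^ 2 - 4 * b) := by ring
    rw [this, mul_pow, hA, hB]
    ring
  obtain ⟨s, hs⟩ := hsq
  have hs0 : s ≠ 0 := by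
    rintro rfl
    apply hn0'
    rw [hs, mul_zero]
  have hss : s⁻¹ * s⁻¹ * (4 * b - a ^ 2) = 1 := by
    rw [hs]
    field_simp
  obtain ⟨M, hM⟩ : ∃ M : Matrix (Fin 2) (Fin 2) F, M = !![-a, -(2 * b); 2, a] := ⟨_, rfl⟩
  have hMM : M * M = (-(4 * b - a ^ 2)) • (1 : Matrix (Fin 2) (Fin 2) F) := by
    rw [hM]
    ext i j
    fin_cases i <;> fin_cases j <;> simp [Matrix.mul_apply, Fin.sum_univ_two] <;> ring
  have hM0 : ∀ w : Fin 2 → F, (M *ᵥ w) 0 = -a * w 0 + -(2 * b) * w 1 := by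
    intro w
    rw [hM]
    simp [Matrix.mulVec, dotProduct, Fin.sum_univ_two]
  have hM1 : ∀ w : Fin 2 → F, (M *ᵥ w) 1 = 2 * w 0 + a * w 1 := by
    intro w
    rw [hM]
    simp [Matrix.mulVec, dotProduct, Fin.sum_univ_two]
  obtain ⟨N, hN⟩ : ∃ N : Matrix (Fin 2) (Fin 2) F, N = s⁻¹ • M := ⟨_, rfl⟩
  have hNN : N * N = -1 := by
    rw [hN, Matrix.smul_mul, Matrix.mul_smul, smul_smul, hMM, smul_smul]
    have : s⁻¹ * s⁻¹ * -(4 * b - a ^ 2) = -1 := by linear_combination -hss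
    rw [this, neg_smul, one_smul]
  have hNiso : ∀ w : Fin 2 → F,
      (N *ᵥ w) 0 ^ 2 + a * (N *ᵥ w) 0 * (N *ᵥ w) 1 + b * (N *ᵥ w) 1 ^ 2 =
        w 0 ^ 2 + a * w 0 * w 1 + b * w 1 ^ 2 := by
    intro w
    have h0 : (N *ᵥ w) 0 = s⁻¹ * (-a * w 0 + -(2 * b) * w 1) := by
      rw [hN, Matrix.smul_mulVec, Pi.smul_apply, hM0, smul_eq_mul]
    have h1 : (N *ᵥ w) 1 = s⁻¹ * (2 * w 0 + a * w 1) := by
      rw [hN, Matrix.smul_mulVec, Pi.smul_apply, hM1, smul_eq_mul]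
    rw [h0, h1]
    linear_combination (w 0 ^ 2 + a * w 0 * w 1 + b * w 1 ^ 2) * hss
  obtain ⟨X1, hX1⟩ : ∃ X1 : Matrix ((Fin k ⊕ Fin k) ⊕ Fin 2) ((Fin k ⊕ Fin k) ⊕ Fin 2) F,
      X1 = Matrix.fromBlocks (psi F k g).val 0 0 N := ⟨_, rfl⟩
  refine ⟨X1, ?_, ?_⟩
  · rw [hX1, Matrix.fromBlocks_multiply]
    simp only [Matrix.mul_zero, Matrix.zero_mul, add_zero, zero_add]
    rw [psi_sq k g hg, hNN]
    have h1 : (1 : Matrix ((Fin k ⊕ Fin k) ⊕ Fin 2) ((Fin k ⊕ Fin k) ⊕ Fin 2) F) =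
        Matrix.fromBlocks 1 0 0 1 := Matrix.fromBlocks_one.symm
    rw [h1, Matrix.fromBlocks_neg]
    simp only [neg_zero]
  · intro u
    obtain ⟨u₁, hu₁⟩ : ∃ u₁ : Fin k ⊕ Fin k → F, u₁ = u ∘ Sum.inl := ⟨_, rfl⟩
    obtain ⟨u₂, hu₂⟩ : ∃ u₂ : Fin 2 → F, u₂ = u ∘ Sum.inr := ⟨_, rfl⟩
    have hu : u = Sum.elim u₁ u₂ := by
      rw [hu₁, hu₂]
      exact (Sum.elim_comp_inl_inr u).symm
    have hXu : X1 *ᵥ u = Sum.elim ((psi F k g).val *ᵥ u₁) (N *ᵥ u₂) := by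
      rw [hX1, hu, Matrix.fromBlocks_mulVec]
      simp
    have hQ : ∀ (w₁ : Fin k ⊕ Fin k → F) (w₂ : Fin 2 → F),
        Cfsg.quadFormMinus k F a b (Sum.elim w₁ w₂) =
          Cfsg.quadFormPlus k F w₁ + (w₂ 0 ^ 2 + a * w₂ 0 * w₂ 1 + b * w₂ 1 ^ 2) := by
      intro w₁ w₂
      rfl
    have h5 : Cfsg.quadFormPlus k F ((psi F k g).val *ᵥ u₁) = Cfsg.quadFormPlus k F u₁ :=
      psi_mem F k g u₁ u₁
    rw [hXu, hQ, hu, hQ, h5, hNiso]

/-- `Omega^-_(2d)(q)` contains an element with square `-1` when `d` is odd and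
`q ≡ 7 (mod 8)` -/
theorem exists_neg_sq {F : Type u} [Field F] [Fintype F] (hodd : Odd (Fintype.card F)) (d : ℕ)
    (hd : 2 ≤ d) (hdodd : Odd d) (hq8 : Fintype.card F % 8 = 7) (a b : F)
    (hab : ∀ x y : F, x ^ 2 + a * x * y + b * y ^ 2 = 0 → x = 0 ∧ y = 0) :
    ∃ x : Matrix.GeneralLinearGroup (Im d) F,
      x ∈ Cfsg.Geo.omegaGL (Cfsg.quadFormMinus (d - 1) F a b) ∧ x.val * x.val = -1 := by
  classical
  have h2 : (2 : F) ≠ 0 := two_ne_zero_of_odd hodd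
  obtain ⟨e, he⟩ : ∃ e, d - 1 = e + e := by
    obtain ⟨m, hm⟩ := hdodd
    exact ⟨m, by omega⟩
  obtain ⟨g, hgg, -⟩ : ∃ g : Matrix.GeneralLinearGroup (Fin (d - 1)) F, g * g = -1 ∧ True := by
    rw [he]
    obtain ⟨g, hgg, _⟩ := even_case h2 e
    exact ⟨g, hgg, trivial⟩
  obtain ⟨X, hXX, hXiso⟩ := neg_sq_iso hodd (by omega) (d - 1) g hgg a b hab
  have h2sq : IsSquare (2 : F) := by
    rw [FiniteField.isSquare_two_iff]
    omega
  obtain ⟨t, ht⟩ := h2sq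
  obtain ⟨h, hh, hhiso⟩ := sq_of_neg_sq h2 (Cfsg.Agent.Lib.Helper44.NegPairs.minusQ (d - 1) F a b)
    X hXX hXiso t ht.symm
  refine ⟨h * h, Cfsg.Agent.Lib.Helper57.OMMSQOM.main h2 d hd a b hab h (fun u _ => hhiso u), ?_⟩
  rw [Units.val_mul, hh, hXX]

end Cfsg.Agent.Lib.Helper37.OMiNegSq
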