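import Mathlib
import Cfsg.Agent.Lib.Helper45.OMiStmt
import Cfsg.Agent.Lib.Helper37.OMiNegSq
import Cfsg.Agent.Lib.Helper57.OMMSQOM
import Cfsg.Agent.Lib.Helper44.ODet
import Cfsg.Agent.Lib.Helper44.NegPairs

/-!
# S5991 / NEGSQEXM: `d` odd and `q ≡ 7 (mod 8)`: `Omega^-_(2d)(q)` contains an element with
`x * x = -1` (also for `d = 1`).

`X = diag(psi g, s⁻¹ • [[-a, -2b], [2, a]])` (`Helper37.OMiNegSq.neg_sq_iso`) is an isometry with
`X * X = -1`, and `X = h * h` with `h = t⁻¹ • (1 + X)` an isometry (`t * t = 2`); squares of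
isometries lie in `Omega` (the proof of `Helper57.OMMSQOM.main`, which does not use `2 ≤ d`).
-/

set_option autoImplicit false

universe u

open scoped Matrix

namespace Cfsg.Agent.Lib.Helper37.OMiNEGSQEXM

open Cfsg.Agent.Lib.Helper41 Cfsg.Agent.Lib.Helper44
open Cfsg.Agent.Lib.Helper44.QSpace Cfsg.Agent.Lib.Helper44.OGroup

/-- squares of isometries of the minus form lie in `Omega` (any `d`) -/
theorem sq_mem {F : Type u} [Field F] [Fintype F] (h2 : (2 : F) ≠ 0) (d : ℕ) (a b : F)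
    (hab : ∀ x y : F, x ^ 2 + a * x * y + b * y ^ 2 = 0 → x = 0 ∧ y = 0)
    (g : Matrix.GeneralLinearGroup (OMStmt.Im d) F)
    (hg : g ∈ Cfsg.isometryGroup F (Cfsg.quadFormMinus (d - 1) F a b)) :
    g * g ∈ Cfsg.Geo.omegaGL (Cfsg.quadFormMinus (d - 1) F a b) := by
  have hS := NegPairs.sep_minusQ (F := F) h2 (d - 1) a b hab
  have hCD : Omega2.CDP (NegPairs.minusQ (d - 1) F a b) := Omega2.cdp_of_two_ne_zero h2 hS
  let g' : ↥(Cfsg.isometryGroup F ⇑(NegPairs.minusQ (d - 1) F a b)) := ⟨g, hg⟩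
  obtain ⟨vs, hvs, hgv⟩ := OMat2.exists_prod_of_cdp hCD g'
  have hmem : g' * g' ∈ Cfsg.Omega F ⇑(NegPairs.minusQ (d - 1) F a b) := by
    rw [OMat.mem_omega_iff, map_mul, hgv, ← List.prod_append, ← List.map_append]
    rw [Spinor.mem_commutator_iff h2 hS (Cfsg.Agent.Lib.Helper57.OMMSQOM.finrank_ge d)
      (vs ++ vs) (by
      intro v hv
      rcases List.mem_append.mp hv with h | h <;> exact hvs v h)]
    refine ⟨⟨vs.length, by rw [List.length_append]⟩, ?_⟩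
    rw [List.map_append, List.prod_append]
    exact ⟨_, rfl⟩
  exact ⟨g' * g', hmem, rfl⟩

theorem main : Cfsg.Agent.Lib.Helper45.OMiStmt.NegSqExM.{u} := by
  intro F _ _ hq8 d hdodd a b hab
  classical
  have hodd : Odd (Fintype.card F) := by
    rw [Nat.odd_iff]
    omega
  have h2 : (2 : F) ≠ 0 := Cfsg.Agent.Lib.Helper37.OPNEGSQEX.two_ne_zero_of_odd hodd
  obtain ⟨e, he⟩ : ∃ e, d - 1 = e + e := by
    obtain ⟨m, hm⟩ := hdodd
    exact ⟨m, by omega⟩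
  obtain ⟨g, hgg, -⟩ : ∃ g : Matrix.GeneralLinearGroup (Fin (d - 1)) F, g * g = -1 ∧ True := by
    rw [he]
    obtain ⟨g, hgg, _⟩ := Cfsg.Agent.Lib.Helper37.OPNEGSQEX.even_case h2 e
    exact ⟨g, hgg, trivial⟩
  obtain ⟨X, hXX, hXiso⟩ :=
    Cfsg.Agent.Lib.Helper37.OMiNegSq.neg_sq_iso hodd (by omega) (d - 1) g hgg a b hab
  have h2sq : IsSquare (2 : F) := by
    rw [FiniteField.isSquare_two_iff]
    omega
  obtain ⟨t, ht⟩ := h2sq
  obtain ⟨h, hh, hhiso⟩ := Cfsg.Agent.Lib.Helper37.OMiNegSq.sq_of_neg_sq h2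
    (NegPairs.minusQ (d - 1) F a b) X hXX hXiso t ht.symm
  refine ⟨h * h, sq_mem h2 d a b hab h (fun u _ => hhiso u), ?_⟩
  rw [Units.val_mul, hh, hXX]

end Cfsg.Agent.Lib.Helper37.OMiNEGSQEXM
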