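import Mathlib
import Cfsg.Prelude.Def_GeometricClasses
import Cfsg.Prelude.Def_ClassicalGeometry
import Cfsg.Agent.Lib.Helper37.TenStmt
import Cfsg.Agent.Lib.Helper37.SpTStmt

/-!
# S5980: the assembly of the pieces of `SpTStmt` (helper37)
-/

set_option autoImplicit false

namespace Cfsg.Agent.Lib.Helper37.SpTAsm

open scoped Kronecker MatrixGroups Matrix
open Cfsg Cfsg.Agent.Lib.Helper37.TenStmt Cfsg.Agent.Lib.Helper37.SpTStmt

universe u

section kron

variable {F : Type u} [Field F]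

theorem isUnit_det_gl' {ι : Type} [Fintype ι] [DecidableEq ι] (S : GL ι F) :
    IsUnit (S : Matrix ι ι F).det :=
  (Matrix.isUnit_iff_isUnit_det _).mp S.isUnit

theorem kron_pow {a b : ℕ} (A : Matrix (Fin a) (Fin a) F) (B : Matrix (Fin b) (Fin b) F)
    (k : ℕ) : (A ⊗ₖ B) ^ k = (A ^ k) ⊗ₖ (B ^ k) := by
  induction k with
  | zero => rw [pow_zero, pow_zero, pow_zero, Matrix.one_kronecker_one]
  | succ k ih => rw [pow_succ, pow_succ, pow_succ, ih, Matrix.mul_kronecker_mul]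

theorem rank_swap {a b : ℕ} (A : Matrix (Fin a) (Fin a) F) (B : Matrix (Fin b) (Fin b) F)
    (μ : F) :
    (A ⊗ₖ B - μ • (1 : Matrix (Fin a × Fin b) (Fin a × Fin b) F)).rank =
      (B ⊗ₖ A - μ • (1 : Matrix (Fin b × Fin a) (Fin b × Fin a) F)).rank := by
  have h1 : B ⊗ₖ A - μ • (1 : Matrix (Fin b × Fin a) (Fin b × Fin a) F) =
      Matrix.reindex (Equiv.prodComm (Fin a) (Fin b)) (Equiv.prodComm (Fin a) (Fin b))
        (A ⊗ₖ B - μ • (1 : Matrix (Fin a × Fin b) (Fin a × Fin b) F)) := by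
    ext ⟨j, i⟩ ⟨j', i'⟩
    simp only [Matrix.reindex_apply, Matrix.submatrix_apply, Matrix.sub_apply,
      Matrix.smul_apply, Matrix.kronecker_apply, Matrix.one_apply, Equiv.prodComm_symm,
      Equiv.prodComm_apply, Prod.swap_prod_mk, Prod.mk.injEq, smul_eq_mul]
    by_cases h : i = i' <;> by_cases h' : j = j' <;> simp [h, h', mul_comm]
  rw [h1, Matrix.rank_reindex]

theorem one_kron_sub {a b : ℕ} (N : Matrix (Fin b) (Fin b) F) (μ : F) :
    (1 : Matrix (Fin a) (Fin a) F) ⊗ₖ N - μ • (1 : Matrix (Fin a × Fin b) (Fin a × Fin b) F) =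
      (1 : Matrix (Fin a) (Fin a) F) ⊗ₖ (N - μ • (1 : Matrix (Fin b) (Fin b) F)) := by
  ext ⟨i, j⟩ ⟨i', j'⟩
  simp only [Matrix.sub_apply, Matrix.smul_apply, Matrix.kronecker_apply, Matrix.one_apply,
    Prod.mk.injEq, smul_eq_mul]
  by_cases h : i = i' <;> by_cases h' : j = j' <;> simp [h, h']

theorem rank_one_kron_sub (hKS : KRankS.{u}) {a b : ℕ} (N : Matrix (Fin b) (Fin b) F) (μ : F) :
    ((1 : Matrix (Fin a) (Fin a) F) ⊗ₖ N -
      μ • (1 : Matrix (Fin a × Fin b) (Fin a × Fin b) F)).rank =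
      a * (N - μ • (1 : Matrix (Fin b) (Fin b) F)).rank := by
  rw [one_kron_sub, hKS F a b]

theorem rank_kron_one_sub (hKS : KRankS.{u}) {a b : ℕ} (N : Matrix (Fin a) (Fin a) F) (μ : F) :
    (N ⊗ₖ (1 : Matrix (Fin b) (Fin b) F) -
      μ • (1 : Matrix (Fin a × Fin b) (Fin a × Fin b) F)).rank =
      b * (N - μ • (1 : Matrix (Fin a) (Fin a) F)).rank := by
  rw [rank_swap, rank_one_kron_sub hKS]

theorem one_kron_inj {a b : ℕ} (ha : 1 ≤ a) (N N' : Matrix (Fin b) (Fin b) F)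
    (h : (1 : Matrix (Fin a) (Fin a) F) ⊗ₖ N = (1 : Matrix (Fin a) (Fin a) F) ⊗ₖ N') :
    N = N' := by
  ext j j'
  have h1 := congrFun (congrFun h (⟨0, by omega⟩, j)) (⟨0, by omega⟩, j')
  simpa [Matrix.kronecker_apply] using h1

theorem kron_one_inj {a b : ℕ} (hb : 1 ≤ b) (N N' : Matrix (Fin a) (Fin a) F)
    (h : N ⊗ₖ (1 : Matrix (Fin b) (Fin b) F) = N' ⊗ₖ (1 : Matrix (Fin b) (Fin b) F)) :
    N = N' := by
  ext i i'
  have h1 := congrFun (congrFun h (i, ⟨0, by omega⟩)) (i', ⟨0, by omega⟩)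
  simpa [Matrix.kronecker_apply] using h1

theorem kron_left_cancel {a b : ℕ} (G : Matrix (Fin a) (Fin a) F) (i i' : Fin a)
    (hG : G i i' ≠ 0) (N N' : Matrix (Fin b) (Fin b) F) (h : G ⊗ₖ N = G ⊗ₖ N') : N = N' := by
  ext j j'
  have h1 := congrFun (congrFun h (i, j)) (i', j')
  simp only [Matrix.kronecker_apply] at h1
  exact mul_left_cancel₀ hG h1

/-- the rank dichotomy for Kronecker products -/
theorem kdich (hK : KRank.{u}) (hKS : KRankS.{u}) {a b : ℕ} (A : GL (Fin a) F)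
    (B : GL (Fin b) F) :
    (∃ α : F, (A : Matrix (Fin a) (Fin a) F) = α • 1 ∧ ∀ μ : F,
      ((A : Matrix (Fin a) (Fin a) F) ⊗ₖ (B : Matrix (Fin b) (Fin b) F) -
        μ • (1 : Matrix (Fin a × Fin b) (Fin a × Fin b) F)).rank =
        a * (α • (B : Matrix (Fin b) (Fin b) F) - μ • (1 : Matrix (Fin b) (Fin b) F)).rank) ∨
    ((∀ α : F, (A : Matrix (Fin a) (Fin a) F) ≠ α • 1) ∧ ∀ μ : F,
      b ≤ ((A : Matrix (Fin a) (Fin a) F) ⊗ₖ (B : Matrix (Fin b) (Fin b) F) -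
        μ • (1 : Matrix (Fin a × Fin b) (Fin a × Fin b) F)).rank) := by
  by_cases hA : ∃ α : F, (A : Matrix (Fin a) (Fin a) F) = α • 1
  · obtain ⟨α, hα⟩ := hA
    left
    refine ⟨α, hα, fun μ => ?_⟩
    rw [hα, Matrix.smul_kronecker, ← Matrix.kronecker_smul, rank_one_kron_sub hKS]
  · right
    exact ⟨fun α h => hA ⟨α, h⟩, fun μ =>
      hK F a b A B (isUnit_det_gl' B).ne_zero (fun α h => hA ⟨α, h⟩) μ⟩

/-- a Kronecker product with a shift of small positive rank does not exist -/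
theorem no_small (hK : KRank.{u}) (hKS : KRankS.{u}) {a b : ℕ} (A : GL (Fin a) F)
    (B : GL (Fin b) F) (μ : F)
    (h0 : 0 < ((A : Matrix (Fin a) (Fin a) F) ⊗ₖ (B : Matrix (Fin b) (Fin b) F) -
        μ • (1 : Matrix (Fin a × Fin b) (Fin a × Fin b) F)).rank)
    (ha : ((A : Matrix (Fin a) (Fin a) F) ⊗ₖ (B : Matrix (Fin b) (Fin b) F) -
        μ • (1 : Matrix (Fin a × Fin b) (Fin a × Fin b) F)).rank < a)
    (hb : ((A : Matrix (Fin a) (Fin a) F) ⊗ₖ (B : Matrix (Fin b) (Fin b) F) -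
        μ • (1 : Matrix (Fin a × Fin b) (Fin a × Fin b) F)).rank < b) : False := by
  rcases kdich hK hKS A B with ⟨α, -, h⟩ | ⟨-, h⟩
  · have h2 := h μ
    rcases Nat.eq_zero_or_pos
      (α • (B : Matrix (Fin b) (Fin b) F) - μ • (1 : Matrix (Fin b) (Fin b) F)).rank with h3 | h3
    · rw [h3, mul_zero] at h2
      omega
    · have h4 : a ≤ a * (α • (B : Matrix (Fin b) (Fin b) F) -
          μ • (1 : Matrix (Fin b) (Fin b) F)).rank := Nat.le_mul_of_pos_right a h3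
      omega
  · have := h μ
    omega

end kron


section core

variable {F : Type u} [Field F] [Fintype F]

/-- the core of the forward direction for odd `r ≠ p`, in Kronecker coordinates -/
theorem core_odd (hK : KRank.{u}) (hKS : KRankS.{u}) (hKSc : KScal.{u}) (hKRC : KRC.{u})
    (hCyc : CycVec.{u}) (hFR : FixRank.{u}) (hOR : OrthRank.{u})
    (p : ℕ) [Fact p.Prime] [CharP F p] (h2 : (2 : F) ≠ 0) (r : ℕ) [Fact r.Prime] (hr2 : r ≠ 2)
    (hrp : r ≠ p) (a b : ℕ) (ha2 : 2 ≤ a) (hae : Even a) (hb : 3 ≤ b)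
    (G₁ : Matrix (Fin a) (Fin a) F) (G₂ : Matrix (Fin b) (Fin b) F)
    (hG₁ : ∃ i i', G₁ i i' ≠ 0) (hG₂s : G₂ᵀ = G₂) (hG₂d : G₂.det ≠ 0)
    (A : GL (Fin a) F) (B : GL (Fin b) F)
    (hiso : ((A : Matrix (Fin a) (Fin a) F) ⊗ₖ (B : Matrix (Fin b) (Fin b) F))ᵀ * (G₁ ⊗ₖ G₂) *
      ((A : Matrix (Fin a) (Fin a) F) ⊗ₖ (B : Matrix (Fin b) (Fin b) F)) = G₁ ⊗ₖ G₂)
    (hpow : ((A : Matrix (Fin a) (Fin a) F) ⊗ₖ (B : Matrix (Fin b) (Fin b) F)) ^ r = 1)
    (i : ℕ) (hi : i = orderOf ((Fintype.card F : ℕ) : ZMod r)) (hi1 : 1 ≤ i)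
    (hrank : ((A : Matrix (Fin a) (Fin a) F) ⊗ₖ (B : Matrix (Fin b) (Fin b) F) -
      (1 : Matrix (Fin a × Fin b) (Fin a × Fin b) F)).rank = if Even i then i else 2 * i) :
    False := by
  have hr : r.Prime := Fact.out
  have hrodd : Odd r := hr.eq_two_or_odd'.resolve_left hr2
  have hdetA : (A : Matrix (Fin a) (Fin a) F).det ≠ 0 := (isUnit_det_gl' A).ne_zero
  have hdetB : (B : Matrix (Fin b) (Fin b) F).det ≠ 0 := (isUnit_det_gl' B).ne_zero
  have hone : ∀ (n : ℕ), (1 : F) • (1 : Matrix (Fin n) (Fin n) F) = 1 := fun n => one_smul _ _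
  have hone' : (1 : F) • (1 : Matrix (Fin a × Fin b) (Fin a × Fin b) F) = 1 := one_smul _ _
  have hone'' : (1 : F) • (1 : Matrix (Fin b × Fin a) (Fin b × Fin a) F) = 1 := one_smul _ _
  rcases kdich hK hKS A B with ⟨α, hα, hrk⟩ | ⟨hns, hrk⟩
  · -- `A` scalar: `A ⊗ B = 1 ⊗ B'`
    obtain ⟨B', hB'⟩ : ∃ B' : Matrix (Fin b) (Fin b) F,
        B' = α • (B : Matrix (Fin b) (Fin b) F) := ⟨_, rfl⟩
    have hAB : (A : Matrix (Fin a) (Fin a) F) ⊗ₖ (B : Matrix (Fin b) (Fin b) F) =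
        (1 : Matrix (Fin a) (Fin a) F) ⊗ₖ B' := by
      rw [hα, hB', Matrix.smul_kronecker, ← Matrix.kronecker_smul]
    have hB'r : B' ^ r = 1 := by
      apply one_kron_inj (a := a) (by omega)
      rw [← one_pow (M := Matrix (Fin a) (Fin a) F) r, ← kron_pow, ← hAB, hpow, one_pow,
        Matrix.one_kronecker_one]
    have hB'iso : B'ᵀ * G₂ * B' = G₂ := by
      obtain ⟨i0, i1, hG⟩ := hG₁
      apply kron_left_cancel G₁ i0 i1 hG
      have h1 := hiso
      rw [hAB, ← Matrix.kroneckerMap_transpose, Matrix.transpose_one,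
        ← Matrix.mul_kronecker_mul, ← Matrix.mul_kronecker_mul, Matrix.one_mul,
        Matrix.mul_one] at h1
      exact h1
    have heven : Even (B' - 1).rank := hOR F h2 r hrodd b G₂ B' hG₂s hG₂d hB'iso hB'r
    have hdvd : i ∣ (B' - 1).rank := by
      rw [hi]
      exact hFR F p r hrp b B' hB'r
    have h3 := hrk 1
    rw [hone, hone', ← hB', hrank] at h3
    obtain ⟨m, hm⟩ := hdvd
    by_cases hie : Even i
    · rw [if_pos hie, hm] at h3
      rcases Nat.eq_zero_or_pos m with h0 | h0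
      · rw [h0, mul_zero, mul_zero] at h3
        omega
      · have h4 : 2 * i ≤ a * (i * m) := by
          calc 2 * i = 2 * (i * 1) := by ring
            _ ≤ a * (i * m) :=
              Nat.mul_le_mul ha2 (Nat.mul_le_mul_left i h0)
        omega
    · rw [if_neg hie] at h3
      have hio : Odd i := Nat.not_even_iff_odd.mp hie
      have h2i : 2 * i ∣ (B' - 1).rank :=
        Nat.Coprime.mul_dvd_of_dvd_of_dvd (Nat.coprime_two_left.mpr hio)
          heven.two_dvd ⟨m, hm⟩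
      obtain ⟨m', hm'⟩ := h2i
      rw [hm'] at h3
      rcases Nat.eq_zero_or_pos m' with h0 | h0
      · rw [h0, mul_zero, mul_zero] at h3
        omega
      · have h4 : 2 * (2 * i) ≤ a * (2 * i * m') := by
          calc 2 * (2 * i) = 2 * (2 * i * 1) := by ring
            _ ≤ a * (2 * i * m') :=
              Nat.mul_le_mul ha2 (Nat.mul_le_mul_left (2 * i) h0)
        omega
  · -- `A` not scalar
    have h3 := hrk 1
    rw [hone', hrank] at h3
    by_cases hi1' : i = 1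
    · rw [hi1', if_neg (by decide)] at h3
      omega
    have hi2 : 2 ≤ i := by omega
    -- `A ^ r` and `B ^ r` are scalars
    have hpow' := hpow
    rw [kron_pow] at hpow'
    obtain ⟨w, hw0, hAr, hBr⟩ := hKSc F a b (by omega) (by omega) _ _ hpow'
    obtain ⟨v, hv⟩ := hCyc F p r hrp (hi ▸ hi2) a A w hdetA hAr hns
    rw [← hi] at hv
    have h4 := hKRC F a b A B hdetB i v hv 1
    rw [hone', hrank] at h4
    obtain ⟨k, hk⟩ : ∃ k, i = k + 1 := ⟨i - 1, by omega⟩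
    have hk' : i - 1 = k := by omega
    rw [hk'] at h4
    have h5 : k * 3 ≤ k * b := Nat.mul_le_mul_left k hb
    by_cases hie : Even i
    · rw [if_pos hie] at h3 h4
      omega
    · rw [if_neg hie] at h3 h4
      have hio : Odd i := Nat.not_even_iff_odd.mp hie
      have hi3 : i = 3 := by
        obtain ⟨t, ht⟩ := hio
        omega
      have hk2 : k = 2 := by omega
      rw [hk2, hi3] at h4
      have hb3 : b = 3 := by omega
      -- `3 ≤ a`
      have ha3 : i ≤ a := by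
        have h6 := hv.fintype_card_le_finrank
        rw [Fintype.card_fin, Module.finrank_fin_fun] at h6
        exact h6
      have ha4 : 4 ≤ a := by
        obtain ⟨t, ht⟩ := hae
        omega
      by_cases hBs : ∃ β : F, (B : Matrix (Fin b) (Fin b) F) = β • 1
      · obtain ⟨β, hβ⟩ := hBs
        obtain ⟨A', hA'⟩ : ∃ A' : Matrix (Fin a) (Fin a) F,
            A' = β • (A : Matrix (Fin a) (Fin a) F) := ⟨_, rfl⟩
        have hAB : (A : Matrix (Fin a) (Fin a) F) ⊗ₖ (B : Matrix (Fin b) (Fin b) F) =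
            A' ⊗ₖ (1 : Matrix (Fin b) (Fin b) F) := by
          rw [hβ, hA', Matrix.kronecker_smul, ← Matrix.smul_kronecker]
        have hA'r : A' ^ r = 1 := by
          apply kron_one_inj (b := b) (by omega)
          rw [← one_pow (M := Matrix (Fin b) (Fin b) F) r, ← kron_pow, ← hAB, hpow, one_pow,
            Matrix.one_kronecker_one]
        have hdvd : i ∣ (A' - 1).rank := by
          rw [hi]
          exact hFR F p r hrp a A' hA'r
        have h7 := rank_kron_one_sub hKS (b := b) A' 1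
        rw [hone, hone', ← hAB, hrank, if_neg hie, hi3, hb3] at h7
        rw [hi3] at hdvd
        obtain ⟨m, hm⟩ := hdvd
        omega
      · have hBns : ∀ β : F, (B : Matrix (Fin b) (Fin b) F) ≠ β • 1 := fun β h => hBs ⟨β, h⟩
        obtain ⟨v', hv'⟩ := hCyc F p r hrp (hi ▸ hi2) b B w⁻¹ hdetB hBr hBns
        rw [← hi] at hv'
        have h8 := hKRC F b a B A hdetA i v' hv' 1
        rw [← rank_swap, hone', hrank, if_neg hie, hk', hk2, hi3] at h8
        omega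

end core


section transport

variable {F : Type u} [Field F]

theorem rank_conj' {ι : Type} [Fintype ι] [DecidableEq ι] (g x : GL ι F) (μ : F) :
    (((g⁻¹ * x * g : GL ι F) : Matrix ι ι F) - μ • (1 : Matrix ι ι F)).rank =
      ((x : Matrix ι ι F) - μ • (1 : Matrix ι ι F)).rank := by
  have h1 : ((g⁻¹ * x * g : GL ι F) : Matrix ι ι F) - μ • (1 : Matrix ι ι F) =
      ((g⁻¹ : GL ι F) : Matrix ι ι F) * ((x : Matrix ι ι F) - μ • (1 : Matrix ι ι F)) *
        (g : Matrix ι ι F) := by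
    have h0 : ((g⁻¹ : GL ι F) : Matrix ι ι F) * (g : Matrix ι ι F) = 1 := by
      rw [← Units.val_mul, inv_mul_cancel, Units.val_one]
    rw [Units.val_mul, Units.val_mul, Matrix.mul_sub, Matrix.sub_mul, Matrix.mul_smul,
      Matrix.mul_one, Matrix.smul_mul, h0]
  rw [h1, Matrix.rank_mul_eq_left_of_isUnit_det _ _ (isUnit_det_gl' g),
    Matrix.rank_mul_eq_right_of_isUnit_det _ _ (isUnit_det_gl' g⁻¹)]

theorem not_scalar_of_rank' {ι : Type} [Fintype ι] [DecidableEq ι] (x : Matrix ι ι F) (μ : F)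
    (h0 : 0 < (x - μ • (1 : Matrix ι ι F)).rank)
    (h1 : (x - μ • (1 : Matrix ι ι F)).rank < Fintype.card ι) :
    ∀ z : F, x ≠ z • (1 : Matrix ι ι F) := by
  classical
  intro z hz
  have h2 : x - μ • (1 : Matrix ι ι F) = Matrix.diagonal (fun _ => z - μ) := by
    rw [hz, ← sub_smul, Matrix.smul_one_eq_diagonal]
  rw [h2, Matrix.rank_diagonal] at h0 h1
  by_cases hzμ : z - μ = 0
  · have : IsEmpty {i : ι // z - μ ≠ 0} := ⟨fun i => i.2 hzμ⟩
    rw [Fintype.card_eq_zero] at h0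
    omega
  · have h3 : Fintype.card {i : ι // z - μ ≠ 0} = Fintype.card ι := by
      rw [Fintype.card_subtype, Finset.filter_true_of_mem (fun _ _ => hzμ), Finset.card_univ]
    omega

theorem two_ne_zero_of_odd_card [Fintype F] (hodd : Odd (Fintype.card F)) : (2 : F) ≠ 0 := by
  intro h
  have h1 : ringChar F ∣ 2 := ringChar.dvd (by exact_mod_cast h)
  have h3 : ringChar F = 2 := by
    rcases (Nat.dvd_prime Nat.prime_two).mp h1 with h4 | h4
    · exact absurd h4 CharP.ringChar_ne_one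
    · exact h4
  have h5 := FiniteField.even_card_iff_char_two.mp h3
  obtain ⟨t, ht⟩ := hodd
  omega

/-- scalar multiples of an isometry matrix -/
theorem smul_iso {κ : Type} [Fintype κ] [DecidableEq κ] (M : Matrix κ κ F) (z : F)
    (hM : ∃ k l, M k l ≠ 0)
    (h : (z • (1 : Matrix κ κ F))ᵀ * M * (z • (1 : Matrix κ κ F)) = M) : z * z = 1 := by
  obtain ⟨k, l, hkl⟩ := hM
  rw [Matrix.transpose_smul, Matrix.transpose_one, Matrix.smul_mul, Matrix.one_mul,
    Matrix.mul_smul, Matrix.mul_one, smul_smul] at h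
  have h1 := congrFun (congrFun h k) l
  rw [Matrix.smul_apply, smul_eq_mul] at h1
  exact mul_right_cancel₀ hkl (by rw [h1, one_mul])

variable (hTSp : TSp.{u}) (hTTen : TTen.{u}) (hTScal : TScal.{u}) (hTRank : TRank.{u})
  {d a b : ℕ} (e : (Fin d ⊕ Fin d) ≃ Fin a × Fin b) (P : GL (Fin d ⊕ Fin d) F)
  (f₁ : (Fin a → F) → (Fin a → F) → F) (f₂ : (Fin b → F) → (Fin b → F) → F)
  (hS : Cfsg.Geo.IsTensorFormStructure id (Cfsg.sympForm d F) f₁ f₂ e P)

include hTSp hTTen hTRank hS in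
/-- a fixed point gives a Kronecker product in the transported symplectic group -/
theorem fwd_transport (x g : GL (Fin d ⊕ Fin d) F) (hx : x ∈ Cfsg.spGL d F)
    (hg : g ∈ Cfsg.spGL d F)
    (hmem : g⁻¹ * x * g ∈ Cfsg.Geo.tensorProductSubgroup a b e P) :
    ∃ (A : GL (Fin a) F) (B : GL (Fin b) F),
      ((A : Matrix (Fin a) (Fin a) F) ⊗ₖ (B : Matrix (Fin b) (Fin b) F))ᵀ *
        (Cfsg.Geo.gramMatrix f₁ ⊗ₖ Cfsg.Geo.gramMatrix f₂) *
        ((A : Matrix (Fin a) (Fin a) F) ⊗ₖ (B : Matrix (Fin b) (Fin b) F)) =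
        Cfsg.Geo.gramMatrix f₁ ⊗ₖ Cfsg.Geo.gramMatrix f₂ ∧
      (∀ μ : F, ((A : Matrix (Fin a) (Fin a) F) ⊗ₖ (B : Matrix (Fin b) (Fin b) F) -
          μ • (1 : Matrix (Fin a × Fin b) (Fin a × Fin b) F)).rank =
        ((x : Matrix (Fin d ⊕ Fin d) (Fin d ⊕ Fin d) F) -
          μ • (1 : Matrix (Fin d ⊕ Fin d) (Fin d ⊕ Fin d) F)).rank) ∧
      (∀ k : ℕ, x ^ k = 1 →
        ((A : Matrix (Fin a) (Fin a) F) ⊗ₖ (B : Matrix (Fin b) (Fin b) F)) ^ k = 1) := by
  have hy : g⁻¹ * x * g ∈ Cfsg.spGL d F := mul_mem (mul_mem (inv_mem hg) hx) hg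
  have h1 := (hTTen F _ a b e P (g⁻¹ * x * g)).mp hmem
  obtain ⟨A, B, hAB⟩ := h1
  refine ⟨A, B, ?_, ?_, ?_⟩
  · rw [← hAB]
    exact (hTSp F d a b e P f₁ f₂ hS (g⁻¹ * x * g)).mp hy
  · intro μ
    rw [← hAB, hTRank F _ a b e P (g⁻¹ * x * g) μ, rank_conj']
  · intro k hk
    have h2 : (g⁻¹ * x * g) ^ k = 1 := by
      have h3 : g⁻¹ * x * g = g⁻¹ * x * g⁻¹⁻¹ := by rw [inv_inv]
      rw [h3, conj_pow, hk, mul_one, mul_inv_cancel]
    rw [← hAB, ← Units.val_pow_eq_pow_val, ← map_pow, h2, map_one, Units.val_one]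

include hTSp hTScal hS in
/-- a scalar in the symplectic group is `± 1` -/
theorem scalar_sq (X : GL (Fin d ⊕ Fin d) F) (hX : X ∈ Cfsg.spGL d F) (z : F)
    (hz : (X : Matrix (Fin d ⊕ Fin d) (Fin d ⊕ Fin d) F) = z • 1)
    (hM : ∃ k l, (Cfsg.Geo.gramMatrix f₁ ⊗ₖ Cfsg.Geo.gramMatrix f₂) k l ≠ 0) :
    z * z = 1 := by
  have h1 := (hTSp F d a b e P f₁ f₂ hS X).mp hX
  have h2 := (hTScal F _ a b e P X z).mpr hz
  rw [h2] at h1
  exact smul_iso _ z hM h1

include hTSp hTTen hS in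
/-- a conjugating isometry in Kronecker coordinates gives a fixed point -/
theorem bwd_transport (x : GL (Fin d ⊕ Fin d) F)
    (h : Matrix (Fin a × Fin b) (Fin a × Fin b) F) (A : Matrix (Fin a) (Fin a) F)
    (B : Matrix (Fin b) (Fin b) F) (hdet : h.det ≠ 0)
    (hiso : hᵀ * (Cfsg.Geo.gramMatrix f₁ ⊗ₖ Cfsg.Geo.gramMatrix f₂) * h =
      Cfsg.Geo.gramMatrix f₁ ⊗ₖ Cfsg.Geo.gramMatrix f₂)
    (hA : A.det ≠ 0) (hB : B.det ≠ 0)
    (hconj : ((toKron e P x : GL (Fin a × Fin b) F) :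
      Matrix (Fin a × Fin b) (Fin a × Fin b) F) * h = h * (A ⊗ₖ B)) :
    ∃ g ∈ Cfsg.spGL d F, g⁻¹ * x * g ∈ Cfsg.Geo.tensorProductSubgroup a b e P := by
  obtain ⟨hG, hGv⟩ : ∃ hG : GL (Fin a × Fin b) F,
      (hG : Matrix (Fin a × Fin b) (Fin a × Fin b) F) = h :=
    ⟨Matrix.GeneralLinearGroup.mkOfDetNeZero h hdet, rfl⟩
  refine ⟨(toKron e P).symm hG, ?_, ?_⟩
  · rw [hTSp F d a b e P f₁ f₂ hS, MulEquiv.apply_symm_apply, hGv]
    exact hiso
  · rw [hTTen F _ a b e P, map_mul, map_mul, map_inv, MulEquiv.apply_symm_apply]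
    refine ⟨Matrix.GeneralLinearGroup.mkOfDetNeZero A hA,
      Matrix.GeneralLinearGroup.mkOfDetNeZero B hB, ?_⟩
    show ((hG⁻¹ * toKron e P x * hG : GL (Fin a × Fin b) F) :
      Matrix (Fin a × Fin b) (Fin a × Fin b) F) = A ⊗ₖ B
    rw [Units.val_mul, Units.val_mul, hGv, Matrix.mul_assoc, hconj, ← Matrix.mul_assoc, ← hGv,
      ← Units.val_mul, inv_mul_cancel, Units.val_one, Matrix.one_mul]

end transport


section main

/-- Gram matrix facts -/
theorem exists_entry_ne_zero {F : Type u} [Field F] {n : ℕ} (hn : 1 ≤ n)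
    (G : Matrix (Fin n) (Fin n) F) (hG : G.det ≠ 0) : ∃ i i', G i i' ≠ 0 := by
  by_contra hcon
  apply hG
  have h0 : G = 0 := by
    ext i i'
    by_contra h
    exact hcon ⟨i, i', h⟩
  haveI : Nonempty (Fin n) := ⟨⟨0, by omega⟩⟩
  rw [h0]
  exact Matrix.det_zero

/-- **S5980**, assembled from the pieces. -/
theorem thm_of (hTSp : TSp.{u}) (hTTen : TTen.{u}) (hTScal : TScal.{u}) (hTRank : TRank.{u})
    (hGram : GramND.{u}) (hTv : SpTv.{u}) (hSN : SpNeg2.{u}) (hAr : SpArith.{u})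
    (hEE : SpEltE.{u}) (hEO : SpEltO.{u}) (hK : KRank.{u}) (hKS : KRankS.{u})
    (hKSc : KScal.{u}) (hKRC : KRC.{u}) (hCyc : CycVec.{u}) (hFR : FixRank.{u})
    (hOR : OrthRank.{u}) (hCP : CPos.{u}) (hCN : CNeg.{u})
    {F : Type u} [Field F] [Fintype F] {p : ℕ} [Fact p.Prime] [CharP F p]
    (hodd : Odd (Fintype.card F)) (d : ℕ) (hd : 2 ≤ d) (a b : ℕ) (hab : 2 * d = a * b)
    (ha : Even a) (ha2 : 2 ≤ a) (hb : 3 ≤ b)
    (e : (Fin d ⊕ Fin d) ≃ Fin a × Fin b) (P : GL (Fin d ⊕ Fin d) F)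
    (f₁ : (Fin a → F) → (Fin a → F) → F) (f₂ : (Fin b → F) → (Fin b → F) → F)
    (hf₁ : Cfsg.Geo.IsSymplecticForm f₁) (hf₂ : Cfsg.Geo.IsSymmetricForm f₂)
    (hS : Cfsg.Geo.IsTensorFormStructure id (Cfsg.sympForm d F) f₁ f₂ e P)
    (r : ℕ) [Fact r.Prime]
    (hΩ : r ∣ (Cfsg.Geo.tensorProductSubgroup a b e P).relIndex (Cfsg.spGL d F)) :
    (∀ x ∈ Cfsg.spGL d F,
      (∃ z : F, ((x ^ r : GL (Fin d ⊕ Fin d) F) : Matrix (Fin d ⊕ Fin d) (Fin d ⊕ Fin d) F) =
        z • (1 : Matrix (Fin d ⊕ Fin d) (Fin d ⊕ Fin d) F)) →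
      (∀ z : F, (x : Matrix (Fin d ⊕ Fin d) (Fin d ⊕ Fin d) F) ≠
        z • (1 : Matrix (Fin d ⊕ Fin d) (Fin d ⊕ Fin d) F)) →
      ∃ g ∈ Cfsg.spGL d F, g⁻¹ * x * g ∈ Cfsg.Geo.tensorProductSubgroup a b e P) ↔
    (r = 2 ∧ a = 2) := by
  have h2 : (2 : F) ≠ 0 := two_ne_zero_of_odd_card hodd
  have hr : r.Prime := Fact.out
  -- the Gram matrices
  obtain ⟨G₁, hG₁def⟩ : ∃ G₁ : Matrix (Fin a) (Fin a) F, G₁ = Cfsg.Geo.gramMatrix f₁ :=
    ⟨_, rfl⟩
  obtain ⟨G₂, hG₂def⟩ : ∃ G₂ : Matrix (Fin b) (Fin b) F, G₂ = Cfsg.Geo.gramMatrix f₂ :=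
    ⟨_, rfl⟩
  have hG₁t : G₁ᵀ = -G₁ := by
    ext i j
    rw [hG₁def]
    exact hf₁.skew _ _
  have hG₁d : G₁.det ≠ 0 := hG₁def ▸ hGram F a f₁ hf₁.bilinear hf₁.nondegenerate
  have hG₂t : G₂ᵀ = G₂ := by
    ext i j
    rw [hG₂def]
    exact hf₂.symm _ _
  have hG₂d : G₂.det ≠ 0 := hG₂def ▸ hGram F b f₂ hf₂.bilinear hf₂.nondegenerate
  have hG₁e : ∃ i i', G₁ i i' ≠ 0 := exists_entry_ne_zero (by omega) G₁ hG₁d
  have hG₂e : ∃ j j', G₂ j j' ≠ 0 := exists_entry_ne_zero (by omega) G₂ hG₂d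
  have hMe : ∃ k l, (G₁ ⊗ₖ G₂) k l ≠ 0 := by
    obtain ⟨i, i', h1⟩ := hG₁e
    obtain ⟨j, j', h2'⟩ := hG₂e
    exact ⟨(i, j), (i', j'), by
      rw [Matrix.kronecker_apply]
      exact mul_ne_zero h1 h2'⟩
  subst hG₁def
  subst hG₂def
  have hcardι : Fintype.card (Fin d ⊕ Fin d) = 2 * d := by
    rw [Fintype.card_sum, Fintype.card_fin]
    omega
  have hab6 : 6 ≤ a * b := by nlinarith
  constructor
  · intro hL
    have hcard : r ∣ Nat.card (Cfsg.spGL d F) :=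
      dvd_trans hΩ (Subgroup.relIndex_dvd_card _ _)
    -- the common step for elements with a shift of small rank
    have small : ∀ x : GL (Fin d ⊕ Fin d) F, x ∈ Cfsg.spGL d F → x ^ r = 1 →
        0 < ((x : Matrix (Fin d ⊕ Fin d) (Fin d ⊕ Fin d) F) - 1).rank →
        ((x : Matrix (Fin d ⊕ Fin d) (Fin d ⊕ Fin d) F) - 1).rank < a →
        ((x : Matrix (Fin d ⊕ Fin d) (Fin d ⊕ Fin d) F) - 1).rank < 3 → False := by
      intro x hx hxr h0 h1 h3
      have hns : ∀ z : F, (x : Matrix (Fin d ⊕ Fin d) (Fin d ⊕ Fin d) F) ≠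
          z • (1 : Matrix (Fin d ⊕ Fin d) (Fin d ⊕ Fin d) F) := by
        apply not_scalar_of_rank' _ 1
        · rw [one_smul]
          exact h0
        · rw [one_smul, hcardι]
          omega
      obtain ⟨g, hg, hmem⟩ := hL x hx ⟨1, by rw [hxr, one_smul]; rfl⟩ hns
      obtain ⟨A, B, -, hrank, -⟩ :=
        fwd_transport hTSp hTTen hTRank e P f₁ f₂ hS x g hx hg hmem
      have h4 := hrank 1
      refine no_small hK hKS A B 1 ?_ ?_ ?_
      · rw [h4, one_smul]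
        exact h0
      · rw [h4, one_smul]
        exact h1
      · rw [h4, one_smul]
        omega
    by_cases hr2 : r = 2
    · refine ⟨hr2, ?_⟩
      by_contra ha2'
      have ha4 : 4 ≤ a := by
        obtain ⟨t, ht⟩ := ha
        omega
      obtain ⟨x, hx, hx2, hrk⟩ := hSN F h2 d (by omega)
      exact small x hx (hr2 ▸ hx2) (by rw [hrk]; omega) (by rw [hrk]; omega) (by rw [hrk]; omega)
    · exfalso
      by_cases hrp : r = p
      · obtain ⟨x, hx, hxp, hrk⟩ := hTv F p d (by omega)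
        exact small x hx (hrp ▸ hxp) (by rw [hrk]; omega) (by rw [hrk]; omega)
          (by rw [hrk]; omega)
      · have hrodd : Odd r := hr.eq_two_or_odd'.resolve_left hr2
        obtain ⟨j, hj1, hjd, hdvd⟩ := hAr F p r hrp d hcard
        obtain ⟨i, hi⟩ : ∃ i, i = orderOf ((Fintype.card F : ℕ) : ZMod r) := ⟨_, rfl⟩
        rw [← hi] at hdvd
        have hi1 : 1 ≤ i := Nat.pos_of_dvd_of_pos hdvd (by omega)
        have hx : ∃ x : GL (Fin d ⊕ Fin d) F, x ∈ Cfsg.spGL d F ∧ x ^ r = 1 ∧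
            ((x : Matrix (Fin d ⊕ Fin d) (Fin d ⊕ Fin d) F) - 1).rank =
              if Even i then i else 2 * i := by
          by_cases hie : Even i
          · have hle : i ≤ 2 * d := le_trans (Nat.le_of_dvd (by omega) hdvd) (by omega)
            obtain ⟨x, hx, hxr, hrk⟩ := hEE F p r hr2 hrp (hi ▸ hie) d (hi ▸ hle)
            exact ⟨x, hx, hxr, by rw [if_pos hie, hi]; exact hrk⟩
          · have hio : Odd i := Nat.not_even_iff_odd.mp hie
            have hij : i ∣ j :=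
              Nat.Coprime.dvd_of_dvd_mul_left (Nat.coprime_two_right.mpr hio) hdvd
            have hle : i ≤ d := le_trans (Nat.le_of_dvd (by omega) hij) hjd
            obtain ⟨x, hx, hxr, hrk⟩ := hEO F p r hr2 hrp (hi ▸ hio) d (hi ▸ hle)
            exact ⟨x, hx, hxr, by rw [if_neg hie, hi]; exact hrk⟩
        obtain ⟨x, hx, hxr, hrk⟩ := hx
        have hrk0 : 0 < ((x : Matrix (Fin d ⊕ Fin d) (Fin d ⊕ Fin d) F) - 1).rank := by
          rw [hrk]
          split_ifs <;> omega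
        have hns : ∀ z : F, (x : Matrix (Fin d ⊕ Fin d) (Fin d ⊕ Fin d) F) ≠
            z • (1 : Matrix (Fin d ⊕ Fin d) (Fin d ⊕ Fin d) F) := by
          intro z hz
          have hzz := scalar_sq hTSp hTScal e P f₁ f₂ hS x hx z hz hMe
          have hzr : z ^ r = 1 := by
            have h1 := congrArg
              (fun u : GL (Fin d ⊕ Fin d) F => (u : Matrix (Fin d ⊕ Fin d) (Fin d ⊕ Fin d) F))
              hxr
            simp only [Units.val_pow_eq_pow_val, Units.val_one] at h1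
            rw [hz, smul_pow, one_pow] at h1
            have h3 := congrFun (congrFun h1 (Sum.inl ⟨0, by omega⟩)) (Sum.inl ⟨0, by omega⟩)
            simpa using h3
          have hz1 : z = 1 := by
            obtain ⟨m, hm⟩ := hrodd
            rw [hm, pow_succ, pow_mul, pow_two, hzz, one_pow, one_mul] at hzr
            exact hzr
          rw [hz1, one_smul] at hz
          rw [hz, sub_self, Matrix.rank_zero] at hrk0
          omega
        obtain ⟨g, hg, hmem⟩ := hL x hx ⟨1, by rw [hxr, one_smul]; rfl⟩ hns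
        obtain ⟨A, B, hiso, hrank, hpow⟩ :=
          fwd_transport hTSp hTTen hTRank e P f₁ f₂ hS x g hx hg hmem
        have h4 := hrank 1
        rw [one_smul, one_smul] at h4
        exact core_odd hK hKS hKSc hKRC hCyc hFR hOR p h2 r hr2 hrp a b ha2 ha hb (Cfsg.Geo.gramMatrix f₁) (Cfsg.Geo.gramMatrix f₂) hG₁e
          hG₂t hG₂d A B hiso (hpow r hxr) i hi hi1 (by rw [h4, hrk])
  · rintro ⟨rfl, rfl⟩
    intro x hx ⟨z, hz⟩ _
    have hY := (hTSp F d 2 b e P f₁ f₂ hS x).mp hx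
    obtain ⟨Y, hYdef⟩ : ∃ Y : Matrix (Fin 2 × Fin b) (Fin 2 × Fin b) F,
        Y = ((toKron e P x : GL (Fin 2 × Fin b) F) : Matrix (Fin 2 × Fin b) (Fin 2 × Fin b) F) :=
      ⟨_, rfl⟩
    rw [← hYdef] at hY
    have hYY : Y * Y = z • (1 : Matrix (Fin 2 × Fin b) (Fin 2 × Fin b) F) := by
      have h1 := (hTScal F _ 2 b e P (x ^ 2) z).mpr hz
      rw [map_pow, Units.val_pow_eq_pow_val, pow_two, ← hYdef] at h1
      exact h1
    have hzz : z * z = 1 := by
      apply smul_iso (Cfsg.Geo.gramMatrix f₁ ⊗ₖ Cfsg.Geo.gramMatrix f₂) z hMe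
      rw [← hYY, Matrix.transpose_mul]
      calc Yᵀ * Yᵀ * (Cfsg.Geo.gramMatrix f₁ ⊗ₖ Cfsg.Geo.gramMatrix f₂) * (Y * Y) = Yᵀ * (Yᵀ * (Cfsg.Geo.gramMatrix f₁ ⊗ₖ Cfsg.Geo.gramMatrix f₂) * Y) * Y := by
            simp only [Matrix.mul_assoc]
        _ = Cfsg.Geo.gramMatrix f₁ ⊗ₖ Cfsg.Geo.gramMatrix f₂ := by rw [hY, hY]
    have hz' : z = 1 ∨ z = -1 := by
      have h3 : (z - 1) * (z + 1) = 0 := by linear_combination hzz
      rcases mul_eq_zero.mp h3 with h4 | h4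
      · left
        exact sub_eq_zero.mp h4
      · right
        exact eq_neg_of_add_eq_zero_left h4
    rcases hz' with hz1 | hz1
    · obtain ⟨h, B, hdet, hiso, hB, hconj⟩ := hCP F h2 b (Cfsg.Geo.gramMatrix f₁) (Cfsg.Geo.gramMatrix f₂) hG₁t hG₁d hG₂t hG₂d Y hY
        (by rw [hYY, hz1, one_smul])
      exact bwd_transport hTSp hTTen e P f₁ f₂ hS x h 1 B hdet hiso
        (by rw [Matrix.det_one]; exact one_ne_zero) hB (hYdef ▸ hconj)
    · obtain ⟨h, A, hdet, hiso, hA, hconj⟩ := hCN F h2 b (Cfsg.Geo.gramMatrix f₁) (Cfsg.Geo.gramMatrix f₂) hG₁t hG₁d hG₂t hG₂d Y hY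
        (by rw [hYY, hz1, neg_smul, one_smul])
      exact bwd_transport hTSp hTTen e P f₁ f₂ hS x h A 1 hdet hiso hA
        (by rw [Matrix.det_one]; exact one_ne_zero) (hYdef ▸ hconj)

end main

end Cfsg.Agent.Lib.Helper37.SpTAsm
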