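import Mathlib
import Cfsg.Prelude.Def_GeometricClasses
import Cfsg.Agent.Lib.Helper37.TenStmt
import Cfsg.Agent.Lib.Helper37.EluStmt
import Cfsg.Agent.Lib.Helper37.EluAsm
import Cfsg.Agent.Lib.Helper37.InvConj
import Cfsg.Agent.Lib.Helper40.PrimeFix
import Cfsg.Agent.Lib.Helper40.PrimeElts
import Cfsg.Agent.Lib.Helper40.RootPow

/-!
# S5979: the assembly of the pieces of `TenStmt` (helper37)
-/

set_option autoImplicit false

namespace Cfsg.Agent.Lib.Helper37.TenAsm

open scoped Kronecker MatrixGroups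
open Cfsg Cfsg.Agent.Lib.Helper37.TenStmt

universe u

section general

variable {F : Type u} [Field F]

/-- membership in the special linear subgroup -/
theorem mem_sl {n : ℕ} (g : GL (Fin n) F) :
    g ∈ Cfsg.Geo.specialLinear (Fin n) F ↔ (g : Matrix (Fin n) (Fin n) F).det = 1 := by
  unfold Cfsg.Geo.specialLinear
  rw [MonoidHom.mem_ker]
  constructor
  · intro h
    have h1 := congrArg (fun u : Fˣ => (u : F)) h
    simpa using h1
  · intro h
    apply Units.ext
    simpa using h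

theorem isUnit_det_gl {n : ℕ} (S : GL (Fin n) F) :
    IsUnit (S : Matrix (Fin n) (Fin n) F).det :=
  (Matrix.isUnit_iff_isUnit_det _).mp S.isUnit

theorem rank_conj {n : ℕ} (S : GL (Fin n) F) (R : Matrix (Fin n) (Fin n) F) (μ : F) :
    ((S : Matrix (Fin n) (Fin n) F) * R * ((S⁻¹ : GL (Fin n) F) : Matrix (Fin n) (Fin n) F) -
      μ • (1 : Matrix (Fin n) (Fin n) F)).rank = (R - μ • (1 : Matrix (Fin n) (Fin n) F)).rank := by
  have h1 : (S : Matrix (Fin n) (Fin n) F) * R *
      ((S⁻¹ : GL (Fin n) F) : Matrix (Fin n) (Fin n) F) - μ • (1 : Matrix (Fin n) (Fin n) F) =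
      (S : Matrix (Fin n) (Fin n) F) * (R - μ • (1 : Matrix (Fin n) (Fin n) F)) *
        ((S⁻¹ : GL (Fin n) F) : Matrix (Fin n) (Fin n) F) := by
    rw [Matrix.mul_sub, Matrix.sub_mul, Matrix.mul_smul, Matrix.mul_one, Matrix.smul_mul,
      ← Units.val_mul, mul_inv_cancel, Units.val_one]
  rw [h1, Matrix.rank_mul_eq_left_of_isUnit_det _ _ (isUnit_det_gl S⁻¹),
    Matrix.rank_mul_eq_right_of_isUnit_det _ _ (isUnit_det_gl S)]

theorem rank_reindex_sub {n a b : ℕ} (e : Fin n ≃ Fin a × Fin b)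
    (M : Matrix (Fin a × Fin b) (Fin a × Fin b) F) (μ : F) :
    (Matrix.reindex e.symm e.symm M - μ • (1 : Matrix (Fin n) (Fin n) F)).rank =
      (M - μ • (1 : Matrix (Fin a × Fin b) (Fin a × Fin b) F)).rank := by
  have h1 : Matrix.reindex e.symm e.symm M - μ • (1 : Matrix (Fin n) (Fin n) F) =
      Matrix.reindex e.symm e.symm (M - μ • (1 : Matrix (Fin a × Fin b) (Fin a × Fin b) F)) := by
    ext i j
    simp [Matrix.reindex_apply, Matrix.submatrix_apply, Matrix.one_apply]
  rw [h1, Matrix.rank_reindex]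

/-- the rank dichotomy for conjugates of Kronecker products -/
theorem dich (hK : KRank.{u}) (hKS : KRankS.{u}) {n a b : ℕ} (e : Fin n ≃ Fin a × Fin b)
    (x : Matrix (Fin n) (Fin n) F) (hx : IsTensorConj a b e x) :
    (∃ B' : Matrix (Fin b) (Fin b) F, ∀ μ : F,
      (x - μ • (1 : Matrix (Fin n) (Fin n) F)).rank =
        a * (B' - μ • (1 : Matrix (Fin b) (Fin b) F)).rank) ∨
    (∀ μ : F, b ≤ (x - μ • (1 : Matrix (Fin n) (Fin n) F)).rank) := by
  obtain ⟨S, A, B, rfl⟩ := hx
  by_cases hA : ∃ α : F, (A : Matrix (Fin a) (Fin a) F) = α • 1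
  · obtain ⟨α, hα⟩ := hA
    left
    refine ⟨α • (B : Matrix (Fin b) (Fin b) F), fun μ => ?_⟩
    rw [rank_conj, rank_reindex_sub, hα, ← hKS F a b]
    congr 1
    ext ⟨i, j⟩ ⟨i', j'⟩
    simp only [Matrix.sub_apply, Matrix.smul_apply, Matrix.kronecker_apply, Matrix.one_apply,
      Prod.mk.injEq, smul_eq_mul]
    by_cases h : i = i' <;> by_cases h' : j = j' <;> simp [h, h']
  · right
    intro μ
    rw [rank_conj, rank_reindex_sub]
    exact hK F a b A B (isUnit_det_gl B).ne_zero (fun α h => hA ⟨α, h⟩) μ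

/-- a matrix with an eigenvalue-shift of rank strictly between `0` and `a` is not a conjugate
of a Kronecker product -/
theorem no_conj_of_small (hK : KRank.{u}) (hKS : KRankS.{u}) {n a b : ℕ} (hlt : a < b)
    (e : Fin n ≃ Fin a × Fin b) (x : Matrix (Fin n) (Fin n) F) (μ : F)
    (h0 : 0 < (x - μ • (1 : Matrix (Fin n) (Fin n) F)).rank)
    (h1 : (x - μ • (1 : Matrix (Fin n) (Fin n) F)).rank < a) : ¬ IsTensorConj a b e x := by
  intro hx
  rcases dich hK hKS e x hx with ⟨B', hB'⟩ | h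
  · have h2 := hB' μ
    rcases Nat.eq_zero_or_pos (B' - μ • (1 : Matrix (Fin b) (Fin b) F)).rank with h3 | h3
    · rw [h3, mul_zero] at h2
      omega
    · have h4 : a ≤ a * (B' - μ • (1 : Matrix (Fin b) (Fin b) F)).rank :=
        Nat.le_mul_of_pos_right a h3
      omega
  · have := h μ
    omega

/-- scalar matrices have all shifts of rank `0` or `n` -/
theorem not_scalar_of_rank {n : ℕ} (x : Matrix (Fin n) (Fin n) F) (μ : F)
    (h0 : 0 < (x - μ • (1 : Matrix (Fin n) (Fin n) F)).rank)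
    (h1 : (x - μ • (1 : Matrix (Fin n) (Fin n) F)).rank < n) :
    ∀ z : F, x ≠ z • (1 : Matrix (Fin n) (Fin n) F) := by
  classical
  intro z hz
  have h2 : x - μ • (1 : Matrix (Fin n) (Fin n) F) = Matrix.diagonal (fun _ => z - μ) := by
    rw [hz, ← sub_smul, Matrix.smul_one_eq_diagonal]
  rw [h2, Matrix.rank_diagonal] at h0 h1
  by_cases hzμ : z - μ = 0
  · have : IsEmpty {i : Fin n // z - μ ≠ 0} := ⟨fun i => i.2 hzμ⟩
    rw [Fintype.card_eq_zero] at h0
    omega
  · have h3 : Fintype.card {i : Fin n // z - μ ≠ 0} = n := by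
      rw [Fintype.card_subtype, Finset.filter_true_of_mem (fun _ _ => hzμ), Finset.card_univ,
        Fintype.card_fin]
    omega

/-- scaling a conjugate of a Kronecker product -/
theorem tensorConj_smul {n a b : ℕ} (e : Fin n ≃ Fin a × Fin b) (x : Matrix (Fin n) (Fin n) F)
    (d : F) (hd : d ≠ 0) (hx : IsTensorConj a b e x) : IsTensorConj a b e (d • x) := by
  obtain ⟨S, A, B, rfl⟩ := hx
  have hdet : (d • (A : Matrix (Fin a) (Fin a) F)).det ≠ 0 := by
    rw [Matrix.det_smul]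
    exact mul_ne_zero (pow_ne_zero _ hd) (isUnit_det_gl A).ne_zero
  refine ⟨S, Matrix.GeneralLinearGroup.mkOfDetNeZero (d • (A : Matrix (Fin a) (Fin a) F)) hdet,
    B, ?_⟩
  have h1 : ((Matrix.GeneralLinearGroup.mkOfDetNeZero (d • (A : Matrix (Fin a) (Fin a) F)) hdet :
      GL (Fin a) F) : Matrix (Fin a) (Fin a) F) = d • (A : Matrix (Fin a) (Fin a) F) := rfl
  have h2 : Matrix.reindex e.symm e.symm
      ((d • (A : Matrix (Fin a) (Fin a) F)) ⊗ₖ (B : Matrix (Fin b) (Fin b) F)) =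
      d • Matrix.reindex e.symm e.symm
        ((A : Matrix (Fin a) (Fin a) F) ⊗ₖ (B : Matrix (Fin b) (Fin b) F)) := by
    ext i j
    simp [Matrix.reindex_apply, Matrix.submatrix_apply, Matrix.kronecker_apply, mul_assoc]
  rw [h1, h2, Matrix.mul_smul, Matrix.smul_mul]

end general

section finite

open Cfsg.Agent.Lib.Helper37.EluStmt

theorem two_ne_zero_of_odd {F : Type*} [Field F] [Fintype F] (hodd : Odd (Fintype.card F)) :
    (2 : F) ≠ 0 := by
  intro h2
  have hchar : ringChar F = 2 := by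
    have : CharP F 2 := by
      apply CharTwo.of_one_ne_zero_of_two_eq_zero one_ne_zero
      exact_mod_cast h2
    exact ringChar.eq F 2
  have heven := FiniteField.even_card_iff_char_two.mp hchar
  rw [Nat.odd_iff] at hodd
  omega

theorem two_ne_zero_of_char {F : Type*} [Field F] {p : ℕ} [Fact p.Prime] [CharP F p]
    (hp : p ≠ 2) : (2 : F) ≠ 0 := by
  intro h
  have h' : ((2 : ℕ) : F) = 0 := by exact_mod_cast h
  rw [CharP.cast_eq_zero_iff F p] at h'
  exact hp ((Nat.prime_dvd_prime_iff_eq Fact.out Nat.prime_two).mp h')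

theorem odd_card_of_two_ne_zero {F : Type*} [Field F] [Fintype F] (h2 : (2 : F) ≠ 0) :
    Odd (Fintype.card F) := by
  rw [Nat.odd_iff]
  apply FiniteField.odd_card_of_char_ne_two
  intro h
  apply h2
  have := CharP.cast_eq_zero F (ringChar F)
  rw [h] at this
  exact_mod_cast this

theorem rank_sub_one_of_ker {F : Type u} [Field F] {n : ℕ} (x : Matrix (Fin n) (Fin n) F) (c : ℕ)
    (h : Module.finrank F (LinearMap.ker (Matrix.toLin' x - 1)) + c = n) :
    (x - (1 : F) • (1 : Matrix (Fin n) (Fin n) F)).rank = c := by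
  have h1 : Matrix.toLin' (x - (1 : F) • (1 : Matrix (Fin n) (Fin n) F)) = Matrix.toLin' x - 1 := by
    rw [one_smul, map_sub, Matrix.toLin'_one]
    rfl
  have h2 := LinearMap.finrank_range_add_finrank_ker (Matrix.toLin' x - 1)
  rw [Module.finrank_fin_fun] at h2
  have h3 : (x - (1 : F) • (1 : Matrix (Fin n) (Fin n) F)).rank =
      Module.finrank F (LinearMap.range (Matrix.toLin' x - 1)) := by
    rw [← h1]
    rfl
  omega

theorem forward (hT1 : TMem1.{u}) (hK : KRank.{u}) (hKS : KRankS.{u}) (hTr : Transv.{u})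
    (hN2 : Neg2.{u}) (hN1 : Neg1.{u}) (hD2 : Diag2.{u}) (hBT : BlkTen.{u})
    (hBlk : BlkElt.{u}) (hCau : CauchyOrd.{u})
    {F : Type u} [Field F] [Fintype F] {p : ℕ} [Fact p.Prime] [CharP F p]
    (n a b : ℕ) (hab : n = a * b) (ha : 2 ≤ a) (hlt : a < b) (e : Fin n ≃ Fin a × Fin b)
    (P : GL (Fin n) F) (r : ℕ) [Fact r.Prime]
    (hΩ : r ∣ (Cfsg.Geo.tensorProductSubgroup a b e P).relIndex
      (Cfsg.Geo.specialLinear (Fin n) F))
    (hall : ∀ x : Matrix (Fin n) (Fin n) F, x.det = 1 →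
      (∃ z : F, x ^ r = z • (1 : Matrix (Fin n) (Fin n) F)) →
      (∀ z : F, x ≠ z • (1 : Matrix (Fin n) (Fin n) F)) → IsTensorConj a b e x) :
    r = 2 ∧ a = 2 ∧ Odd (Fintype.card F) ∧
      padicValNat 2 (Fintype.card F - 1) ≤ padicValNat 2 n := by
  classical
  have hr : r.Prime := Fact.out
  have hpp : p.Prime := Fact.out
  have hn6 : 6 ≤ n := by
    have h1 : 2 * 3 ≤ a * b := Nat.mul_le_mul ha (by omega)
    omega
  have han : a < n := by
    have h1 : a * 2 ≤ a * b := Nat.mul_le_mul_left a (by omega)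
    omega
  by_contra hcon
  by_cases hrp : r = p
  · obtain ⟨x, hdet, hxp, hrk⟩ := hTr F p n (by omega)
    have hrk' : (x - (1 : F) • (1 : Matrix (Fin n) (Fin n) F)).rank = 1 := by
      rw [one_smul]; exact hrk
    have hns := not_scalar_of_rank x 1 (by omega) (by omega)
    have hx := hall x hdet ⟨1, by rw [hrp, hxp, one_smul]⟩ hns
    exact no_conj_of_small hK hKS hlt e x 1 (by omega) (by omega) hx
  · by_cases hr2 : r = 2
    · have hp2 : p ≠ 2 := fun h => hrp (by rw [hr2, h])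
      have h2 : (2 : F) ≠ 0 := two_ne_zero_of_char (p := p) hp2
      have hodd : Odd (Fintype.card F) := odd_card_of_two_ne_zero h2
      by_cases ha2 : a = 2
      · have hv : padicValNat 2 n < padicValNat 2 (Fintype.card F - 1) := by
          by_contra h
          exact hcon ⟨hr2, ha2, hodd, by omega⟩
        obtain ⟨d, x, hdet, hxx, hrk⟩ := hN1 F h2 n (by omega) hv
        have hns := not_scalar_of_rank x d (by omega) (by omega)
        have hx := hall x hdet ⟨d ^ 2, by rw [hr2, hxx]⟩ hns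
        exact no_conj_of_small hK hKS hlt e x d (by omega) (by omega) hx
      · obtain ⟨x, hdet, hxx, hrk⟩ := hN2 F h2 n (by omega)
        have hrk' : (x - (1 : F) • (1 : Matrix (Fin n) (Fin n) F)).rank = 2 := by
          rw [one_smul]; exact hrk
        have hns := not_scalar_of_rank x 1 (by omega) (by omega)
        have hx := hall x hdet ⟨1, by rw [hr2, hxx, one_smul]⟩ hns
        exact no_conj_of_small hK hKS hlt e x 1 (by omega) (by omega) hx
    · obtain ⟨hc1, -⟩ := Cfsg.Agent.Lib.Helper37.EluAsm.order_pos (F := F) (p := p) r hrp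
      by_cases hc : orderOf ((Fintype.card F : ℕ) : ZMod r) = 1
      · have hdvd : r ∣ Fintype.card F - 1 :=
          (Cfsg.Agent.Lib.Helper40.RootPow.order_eq_one_iff (F := F) r).mp hc
        obtain ⟨lam, x, hdet, hxr, hrk1, hrk2⟩ := hD2 F r hr hr2 hdvd n (by omega)
        have hrk1' : (x - (1 : F) • (1 : Matrix (Fin n) (Fin n) F)).rank = 2 := by
          rw [one_smul]; exact hrk1
        have hns := not_scalar_of_rank x 1 (by omega) (by omega)
        have hx := hall x hdet ⟨1, by rw [hxr, one_smul]⟩ hns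
        rcases dich hK hKS e x hx with ⟨B', hB'⟩ | h
        · have h3 := hB' lam
          rw [hrk2] at h3
          have h4 : a ∣ n - 1 := ⟨_, h3⟩
          have h5 : a ∣ n := ⟨b, hab⟩
          have h6 : a ∣ 1 := by
            have := (Nat.dvd_sub h5 h4)
            have h7 : n - (n - 1) = 1 := by omega
            rwa [h7] at this
          have := Nat.le_of_dvd one_pos h6
          omega
        · have := h 1
          omega
      · have hc2 : 2 ≤ orderOf ((Fintype.card F : ℕ) : ZMod r) := by omega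
        have hcn : orderOf ((Fintype.card F : ℕ) : ZMod r) ≤ n := by
          have h1 : r ∣ Nat.card (Cfsg.Geo.specialLinear (Fin n) F) :=
            hΩ.trans (Subgroup.relIndex_dvd_card _ _)
          have h2 : r ∣ Nat.card (GL (Fin n) F) :=
            h1.trans (Subgroup.card_subgroup_dvd_card _)
          exact hCau F p r hrp n h2 hc2
        obtain ⟨x, hdet, hxr, hker⟩ := hBlk F p r hrp hc2 n 1 (by omega)
        rw [mul_one] at hker
        have hroot : ∀ lam : F, lam ^ r = 1 → lam = 1 := fun lam h =>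
          Cfsg.Agent.Lib.Helper40.PrimeElts.root_trivial r hr hc lam h
        have hns := Cfsg.Agent.Lib.Helper37.EluAsm.not_scalar r hr hroot n x hxr _ 1 hc1 le_rfl
          (by rw [mul_one]; exact hker)
        have hx := hall x hdet ⟨1, by rw [hxr, one_smul]⟩ hns
        exact hBT F p r hrp hc2 n a b e ha hlt x hxr hker hx

theorem backward (hT2 : TMem2.{u}) (hPar : Parity.{u}) (hBS : BSq.{u}) (hBN : BNSq.{u})
    {F : Type u} [Field F] [Fintype F] {p : ℕ} [Fact p.Prime] [CharP F p]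
    (n b : ℕ) (hn : 1 ≤ n) (e : Fin n ≃ Fin 2 × Fin b) (P : GL (Fin n) F)
    (hodd : Odd (Fintype.card F))
    (hv : padicValNat 2 (Fintype.card F - 1) ≤ padicValNat 2 n)
    (x : GL (Fin n) F) (hx : x ∈ Cfsg.Geo.specialLinear (Fin n) F) (z : F)
    (hz : ((x ^ 2 : GL (Fin n) F) : Matrix (Fin n) (Fin n) F) =
      z • (1 : Matrix (Fin n) (Fin n) F)) :
    ∃ g ∈ Cfsg.Geo.specialLinear (Fin n) F,
      g⁻¹ * x * g ∈ Cfsg.Geo.tensorProductSubgroup 2 b e P := by
  classical
  have h2 : (2 : F) ≠ 0 := two_ne_zero_of_odd hodd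
  have hp2 : p ≠ 2 := by
    rintro rfl
    apply h2
    have := CharP.cast_eq_zero F 2
    exact_mod_cast this
  obtain ⟨X, hX⟩ : ∃ X : Matrix (Fin n) (Fin n) F, X = (x : Matrix (Fin n) (Fin n) F) :=
    ⟨_, rfl⟩
  have hdet : X.det = 1 := by rw [hX]; exact (mem_sl x).mp hx
  have hXX : X ^ 2 = z • (1 : Matrix (Fin n) (Fin n) F) := by
    rw [hX, ← hz, Units.val_pow_eq_pow_val]
  have hXX' : X * X = z • (1 : Matrix (Fin n) (Fin n) F) := by rw [← hXX, pow_two]
  have hz0 : z ≠ 0 := by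
    rintro rfl
    have h1 := congrArg Matrix.det hXX'
    haveI : Nonempty (Fin n) := ⟨⟨0, by omega⟩⟩
    rw [Matrix.det_mul, hdet, zero_smul, Matrix.det_zero, mul_one] at h1
    exact one_ne_zero h1
  have hten : IsTensorConj 2 b e X := by
    by_cases hsq : ∃ d : F, d ^ 2 = z
    · obtain ⟨d, hd⟩ := hsq
      have hd0 : d ≠ 0 := by
        rintro rfl
        rw [zero_pow (by norm_num)] at hd
        exact hz0 hd.symm
      obtain ⟨y, hy⟩ : ∃ y : Matrix (Fin n) (Fin n) F, y = d⁻¹ • X := ⟨_, rfl⟩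
      have hyy : y * y = 1 := by
        rw [hy, Matrix.smul_mul, Matrix.mul_smul, hXX', smul_smul, smul_smul, ← hd]
        have : d⁻¹ * d⁻¹ * d ^ 2 = 1 := by field_simp
        rw [this, one_smul]
      have hdety : y.det = (d⁻¹) ^ n := by
        rw [hy, Matrix.det_smul, hdet, mul_one, Fintype.card_fin]
      have hdy2 : y.det * y.det = 1 := by
        rw [← Matrix.det_mul, hyy, Matrix.det_one]
      have hdy : y.det = 1 := by
        have h3 : (y.det - 1) * (y.det + 1) = 0 := by linear_combination hdy2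
        rcases mul_eq_zero.mp h3 with h4 | h4
        · exact sub_eq_zero.mp h4
        · exfalso
          have h5 : (d⁻¹) ^ n = -1 := by rw [← hdety]; linear_combination h4
          exact hPar F h2 n hn hv d⁻¹ h5
      have h6 := tensorConj_smul e y d hd0 (hBS F h2 n b e y hyy hdy)
      have h7 : d • y = X := by rw [hy, smul_smul, mul_inv_cancel₀ hd0, one_smul]
      rwa [h7] at h6
    · exact hBN F p hp2 n b e X z (fun d h => hsq ⟨d, h⟩) hXX
  rw [hX] at hten
  obtain ⟨Q, hQ⟩ := hT2 F n 2 b e P x hten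
  obtain ⟨x', hx'⟩ : ∃ x' : Matrix.SpecialLinearGroup (Fin n) F,
      (x' : Matrix (Fin n) (Fin n) F) = X := ⟨⟨X, hdet⟩, rfl⟩
  have hxg : Matrix.SpecialLinearGroup.toGL x' = x := by
    apply Units.ext
    show (x' : Matrix (Fin n) (Fin n) F) = (x : Matrix (Fin n) (Fin n) F)
    rw [hx', hX]
  obtain ⟨P', hP'⟩ := Cfsg.Agent.Lib.Helper37.InvConj.exists_sl_conj (by omega) x' (z := z)
    (by rw [hx']; exact hXX') (Cfsg.Geo.tensorProductSubgroup 2 b e P) Q (by rw [hxg]; exact hQ)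
  refine ⟨Matrix.SpecialLinearGroup.toGL P', ?_, ?_⟩
  · rw [mem_sl]
    exact P'.det_coe
  · rw [Subgroup.mem_comap, map_mul, map_mul, map_inv, hxg] at hP'
    exact hP'

/-! ### the theorem -/

theorem thm_of (hT1 : TMem1.{u}) (hT2 : TMem2.{u}) (hK : KRank.{u}) (hKS : KRankS.{u})
    (hTr : Transv.{u}) (hN2 : Neg2.{u}) (hN1 : Neg1.{u}) (hD2 : Diag2.{u}) (hBT : BlkTen.{u})
    (hPar : Parity.{u}) (hBS : BSq.{u}) (hBN : BNSq.{u})
    (hBlk : BlkElt.{u}) (hCau : CauchyOrd.{u})
    {F : Type u} [Field F] [Fintype F] {p : ℕ} [Fact p.Prime] [CharP F p]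
    (n a b : ℕ) (hab : n = a * b) (ha : 2 ≤ a) (hlt : a < b) (e : Fin n ≃ Fin a × Fin b)
    (P : GL (Fin n) F) (r : ℕ) [Fact r.Prime]
    (hΩ : r ∣ (Cfsg.Geo.tensorProductSubgroup a b e P).relIndex
      (Cfsg.Geo.specialLinear (Fin n) F)) :
    (∀ x ∈ Cfsg.Geo.specialLinear (Fin n) F,
      (∃ z : F, ((x ^ r : GL (Fin n) F) : Matrix (Fin n) (Fin n) F) =
        z • (1 : Matrix (Fin n) (Fin n) F)) →
      (∀ z : F, (x : Matrix (Fin n) (Fin n) F) ≠ z • (1 : Matrix (Fin n) (Fin n) F)) →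
      ∃ g ∈ Cfsg.Geo.specialLinear (Fin n) F,
        g⁻¹ * x * g ∈ Cfsg.Geo.tensorProductSubgroup a b e P) ↔
    (r = 2 ∧ a = 2 ∧ Odd (Fintype.card F) ∧
      padicValNat 2 (Fintype.card F - 1) ≤ padicValNat 2 n) := by
  constructor
  · intro h
    apply forward hT1 hK hKS hTr hN2 hN1 hD2 hBT hBlk hCau n a b hab ha hlt e P r hΩ
    intro x hdet hxr hns
    obtain ⟨xg, hxg⟩ : ∃ xg : GL (Fin n) F, (xg : Matrix (Fin n) (Fin n) F) = x :=
      ⟨Matrix.GeneralLinearGroup.mkOfDetNeZero x (by rw [hdet]; exact one_ne_zero), rfl⟩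
    obtain ⟨z, hz⟩ := hxr
    obtain ⟨g, -, hg⟩ := h xg ((mem_sl xg).mpr (by rw [hxg]; exact hdet))
      ⟨z, by rw [Units.val_pow_eq_pow_val, hxg]; exact hz⟩ (by rw [hxg]; exact hns)
    have := hT1 F n a b e P xg g hg
    rwa [hxg] at this
  · rintro ⟨hr2, ha2, hodd, hv⟩ x hx ⟨z, hz⟩ _
    subst hr2
    subst ha2
    have hn1 : 1 ≤ n := by
      have : 2 * 3 ≤ 2 * b := Nat.mul_le_mul_left 2 (by omega)
      omega
    exact backward hT2 hPar hBS hBN n b hn1 e P hodd hv x hx z hz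

end finite

end Cfsg.Agent.Lib.Helper37.TenAsm
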