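import Mathlib
import Cfsg.Prelude.Def_GeometricClasses
import Cfsg.Agent.Lib.Helper37.OrtStmt
import Cfsg.Agent.Lib.Helper37.TenStmt
import Cfsg.Agent.Lib.Helper37.TenAsm
import Cfsg.Agent.Lib.Helper37.EluStmt
import Cfsg.Agent.Lib.Helper37.SpTStmt
import Cfsg.Agent.Lib.Helper37.SpTAsm
import Cfsg.Agent.Lib.Helper41.UnitStmt
import Cfsg.Agent.Lib.Helper40.PrimeElts
import Cfsg.Agent.Lib.Helper40.RootPow

/-!
# S5981: the assembly of the pieces of `OrtStmt` (helper37)
-/

set_option autoImplicit false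

namespace Cfsg.Agent.Lib.Helper37.OrtAsm

open scoped Kronecker MatrixGroups Matrix
open Cfsg Cfsg.Agent.Lib.Helper37.OrtStmt

universe u

section basics

variable {F : Type u} [Field F]

/-- powers of a similarity -/
theorem sim_pow {n : ℕ} (S y : Matrix (Fin n) (Fin n) F) (c : F) (h : yᵀ * S * y = c • S)
    (k : ℕ) : (y ^ k)ᵀ * S * (y ^ k) = c ^ k • S := by
  induction k with
  | zero => rw [pow_zero, pow_zero, Matrix.transpose_one, Matrix.one_mul, Matrix.mul_one, one_smul]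
  | succ k ih =>
    rw [pow_succ, Matrix.transpose_mul, pow_succ]
    calc yᵀ * (y ^ k)ᵀ * S * (y ^ k * y) = yᵀ * ((y ^ k)ᵀ * S * y ^ k) * y := by
          simp only [Matrix.mul_assoc]
      _ = (c ^ k * c) • S := by rw [ih, Matrix.mul_smul, Matrix.smul_mul, h, smul_smul]

theorem smul_eq_self {n : ℕ} (hn : 1 ≤ n) (S : Matrix (Fin n) (Fin n) F) (hS : S.det ≠ 0)
    (c : F) (h : c • S = S) : c = 1 := by
  obtain ⟨i, j, hij⟩ := Cfsg.Agent.Lib.Helper37.SpTAsm.exists_entry_ne_zero hn S hS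
  have h1 := congrFun (congrFun h i) j
  rw [Matrix.smul_apply, smul_eq_mul] at h1
  exact mul_right_cancel₀ hij (by rw [h1, one_mul])

/-- transporting a similarity relation along a conjugation (1) -/
theorem conj_form {n : ℕ} (S G Gi x : Matrix (Fin n) (Fin n) F) (c : F) (hGiG : Gi * G = 1)
    (hGGi : G * Gi = 1)
    (h : (Gi * x * G)ᵀ * S * (Gi * x * G) = c • S) :
    xᵀ * (Giᵀ * S * Gi) * x = c • (Giᵀ * S * Gi) := by
  have hT : Gᵀ * Giᵀ = 1 := by rw [← Matrix.transpose_mul, hGiG, Matrix.transpose_one]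
  have e1 : xᵀ * (Giᵀ * S * Gi) * x = Giᵀ * ((Gi * x * G)ᵀ * S * (Gi * x * G)) * Gi := by
    have e2 : Giᵀ * ((Gi * x * G)ᵀ * S * (Gi * x * G)) * Gi =
        (Giᵀ * Gᵀ) * xᵀ * (Giᵀ * S * Gi) * x * (G * Gi) := by
      simp only [Matrix.transpose_mul, Matrix.mul_assoc]
    have hT' : Giᵀ * Gᵀ = 1 := by rw [← Matrix.transpose_mul, hGGi, Matrix.transpose_one]
    rw [e2, hT', hGGi, Matrix.one_mul, Matrix.mul_one]
  rw [e1, h, Matrix.mul_smul, Matrix.smul_mul]

/-- transporting a similarity relation along a conjugation (2) -/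
theorem conj_form' {n : ℕ} (S G Gi x : Matrix (Fin n) (Fin n) F) (c : F) (hGiG : Gi * G = 1)
    (h : xᵀ * (Giᵀ * S * Gi) * x = c • (Giᵀ * S * Gi)) :
    (Gi * x * G)ᵀ * S * (Gi * x * G) = c • S := by
  have hT : Gᵀ * Giᵀ = 1 := by rw [← Matrix.transpose_mul, hGiG, Matrix.transpose_one]
  have e1 : (Gi * x * G)ᵀ * S * (Gi * x * G) = Gᵀ * (xᵀ * (Giᵀ * S * Gi) * x) * G := by
    simp only [Matrix.transpose_mul, Matrix.mul_assoc]
  rw [e1, h, Matrix.mul_smul, Matrix.smul_mul]
  congr 1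
  calc Gᵀ * (Giᵀ * S * Gi) * G = (Gᵀ * Giᵀ) * S * (Gi * G) := by simp only [Matrix.mul_assoc]
    _ = S := by rw [hT, hGiG, Matrix.one_mul, Matrix.mul_one]

theorem rank_sub_one {n : ℕ} (x : Matrix (Fin n) (Fin n) F) :
    (x - 1).rank + Module.finrank F (LinearMap.ker (Matrix.toLin' x - 1)) = n := by
  have h1 := LinearMap.finrank_range_add_finrank_ker (Matrix.toLin' (x - 1))
  have h2 : Matrix.toLin' x - 1 = Matrix.toLin' (x - 1) := by
    rw [map_sub, Matrix.toLin'_one]
    rfl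
  rw [h2]
  rw [Module.finrank_fin_fun] at h1
  have h3 : (x - 1).rank = Module.finrank F (LinearMap.range (Matrix.toLin' (x - 1))) := by
    rw [Matrix.rank, Matrix.toLin'_apply']
  rw [h3]
  exact h1

end basics

section conj

variable {F : Type u} [Field F] {n : ℕ} (Q : (Fin n → F) → F) (S : Matrix (Fin n) (Fin n) F)
  (hS : ∀ g : GL (Fin n) F, g ∈ Cfsg.Geo.quadSimilarityGroup Q ↔
    ∃ c : F, c ≠ 0 ∧
      (g : Matrix (Fin n) (Fin n) F)ᵀ * S * (g : Matrix (Fin n) (Fin n) F) = c • S)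

include hS in
/-- a fixed point gives an invariant form of the same determinant -/
theorem fwd (hSt : Sᵀ = S) (x g : GL (Fin n) F) (hg : g ∈ Cfsg.Geo.specialLinear (Fin n) F)
    (hmem : g⁻¹ * x * g ∈ Cfsg.Geo.quadSimilarityGroup Q) :
    ∃ (S' : Matrix (Fin n) (Fin n) F) (c : F), S'ᵀ = S' ∧ S'.det = S.det ∧ c ≠ 0 ∧
      (x : Matrix (Fin n) (Fin n) F)ᵀ * S' * (x : Matrix (Fin n) (Fin n) F) = c • S' := by
  obtain ⟨c, hc, h⟩ := (hS _).mp hmem
  have hdetg : (g : Matrix (Fin n) (Fin n) F).det = 1 :=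
    (Cfsg.Agent.Lib.Helper37.TenAsm.mem_sl g).mp hg
  have hGiG : ((g⁻¹ : GL (Fin n) F) : Matrix (Fin n) (Fin n) F) *
      (g : Matrix (Fin n) (Fin n) F) = 1 := by
    rw [← Units.val_mul, inv_mul_cancel, Units.val_one]
  have hGGi : (g : Matrix (Fin n) (Fin n) F) *
      ((g⁻¹ : GL (Fin n) F) : Matrix (Fin n) (Fin n) F) = 1 := by
    rw [← Units.val_mul, mul_inv_cancel, Units.val_one]
  have hdetgi : ((g⁻¹ : GL (Fin n) F) : Matrix (Fin n) (Fin n) F).det = 1 := by
    have h1 := congrArg Matrix.det hGiG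
    rw [Matrix.det_mul, hdetg, mul_one, Matrix.det_one] at h1
    exact h1
  rw [Units.val_mul, Units.val_mul] at h
  refine ⟨((g⁻¹ : GL (Fin n) F) : Matrix (Fin n) (Fin n) F)ᵀ * S *
    ((g⁻¹ : GL (Fin n) F) : Matrix (Fin n) (Fin n) F), c, ?_, ?_, hc, ?_⟩
  · rw [Matrix.transpose_mul, Matrix.transpose_mul, Matrix.transpose_transpose, hSt,
      Matrix.mul_assoc]
  · rw [Matrix.det_mul, Matrix.det_mul, Matrix.det_transpose, hdetgi, one_mul, mul_one]
  · exact conj_form S _ _ _ c hGiG hGGi h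

include hS in
/-- an invariant form congruent to `S` gives a fixed point -/
theorem bwd [Fintype F] (hCong : Cong.{u}) (hCD : Cfsg.Agent.Lib.Helper41.UnitStmt.CommDet.{u})
    (h2 : (2 : F) ≠ 0) (hn : 1 ≤ n) (hSt : Sᵀ = S) (hSd : S.det ≠ 0)
    (x : GL (Fin n) F) (r : ℕ) (hr : r.Prime) (hr' : r = 2 ∨ (r : F) ≠ 0) (z : F) (hz : z ≠ 0)
    (hxr : (x : Matrix (Fin n) (Fin n) F) ^ r = z • (1 : Matrix (Fin n) (Fin n) F))
    (S' : Matrix (Fin n) (Fin n) F) (μ c : F) (hS't : S'ᵀ = S') (hμ : μ ≠ 0)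
    (hdet : S'.det = S.det * μ ^ 2) (hc : c ≠ 0)
    (hsim : (x : Matrix (Fin n) (Fin n) F)ᵀ * S' * (x : Matrix (Fin n) (Fin n) F) = c • S') :
    ∃ g ∈ Cfsg.Geo.specialLinear (Fin n) F, g⁻¹ * x * g ∈ Cfsg.Geo.quadSimilarityGroup Q := by
  obtain ⟨k, hkdet, hk⟩ := hCong F h2 n S S' hSt hSd hS't μ hμ hdet
  obtain ⟨D, hDx, hDdet⟩ := hCD F n hn r hr hr' (x : Matrix (Fin n) (Fin n) F) z hz hxr k.det
  obtain ⟨K, hK⟩ : ∃ K : GL (Fin n) F, (K : Matrix (Fin n) (Fin n) F) = k :=
    ⟨Matrix.GeneralLinearGroup.mkOfDetNeZero k hkdet, rfl⟩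
  obtain ⟨DG, hDG⟩ : ∃ DG : GL (Fin n) F, (DG : Matrix (Fin n) (Fin n) F) = D :=
    ⟨Matrix.GeneralLinearGroup.mkOfDetNeZero D (hDdet ▸ hkdet), rfl⟩
  have hcomm : DG * x = x * DG := by
    apply Units.ext
    rw [Units.val_mul, Units.val_mul, hDG]
    exact hDx
  have hKiK : ((K⁻¹ : GL (Fin n) F) : Matrix (Fin n) (Fin n) F) * k = 1 := by
    rw [← hK, ← Units.val_mul, inv_mul_cancel, Units.val_one]
  have hKKi : k * ((K⁻¹ : GL (Fin n) F) : Matrix (Fin n) (Fin n) F) = 1 := by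
    rw [← hK, ← Units.val_mul, mul_inv_cancel, Units.val_one]
  refine ⟨DG * K⁻¹, ?_, ?_⟩
  · rw [Cfsg.Agent.Lib.Helper37.TenAsm.mem_sl, Units.val_mul, Matrix.det_mul, hDG, hDdet]
    have h1 := congrArg Matrix.det hKKi
    rw [Matrix.det_mul, Matrix.det_one] at h1
    exact h1
  · have h3 : (DG * K⁻¹)⁻¹ * x * (DG * K⁻¹) = K * x * K⁻¹ := by
      have h4 : DG⁻¹ * x * DG = x := by
        rw [mul_assoc, ← hcomm, ← mul_assoc, inv_mul_cancel, one_mul]
      calc (DG * K⁻¹)⁻¹ * x * (DG * K⁻¹) = K * (DG⁻¹ * x * DG) * K⁻¹ := by group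
        _ = K * x * K⁻¹ := by rw [h4]
    rw [h3, hS]
    refine ⟨c, hc, ?_⟩
    rw [Units.val_mul, Units.val_mul, hK]
    apply conj_form' S _ k _ c hKKi
    rw [hk]
    exact hsim

end conj

section main

open Cfsg.Agent.Lib.Helper37.TenStmt Cfsg.Agent.Lib.Helper37.EluStmt
  Cfsg.Agent.Lib.Helper37.SpTStmt Cfsg.Agent.Lib.Helper41.UnitStmt

theorem order_pos' {F : Type u} [Field F] [Fintype F] (p : ℕ) [Fact p.Prime] [CharP F p]
    (r : ℕ) [Fact r.Prime] (hrp : r ≠ p) : 0 < orderOf ((Fintype.card F : ℕ) : ZMod r) := by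
  have hr : r.Prime := Fact.out
  have hp : p.Prime := Fact.out
  obtain ⟨k, -, hcard⟩ := FiniteField.card F p
  have hne : ((Fintype.card F : ℕ) : ZMod r) ≠ 0 := by
    intro h
    rw [ZMod.natCast_eq_zero_iff, hcard] at h
    exact hrp ((Nat.prime_dvd_prime_iff_eq hr hp).mp (hr.dvd_of_dvd_pow h))
  have h1 : orderOf (Units.mk0 _ hne) = orderOf ((Fintype.card F : ℕ) : ZMod r) := by
    rw [← orderOf_units]
    rfl
  rw [← h1]
  exact orderOf_pos _

/-- **S5981**, assembled from the pieces. -/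
theorem thm_of (hQF : QForm.{u}) (hCong : Cong.{u}) (hCD : CommDet.{u}) (hZ1 : ZOne2.{u})
    (hI2S : Inv2Sq.{u}) (hI2N : Inv2NS.{u}) (hO35 : Odd35.{u}) (hTr : Transv.{u})
    (hNU : NoUnip.{u}) (hBlk : BlkElt.{u}) (hCau : CauchyOrd.{u}) (hOR : OrthRank.{u})
    (hD1 : Der1.{u}) (hD2 : Der2.{u}) (hEC : EvenCase.{u}) (hIdx : IdxO.{u})
    {F : Type u} [Field F] [Fintype F] {p : ℕ} [Fact p.Prime] [CharP F p]
    (hodd : Odd (Fintype.card F)) (n : ℕ) (hn : 3 ≤ n) (Q : (Fin n → F) → F)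
    (hQ : Cfsg.Geo.IsNondegenerateQuadraticForm Q) (r : ℕ) [Fact r.Prime]
    (hgap : ¬ (n = 6 ∧ r = 3))
    (hΩ : r ∣ (Cfsg.Geo.quadSimilarityGroup Q).relIndex (Cfsg.Geo.specialLinear (Fin n) F)) :
    (∀ x ∈ Cfsg.Geo.specialLinear (Fin n) F,
      (∃ z : F, ((x ^ r : GL (Fin n) F) : Matrix (Fin n) (Fin n) F) =
        z • (1 : Matrix (Fin n) (Fin n) F)) →
      (∀ z : F, (x : Matrix (Fin n) (Fin n) F) ≠ z • (1 : Matrix (Fin n) (Fin n) F)) →
      ∃ g ∈ Cfsg.Geo.specialLinear (Fin n) F, g⁻¹ * x * g ∈ Cfsg.Geo.quadSimilarityGroup Q) ↔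
    (r = 2 ∨ ((r = 3 ∨ r = 5) ∧ n = r ∧ padicValNat r (Fintype.card F - 1) = 1)) := by
  have h2 : (2 : F) ≠ 0 := Cfsg.Agent.Lib.Helper37.SpTAsm.two_ne_zero_of_odd_card hodd
  have hr : r.Prime := Fact.out
  have hp : p.Prime := Fact.out
  obtain ⟨S, hSt, hSd, hS⟩ := hQF F h2 n Q hQ
  have hp2 : p ≠ 2 := by
    rintro rfl
    exact h2 (by exact_mod_cast CharP.cast_eq_zero F 2)
  constructor
  · intro hL
    by_cases hr2 : r = 2
    · left
      exact hr2
    right
    have hrodd : Odd r := hr.eq_two_or_odd'.resolve_left hr2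
    -- every element of order `r` modulo scalars is a similarity of a form of determinant `det S`
    have key : ∀ x : Matrix (Fin n) (Fin n) F, x.det = 1 →
        (∃ z : F, x ^ r = z • (1 : Matrix (Fin n) (Fin n) F)) →
        (∀ z : F, x ≠ z • (1 : Matrix (Fin n) (Fin n) F)) →
        ∃ (S' : Matrix (Fin n) (Fin n) F) (c : F), S'ᵀ = S' ∧ S'.det = S.det ∧ c ≠ 0 ∧
          xᵀ * S' * x = c • S' := by
      intro x hx hxr hns
      obtain ⟨X, hX⟩ : ∃ X : GL (Fin n) F, (X : Matrix (Fin n) (Fin n) F) = x :=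
        ⟨Matrix.GeneralLinearGroup.mkOfDetNeZero x (by rw [hx]; exact one_ne_zero), rfl⟩
      have hXsl : X ∈ Cfsg.Geo.specialLinear (Fin n) F := by
        rw [Cfsg.Agent.Lib.Helper37.TenAsm.mem_sl, hX]
        exact hx
      obtain ⟨g, hg, hmem⟩ := hL X hXsl (by rw [Units.val_pow_eq_pow_val, hX]; exact hxr)
        (by rw [hX]; exact hns)
      have := fwd Q S hS hSt X g hg hmem
      rw [hX] at this
      exact this
    have hcardGL : r ∣ Nat.card (GL (Fin n) F) :=
      dvd_trans (dvd_trans hΩ (Subgroup.relIndex_dvd_card _ _)) (Subgroup.card_subgroup_dvd_card _)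
    by_cases hrp : r = p
    · exfalso
      obtain ⟨x, hxdet, hxp, hxrk⟩ := hTr F p n (by omega)
      have hns : ∀ z : F, x ≠ z • (1 : Matrix (Fin n) (Fin n) F) := by
        apply Cfsg.Agent.Lib.Helper37.SpTAsm.not_scalar_of_rank' x 1
        · rw [one_smul, hxrk]
          exact Nat.one_pos
        · rw [one_smul, hxrk, Fintype.card_fin]
          omega
      obtain ⟨S', c, hS't, hS'd, hc, hsim⟩ := key x hxdet ⟨1, by rw [hrp, hxp, one_smul]⟩ hns
      exact hNU F p hp2 n S' x c hS't (hS'd ▸ hSd) hsim hxp hxrk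
    obtain ⟨i, hi⟩ : ∃ i, i = orderOf ((Fintype.card F : ℕ) : ZMod r) := ⟨_, rfl⟩
    have hipos : 0 < i := hi ▸ order_pos' p r hrp
    by_cases hi1 : i = 1
    · -- `r ∣ q - 1`
      have hdvd : r ∣ Fintype.card F - 1 :=
        (Cfsg.Agent.Lib.Helper40.RootPow.order_eq_one_iff r).mp (hi ▸ hi1)
      have hq1 : Fintype.card F - 1 ≠ 0 := by
        have := Fintype.one_lt_card (α := F)
        omega
      haveI : Fact r.Prime := ⟨hr⟩
      have hv1 : 1 ≤ padicValNat r (Fintype.card F - 1) :=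
        one_le_padicValNat_of_dvd hq1 hdvd
      by_cases hv : padicValNat r n < padicValNat r (Fintype.card F - 1)
      · exfalso
        obtain ⟨x, hxdet, hxr, hns, hbad⟩ := hD1 F r hr2 hdvd n hn hv
        obtain ⟨S', c, hS't, hS'd, hc, hsim⟩ := key x hxdet hxr hns
        exact hbad S' c hS't (hS'd ▸ hSd) hsim
      · by_cases h6 : 6 ≤ n
        · exfalso
          obtain ⟨x, hxdet, hxr, hns, hbad⟩ := hD2 F r hr2 hdvd n h6 hgap
          obtain ⟨S', c, hS't, hS'd, hc, hsim⟩ := key x hxdet ⟨1, by rw [hxr, one_smul]⟩ hns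
          exact hbad S' c hS't (hS'd ▸ hSd) hsim
        · have hvn : 1 ≤ padicValNat r n := by omega
          have hrn : r ∣ n := dvd_of_one_le_padicValNat hvn
          have hnr : n = r := by
            have hn5 : n ≤ 5 := by omega
            interval_cases n
            · exact ((Nat.prime_dvd_prime_iff_eq hr Nat.prime_three).mp hrn).symm
            · exfalso
              have h4 : r ∣ 2 ^ 2 := hrn
              exact hr2 ((Nat.prime_dvd_prime_iff_eq hr Nat.prime_two).mp (hr.dvd_of_dvd_pow h4))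
            · exact ((Nat.prime_dvd_prime_iff_eq hr Nat.prime_five).mp hrn).symm
          refine ⟨?_, hnr, ?_⟩
          · rw [← hnr]
            have hn5 : n ≤ 5 := by omega
            have hn4 : n ≠ 4 := by
              rintro rfl
              have h4 : r ∣ 2 ^ 2 := hrn
              exact hr2 ((Nat.prime_dvd_prime_iff_eq hr Nat.prime_two).mp (hr.dvd_of_dvd_pow h4))
            omega
          · have h7 : padicValNat r n = 1 := by
              rw [hnr]
              exact padicValNat_self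
            omega
    · exfalso
      have hi2 : 2 ≤ i := by omega
      have hi1' : orderOf ((Fintype.card F : ℕ) : ZMod r) ≠ 1 := hi ▸ hi1
      have hin : i ≤ n := hi ▸ hCau F p r hrp n hcardGL (hi ▸ hi2)
      -- the multiplier of an element with `x ^ r = 1` is `1`
      have cone : ∀ (x S' : Matrix (Fin n) (Fin n) F) (c : F), S'.det ≠ 0 → x ^ r = 1 →
          xᵀ * S' * x = c • S' → c = 1 := by
        intro x S' c hS'd hxr hsim
        have h3 := sim_pow S' x c hsim r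
        rw [hxr, Matrix.transpose_one, Matrix.one_mul, Matrix.mul_one] at h3
        have h4 : c ^ r = 1 := smul_eq_self (by omega) S' hS'd (c ^ r) h3.symm
        exact Cfsg.Agent.Lib.Helper40.PrimeElts.root_trivial r hr hi1' c h4
      by_cases hie : Even i
      · have hgood : ∀ x : Matrix (Fin n) (Fin n) F, x.det = 1 → x ^ r = 1 →
            (∀ z : F, x ≠ z • (1 : Matrix (Fin n) (Fin n) F)) →
            ∃ S' : Matrix (Fin n) (Fin n) F, S'ᵀ = S' ∧ S'.det = S.det ∧ xᵀ * S' * x = S' := by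
          intro x hxdet hxr hns
          obtain ⟨S', c, hS't, hS'd, hc, hsim⟩ := key x hxdet ⟨1, by rw [hxr, one_smul]⟩ hns
          have hc1 := cone x S' c (hS'd ▸ hSd) hxr hsim
          rw [hc1, one_smul] at hsim
          exact ⟨S', hS't, hS'd, hsim⟩
        obtain ⟨k, hk1, hk2⟩ := hEC F p r h2 hr2 hrp (hi ▸ hi2) (hi ▸ hie) n (hi ▸ hin) S hSt hSd
          hgood
        exact hIdx F n Q S hSd hS r hr2 k hk1 hk2 hΩ
      · have hio : Odd i := Nat.not_even_iff_odd.mp hie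
        obtain ⟨x, hxdet, hxr, hdim⟩ := hBlk F p r hrp (hi ▸ hi2) n 1
          (by rw [mul_one, ← hi]; exact hin)
        rw [mul_one, ← hi] at hdim
        have hrk : (x - 1).rank = i := by
          have := rank_sub_one x
          omega
        have hns : ∀ z : F, x ≠ z • (1 : Matrix (Fin n) (Fin n) F) := by
          intro z hz
          have hzr : z ^ r = 1 := by
            have h1 := hxr
            rw [hz, smul_pow, one_pow] at h1
            have h3 := congrFun (congrFun h1 ⟨0, by omega⟩) ⟨0, by omega⟩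
            simpa using h3
          have hz1 := Cfsg.Agent.Lib.Helper40.PrimeElts.root_trivial r hr hi1' z hzr
          rw [hz1, one_smul] at hz
          rw [hz, sub_self, Matrix.rank_zero] at hrk
          omega
        obtain ⟨S', c, hS't, hS'd, hc, hsim⟩ := key x hxdet ⟨1, by rw [hxr, one_smul]⟩ hns
        have hc1 := cone x S' c (hS'd ▸ hSd) hxr hsim
        rw [hc1, one_smul] at hsim
        have heven := hOR F h2 r hrodd n S' x hS't (hS'd ▸ hSd) hsim hxr
        rw [hrk] at heven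
        exact hie heven
  · rintro (hr2 | ⟨hr35, hnr, hv⟩)
    · subst hr2
      intro X hX ⟨z, hz⟩ _
      have hxdet : (X : Matrix (Fin n) (Fin n) F).det = 1 :=
        (Cfsg.Agent.Lib.Helper37.TenAsm.mem_sl X).mp hX
      rw [Units.val_pow_eq_pow_val] at hz
      have hxx : (X : Matrix (Fin n) (Fin n) F) * (X : Matrix (Fin n) (Fin n) F) =
          z • (1 : Matrix (Fin n) (Fin n) F) := by
        rw [← pow_two]
        exact hz
      have hz0 : z ≠ 0 := by
        rintro rfl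
        have h1 := congrArg Matrix.det hxx
        haveI : Nonempty (Fin n) := ⟨⟨0, by omega⟩⟩
        rw [Matrix.det_mul, hxdet, zero_smul, Matrix.det_zero] at h1
        exact (one_ne_zero : (1 : F) ≠ 0) (by simpa using h1)
      by_cases hsq : ∃ δ : F, δ * δ = z
      · obtain ⟨δ, hδ⟩ := hsq
        have hδ0 : δ ≠ 0 := by
          rintro rfl
          exact hz0 (by rw [← hδ, mul_zero])
        obtain ⟨S', μ, hS't, hμ, hdet, hsim⟩ := hI2S F h2 n (by omega) _ δ hδ0
          (by rw [hδ]; exact hxx) S.det hSd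
        rw [hδ] at hsim
        exact bwd Q S hS hCong hCD h2 (by omega) hSt hSd X 2 Nat.prime_two (Or.inl rfl) z hz0 hz
          S' μ z hS't hμ hdet hz0 hsim
      · obtain ⟨S', μ, hS't, hμ, hdet, hsim⟩ := hI2N F h2 n (by omega) _ z
          (fun d hd => hsq ⟨d, hd⟩) hxx S.det hSd
        exact bwd Q S hS hCong hCD h2 (by omega) hSt hSd X 2 Nat.prime_two (Or.inl rfl) z hz0 hz
          S' μ z hS't hμ hdet hz0 hsim
    · subst hnr
      intro X hX ⟨z, hz⟩ _
      have hxdet : (X : Matrix (Fin n) (Fin n) F).det = 1 :=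
        (Cfsg.Agent.Lib.Helper37.TenAsm.mem_sl X).mp hX
      rw [Units.val_pow_eq_pow_val] at hz
      have hdvd : n ∣ Fintype.card F - 1 := dvd_of_one_le_padicValNat (by omega)
      have hr2 : n ≠ 2 := by
        rcases hr35 with h | h <;> omega
      have hrp : n ≠ p := by
        rintro rfl
        obtain ⟨k, -, hcard⟩ := FiniteField.card F n
        have h1 : n ∣ Fintype.card F := by
          rw [hcard]
          exact dvd_pow_self n k.ne_zero
        have h3 : 1 ≤ Fintype.card F := Fintype.card_pos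
        have h4 : n ∣ 1 := by
          have := (Nat.dvd_sub h1 hdvd)
          have e : Fintype.card F - (Fintype.card F - 1) = 1 := by omega
          rwa [e] at this
        exact hr.one_lt.ne' (Nat.dvd_one.mp h4)
      have hxr : (X : Matrix (Fin n) (Fin n) F) ^ n = 1 := hZ1 F p n hr2 hrp hv _ hxdet z hz
      obtain ⟨S', μ, c, hS't, hμ, hdet, hc, hsim⟩ := hO35 F n hr35 hdvd _ hxdet hxr S.det hSd
      have hnF : (n : F) ≠ 0 := by
        intro h
        have := (CharP.cast_eq_zero_iff F p n).mp h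
        exact hrp ((Nat.prime_dvd_prime_iff_eq hp hr).mp this).symm
      exact bwd Q S hS hCong hCD h2 (by omega) hSt hSd X n hr (Or.inr hnF) 1 one_ne_zero
        (by rw [hxr, one_smul]) S' μ c hS't hμ hdet hc hsim

end main

end Cfsg.Agent.Lib.Helper37.OrtAsm
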