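import Mathlib

set_option autoImplicit false

namespace Cfsg.Agent.Lib.Helper37.PairDet

open Module

variable {F V K : Type*} [Field F] [AddCommGroup V] [Module F V] [Fintype K] [DecidableEq K]

/-- The matrix of a square-zero map in a basis of pairs. -/
theorem toMatrix_pair (B : Basis (K ⊕ K) F V) (N : V →ₗ[F] V)
    (h1 : ∀ k, N (B (Sum.inl k)) = B (Sum.inr k)) (h2 : ∀ k, N (B (Sum.inr k)) = 0) :
    LinearMap.toMatrix B B N = Matrix.fromBlocks 0 0 1 0 := by
  ext i j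
  rw [LinearMap.toMatrix_apply]
  rcases j with j | j
  · rw [h1, Basis.repr_self, Finsupp.single_apply]
    rcases i with i | i
    · simp
    · simp [Matrix.one_apply, eq_comm]
  · rw [h2, map_zero]
    rcases i with i | i <;> simp

/-- A map commuting with a square-zero map of half rank has square determinant. -/
theorem det_sq_of_comm (B : Basis (K ⊕ K) F V) (N U : V →ₗ[F] V)
    (h1 : ∀ k, N (B (Sum.inl k)) = B (Sum.inr k)) (h2 : ∀ k, N (B (Sum.inr k)) = 0)
    (hU : U ∘ₗ N = N ∘ₗ U) : ∃ s : F, LinearMap.det U = s * s := by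
  have hJ := toMatrix_pair B N h1 h2
  have h := congrArg (LinearMap.toMatrix B B) hU
  rw [LinearMap.toMatrix_comp B B B, LinearMap.toMatrix_comp B B B, hJ] at h
  obtain ⟨A, Bm, C, D, hM⟩ : ∃ A Bm C D, LinearMap.toMatrix B B U = Matrix.fromBlocks A Bm C D :=
    ⟨_, _, _, _, (Matrix.fromBlocks_toBlocks _).symm⟩
  rw [hM, Matrix.fromBlocks_multiply, Matrix.fromBlocks_multiply] at h
  simp only [Matrix.mul_zero, Matrix.mul_one, Matrix.zero_mul, Matrix.one_mul, add_zero,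
    zero_add] at h
  rw [Matrix.fromBlocks_inj] at h
  obtain ⟨hB, -, hD, -⟩ := h
  refine ⟨A.det, ?_⟩
  rw [← LinearMap.det_toMatrix B, hM, hB, hD, Matrix.det_fromBlocks_zero₁₂]

/-- Two adapted frames of a square-zero map have determinants in the same square class. -/
theorem det_adapted [FiniteDimensional F V] (E : Basis (K ⊕ K) F V) (N T T' : V →ₗ[F] V)
    (hT1 : ∀ k, N (T (E (Sum.inl k))) = T (E (Sum.inr k)))
    (hT2 : ∀ k, N (T (E (Sum.inr k))) = 0)
    (hT'1 : ∀ k, N (T' (E (Sum.inl k))) = T' (E (Sum.inr k)))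
    (hT'2 : ∀ k, N (T' (E (Sum.inr k))) = 0)
    (hdet : LinearMap.det T ≠ 0) : ∃ s : F, LinearMap.det T' = LinearMap.det T * (s * s) := by
  obtain ⟨Te, hTe⟩ : ∃ Te : V ≃ₗ[F] V, ∀ w, Te w = T w :=
    ⟨LinearMap.equivOfIsUnitDet (isUnit_iff_ne_zero.mpr hdet),
      fun w => LinearMap.equivOfIsUnitDet_apply _ w⟩
  obtain ⟨B, hB⟩ : ∃ B : Basis (K ⊕ K) F V, ∀ j, B j = T (E j) :=
    ⟨E.map Te, fun j => by rw [Basis.map_apply, hTe]⟩
  obtain ⟨U, hU⟩ : ∃ U : V →ₗ[F] V, ∀ j, U (B j) = T' (E j) :=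
    ⟨B.constr F (fun j => T' (E j)), fun j => by rw [Basis.constr_basis]⟩
  have hcomm : U ∘ₗ N = N ∘ₗ U := by
    apply B.ext
    intro j
    rw [LinearMap.comp_apply, LinearMap.comp_apply, hU, hB]
    rcases j with k | k
    · rw [hT1, ← hB, hU, hT'1]
    · rw [hT2, map_zero, hT'2]
  obtain ⟨s, hs⟩ := det_sq_of_comm B N U (fun k => by rw [hB, hB, hT1])
    (fun k => by rw [hB, hT2]) hcomm
  refine ⟨s, ?_⟩
  have hTT : T' = U ∘ₗ T := by
    apply E.ext
    intro j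
    rw [LinearMap.comp_apply, ← hB, hU]
  rw [hTT, LinearMap.det_comp, hs, mul_comm]

/-- The determinant of a matrix with entries in a subfield lies in the subfield. -/
theorem det_mem {ι : Type*} [Fintype ι] [DecidableEq ι] (F₀ : Subfield F) (M : Matrix ι ι F)
    (hM : ∀ i j, M i j ∈ F₀) : M.det ∈ F₀ := by
  have h : M = (Matrix.of fun i j => (⟨M i j, hM i j⟩ : F₀)).map (F₀.subtype : F₀ →+* F) := by
    ext i j
    rfl
  rw [h, ← RingHom.mapMatrix_apply, ← RingHom.map_det]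
  exact Subtype.property _

/-- A square-zero matrix of half rank with entries in a subfield has an adapted frame whose
determinant lies in the subfield. -/
theorem exists_adapted_rational {n : ℕ} (F₀ : Subfield F) (e : K ⊕ K ≃ Fin n)
    (N₁ : Matrix (Fin n) (Fin n) F) (hN₁ : ∀ i j, N₁ i j ∈ F₀) (hNN : N₁ * N₁ = 0)
    (T₁ : (Fin n → F) →ₗ[F] (Fin n → F)) (hT₁ : LinearMap.det T₁ ≠ 0)
    (h1 : ∀ k, Matrix.toLin' N₁ (T₁ (Pi.single (e (Sum.inl k)) 1)) =
      T₁ (Pi.single (e (Sum.inr k)) 1))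
    (h2 : ∀ k, Matrix.toLin' N₁ (T₁ (Pi.single (e (Sum.inr k)) 1)) = 0) :
    ∃ T₀ : (Fin n → F) →ₗ[F] (Fin n → F), LinearMap.det T₀ ≠ 0 ∧ LinearMap.det T₀ ∈ F₀ ∧
      (∀ k, Matrix.toLin' N₁ (T₀ (Pi.single (e (Sum.inl k)) 1)) =
        T₀ (Pi.single (e (Sum.inr k)) 1)) ∧
      (∀ k, Matrix.toLin' N₁ (T₀ (Pi.single (e (Sum.inr k)) 1)) = 0) := by
  classical
  have hNNv : ∀ w, Matrix.toLin' N₁ (Matrix.toLin' N₁ w) = 0 := by
    intro w
    rw [Matrix.toLin'_apply, Matrix.toLin'_apply, Matrix.mulVec_mulVec, hNN, Matrix.zero_mulVec]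
  obtain ⟨N, hN⟩ : ∃ N : (Fin n → F) →ₗ[F] (Fin n → F), N = Matrix.toLin' N₁ := ⟨_, rfl⟩
  rw [← hN] at hNNv
  simp only [← hN] at h1 h2 ⊢
  -- the standard basis, reindexed
  obtain ⟨E, hE⟩ : ∃ E : Basis (K ⊕ K) F (Fin n → F), ∀ j, E j = Pi.single (e j) 1 :=
    ⟨(Pi.basisFun F (Fin n)).reindex e.symm, fun j => by
      rw [Basis.reindex_apply, Equiv.symm_symm, Pi.basisFun_apply]⟩
  obtain ⟨Te, hTe⟩ : ∃ Te : (Fin n → F) ≃ₗ[F] (Fin n → F), ∀ w, Te w = T₁ w :=
    ⟨LinearMap.equivOfIsUnitDet (isUnit_iff_ne_zero.mpr hT₁),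
      fun w => LinearMap.equivOfIsUnitDet_apply _ w⟩
  obtain ⟨B₁, hB₁⟩ : ∃ B₁ : Basis (K ⊕ K) F (Fin n → F), ∀ j, B₁ j = T₁ (Pi.single (e j) 1) :=
    ⟨E.map Te, fun j => by rw [Basis.map_apply, hTe, hE]⟩
  have hrange : LinearMap.range N = Submodule.span F (Set.range (fun k => B₁ (Sum.inr k))) := by
    apply le_antisymm
    · rw [LinearMap.range_eq_map, ← B₁.span_eq, Submodule.map_span, Submodule.span_le]
      rintro _ ⟨_, ⟨j, rfl⟩, rfl⟩
      rcases j with k | k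
      · rw [hB₁, h1, ← hB₁]
        exact Submodule.subset_span ⟨k, rfl⟩
      · rw [hB₁, h2]
        exact Submodule.zero_mem _
    · rw [Submodule.span_le]
      rintro _ ⟨k, rfl⟩
      exact ⟨B₁ (Sum.inl k), by rw [hB₁, h1, ← hB₁]⟩
  have hfr : finrank F (LinearMap.range N) = Fintype.card K := by
    rw [hrange]
    exact finrank_span_eq_card (B₁.linearIndependent.comp _ Sum.inr_injective)
  obtain ⟨κ, a, ha, hspan, hli⟩ :=
    exists_linearIndependent' F (fun j : Fin n => N (Pi.single j 1))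
  have : Finite κ := Finite.of_injective a ha
  let _ : Fintype κ := Fintype.ofFinite κ
  have hspanN : Submodule.span F (Set.range (fun j : Fin n => N (Pi.single j (1 : F)))) =
      LinearMap.range N := by
    rw [LinearMap.range_eq_map, ← (Pi.basisFun F (Fin n)).span_eq, Submodule.map_span]
    congr 1
    ext w
    simp only [Set.mem_range, Set.mem_image]
    constructor
    · rintro ⟨j, rfl⟩
      exact ⟨Pi.single j 1, ⟨j, by rw [Pi.basisFun_apply]⟩, rfl⟩
    · rintro ⟨_, ⟨j, rfl⟩, rfl⟩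
      exact ⟨j, by rw [Pi.basisFun_apply]⟩
  have hκ : Fintype.card κ = Fintype.card K := by
    rw [← hfr, ← hspanN, ← hspan]
    exact (finrank_span_eq_card hli).symm
  obtain ⟨ε⟩ : Nonempty (K ≃ κ) := ⟨(Fintype.equivOfCardEq hκ).symm⟩
  obtain ⟨y, hy⟩ : ∃ y : K → (Fin n → F), y = fun k => Pi.single (a (ε k)) 1 := ⟨_, rfl⟩
  have hyli : LinearIndependent F (fun k => N (y k)) := by
    have := hli.comp ε ε.injective
    rw [hy]
    exact this
  obtain ⟨f, hf⟩ : ∃ f : K ⊕ K → (Fin n → F), f = Sum.elim y (fun k => N (y k)) := ⟨_, rfl⟩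
  have hfli : LinearIndependent F f := by
    rw [Fintype.linearIndependent_iff]
    intro g hg
    rw [Fintype.sum_sum_type] at hg
    simp only [hf, Sum.elim_inl, Sum.elim_inr] at hg
    have hg' := congrArg N hg
    simp only [map_add, map_sum, map_smul, hNNv, smul_zero, Finset.sum_const_zero, add_zero,
      map_zero] at hg'
    have hl := Fintype.linearIndependent_iff.mp hyli (fun k => g (Sum.inl k)) hg'
    have hg2 : ∑ k, g (Sum.inr k) • N (y k) = 0 := by
      rw [← hg]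
      simp [hl]
    have hr := Fintype.linearIndependent_iff.mp hyli (fun k => g (Sum.inr k)) hg2
    rintro (k | k)
    · exact hl k
    · exact hr k
  have hcard : Fintype.card (K ⊕ K) = finrank F (Fin n → F) := by
    rw [Module.finrank_fintype_fun_eq_card, Fintype.card_congr e]
  obtain ⟨Bf, hBf⟩ : ∃ Bf : Basis (K ⊕ K) F (Fin n → F), ∀ j, Bf j = f j :=
    ⟨Basis.mk hfli (hfli.span_eq_top_of_card_eq_finrank' hcard).ge, fun j => by
      rw [Basis.mk_apply]⟩
  obtain ⟨Te₀, hTe₀⟩ : ∃ Te₀ : (Fin n → F) ≃ₗ[F] (Fin n → F),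
      ∀ j, Te₀ (Pi.single (e j) 1) = f j :=
    ⟨E.equiv Bf (Equiv.refl _), fun j => by
      rw [← hE, Basis.equiv_apply, Equiv.refl_apply, hBf]⟩
  have hT₀ : ∀ j, (Te₀ : (Fin n → F) →ₗ[F] (Fin n → F)) (Pi.single (e j) 1) = f j := hTe₀
  refine ⟨(Te₀ : (Fin n → F) →ₗ[F] (Fin n → F)), (LinearEquiv.isUnit_det' Te₀).ne_zero,
    ?_, ?_, ?_⟩
  · rw [← LinearMap.det_toMatrix']
    apply det_mem
    intro i j
    rw [LinearMap.toMatrix'_apply]
    obtain ⟨s, rfl⟩ := e.surjective j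
    rw [hT₀ s]
    rcases s with k | k
    · rw [hf, Sum.elim_inl, hy]
      show (Pi.single (a (ε k)) (1 : F) : Fin n → F) i ∈ F₀
      rw [Pi.single_apply]
      split_ifs
      · exact one_mem _
      · exact zero_mem _
    · rw [hf, Sum.elim_inr, hy, hN, Matrix.toLin'_apply, Matrix.mulVec_single_one]
      exact hN₁ i _
  · intro k
    rw [hT₀, hT₀, hf]
    rfl
  · intro k
    rw [hT₀, hf]
    exact hNNv _

end Cfsg.Agent.Lib.Helper37.PairDet
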