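import Mathlib
import Cfsg.Prelude.Def_GeometricClasses

/-!
# Explicit Pauli group `4 ∘ 2^{1+4}` in `GL_4(F)` and some elements of its normalizer

All matrix identities are checked over the Gaussian integers by `decide` and transported to a
field `F` containing a square root `i` of `-1`.
-/

set_option autoImplicit false
set_option linter.unusedSimpArgs false

open scoped MatrixGroups

namespace Cfsg.Agent.Lib.Helper37.Pauli4C

/-- The Gaussian integers. -/
abbrev GI := Zsqrtd (-1)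

/-- The Gaussian integer `i`. -/
def gi : GI := ⟨0, 1⟩

section defs

variable (K : Type*) [CommRing K]

def Z1 : Matrix (Fin 4) (Fin 4) K := !![1,0,0,0; 0,1,0,0; 0,0,-1,0; 0,0,0,-1]
def Z2 : Matrix (Fin 4) (Fin 4) K := !![1,0,0,0; 0,-1,0,0; 0,0,1,0; 0,0,0,-1]
def X1 : Matrix (Fin 4) (Fin 4) K := !![0,0,1,0; 0,0,0,1; 1,0,0,0; 0,1,0,0]
def X2 : Matrix (Fin 4) (Fin 4) K := !![0,1,0,0; 1,0,0,0; 0,0,0,1; 0,0,1,0]
def CZ : Matrix (Fin 4) (Fin 4) K := !![1,0,0,0; 0,1,0,0; 0,0,1,0; 0,0,0,-1]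
def P3 : Matrix (Fin 4) (Fin 4) K := !![1,0,0,0; 0,0,1,0; 0,0,0,1; 0,1,0,0]
def P3i : Matrix (Fin 4) (Fin 4) K := !![1,0,0,0; 0,0,0,1; 0,1,0,0; 0,0,1,0]
def U3 (j : K) : Matrix (Fin 4) (Fin 4) K :=
  !![-1-j,0,-1-j,0; 0,-1-j,0,-1-j; 1-j,0,-1+j,0; 0,1-j,0,-1+j]
def M5 (j : K) : Matrix (Fin 4) (Fin 4) K := !![1,0,0,j; 0,j,1,0; 1,0,0,-j; 0,-j,1,0]
def Sc (c : K) : Matrix (Fin 4) (Fin 4) K := !![c,0,0,0; 0,c,0,0; 0,0,c,0; 0,0,0,c]

end defs

section gauss

set_option maxRecDepth 100000 in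
theorem gi_Z1_sq : Z1 GI * Z1 GI = 1 := by decide

set_option maxRecDepth 100000 in
theorem gi_Z2_sq : Z2 GI * Z2 GI = 1 := by decide

set_option maxRecDepth 100000 in
theorem gi_X1_sq : X1 GI * X1 GI = 1 := by decide

set_option maxRecDepth 100000 in
theorem gi_X2_sq : X2 GI * X2 GI = 1 := by decide

set_option maxRecDepth 100000 in
theorem gi_CZ_sq : CZ GI * CZ GI = 1 := by decide

set_option maxRecDepth 100000 in
theorem gi_P3_inv : P3 GI * P3i GI = 1 := by decide

set_option maxRecDepth 100000 in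
theorem gi_P3_sq : P3 GI * P3 GI = P3i GI := by decide

set_option maxRecDepth 100000 in
theorem gi_Sc_inv : Sc GI gi * Sc GI (-gi) = 1 := by decide

set_option maxRecDepth 100000 in
theorem gi_CZ_Z1 : CZ GI * Z1 GI = Z1 GI * CZ GI := by decide

set_option maxRecDepth 100000 in
theorem gi_CZ_X1 : CZ GI * X1 GI = X1 GI * Z2 GI * CZ GI := by decide

set_option maxRecDepth 100000 in
theorem gi_CZ_Z2 : CZ GI * Z2 GI = Z2 GI * CZ GI := by decide

set_option maxRecDepth 100000 in
theorem gi_CZ_X2 : CZ GI * X2 GI = Z1 GI * X2 GI * CZ GI := by decide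

set_option maxRecDepth 100000 in
theorem gi_P3_Z1 : P3 GI * Z1 GI = Z1 GI * Z2 GI * P3 GI := by decide

set_option maxRecDepth 100000 in
theorem gi_P3_X1 : P3 GI * X1 GI = X2 GI * P3 GI := by decide

set_option maxRecDepth 100000 in
theorem gi_P3_Z2 : P3 GI * Z2 GI = Z1 GI * P3 GI := by decide

set_option maxRecDepth 100000 in
theorem gi_P3_X2 : P3 GI * X2 GI = X1 GI * X2 GI * P3 GI := by decide

set_option maxRecDepth 100000 in
theorem gi_U3_Z1 : U3 GI gi * Z1 GI = Sc GI gi * Sc GI gi * Sc GI gi * Z1 GI * X1 GI * U3 GI gi := by decide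

set_option maxRecDepth 100000 in
theorem gi_U3_X1 : U3 GI gi * X1 GI = Z1 GI * U3 GI gi := by decide

set_option maxRecDepth 100000 in
theorem gi_U3_Z2 : U3 GI gi * Z2 GI = Z2 GI * U3 GI gi := by decide

set_option maxRecDepth 100000 in
theorem gi_U3_X2 : U3 GI gi * X2 GI = X2 GI * U3 GI gi := by decide

set_option maxRecDepth 100000 in
theorem gi_U3_cube : U3 GI gi * (U3 GI gi * U3 GI gi) = Sc GI 8 := by decide

set_option maxRecDepth 100000 in
theorem gi_M5_Z1 : M5 GI gi * Z1 GI = X1 GI * Z2 GI * M5 GI gi := by decide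

set_option maxRecDepth 100000 in
theorem gi_M5_X1 : M5 GI gi * X1 GI = X2 GI * M5 GI gi := by decide

set_option maxRecDepth 100000 in
theorem gi_M5_Z2 : M5 GI gi * Z2 GI = X1 GI * M5 GI gi := by decide

set_option maxRecDepth 100000 in
theorem gi_M5_X2 : M5 GI gi * X2 GI = Sc GI gi * Z1 GI * X1 GI * X2 GI * M5 GI gi := by decide

set_option maxRecDepth 100000 in
theorem gi_M5_pow : M5 GI gi * (M5 GI gi * M5 GI gi * M5 GI gi * M5 GI gi) = Sc GI (4 + 4 * gi) := by decide

set_option maxRecDepth 100000 in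
theorem gi_Z1_Z2 : Z1 GI * Z2 GI = Z2 GI * Z1 GI := by decide

set_option maxRecDepth 100000 in
theorem gi_X1_X2 : X1 GI * X2 GI = X2 GI * X1 GI := by decide

set_option maxRecDepth 100000 in
theorem gi_Z1_X2 : Z1 GI * X2 GI = X2 GI * Z1 GI := by decide

set_option maxRecDepth 100000 in
theorem gi_Z2_X1 : Z2 GI * X1 GI = X1 GI * Z2 GI := by decide

end gauss

section field

variable {F : Type*} [Field F]

/-- The ring homomorphism from the Gaussian integers determined by a square root of `-1`. -/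
def hom (i : F) (hi : i * i = -1) : GI →+* F := Zsqrtd.lift ⟨i, by rw [hi]; simp⟩

theorem hom_gi (i : F) (hi : i * i = -1) : hom i hi gi = i := by
  simp [hom, gi]

theorem map_Z1 (i : F) (hi : i * i = -1) : (Z1 GI).map (hom i hi) = Z1 F := by
  ext a b
  fin_cases a <;> fin_cases b <;> simp [Z1]

theorem map_Z2 (i : F) (hi : i * i = -1) : (Z2 GI).map (hom i hi) = Z2 F := by
  ext a b
  fin_cases a <;> fin_cases b <;> simp [Z2]

theorem map_X1 (i : F) (hi : i * i = -1) : (X1 GI).map (hom i hi) = X1 F := by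
  ext a b
  fin_cases a <;> fin_cases b <;> simp [X1]

theorem map_X2 (i : F) (hi : i * i = -1) : (X2 GI).map (hom i hi) = X2 F := by
  ext a b
  fin_cases a <;> fin_cases b <;> simp [X2]

theorem map_CZ (i : F) (hi : i * i = -1) : (CZ GI).map (hom i hi) = CZ F := by
  ext a b
  fin_cases a <;> fin_cases b <;> simp [CZ]

theorem map_P3 (i : F) (hi : i * i = -1) : (P3 GI).map (hom i hi) = P3 F := by
  ext a b
  fin_cases a <;> fin_cases b <;> simp [P3]

theorem map_P3i (i : F) (hi : i * i = -1) : (P3i GI).map (hom i hi) = P3i F := by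
  ext a b
  fin_cases a <;> fin_cases b <;> simp [P3i]

theorem map_U3 (i : F) (hi : i * i = -1) : (U3 GI gi).map (hom i hi) = U3 F i := by
  ext a b
  fin_cases a <;> fin_cases b <;> simp [U3, hom_gi]

theorem map_M5 (i : F) (hi : i * i = -1) : (M5 GI gi).map (hom i hi) = M5 F i := by
  ext a b
  fin_cases a <;> fin_cases b <;> simp [M5, hom_gi]

theorem map_Sc (i : F) (hi : i * i = -1) (c : GI) :
    (Sc GI c).map (hom i hi) = Sc F (hom i hi c) := by
  ext a b
  fin_cases a <;> fin_cases b <;> simp [Sc]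

theorem map_one' (i : F) (hi : i * i = -1) :
    (1 : Matrix (Fin 4) (Fin 4) GI).map (hom i hi) = 1 := by
  simp

theorem Sc_eq (c : F) : Sc F c = c • (1 : Matrix (Fin 4) (Fin 4) F) := by
  ext a b
  fin_cases a <;> fin_cases b <;> simp [Sc]

theorem Z1_sq (i : F) (hi : i * i = -1) : Z1 F * Z1 F = 1 := by
  have h := congrArg (fun M => M.map (hom i hi)) gi_Z1_sq
  simp only [Matrix.map_mul, map_Z1, map_Z2, map_X1, map_X2, map_CZ, map_P3, map_P3i, map_U3,
    map_M5, map_Sc, map_one', hom_gi, map_neg, map_add, map_mul, map_ofNat] at h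
  exact h

theorem Z2_sq (i : F) (hi : i * i = -1) : Z2 F * Z2 F = 1 := by
  have h := congrArg (fun M => M.map (hom i hi)) gi_Z2_sq
  simp only [Matrix.map_mul, map_Z1, map_Z2, map_X1, map_X2, map_CZ, map_P3, map_P3i, map_U3,
    map_M5, map_Sc, map_one', hom_gi, map_neg, map_add, map_mul, map_ofNat] at h
  exact h

theorem X1_sq (i : F) (hi : i * i = -1) : X1 F * X1 F = 1 := by
  have h := congrArg (fun M => M.map (hom i hi)) gi_X1_sq
  simp only [Matrix.map_mul, map_Z1, map_Z2, map_X1, map_X2, map_CZ, map_P3, map_P3i, map_U3,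
    map_M5, map_Sc, map_one', hom_gi, map_neg, map_add, map_mul, map_ofNat] at h
  exact h

theorem X2_sq (i : F) (hi : i * i = -1) : X2 F * X2 F = 1 := by
  have h := congrArg (fun M => M.map (hom i hi)) gi_X2_sq
  simp only [Matrix.map_mul, map_Z1, map_Z2, map_X1, map_X2, map_CZ, map_P3, map_P3i, map_U3,
    map_M5, map_Sc, map_one', hom_gi, map_neg, map_add, map_mul, map_ofNat] at h
  exact h

theorem CZ_sq (i : F) (hi : i * i = -1) : CZ F * CZ F = 1 := by
  have h := congrArg (fun M => M.map (hom i hi)) gi_CZ_sq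
  simp only [Matrix.map_mul, map_Z1, map_Z2, map_X1, map_X2, map_CZ, map_P3, map_P3i, map_U3,
    map_M5, map_Sc, map_one', hom_gi, map_neg, map_add, map_mul, map_ofNat] at h
  exact h

theorem P3_inv (i : F) (hi : i * i = -1) : P3 F * P3i F = 1 := by
  have h := congrArg (fun M => M.map (hom i hi)) gi_P3_inv
  simp only [Matrix.map_mul, map_Z1, map_Z2, map_X1, map_X2, map_CZ, map_P3, map_P3i, map_U3,
    map_M5, map_Sc, map_one', hom_gi, map_neg, map_add, map_mul, map_ofNat] at h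
  exact h

theorem P3_sq (i : F) (hi : i * i = -1) : P3 F * P3 F = P3i F := by
  have h := congrArg (fun M => M.map (hom i hi)) gi_P3_sq
  simp only [Matrix.map_mul, map_Z1, map_Z2, map_X1, map_X2, map_CZ, map_P3, map_P3i, map_U3,
    map_M5, map_Sc, map_one', hom_gi, map_neg, map_add, map_mul, map_ofNat] at h
  exact h

theorem Sc_inv (i : F) (hi : i * i = -1) : Sc F i * Sc F (-i) = 1 := by
  have h := congrArg (fun M => M.map (hom i hi)) gi_Sc_inv
  simp only [Matrix.map_mul, map_Z1, map_Z2, map_X1, map_X2, map_CZ, map_P3, map_P3i, map_U3,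
    map_M5, map_Sc, map_one', hom_gi, map_neg, map_add, map_mul, map_ofNat] at h
  exact h

theorem CZ_Z1 (i : F) (hi : i * i = -1) : CZ F * Z1 F = Z1 F * CZ F := by
  have h := congrArg (fun M => M.map (hom i hi)) gi_CZ_Z1
  simp only [Matrix.map_mul, map_Z1, map_Z2, map_X1, map_X2, map_CZ, map_P3, map_P3i, map_U3,
    map_M5, map_Sc, map_one', hom_gi, map_neg, map_add, map_mul, map_ofNat] at h
  exact h

theorem CZ_X1 (i : F) (hi : i * i = -1) : CZ F * X1 F = X1 F * Z2 F * CZ F := by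
  have h := congrArg (fun M => M.map (hom i hi)) gi_CZ_X1
  simp only [Matrix.map_mul, map_Z1, map_Z2, map_X1, map_X2, map_CZ, map_P3, map_P3i, map_U3,
    map_M5, map_Sc, map_one', hom_gi, map_neg, map_add, map_mul, map_ofNat] at h
  exact h

theorem CZ_Z2 (i : F) (hi : i * i = -1) : CZ F * Z2 F = Z2 F * CZ F := by
  have h := congrArg (fun M => M.map (hom i hi)) gi_CZ_Z2
  simp only [Matrix.map_mul, map_Z1, map_Z2, map_X1, map_X2, map_CZ, map_P3, map_P3i, map_U3,
    map_M5, map_Sc, map_one', hom_gi, map_neg, map_add, map_mul, map_ofNat] at h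
  exact h

theorem CZ_X2 (i : F) (hi : i * i = -1) : CZ F * X2 F = Z1 F * X2 F * CZ F := by
  have h := congrArg (fun M => M.map (hom i hi)) gi_CZ_X2
  simp only [Matrix.map_mul, map_Z1, map_Z2, map_X1, map_X2, map_CZ, map_P3, map_P3i, map_U3,
    map_M5, map_Sc, map_one', hom_gi, map_neg, map_add, map_mul, map_ofNat] at h
  exact h

theorem P3_Z1 (i : F) (hi : i * i = -1) : P3 F * Z1 F = Z1 F * Z2 F * P3 F := by
  have h := congrArg (fun M => M.map (hom i hi)) gi_P3_Z1
  simp only [Matrix.map_mul, map_Z1, map_Z2, map_X1, map_X2, map_CZ, map_P3, map_P3i, map_U3,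
    map_M5, map_Sc, map_one', hom_gi, map_neg, map_add, map_mul, map_ofNat] at h
  exact h

theorem P3_X1 (i : F) (hi : i * i = -1) : P3 F * X1 F = X2 F * P3 F := by
  have h := congrArg (fun M => M.map (hom i hi)) gi_P3_X1
  simp only [Matrix.map_mul, map_Z1, map_Z2, map_X1, map_X2, map_CZ, map_P3, map_P3i, map_U3,
    map_M5, map_Sc, map_one', hom_gi, map_neg, map_add, map_mul, map_ofNat] at h
  exact h

theorem P3_Z2 (i : F) (hi : i * i = -1) : P3 F * Z2 F = Z1 F * P3 F := by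
  have h := congrArg (fun M => M.map (hom i hi)) gi_P3_Z2
  simp only [Matrix.map_mul, map_Z1, map_Z2, map_X1, map_X2, map_CZ, map_P3, map_P3i, map_U3,
    map_M5, map_Sc, map_one', hom_gi, map_neg, map_add, map_mul, map_ofNat] at h
  exact h

theorem P3_X2 (i : F) (hi : i * i = -1) : P3 F * X2 F = X1 F * X2 F * P3 F := by
  have h := congrArg (fun M => M.map (hom i hi)) gi_P3_X2
  simp only [Matrix.map_mul, map_Z1, map_Z2, map_X1, map_X2, map_CZ, map_P3, map_P3i, map_U3,
    map_M5, map_Sc, map_one', hom_gi, map_neg, map_add, map_mul, map_ofNat] at h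
  exact h

theorem U3_Z1 (i : F) (hi : i * i = -1) : U3 F i * Z1 F = Sc F i * Sc F i * Sc F i * Z1 F * X1 F * U3 F i := by
  have h := congrArg (fun M => M.map (hom i hi)) gi_U3_Z1
  simp only [Matrix.map_mul, map_Z1, map_Z2, map_X1, map_X2, map_CZ, map_P3, map_P3i, map_U3,
    map_M5, map_Sc, map_one', hom_gi, map_neg, map_add, map_mul, map_ofNat] at h
  exact h

theorem U3_X1 (i : F) (hi : i * i = -1) : U3 F i * X1 F = Z1 F * U3 F i := by
  have h := congrArg (fun M => M.map (hom i hi)) gi_U3_X1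
  simp only [Matrix.map_mul, map_Z1, map_Z2, map_X1, map_X2, map_CZ, map_P3, map_P3i, map_U3,
    map_M5, map_Sc, map_one', hom_gi, map_neg, map_add, map_mul, map_ofNat] at h
  exact h

theorem U3_Z2 (i : F) (hi : i * i = -1) : U3 F i * Z2 F = Z2 F * U3 F i := by
  have h := congrArg (fun M => M.map (hom i hi)) gi_U3_Z2
  simp only [Matrix.map_mul, map_Z1, map_Z2, map_X1, map_X2, map_CZ, map_P3, map_P3i, map_U3,
    map_M5, map_Sc, map_one', hom_gi, map_neg, map_add, map_mul, map_ofNat] at h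
  exact h

theorem U3_X2 (i : F) (hi : i * i = -1) : U3 F i * X2 F = X2 F * U3 F i := by
  have h := congrArg (fun M => M.map (hom i hi)) gi_U3_X2
  simp only [Matrix.map_mul, map_Z1, map_Z2, map_X1, map_X2, map_CZ, map_P3, map_P3i, map_U3,
    map_M5, map_Sc, map_one', hom_gi, map_neg, map_add, map_mul, map_ofNat] at h
  exact h

theorem U3_cube (i : F) (hi : i * i = -1) : U3 F i * (U3 F i * U3 F i) = Sc F 8 := by
  have h := congrArg (fun M => M.map (hom i hi)) gi_U3_cube
  simp only [Matrix.map_mul, map_Z1, map_Z2, map_X1, map_X2, map_CZ, map_P3, map_P3i, map_U3,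
    map_M5, map_Sc, map_one', hom_gi, map_neg, map_add, map_mul, map_ofNat] at h
  exact h

theorem M5_Z1 (i : F) (hi : i * i = -1) : M5 F i * Z1 F = X1 F * Z2 F * M5 F i := by
  have h := congrArg (fun M => M.map (hom i hi)) gi_M5_Z1
  simp only [Matrix.map_mul, map_Z1, map_Z2, map_X1, map_X2, map_CZ, map_P3, map_P3i, map_U3,
    map_M5, map_Sc, map_one', hom_gi, map_neg, map_add, map_mul, map_ofNat] at h
  exact h

theorem M5_X1 (i : F) (hi : i * i = -1) : M5 F i * X1 F = X2 F * M5 F i := by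
  have h := congrArg (fun M => M.map (hom i hi)) gi_M5_X1
  simp only [Matrix.map_mul, map_Z1, map_Z2, map_X1, map_X2, map_CZ, map_P3, map_P3i, map_U3,
    map_M5, map_Sc, map_one', hom_gi, map_neg, map_add, map_mul, map_ofNat] at h
  exact h

theorem M5_Z2 (i : F) (hi : i * i = -1) : M5 F i * Z2 F = X1 F * M5 F i := by
  have h := congrArg (fun M => M.map (hom i hi)) gi_M5_Z2
  simp only [Matrix.map_mul, map_Z1, map_Z2, map_X1, map_X2, map_CZ, map_P3, map_P3i, map_U3,
    map_M5, map_Sc, map_one', hom_gi, map_neg, map_add, map_mul, map_ofNat] at h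
  exact h

theorem M5_X2 (i : F) (hi : i * i = -1) : M5 F i * X2 F = Sc F i * Z1 F * X1 F * X2 F * M5 F i := by
  have h := congrArg (fun M => M.map (hom i hi)) gi_M5_X2
  simp only [Matrix.map_mul, map_Z1, map_Z2, map_X1, map_X2, map_CZ, map_P3, map_P3i, map_U3,
    map_M5, map_Sc, map_one', hom_gi, map_neg, map_add, map_mul, map_ofNat] at h
  exact h

theorem M5_pow (i : F) (hi : i * i = -1) : M5 F i * (M5 F i * M5 F i * M5 F i * M5 F i) = Sc F (4 + 4 * i) := by
  have h := congrArg (fun M => M.map (hom i hi)) gi_M5_pow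
  simp only [Matrix.map_mul, map_Z1, map_Z2, map_X1, map_X2, map_CZ, map_P3, map_P3i, map_U3,
    map_M5, map_Sc, map_one', hom_gi, map_neg, map_add, map_mul, map_ofNat] at h
  exact h

theorem Z1_Z2 (i : F) (hi : i * i = -1) : Z1 F * Z2 F = Z2 F * Z1 F := by
  have h := congrArg (fun M => M.map (hom i hi)) gi_Z1_Z2
  simp only [Matrix.map_mul, map_Z1, map_Z2, map_X1, map_X2, map_CZ, map_P3, map_P3i, map_U3,
    map_M5, map_Sc, map_one', hom_gi, map_neg, map_add, map_mul, map_ofNat] at h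
  exact h

theorem X1_X2 (i : F) (hi : i * i = -1) : X1 F * X2 F = X2 F * X1 F := by
  have h := congrArg (fun M => M.map (hom i hi)) gi_X1_X2
  simp only [Matrix.map_mul, map_Z1, map_Z2, map_X1, map_X2, map_CZ, map_P3, map_P3i, map_U3,
    map_M5, map_Sc, map_one', hom_gi, map_neg, map_add, map_mul, map_ofNat] at h
  exact h

theorem Z1_X2 (i : F) (hi : i * i = -1) : Z1 F * X2 F = X2 F * Z1 F := by
  have h := congrArg (fun M => M.map (hom i hi)) gi_Z1_X2
  simp only [Matrix.map_mul, map_Z1, map_Z2, map_X1, map_X2, map_CZ, map_P3, map_P3i, map_U3,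
    map_M5, map_Sc, map_one', hom_gi, map_neg, map_add, map_mul, map_ofNat] at h
  exact h

theorem Z2_X1 (i : F) (hi : i * i = -1) : Z2 F * X1 F = X1 F * Z2 F := by
  have h := congrArg (fun M => M.map (hom i hi)) gi_Z2_X1
  simp only [Matrix.map_mul, map_Z1, map_Z2, map_X1, map_X2, map_CZ, map_P3, map_P3i, map_U3,
    map_M5, map_Sc, map_one', hom_gi, map_neg, map_add, map_mul, map_ofNat] at h
  exact h

/-- An invertible matrix from a matrix and a right inverse. -/
def gl (A B : Matrix (Fin 4) (Fin 4) F) (h : A * B = 1) : GL (Fin 4) F :=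
  ⟨A, B, h, mul_eq_one_comm.mp h⟩

theorem gl_val (A B : Matrix (Fin 4) (Fin 4) F) (h : A * B = 1) : (gl A B h).val = A := rfl

def Icg (i : F) (hi : i * i = -1) : GL (Fin 4) F := gl (Sc F i) (Sc F (-i)) (Sc_inv i hi)
def Z1g (i : F) (hi : i * i = -1) : GL (Fin 4) F := gl (Z1 F) (Z1 F) (Z1_sq i hi)
def X1g (i : F) (hi : i * i = -1) : GL (Fin 4) F := gl (X1 F) (X1 F) (X1_sq i hi)
def Z2g (i : F) (hi : i * i = -1) : GL (Fin 4) F := gl (Z2 F) (Z2 F) (Z2_sq i hi)
def X2g (i : F) (hi : i * i = -1) : GL (Fin 4) F := gl (X2 F) (X2 F) (X2_sq i hi)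

/-- The standard group `4 ∘ 2^{1+4}`. -/
def R0 (i : F) (hi : i * i = -1) : Subgroup (GL (Fin 4) F) :=
  Subgroup.closure {Icg i hi, Z1g i hi, X1g i hi, Z2g i hi, X2g i hi}

theorem Icg_mem (i : F) (hi : i * i = -1) : Icg i hi ∈ R0 i hi :=
  Subgroup.subset_closure (by simp)

theorem Z1g_mem (i : F) (hi : i * i = -1) : Z1g i hi ∈ R0 i hi :=
  Subgroup.subset_closure (by simp)

theorem X1g_mem (i : F) (hi : i * i = -1) : X1g i hi ∈ R0 i hi :=
  Subgroup.subset_closure (by simp)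

theorem Z2g_mem (i : F) (hi : i * i = -1) : Z2g i hi ∈ R0 i hi :=
  Subgroup.subset_closure (by simp)

theorem X2g_mem (i : F) (hi : i * i = -1) : X2g i hi ∈ R0 i hi :=
  Subgroup.subset_closure (by simp)

/-- An element conjugating the generators of a finite subgroup into it normalizes it. -/
theorem mem_normalizer_closure {G : Type*} [Group G] (S : Set G) [Finite (Subgroup.closure S)]
    (n : G) (h : ∀ s ∈ S, n * s * n⁻¹ ∈ Subgroup.closure S) :
    n ∈ Subgroup.normalizer (Subgroup.closure S : Set G) := by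
  have hle0 : Subgroup.closure S ≤ (Subgroup.closure S).comap (MulAut.conj n).toMonoidHom := by
    rw [Subgroup.closure_le]
    intro x hx
    exact h x hx
  have hcard : Nat.card ((Subgroup.closure S).comap (MulAut.conj n).toMonoidHom) =
      Nat.card (Subgroup.closure S) := by
    rw [Subgroup.comap_equiv_eq_map_symm']
    exact Subgroup.card_map_of_injective (MulEquiv.injective _)
  have hfinK : Finite ↥((Subgroup.closure S).comap (MulAut.conj n).toMonoidHom) :=
    Nat.finite_of_card_ne_zero (by rw [hcard]; exact Nat.card_pos.ne')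
  have heq : Subgroup.closure S = (Subgroup.closure S).comap (MulAut.conj n).toMonoidHom :=
    Subgroup.eq_of_le_of_card_ge hle0 (le_of_eq hcard)
  rw [Subgroup.mem_normalizer_iff]
  intro t
  constructor
  · intro ht
    have h1 : t ∈ (Subgroup.closure S).comap (MulAut.conj n).toMonoidHom := by
      rw [← heq]
      exact ht
    exact h1
  · intro ht
    have h1 : t ∈ (Subgroup.closure S).comap (MulAut.conj n).toMonoidHom := ht
    rw [← heq] at h1
    exact h1

theorem mem_norm_R0 [Finite F] (i : F) (hi : i * i = -1) (n : GL (Fin 4) F)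
    (hz1 : ∃ w ∈ R0 i hi, n.val * Z1 F = w.val * n.val)
    (hx1 : ∃ w ∈ R0 i hi, n.val * X1 F = w.val * n.val)
    (hz2 : ∃ w ∈ R0 i hi, n.val * Z2 F = w.val * n.val)
    (hx2 : ∃ w ∈ R0 i hi, n.val * X2 F = w.val * n.val) :
    n ∈ Cfsg.Geo.subgroupNormalizer (R0 i hi) := by
  refine mem_normalizer_closure (G := GL (Fin 4) F)
    {Icg i hi, Z1g i hi, X1g i hi, Z2g i hi, X2g i hi} n ?_
  intro s hs
  have key : ∀ (t : GL (Fin 4) F) (w : GL (Fin 4) F), w ∈ R0 i hi →
      n.val * t.val = w.val * n.val → n * t * n⁻¹ ∈ R0 i hi := by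
    intro t w hw h
    have h1 : n * t = w * n := Units.ext (by rw [Units.val_mul, Units.val_mul, h])
    rw [h1, mul_inv_cancel_right]
    exact hw
  simp only [Set.mem_insert_iff, Set.mem_singleton_iff] at hs
  rcases hs with rfl | rfl | rfl | rfl | rfl
  · refine key _ (Icg i hi) (Icg_mem i hi) ?_
    show n.val * Sc F i = Sc F i * n.val
    rw [Sc_eq, Matrix.mul_smul, Matrix.smul_mul, Matrix.mul_one, Matrix.one_mul]
  · obtain ⟨w, hw, h⟩ := hz1
    exact key _ w hw h
  · obtain ⟨w, hw, h⟩ := hx1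
    exact key _ w hw h
  · obtain ⟨w, hw, h⟩ := hz2
    exact key _ w hw h
  · obtain ⟨w, hw, h⟩ := hx2
    exact key _ w hw h

theorem smul_rel (c : F) (A B W : Matrix (Fin 4) (Fin 4) F) (h : A * B = W * A) :
    (c • A) * B = W * (c • A) := by
  rw [Matrix.smul_mul, Matrix.mul_smul, h]

/-- The controlled-`Z` gate: an involution of trace `2` in the normalizer. -/
theorem CZ_norm [Finite F] (i : F) (hi : i * i = -1) :
    ∃ n : GL (Fin 4) F, n ∈ Cfsg.Geo.subgroupNormalizer (R0 i hi) ∧ n ^ 2 = 1 ∧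
      Matrix.trace n.val = 2 := by
  refine ⟨gl (CZ F) (CZ F) (CZ_sq i hi), ?_, ?_, ?_⟩
  · apply mem_norm_R0
    · exact ⟨Z1g i hi, Z1g_mem i hi, CZ_Z1 i hi⟩
    · exact ⟨X1g i hi * Z2g i hi, Subgroup.mul_mem _ (X1g_mem i hi) (Z2g_mem i hi),
        CZ_X1 i hi⟩
    · exact ⟨Z2g i hi, Z2g_mem i hi, CZ_Z2 i hi⟩
    · exact ⟨Z1g i hi * X2g i hi, Subgroup.mul_mem _ (Z1g_mem i hi) (X2g_mem i hi),
        CZ_X2 i hi⟩
  · apply Units.ext
    rw [Units.val_pow_eq_pow_val, pow_two]
    exact CZ_sq i hi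
  · rw [gl_val]
    simp [CZ, Matrix.trace, Fin.sum_univ_four]
    norm_num

/-- An involution of trace `0` in the group itself. -/
theorem Z1_norm (i : F) (hi : i * i = -1) :
    ∃ n : GL (Fin 4) F, n ∈ Cfsg.Geo.subgroupNormalizer (R0 i hi) ∧ n ^ 2 = 1 ∧
      Matrix.trace n.val = 0 := by
  refine ⟨Z1g i hi, Subgroup.le_normalizer (Z1g_mem i hi), ?_, ?_⟩
  · apply Units.ext
    rw [Units.val_pow_eq_pow_val, pow_two]
    exact Z1_sq i hi
  · show Matrix.trace (Z1 F) = 0
    simp [Z1, Matrix.trace, Fin.sum_univ_four]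

/-- A permutation matrix of order `3` and trace `1` in the normalizer. -/
theorem P3_norm [Finite F] (i : F) (hi : i * i = -1) :
    ∃ n : GL (Fin 4) F, n ∈ Cfsg.Geo.subgroupNormalizer (R0 i hi) ∧ n ^ 3 = 1 ∧
      Matrix.trace n.val = 1 := by
  refine ⟨gl (P3 F) (P3i F) (P3_inv i hi), ?_, ?_, ?_⟩
  · apply mem_norm_R0
    · exact ⟨Z1g i hi * Z2g i hi, Subgroup.mul_mem _ (Z1g_mem i hi) (Z2g_mem i hi),
        P3_Z1 i hi⟩
    · exact ⟨X2g i hi, X2g_mem i hi, P3_X1 i hi⟩
    · exact ⟨Z1g i hi, Z1g_mem i hi, P3_Z2 i hi⟩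
    · exact ⟨X1g i hi * X2g i hi, Subgroup.mul_mem _ (X1g_mem i hi) (X2g_mem i hi),
        P3_X2 i hi⟩
  · apply Units.ext
    rw [Units.val_pow_eq_pow_val, gl_val, pow_succ, pow_two, P3_sq i hi]
    exact mul_eq_one_comm.mp (P3_inv i hi)
  · rw [gl_val]
    simp [P3, Matrix.trace, Fin.sum_univ_four]

/-- An element of order `3` and trace `-2` in the normalizer. -/
theorem U3_norm [Finite F] (i : F) (hi : i * i = -1) (h2 : (2 : F) ≠ 0) :
    ∃ n : GL (Fin 4) F, n ∈ Cfsg.Geo.subgroupNormalizer (R0 i hi) ∧ n ^ 3 = 1 ∧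
      Matrix.trace n.val = -2 := by
  have h4 : (4 : F) ≠ 0 := by
    intro h
    have h' : (2 : F) * 2 = 0 := by linear_combination h
    rcases mul_eq_zero.mp h' with h'' | h'' <;> exact h2 h''
  have hinv : ((2⁻¹ : F) • U3 F i) * ((4⁻¹ : F) • (U3 F i * U3 F i)) = 1 := by
    rw [Matrix.smul_mul, Matrix.mul_smul, smul_smul, U3_cube i hi, Sc_eq, smul_smul]
    have e : (2⁻¹ * 4⁻¹ * 8 : F) = 1 := by
      field_simp
      norm_num
    rw [e, one_smul]
  refine ⟨gl ((2⁻¹ : F) • U3 F i) ((4⁻¹ : F) • (U3 F i * U3 F i)) hinv, ?_, ?_, ?_⟩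
  · apply mem_norm_R0
    · exact ⟨Icg i hi * Icg i hi * Icg i hi * Z1g i hi * X1g i hi,
        Subgroup.mul_mem _ (Subgroup.mul_mem _ (Subgroup.mul_mem _ (Subgroup.mul_mem _
          (Icg_mem i hi) (Icg_mem i hi)) (Icg_mem i hi)) (Z1g_mem i hi)) (X1g_mem i hi),
        smul_rel _ _ _ _ (U3_Z1 i hi)⟩
    · exact ⟨Z1g i hi, Z1g_mem i hi, smul_rel _ _ _ _ (U3_X1 i hi)⟩
    · exact ⟨Z2g i hi, Z2g_mem i hi, smul_rel _ _ _ _ (U3_Z2 i hi)⟩
    · exact ⟨X2g i hi, X2g_mem i hi, smul_rel _ _ _ _ (U3_X2 i hi)⟩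
  · apply Units.ext
    have hU : U3 F i ^ 3 = Sc F 8 := by
      rw [pow_succ', pow_two]
      exact U3_cube i hi
    rw [Units.val_pow_eq_pow_val, gl_val, smul_pow, hU, Sc_eq, smul_smul]
    have e : ((2⁻¹ : F) ^ 3 * 8 : F) = 1 := by
      field_simp
      norm_num
    rw [e, one_smul]
    rfl
  · rw [gl_val, Matrix.trace_smul]
    simp [U3, Matrix.trace, Fin.sum_univ_four]
    field_simp
    ring

/-- An element of order `5` and trace `-1` in the normalizer. -/
theorem M5_norm [Finite F] (i : F) (hi : i * i = -1) (h2 : (2 : F) ≠ 0) :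
    ∃ n : GL (Fin 4) F, n ∈ Cfsg.Geo.subgroupNormalizer (R0 i hi) ∧ n ^ 5 = 1 ∧
      Matrix.trace n.val = -1 := by
  obtain ⟨e, he⟩ : ∃ e : F, e = (i - 1) / 2 := ⟨_, rfl⟩
  have he2 : e * e = -i / 2 := by
    rw [he]
    field_simp
    linear_combination hi
  have he5 : e ^ 5 * (4 + 4 * i) = 1 := by
    have h1 : e ^ 5 = (e * e) * (e * e) * e := by ring
    rw [h1, he2, he]
    field_simp
    linear_combination (4 * i ^ 2 - 8) * hi
  have hinv : (e • M5 F i) * (e ^ 4 • (M5 F i * M5 F i * M5 F i * M5 F i)) = 1 := by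
    rw [Matrix.smul_mul, Matrix.mul_smul, smul_smul, M5_pow i hi, Sc_eq, smul_smul]
    have e' : e * e ^ 4 * (4 + 4 * i) = 1 := by
      rw [← he5]
      ring
    rw [e', one_smul]
  refine ⟨gl (e • M5 F i) (e ^ 4 • (M5 F i * M5 F i * M5 F i * M5 F i)) hinv, ?_, ?_, ?_⟩
  · apply mem_norm_R0
    · exact ⟨X1g i hi * Z2g i hi, Subgroup.mul_mem _ (X1g_mem i hi) (Z2g_mem i hi),
        smul_rel _ _ _ _ (M5_Z1 i hi)⟩
    · exact ⟨X2g i hi, X2g_mem i hi, smul_rel _ _ _ _ (M5_X1 i hi)⟩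
    · exact ⟨X1g i hi, X1g_mem i hi, smul_rel _ _ _ _ (M5_Z2 i hi)⟩
    · exact ⟨Icg i hi * Z1g i hi * X1g i hi * X2g i hi,
        Subgroup.mul_mem _ (Subgroup.mul_mem _ (Subgroup.mul_mem _
          (Icg_mem i hi) (Z1g_mem i hi)) (X1g_mem i hi)) (X2g_mem i hi),
        smul_rel _ _ _ _ (M5_X2 i hi)⟩
  · apply Units.ext
    have hM : M5 F i ^ 5 = Sc F (4 + 4 * i) := by
      rw [pow_succ' _ 4, pow_succ _ 3, pow_succ _ 2, pow_two]
      exact M5_pow i hi
    rw [Units.val_pow_eq_pow_val, gl_val, smul_pow, hM, Sc_eq, smul_smul, he5, one_smul]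
    rfl
  · rw [gl_val, Matrix.trace_smul]
    simp [M5, Matrix.trace, Fin.sum_univ_four]
    rw [he]
    field_simp
    linear_combination hi

end field

end Cfsg.Agent.Lib.Helper37.Pauli4C
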