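import Mathlib
import Cfsg.Agent.Lib.Helper37.Pauli4A
import Cfsg.Agent.Lib.Helper37.Pauli4C

/-!
# Standard form of the group `4 ∘ 2^{1+4}` in `GL_4(F)`

From the abstract data `PData R i` we construct a change of basis `Q` conjugating `R` onto the
explicit Pauli group `R0 i`.
-/

set_option autoImplicit false
set_option linter.unusedSimpArgs false
set_option linter.unusedTactic false
set_option linter.unreachableTactic false

open scoped MatrixGroups
open scoped Matrix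

namespace Cfsg.Agent.Lib.Helper37.Pauli4B

open Cfsg.Agent.Lib.Helper37.Pauli4A Cfsg.Agent.Lib.Helper37.Pauli4C

variable {F : Type*} [Field F]

/-- A matrix commuting with the four Pauli generators is scalar. -/
theorem scalar_of_comm_pauli (h2 : (2 : F) ≠ 0) (M : Matrix (Fin 4) (Fin 4) F)
    (hz1 : M * Z1 F = Z1 F * M) (hx1 : M * X1 F = X1 F * M)
    (hz2 : M * Z2 F = Z2 F * M) (hx2 : M * X2 F = X2 F * M) :
    ∃ c : F, M = c • (1 : Matrix (Fin 4) (Fin 4) F) := by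
  have kill : ∀ m : F, -m = m → m = 0 := by
    intro m hm
    have h : (2 : F) * m = 0 := by linear_combination (-1 : F) * hm
    exact (mul_eq_zero.mp h).resolve_left h2
  have kill' : ∀ m : F, m = -m → m = 0 := fun m hm => kill m hm.symm
  have e02 := congrFun (congrFun hz1 0) 2
  have e03 := congrFun (congrFun hz1 0) 3
  have e12 := congrFun (congrFun hz1 1) 2
  have e13 := congrFun (congrFun hz1 1) 3
  have e20 := congrFun (congrFun hz1 2) 0
  have e21 := congrFun (congrFun hz1 2) 1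
  have e30 := congrFun (congrFun hz1 3) 0
  have e31 := congrFun (congrFun hz1 3) 1
  have e01 := congrFun (congrFun hz2 0) 1
  have e10 := congrFun (congrFun hz2 1) 0
  have e23 := congrFun (congrFun hz2 2) 3
  have e32 := congrFun (congrFun hz2 3) 2
  have d02 := congrFun (congrFun hx1 0) 2
  have d13 := congrFun (congrFun hx1 1) 3
  have d01 := congrFun (congrFun hx2 0) 1
  simp [Z1, Z2, X1, X2, Matrix.mul_apply, Fin.sum_univ_four] at e02 e03 e12 e13 e20 e21 e30 e31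
  simp [Z1, Z2, X1, X2, Matrix.mul_apply, Fin.sum_univ_four] at e01 e10 e23 e32 d02 d13 d01
  have z02 : M 0 2 = 0 := by first | exact kill _ e02 | exact kill' _ e02
  have z03 : M 0 3 = 0 := by first | exact kill _ e03 | exact kill' _ e03
  have z12 : M 1 2 = 0 := by first | exact kill _ e12 | exact kill' _ e12
  have z13 : M 1 3 = 0 := by first | exact kill _ e13 | exact kill' _ e13
  have z20 : M 2 0 = 0 := by first | exact kill _ e20 | exact kill' _ e20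
  have z21 : M 2 1 = 0 := by first | exact kill _ e21 | exact kill' _ e21
  have z30 : M 3 0 = 0 := by first | exact kill _ e30 | exact kill' _ e30
  have z31 : M 3 1 = 0 := by first | exact kill _ e31 | exact kill' _ e31
  have z01 : M 0 1 = 0 := by first | exact kill _ e01 | exact kill' _ e01
  have z10 : M 1 0 = 0 := by first | exact kill _ e10 | exact kill' _ e10
  have z23 : M 2 3 = 0 := by first | exact kill _ e23 | exact kill' _ e23
  have z32 : M 3 2 = 0 := by first | exact kill _ e32 | exact kill' _ e32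
  refine ⟨M 0 0, ?_⟩
  ext a b
  fin_cases a <;> fin_cases b <;>
    simp [z02, z03, z12, z13, z20, z21, z30, z31, z01, z10, z23, z32, ← d02, ← d13, ← d01]

/-! ### Action of the Pauli generators on the standard basis -/

theorem Z1_single : Z1 F *ᵥ Pi.single 0 1 = Pi.single 0 1 ∧ Z1 F *ᵥ Pi.single 1 1 = Pi.single 1 1 ∧
    Z1 F *ᵥ Pi.single 2 1 = -Pi.single 2 1 ∧ Z1 F *ᵥ Pi.single 3 1 = -Pi.single 3 1 := by
  refine ⟨?_, ?_, ?_, ?_⟩ <;> ext a <;> fin_cases a <;>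
    simp [Z1, Matrix.mulVec, dotProduct, Fin.sum_univ_four, Pi.single_apply]

theorem Z2_single : Z2 F *ᵥ Pi.single 0 1 = Pi.single 0 1 ∧ Z2 F *ᵥ Pi.single 1 1 = -Pi.single 1 1 ∧
    Z2 F *ᵥ Pi.single 2 1 = Pi.single 2 1 ∧ Z2 F *ᵥ Pi.single 3 1 = -Pi.single 3 1 := by
  refine ⟨?_, ?_, ?_, ?_⟩ <;> ext a <;> fin_cases a <;>
    simp [Z2, Matrix.mulVec, dotProduct, Fin.sum_univ_four, Pi.single_apply]

theorem X1_single : X1 F *ᵥ Pi.single 0 1 = Pi.single 2 1 ∧ X1 F *ᵥ Pi.single 1 1 = Pi.single 3 1 ∧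
    X1 F *ᵥ Pi.single 2 1 = Pi.single 0 1 ∧ X1 F *ᵥ Pi.single 3 1 = Pi.single 1 1 := by
  refine ⟨?_, ?_, ?_, ?_⟩ <;> ext a <;> fin_cases a <;>
    simp [X1, Matrix.mulVec, dotProduct, Fin.sum_univ_four, Pi.single_apply]

theorem X2_single : X2 F *ᵥ Pi.single 0 1 = Pi.single 1 1 ∧ X2 F *ᵥ Pi.single 1 1 = Pi.single 0 1 ∧
    X2 F *ᵥ Pi.single 2 1 = Pi.single 3 1 ∧ X2 F *ᵥ Pi.single 3 1 = Pi.single 2 1 := by
  refine ⟨?_, ?_, ?_, ?_⟩ <;> ext a <;> fin_cases a <;>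
    simp [X2, Matrix.mulVec, dotProduct, Fin.sum_univ_four, Pi.single_apply]

theorem Z1_coord (x : Fin 4 → F) : (Z1 F *ᵥ x) 0 = x 0 ∧ (Z1 F *ᵥ x) 1 = x 1 ∧
    (Z1 F *ᵥ x) 2 = -x 2 ∧ (Z1 F *ᵥ x) 3 = -x 3 := by
  refine ⟨?_, ?_, ?_, ?_⟩ <;> simp [Z1, Matrix.mulVec, dotProduct, Fin.sum_univ_four]

theorem Z2_coord (x : Fin 4 → F) : (Z2 F *ᵥ x) 0 = x 0 ∧ (Z2 F *ᵥ x) 1 = -x 1 ∧
    (Z2 F *ᵥ x) 2 = x 2 ∧ (Z2 F *ᵥ x) 3 = -x 3 := by
  refine ⟨?_, ?_, ?_, ?_⟩ <;> simp [Z2, Matrix.mulVec, dotProduct, Fin.sum_univ_four]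

/-! ### Frames -/

/-- Two commuting pairs of anticommuting involutions. -/
structure Frame (g1 h1 g2 h2 : Matrix (Fin 4) (Fin 4) F) : Prop where
  g1sq : g1 * g1 = 1
  h1sq : h1 * h1 = 1
  g2sq : g2 * g2 = 1
  h2sq : h2 * h2 = 1
  a1 : g1 * h1 = -(h1 * g1)
  a2 : g2 * h2 = -(h2 * g2)
  c_g1g2 : g1 * g2 = g2 * g1
  c_g1h2 : g1 * h2 = h2 * g1
  c_h1g2 : h1 * g2 = g2 * h1
  c_h1h2 : h1 * h2 = h2 * h1

theorem swap_mul (A B C : Matrix (Fin 4) (Fin 4) F) (h : A * B = B * A) :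
    A * (B * C) = B * (A * C) := by
  rw [← Matrix.mul_assoc, h, Matrix.mul_assoc]

theorem aswap_mul (A B C : Matrix (Fin 4) (Fin 4) F) (h : A * B = -(B * A)) :
    A * (B * C) = -(B * (A * C)) := by
  rw [← Matrix.mul_assoc, h, Matrix.neg_mul, Matrix.mul_assoc]

theorem sq_mul (A C : Matrix (Fin 4) (Fin 4) F) (h : A * A = 1) : A * (A * C) = C := by
  rw [← Matrix.mul_assoc, h, Matrix.one_mul]

theorem trace_zero_of_anti (h2 : (2 : F) ≠ 0) (X h : Matrix (Fin 4) (Fin 4) F) (hh : h * h = 1)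
    (hX : X * h = -(h * X)) : Matrix.trace X = 0 := by
  have h1 : X = -(h * X * h) := by
    calc X = X * (h * h) := by rw [hh, Matrix.mul_one]
      _ = (X * h) * h := by rw [Matrix.mul_assoc]
      _ = -(h * X * h) := by rw [hX, Matrix.neg_mul]
  have h3 : Matrix.trace X = - Matrix.trace X := by
    conv_lhs => rw [h1]
    rw [Matrix.trace_neg, Matrix.trace_mul_cycle, hh, Matrix.one_mul]
  have h5 : (2 : F) * Matrix.trace X = 0 := by linear_combination h3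
  exact (mul_eq_zero.mp h5).resolve_left h2

theorem mulVec_ne_zero_of_sq (A : Matrix (Fin 4) (Fin 4) F) (hA : A * A = 1) (u : Fin 4 → F)
    (hu : u ≠ 0) : A *ᵥ u ≠ 0 := by
  intro h
  apply hu
  have h1 : A *ᵥ (A *ᵥ u) = u := by
    rw [Matrix.mulVec_mulVec, hA, Matrix.one_mulVec]
  rw [h, Matrix.mulVec_zero] at h1
  exact h1.symm

/-- A frame is carried to the standard Pauli generators by a change of basis. -/
theorem exists_Q (h2 : (2 : F) ≠ 0) {g1 h1 g2 h2' : Matrix (Fin 4) (Fin 4) F}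
    (H : Frame g1 h1 g2 h2') :
    ∃ Q : GL (Fin 4) F, g1 * Q.val = Q.val * Z1 F ∧ h1 * Q.val = Q.val * X1 F ∧
      g2 * Q.val = Q.val * Z2 F ∧ h2' * Q.val = Q.val * X2 F := by
  classical
  have h4 : (4 : F) ≠ 0 := by
    intro h
    have h' : (2 : F) * 2 = 0 := by linear_combination h
    rcases mul_eq_zero.mp h' with h'' | h'' <;> exact h2 h''
  obtain ⟨E, hE⟩ : ∃ E : Matrix (Fin 4) (Fin 4) F, E = (1 + g1) * (1 + g2) := ⟨_, rfl⟩
  have hg1E : g1 * E = E := by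
    have a1' : g1 * (1 + g1) = 1 + g1 := by
      rw [Matrix.mul_add, Matrix.mul_one, H.g1sq, add_comm]
    rw [hE, ← Matrix.mul_assoc, a1']
  have hg2E : g2 * E = E := by
    have e1 : g2 * (1 + g1) = (1 + g1) * g2 := by
      rw [Matrix.mul_add, Matrix.add_mul, Matrix.mul_one, Matrix.one_mul, H.c_g1g2]
    have a2' : g2 * (1 + g2) = 1 + g2 := by
      rw [Matrix.mul_add, Matrix.mul_one, H.g2sq, add_comm]
    rw [hE, ← Matrix.mul_assoc, e1, Matrix.mul_assoc, a2']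
  have htr : Matrix.trace E = 4 := by
    have t1 : Matrix.trace g1 = 0 := trace_zero_of_anti h2 g1 h1 H.h1sq H.a1
    have t2 : Matrix.trace g2 = 0 := trace_zero_of_anti h2 g2 h2' H.h2sq H.a2
    have t3 : Matrix.trace (g1 * g2) = 0 := by
      apply trace_zero_of_anti h2 (g1 * g2) h1 H.h1sq
      rw [Matrix.mul_assoc, ← H.c_h1g2, ← Matrix.mul_assoc, H.a1, Matrix.neg_mul,
        Matrix.mul_assoc]
    have e : E = 1 + g1 + g2 + g1 * g2 := by
      rw [hE, Matrix.add_mul, Matrix.mul_add, Matrix.mul_add, Matrix.one_mul, Matrix.one_mul,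
        Matrix.mul_one]
      abel
    rw [e, Matrix.trace_add, Matrix.trace_add, Matrix.trace_add, t1, t2, t3, Matrix.trace_one,
      Fintype.card_fin]
    norm_num
  have hE0 : E ≠ 0 := by
    intro h
    rw [h, Matrix.trace_zero] at htr
    exact h4 htr.symm
  obtain ⟨a₀, k, hak⟩ : ∃ a₀ k, E a₀ k ≠ 0 := by
    by_contra hall
    push Not at hall
    apply hE0
    ext a b
    exact hall a b
  obtain ⟨w, hw⟩ : ∃ w : Fin 4 → F, w = Pi.single k 1 := ⟨_, rfl⟩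
  have hv0 : E *ᵥ w ≠ 0 := by
    intro h
    apply hak
    have h1 := congrFun h a₀
    rw [hw, Matrix.mulVec_single_one] at h1
    exact h1
  obtain ⟨b, hb⟩ : ∃ b : Fin 4 → Fin 4 → F,
      b = ![E *ᵥ w, (h2' * E) *ᵥ w, (h1 * E) *ᵥ w, (h1 * (h2' * E)) *ᵥ w] := ⟨_, rfl⟩
  have hb0 : b 0 = E *ᵥ w := by rw [hb]; rfl
  have hb1 : b 1 = (h2' * E) *ᵥ w := by rw [hb]; rfl
  have hb2 : b 2 = (h1 * E) *ᵥ w := by rw [hb]; rfl
  have hb3 : b 3 = (h1 * (h2' * E)) *ᵥ w := by rw [hb]; rfl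
  obtain ⟨Q₀, hQ₀⟩ : ∃ Q₀ : Matrix (Fin 4) (Fin 4) F, Q₀ = Matrix.of (fun a j => b j a) :=
    ⟨_, rfl⟩
  have hcol : ∀ j, Q₀ *ᵥ Pi.single j 1 = b j := by
    intro j
    rw [Matrix.mulVec_single_one, hQ₀]
    rfl
  -- the action of the frame on the columns
  have act : ∀ (A M : Matrix (Fin 4) (Fin 4) F), A *ᵥ (M *ᵥ w) = (A * M) *ᵥ w := by
    intro A M
    rw [Matrix.mulVec_mulVec]
  have g1b0 : g1 *ᵥ b 0 = b 0 := by rw [hb0, act, hg1E]
  have g1b1 : g1 *ᵥ b 1 = b 1 := by rw [hb1, act, swap_mul _ _ _ H.c_g1h2, hg1E]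
  have g1b2 : g1 *ᵥ b 2 = -b 2 := by
    rw [hb2, act, aswap_mul _ _ _ H.a1, hg1E, Matrix.neg_mulVec]
  have g1b3 : g1 *ᵥ b 3 = -b 3 := by
    rw [hb3, act, aswap_mul _ _ _ H.a1, swap_mul _ _ _ H.c_g1h2, hg1E, Matrix.neg_mulVec]
  have g2b0 : g2 *ᵥ b 0 = b 0 := by rw [hb0, act, hg2E]
  have g2b1 : g2 *ᵥ b 1 = -b 1 := by
    rw [hb1, act, aswap_mul _ _ _ H.a2, hg2E, Matrix.neg_mulVec]
  have g2b2 : g2 *ᵥ b 2 = b 2 := by rw [hb2, act, swap_mul _ _ _ H.c_h1g2.symm, hg2E]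
  have g2b3 : g2 *ᵥ b 3 = -b 3 := by
    rw [hb3, act, swap_mul _ _ _ H.c_h1g2.symm, aswap_mul _ _ _ H.a2, hg2E, Matrix.mul_neg,
      Matrix.neg_mulVec]
  have h1b0 : h1 *ᵥ b 0 = b 2 := by rw [hb0, hb2, act]
  have h1b1 : h1 *ᵥ b 1 = b 3 := by rw [hb1, hb3, act]
  have h1b2 : h1 *ᵥ b 2 = b 0 := by rw [hb2, hb0, act, sq_mul _ _ H.h1sq]
  have h1b3 : h1 *ᵥ b 3 = b 1 := by rw [hb3, hb1, act, sq_mul _ _ H.h1sq]
  have h2b0 : h2' *ᵥ b 0 = b 1 := by rw [hb0, hb1, act]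
  have h2b1 : h2' *ᵥ b 1 = b 0 := by rw [hb1, hb0, act, sq_mul _ _ H.h2sq]
  have h2b2 : h2' *ᵥ b 2 = b 3 := by rw [hb2, hb3, act, swap_mul _ _ _ H.c_h1h2.symm]
  have h2b3 : h2' *ᵥ b 3 = b 2 := by
    rw [hb3, hb2, act, swap_mul _ _ _ H.c_h1h2.symm, sq_mul _ _ H.h2sq]
  have rel : ∀ (A P : Matrix (Fin 4) (Fin 4) F),
      (∀ j, A *ᵥ b j = Q₀ *ᵥ (P *ᵥ Pi.single j 1)) → A * Q₀ = Q₀ * P := by
    intro A P hj
    apply Matrix.ext_of_mulVec_single
    intro j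
    rw [← Matrix.mulVec_mulVec, hcol, hj j, Matrix.mulVec_mulVec]
  have RZ1 : g1 * Q₀ = Q₀ * Z1 F := by
    apply rel
    obtain ⟨z0, z1, z2, z3⟩ := Z1_single (F := F)
    intro j
    fin_cases j
    · show g1 *ᵥ b 0 = Q₀ *ᵥ (Z1 F *ᵥ Pi.single 0 1)
      rw [z0, hcol, g1b0]
    · show g1 *ᵥ b 1 = Q₀ *ᵥ (Z1 F *ᵥ Pi.single 1 1)
      rw [z1, hcol, g1b1]
    · show g1 *ᵥ b 2 = Q₀ *ᵥ (Z1 F *ᵥ Pi.single 2 1)
      rw [z2, Matrix.mulVec_neg, hcol, g1b2]
    · show g1 *ᵥ b 3 = Q₀ *ᵥ (Z1 F *ᵥ Pi.single 3 1)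
      rw [z3, Matrix.mulVec_neg, hcol, g1b3]
  have RZ2 : g2 * Q₀ = Q₀ * Z2 F := by
    apply rel
    obtain ⟨z0, z1, z2, z3⟩ := Z2_single (F := F)
    intro j
    fin_cases j
    · show g2 *ᵥ b 0 = Q₀ *ᵥ (Z2 F *ᵥ Pi.single 0 1)
      rw [z0, hcol, g2b0]
    · show g2 *ᵥ b 1 = Q₀ *ᵥ (Z2 F *ᵥ Pi.single 1 1)
      rw [z1, Matrix.mulVec_neg, hcol, g2b1]
    · show g2 *ᵥ b 2 = Q₀ *ᵥ (Z2 F *ᵥ Pi.single 2 1)
      rw [z2, hcol, g2b2]
    · show g2 *ᵥ b 3 = Q₀ *ᵥ (Z2 F *ᵥ Pi.single 3 1)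
      rw [z3, Matrix.mulVec_neg, hcol, g2b3]
  have RX1 : h1 * Q₀ = Q₀ * X1 F := by
    apply rel
    obtain ⟨z0, z1, z2, z3⟩ := X1_single (F := F)
    intro j
    fin_cases j
    · show h1 *ᵥ b 0 = Q₀ *ᵥ (X1 F *ᵥ Pi.single 0 1)
      rw [z0, hcol, h1b0]
    · show h1 *ᵥ b 1 = Q₀ *ᵥ (X1 F *ᵥ Pi.single 1 1)
      rw [z1, hcol, h1b1]
    · show h1 *ᵥ b 2 = Q₀ *ᵥ (X1 F *ᵥ Pi.single 2 1)
      rw [z2, hcol, h1b2]
    · show h1 *ᵥ b 3 = Q₀ *ᵥ (X1 F *ᵥ Pi.single 3 1)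
      rw [z3, hcol, h1b3]
  have RX2 : h2' * Q₀ = Q₀ * X2 F := by
    apply rel
    obtain ⟨z0, z1, z2, z3⟩ := X2_single (F := F)
    intro j
    fin_cases j
    · show h2' *ᵥ b 0 = Q₀ *ᵥ (X2 F *ᵥ Pi.single 0 1)
      rw [z0, hcol, h2b0]
    · show h2' *ᵥ b 1 = Q₀ *ᵥ (X2 F *ᵥ Pi.single 1 1)
      rw [z1, hcol, h2b1]
    · show h2' *ᵥ b 2 = Q₀ *ᵥ (X2 F *ᵥ Pi.single 2 1)
      rw [z2, hcol, h2b2]
    · show h2' *ᵥ b 3 = Q₀ *ᵥ (X2 F *ᵥ Pi.single 3 1)
      rw [z3, hcol, h2b3]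
  -- the columns are nonzero
  have nz0 : b 0 ≠ 0 := by rw [hb0]; exact hv0
  have nz1 : b 1 ≠ 0 := by
    rw [← h2b0]
    exact mulVec_ne_zero_of_sq h2' H.h2sq _ nz0
  have nz2 : b 2 ≠ 0 := by
    rw [← h1b0]
    exact mulVec_ne_zero_of_sq h1 H.h1sq _ nz0
  have nz3 : b 3 ≠ 0 := by
    rw [← h1b1]
    exact mulVec_ne_zero_of_sq h1 H.h1sq _ nz1
  have hker : ∀ c : Fin 4 → F, Q₀ *ᵥ c = 0 → c = 0 := by
    intro c hc
    have k1 : Q₀ *ᵥ (Z1 F *ᵥ c) = 0 := by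
      rw [Matrix.mulVec_mulVec, ← RZ1, ← Matrix.mulVec_mulVec, hc, Matrix.mulVec_zero]
    have k2 : Q₀ *ᵥ (Z2 F *ᵥ c) = 0 := by
      rw [Matrix.mulVec_mulVec, ← RZ2, ← Matrix.mulVec_mulVec, hc, Matrix.mulVec_zero]
    have k3 : Q₀ *ᵥ (Z1 F *ᵥ (Z2 F *ᵥ c)) = 0 := by
      rw [Matrix.mulVec_mulVec, ← RZ1, ← Matrix.mulVec_mulVec, k2, Matrix.mulVec_zero]
    have ex : ∀ (x : Fin 4 → F) (a : Fin 4),
        (Q₀ *ᵥ x) a = b 0 a * x 0 + b 1 a * x 1 + b 2 a * x 2 + b 3 a * x 3 := by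
      intro x a
      rw [hQ₀]
      simp [Matrix.mulVec, dotProduct, Fin.sum_univ_four]
    obtain ⟨p0, p1, p2, p3⟩ := Z1_coord (Z2 F *ᵥ c)
    obtain ⟨q0, q1, q2, q3⟩ := Z2_coord c
    obtain ⟨r0, r1, r2, r3⟩ := Z1_coord c
    have E0 : ∀ a, b 0 a * c 0 + b 1 a * c 1 + b 2 a * c 2 + b 3 a * c 3 = 0 := by
      intro a
      rw [← ex, hc]
      rfl
    have E1 : ∀ a, b 0 a * c 0 + b 1 a * c 1 + b 2 a * (-c 2) + b 3 a * (-c 3) = 0 := by
      intro a
      rw [← r0, ← r1, ← r2, ← r3, ← ex, k1]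
      rfl
    have E2 : ∀ a, b 0 a * c 0 + b 1 a * (-c 1) + b 2 a * c 2 + b 3 a * (-c 3) = 0 := by
      intro a
      rw [← q0, ← q1, ← q2, ← q3, ← ex, k2]
      rfl
    have E3 : ∀ a, b 0 a * c 0 + b 1 a * (-c 1) + b 2 a * (-c 2) + b 3 a * c 3 = 0 := by
      intro a
      have h5 := ex (Z1 F *ᵥ (Z2 F *ᵥ c)) a
      rw [k3, p0, p1, p2, p3, q0, q1, q2, q3] at h5
      rw [neg_neg] at h5
      exact h5.symm
    have fin : ∀ (j : Fin 4), b j ≠ 0 → (∀ a, (4 : F) * (b j a * c j) = 0) → c j = 0 := by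
      intro j hbj hall
      by_contra hcj
      apply hbj
      funext a
      have h5 := hall a
      rcases mul_eq_zero.mp h5 with h6 | h6
      · exact absurd h6 h4
      · rcases mul_eq_zero.mp h6 with h7 | h7
        · exact h7
        · exact absurd h7 hcj
    have c0 : c 0 = 0 := fin 0 nz0 (fun a => by
      linear_combination E0 a + E1 a + E2 a + E3 a)
    have c1 : c 1 = 0 := fin 1 nz1 (fun a => by
      linear_combination E0 a + E1 a - E2 a - E3 a)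
    have c2 : c 2 = 0 := fin 2 nz2 (fun a => by
      linear_combination E0 a - E1 a + E2 a - E3 a)
    have c3 : c 3 = 0 := fin 3 nz3 (fun a => by
      linear_combination E0 a - E1 a - E2 a + E3 a)
    funext j
    fin_cases j
    · exact c0
    · exact c1
    · exact c2
    · exact c3
  have hinj : Function.Injective Q₀.mulVec := by
    intro x y hxy
    have h5 := hker (x - y) (by rw [Matrix.mulVec_sub, hxy, sub_self])
    exact sub_eq_zero.mp h5
  obtain ⟨Q, hQ⟩ := Matrix.mulVec_injective_iff_isUnit.mp hinj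
  refine ⟨Q, ?_, ?_, ?_, ?_⟩
  · rw [hQ]
    exact RZ1
  · rw [hQ]
    exact RX1
  · rw [hQ]
    exact RZ2
  · rw [hQ]
    exact RX2

/-! ### Choosing a frame inside the group -/

section frame

variable {R : Subgroup (GL (Fin 4) F)} {i : F}

theorem Icg_mem_R (P : PData R i) : Icg i P.sq ∈ R := P.scal_mem _ (Sc_eq i)

theorem invol_adjust (P : PData R i) (x : GL (Fin 4) F) (hx : x ∈ R) :
    ∃ x' ∈ R, x'.val * x'.val = 1 ∧ ∃ u : F, u ≠ 0 ∧ x'.val = u • x.val := by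
  rcases P.sqr x hx with h | h
  · exact ⟨x, hx, h, 1, one_ne_zero, (one_smul _ _).symm⟩
  · have hi0 : i ≠ 0 := by
      rintro rfl
      have h1 := P.sq
      simp at h1
    have e : (Icg i P.sq * x).val = i • x.val := by
      rw [Units.val_mul]
      show Sc F i * x.val = i • x.val
      rw [Sc_eq, Matrix.smul_mul, Matrix.one_mul]
    refine ⟨Icg i P.sq * x, R.mul_mem (Icg_mem_R P) hx, ?_, i, hi0, e⟩
    rw [e, Matrix.smul_mul, Matrix.mul_smul, smul_smul, h, P.sq]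
    simp

theorem nonscalar_smul {u : F} (hu : u ≠ 0) (x x' : Matrix (Fin 4) (Fin 4) F) (h : x' = u • x)
    (hns : ∀ c : F, x ≠ c • (1 : Matrix (Fin 4) (Fin 4) F)) :
    ∀ c : F, x' ≠ c • (1 : Matrix (Fin 4) (Fin 4) F) := by
  intro c hc
  apply hns (u⁻¹ * c)
  rw [h] at hc
  calc x = u⁻¹ • (u • x) := by rw [smul_smul, inv_mul_cancel₀ hu, one_smul]
    _ = (u⁻¹ * c) • (1 : Matrix (Fin 4) (Fin 4) F) := by rw [hc, smul_smul]

theorem exists_nonscalar (P : PData R i) :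
    ∃ x ∈ R, ∀ c : F, x.val ≠ c • (1 : Matrix (Fin 4) (Fin 4) F) := by
  by_contra hall
  push Not at hall
  have htop : Subgroup.center R = ⊤ := by
    rw [eq_top_iff]
    intro z _
    rw [Subgroup.mem_center_iff]
    intro g
    obtain ⟨c, hc⟩ := hall z z.2
    apply Subtype.ext
    apply Units.ext
    rw [Subgroup.coe_mul, Subgroup.coe_mul, Units.val_mul, Units.val_mul, hc, Matrix.smul_mul,
      Matrix.mul_smul, Matrix.one_mul, Matrix.mul_one]
  have h1 := P.center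
  rw [htop, Subgroup.card_top, P.card] at h1
  norm_num at h1

theorem exists_noncomm (P : PData R i) (x : GL (Fin 4) F) (hx : x ∈ R)
    (hns : ∀ c : F, x.val ≠ c • (1 : Matrix (Fin 4) (Fin 4) F)) :
    ∃ y ∈ R, x.val * y.val = -(y.val * x.val) := by
  have h1 : ∃ y ∈ R, x.val * y.val ≠ y.val * x.val := by
    by_contra hall
    push Not at hall
    obtain ⟨c, hc⟩ := P.commutant x.val (fun y hy => hall y hy)
    exact hns c hc
  obtain ⟨y, hy, hxy⟩ := h1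
  exact ⟨y, hy, (P.comm x hx y hy).resolve_left hxy⟩

theorem adjust (P : PData R i) (x a b : GL (Fin 4) F) (hx : x ∈ R) (ha : a ∈ R) (hb : b ∈ R)
    (hab : a.val * b.val = -(b.val * a.val)) :
    ∃ e ∈ R, (e = 1 ∨ e = b) ∧ (x * e).val * a.val = a.val * (x * e).val := by
  rcases P.comm x hx a ha with h | h
  · exact ⟨1, R.one_mem, Or.inl rfl, by rw [mul_one]; exact h⟩
  · refine ⟨b, hb, Or.inr rfl, ?_⟩
    have hba : b.val * a.val = -(a.val * b.val) := by rw [hab, neg_neg]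
    rw [Units.val_mul, Matrix.mul_assoc, hba, Matrix.mul_neg, ← Matrix.mul_assoc, h,
      Matrix.neg_mul, neg_neg, Matrix.mul_assoc]

theorem comm_of_same (P : PData R i) (a s x0 : GL (Fin 4) F) (ha : a ∈ R) (hs : s ∈ R)
    (hx0 : x0 ∈ R)
    (hiff : (s.val * a.val = a.val * s.val) ↔ (x0.val * a.val = a.val * x0.val)) :
    (x0⁻¹ * s).val * a.val = a.val * (x0⁻¹ * s).val := by
  rw [Units.val_mul]
  by_cases h : x0.val * a.val = a.val * x0.val
  · have hs' := hiff.mpr h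
    have hi' : (x0⁻¹).val * a.val = a.val * (x0⁻¹).val := by
      calc (x0⁻¹).val * a.val = (x0⁻¹).val * a.val * (x0.val * (x0⁻¹).val) := by
            rw [Units.mul_inv, Matrix.mul_one]
        _ = (x0⁻¹).val * (a.val * x0.val) * (x0⁻¹).val := by simp only [Matrix.mul_assoc]
        _ = (x0⁻¹).val * (x0.val * a.val) * (x0⁻¹).val := by rw [h]
        _ = ((x0⁻¹).val * x0.val) * a.val * (x0⁻¹).val := by simp only [Matrix.mul_assoc]
        _ = a.val * (x0⁻¹).val := by rw [Units.inv_mul, Matrix.one_mul]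
    rw [Matrix.mul_assoc, hs', ← Matrix.mul_assoc, hi', Matrix.mul_assoc]
  · have hs' : s.val * a.val = -(a.val * s.val) :=
      (P.comm s hs a ha).resolve_left (fun h' => h (hiff.mp h'))
    have hx' : x0.val * a.val = -(a.val * x0.val) := (P.comm x0 hx0 a ha).resolve_left h
    have hi' : (x0⁻¹).val * a.val = -(a.val * (x0⁻¹).val) := by
      calc (x0⁻¹).val * a.val = (x0⁻¹).val * a.val * (x0.val * (x0⁻¹).val) := by
            rw [Units.mul_inv, Matrix.mul_one]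
        _ = (x0⁻¹).val * (a.val * x0.val) * (x0⁻¹).val := by simp only [Matrix.mul_assoc]
        _ = (x0⁻¹).val * (-(x0.val * a.val)) * (x0⁻¹).val := by rw [hx', neg_neg]
        _ = -(((x0⁻¹).val * x0.val) * a.val * (x0⁻¹).val) := by
            simp only [Matrix.mul_assoc, Matrix.mul_neg, Matrix.neg_mul]
        _ = -(a.val * (x0⁻¹).val) := by rw [Units.inv_mul, Matrix.one_mul]
    rw [Matrix.mul_assoc, hs', Matrix.mul_neg, ← Matrix.mul_assoc, hi', Matrix.neg_mul, neg_neg,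
      Matrix.mul_assoc]

theorem one_or (e b : GL (Fin 4) F) (he : e = 1 ∨ e = b) (C : Matrix (Fin 4) (Fin 4) F)
    (hb : b.val * C = C * b.val) : e.val * C = C * e.val := by
  rcases he with rfl | rfl
  · simp
  · exact hb

theorem comm_mul (A B C : Matrix (Fin 4) (Fin 4) F) (h1 : A * C = C * A) (h2 : B * C = C * B) :
    (A * B) * C = C * (A * B) := by
  rw [Matrix.mul_assoc, h2, ← Matrix.mul_assoc, h1, Matrix.mul_assoc]

theorem exists_frame (P : PData R i) :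
    ∃ g1 h1 g2 h2 : GL (Fin 4) F, g1 ∈ R ∧ h1 ∈ R ∧ g2 ∈ R ∧ h2 ∈ R ∧
      Frame g1.val h1.val g2.val h2.val := by
  classical
  have hfin := P.finite
  let _ : Fintype ↥R := Fintype.ofFinite _
  obtain ⟨x, hx, hxns⟩ := exists_nonscalar P
  obtain ⟨g1, hg1, hg1sq, u1, hu1, hg1u⟩ := invol_adjust P x hx
  have hg1ns := nonscalar_smul hu1 _ _ hg1u hxns
  obtain ⟨y, hy, hg1y⟩ := exists_noncomm P g1 hg1 hg1ns
  obtain ⟨h1, hh1, hh1sq, v1, hv1, hh1v⟩ := invol_adjust P y hy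
  have ha1 : g1.val * h1.val = -(h1.val * g1.val) := by
    rw [hh1v, Matrix.mul_smul, Matrix.smul_mul, hg1y, smul_neg]
  -- pigeonhole
  obtain ⟨f, hf⟩ : ∃ f : ↥R → Bool × Bool, f = fun t : ↥R =>
      (decide ((t : GL (Fin 4) F).val * g1.val = g1.val * (t : GL (Fin 4) F).val),
       decide ((t : GL (Fin 4) F).val * h1.val = h1.val * (t : GL (Fin 4) F).val)) := ⟨_, rfl⟩
  have hcard : Fintype.card (Bool × Bool) * 4 < Fintype.card ↥R := by
    rw [← Nat.card_eq_fintype_card (α := ↥R), P.card]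
    simp
  obtain ⟨y0, hy0⟩ := Fintype.exists_lt_card_fiber_of_mul_lt_card f hcard
  obtain ⟨S, hS⟩ : ∃ S : Finset ↥R, S = Finset.univ.filter (fun t => f t = y0) := ⟨_, rfl⟩
  rw [← hS] at hy0
  have hSne : S.Nonempty := by
    rw [← Finset.card_pos]
    omega
  obtain ⟨x0, hx0⟩ := hSne
  have hTcard : (S.image (fun t => x0⁻¹ * t)).card = S.card :=
    Finset.card_image_of_injective _ (mul_right_injective x0⁻¹)
  have hZ : (Finset.univ.filter (fun t : ↥R => t ∈ Subgroup.center R)).card = 4 := by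
    rw [← Fintype.card_subtype, ← Nat.card_eq_fintype_card]
    exact P.center
  obtain ⟨t, htT, htZ⟩ : ∃ t ∈ S.image (fun t => x0⁻¹ * t), t ∉ Subgroup.center R := by
    by_contra hall
    push Not at hall
    have hsub : S.image (fun t => x0⁻¹ * t) ⊆
        Finset.univ.filter (fun t : ↥R => t ∈ Subgroup.center R) := by
      intro t ht
      rw [Finset.mem_filter]
      exact ⟨Finset.mem_univ _, hall t ht⟩
    have h5 := Finset.card_le_card hsub
    rw [hTcard, hZ] at h5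
    omega
  rw [Finset.mem_image] at htT
  obtain ⟨s, hsS, rfl⟩ := htT
  have hfs : f s = f x0 := by
    rw [hS, Finset.mem_filter] at hsS hx0
    rw [hsS.2, hx0.2]
  have hiff1 : ((s : GL (Fin 4) F).val * g1.val = g1.val * (s : GL (Fin 4) F).val) ↔
      ((x0 : GL (Fin 4) F).val * g1.val = g1.val * (x0 : GL (Fin 4) F).val) := by
    have h5 := congrArg Prod.fst hfs
    rw [hf] at h5
    simpa using h5
  have hiff2 : ((s : GL (Fin 4) F).val * h1.val = h1.val * (s : GL (Fin 4) F).val) ↔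
      ((x0 : GL (Fin 4) F).val * h1.val = h1.val * (x0 : GL (Fin 4) F).val) := by
    have h5 := congrArg Prod.snd hfs
    rw [hf] at h5
    simpa using h5
  have hc1 := comm_of_same P g1 s x0 hg1 s.2 x0.2 hiff1
  have hc2 := comm_of_same P h1 s x0 hh1 s.2 x0.2 hiff2
  obtain ⟨t0, ht0⟩ : ∃ t0 : GL (Fin 4) F,
      t0 = (x0 : GL (Fin 4) F)⁻¹ * (s : GL (Fin 4) F) := ⟨_, rfl⟩
  have ht0R : t0 ∈ R := by
    rw [ht0]
    exact R.mul_mem (R.inv_mem x0.2) s.2
  rw [← ht0] at hc1 hc2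
  have ht0ns : ∀ c : F, t0.val ≠ c • (1 : Matrix (Fin 4) (Fin 4) F) := by
    intro c hc
    apply htZ
    rw [Subgroup.mem_center_iff]
    intro g
    apply Subtype.ext
    apply Units.ext
    have e : ((x0⁻¹ * s : ↥R) : GL (Fin 4) F) = t0 := by
      rw [ht0]
      rfl
    show ((g : GL (Fin 4) F) * ((x0⁻¹ * s : ↥R) : GL (Fin 4) F)).val =
      (((x0⁻¹ * s : ↥R) : GL (Fin 4) F) * (g : GL (Fin 4) F)).val
    rw [e, Units.val_mul, Units.val_mul, hc, Matrix.smul_mul,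
      Matrix.mul_smul, Matrix.one_mul, Matrix.mul_one]
  obtain ⟨g2, hg2, hg2sq, u2, hu2, hg2u⟩ := invol_adjust P t0 ht0R
  have hg2ns := nonscalar_smul hu2 _ _ hg2u ht0ns
  have hg2g1 : g2.val * g1.val = g1.val * g2.val := by
    rw [hg2u, Matrix.smul_mul, Matrix.mul_smul, hc1]
  have hg2h1 : g2.val * h1.val = h1.val * g2.val := by
    rw [hg2u, Matrix.smul_mul, Matrix.mul_smul, hc2]
  obtain ⟨y2, hy2, hg2y2⟩ := exists_noncomm P g2 hg2 hg2ns
  have ha1' : h1.val * g1.val = -(g1.val * h1.val) := by rw [ha1, neg_neg]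
  obtain ⟨e1, he1R, he1, hd1⟩ := adjust P y2 g1 h1 hy2 hg1 hh1 ha1
  obtain ⟨e2, he2R, he2, hd2⟩ := adjust P (y2 * e1) h1 g1 (R.mul_mem hy2 he1R) hh1 hg1 ha1'
  have he1g2 : e1.val * g2.val = g2.val * e1.val := one_or e1 h1 he1 _ hg2h1.symm
  have he2g2 : e2.val * g2.val = g2.val * e2.val := one_or e2 g1 he2 _ hg2g1.symm
  have he2g1 : e2.val * g1.val = g1.val * e2.val := one_or e2 g1 he2 _ rfl
  obtain ⟨y3, hy3⟩ : ∃ y3 : GL (Fin 4) F, y3 = y2 * e1 * e2 := ⟨_, rfl⟩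
  have hy3R : y3 ∈ R := by
    rw [hy3]
    exact R.mul_mem (R.mul_mem hy2 he1R) he2R
  have hy3g1 : y3.val * g1.val = g1.val * y3.val := by
    rw [hy3, Units.val_mul]
    exact comm_mul _ _ _ hd1 he2g1
  have hy3h1 : y3.val * h1.val = h1.val * y3.val := by
    rw [hy3]
    exact hd2
  have hg2y3 : g2.val * y3.val = -(y3.val * g2.val) := by
    rw [hy3, Units.val_mul, Units.val_mul]
    calc g2.val * (y2.val * e1.val * e2.val)
        = (g2.val * y2.val) * e1.val * e2.val := by simp only [Matrix.mul_assoc]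
      _ = -(y2.val * (g2.val * e1.val) * e2.val) := by
          rw [hg2y2]
          simp only [Matrix.mul_assoc, Matrix.neg_mul]
      _ = -(y2.val * e1.val * (g2.val * e2.val)) := by
          rw [← he1g2]
          simp only [Matrix.mul_assoc]
      _ = -(y2.val * e1.val * e2.val * g2.val) := by
          rw [← he2g2]
          simp only [Matrix.mul_assoc]
  obtain ⟨h2, hh2, hh2sq, v2, hv2, hh2v⟩ := invol_adjust P y3 hy3R
  refine ⟨g1, h1, g2, h2, hg1, hh1, hg2, hh2,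
    ⟨hg1sq, hh1sq, hg2sq, hh2sq, ha1, ?_, hg2g1.symm, ?_, hg2h1.symm, ?_⟩⟩
  · rw [hh2v, Matrix.mul_smul, Matrix.smul_mul, hg2y3, smul_neg]
  · rw [hh2v, Matrix.mul_smul, Matrix.smul_mul, hy3g1]
  · rw [hh2v, Matrix.mul_smul, Matrix.smul_mul, hy3h1]

end frame

/-! ### The standard form -/

section std

variable {R : Subgroup (GL (Fin 4) F)} {i : F}

theorem smul_one_mul (a b : F) :
    (a • (1 : Matrix (Fin 4) (Fin 4) F)) * (b • (1 : Matrix (Fin 4) (Fin 4) F)) =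
      (a * b) • (1 : Matrix (Fin 4) (Fin 4) F) := by
  rw [Matrix.smul_mul, Matrix.mul_smul, Matrix.one_mul, smul_smul]

/-- `R` is conjugate to the explicit Pauli group. -/
theorem exists_std (P : PData R i) :
    ∃ Q : GL (Fin 4) F, ∀ g : GL (Fin 4) F, g ∈ R ↔ Q⁻¹ * g * Q ∈ R0 i P.sq := by
  obtain ⟨g1, h1, g2, h2, hg1, hh1, hg2, hh2, H⟩ := exists_frame P
  obtain ⟨Q, r1, r2, r3, r4⟩ := exists_Q P.two H
  have hi := P.sq
  have conj_eq : ∀ (a b : GL (Fin 4) F), a.val * Q.val = Q.val * b.val → Q⁻¹ * a * Q = b := by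
    intro a b h
    have h1 : a * Q = Q * b := Units.ext (by rw [Units.val_mul, Units.val_mul, h])
    rw [mul_assoc, h1]
    group
  have e1 : Q⁻¹ * g1 * Q = Z1g i hi := conj_eq _ _ r1
  have e2 : Q⁻¹ * h1 * Q = X1g i hi := conj_eq _ _ r2
  have e3 : Q⁻¹ * g2 * Q = Z2g i hi := conj_eq _ _ r3
  have e4 : Q⁻¹ * h2 * Q = X2g i hi := conj_eq _ _ r4
  have hcen : ∀ (s : GL (Fin 4) F) (c : F), s.val = c • (1 : Matrix (Fin 4) (Fin 4) F) →
      Q⁻¹ * s * Q = s := by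
    intro s c hc
    apply conj_eq
    rw [hc, Matrix.smul_mul, Matrix.mul_smul, Matrix.one_mul, Matrix.mul_one]
  have hIv : (Icg i hi).val = i • (1 : Matrix (Fin 4) (Fin 4) F) := Sc_eq i
  obtain ⟨K, hK⟩ : ∃ K : Subgroup (GL (Fin 4) F), ∀ g, g ∈ K ↔ Q⁻¹ * g * Q ∈ R0 i hi :=
    ⟨(R0 i hi).comap (MulAut.conj Q⁻¹).toMonoidHom, fun g => by
      rw [Subgroup.mem_comap]
      simp [MulAut.conj_apply]⟩
  refine ⟨Q, fun g => ?_⟩
  rw [← hK]
  have hg1K : g1 ∈ K := by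
    rw [hK, e1]
    exact Z1g_mem i hi
  have hh1K : h1 ∈ K := by
    rw [hK, e2]
    exact X1g_mem i hi
  have hg2K : g2 ∈ K := by
    rw [hK, e3]
    exact Z2g_mem i hi
  have hh2K : h2 ∈ K := by
    rw [hK, e4]
    exact X2g_mem i hi
  have hIK : Icg i hi ∈ K := by
    rw [hK, hcen _ i hIv]
    exact Icg_mem i hi
  have memK : ∀ (e b : GL (Fin 4) F), (e = 1 ∨ e = b) → b ∈ K → e ∈ K := by
    intro e b he hb
    rcases he with rfl | rfl
    · exact K.one_mem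
    · exact hb
  constructor
  · intro hg
    have ha1' : h1.val * g1.val = -(g1.val * h1.val) := by rw [H.a1, neg_neg]
    have ha2' : h2.val * g2.val = -(g2.val * h2.val) := by rw [H.a2, neg_neg]
    obtain ⟨f1, hf1R, hf1, hd1⟩ := adjust P g g1 h1 hg hg1 hh1 H.a1
    obtain ⟨f2, hf2R, hf2, hd2⟩ := adjust P (g * f1) h1 g1 (R.mul_mem hg hf1R) hh1 hg1 ha1'
    obtain ⟨f3, hf3R, hf3, hd3⟩ := adjust P (g * f1 * f2) g2 h2
      (R.mul_mem (R.mul_mem hg hf1R) hf2R) hg2 hh2 H.a2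
    obtain ⟨f4, hf4R, hf4, hd4⟩ := adjust P (g * f1 * f2 * f3) h2 g2
      (R.mul_mem (R.mul_mem (R.mul_mem hg hf1R) hf2R) hf3R) hh2 hg2 ha2'
    obtain ⟨x4, hx4⟩ : ∃ x4 : GL (Fin 4) F, x4 = g * f1 * f2 * f3 * f4 := ⟨_, rfl⟩
    have hx4R : x4 ∈ R := by
      rw [hx4]
      exact R.mul_mem (R.mul_mem (R.mul_mem (R.mul_mem hg hf1R) hf2R) hf3R) hf4R
    have c1 : x4.val * g1.val = g1.val * x4.val := by
      rw [hx4, Units.val_mul, Units.val_mul (g * f1 * f2), Units.val_mul (g * f1)]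
      exact comm_mul _ _ _ (comm_mul _ _ _ (comm_mul _ _ _ hd1 (one_or f2 g1 hf2 _ rfl))
        (one_or f3 h2 hf3 _ H.c_g1h2.symm)) (one_or f4 g2 hf4 _ H.c_g1g2.symm)
    have c2 : x4.val * h1.val = h1.val * x4.val := by
      rw [hx4, Units.val_mul, Units.val_mul (g * f1 * f2)]
      exact comm_mul _ _ _ (comm_mul _ _ _ hd2 (one_or f3 h2 hf3 _ H.c_h1h2.symm))
        (one_or f4 g2 hf4 _ H.c_h1g2.symm)
    have c3 : x4.val * g2.val = g2.val * x4.val := by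
      rw [hx4, Units.val_mul]
      exact comm_mul _ _ _ hd3 (one_or f4 g2 hf4 _ rfl)
    have c4 : x4.val * h2.val = h2.val * x4.val := by
      rw [hx4]
      exact hd4
    have mrel : ∀ (a b : GL (Fin 4) F), Q⁻¹ * a * Q = b → x4.val * a.val = a.val * x4.val →
        (Q⁻¹ * x4 * Q).val * b.val = b.val * (Q⁻¹ * x4 * Q).val := by
      intro a b hab hc
      have h5 : x4 * a = a * x4 := Units.ext (by rw [Units.val_mul, Units.val_mul, hc])
      have h6 : (Q⁻¹ * x4 * Q) * b = b * (Q⁻¹ * x4 * Q) := by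
        rw [← hab]
        calc Q⁻¹ * x4 * Q * (Q⁻¹ * a * Q) = Q⁻¹ * (x4 * a) * Q := by group
          _ = Q⁻¹ * (a * x4) * Q := by rw [h5]
          _ = Q⁻¹ * a * Q * (Q⁻¹ * x4 * Q) := by group
      have h7 := congrArg Units.val h6
      rw [Units.val_mul, Units.val_mul] at h7
      exact h7
    obtain ⟨c, hc⟩ := scalar_of_comm_pauli P.two (Q⁻¹ * x4 * Q).val
      (mrel g1 _ e1 c1) (mrel h1 _ e2 c2) (mrel g2 _ e3 c3) (mrel h2 _ e4 c4)
    have hx4c : x4.val = c • (1 : Matrix (Fin 4) (Fin 4) F) := by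
      have h5 : x4 = Q * (Q⁻¹ * x4 * Q) * Q⁻¹ := by group
      rw [h5, Units.val_mul, Units.val_mul, hc, Matrix.mul_smul, Matrix.smul_mul, Matrix.mul_one,
        Units.mul_inv]
    have hc4 := P.scal_pow x4 hx4R c hx4c
    have hx4K : x4 ∈ K := by
      have hfac : (c - 1) * (c + 1) * ((c - i) * (c + i)) = 0 := by
        linear_combination hc4 - (c ^ 2 - 1) * hi
      rcases mul_eq_zero.mp hfac with h5 | h5
      · rcases mul_eq_zero.mp h5 with h6 | h6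
        · have h7 : x4 = 1 := by
            apply Units.ext
            rw [hx4c, sub_eq_zero.mp h6, one_smul, Units.val_one]
          rw [h7]
          exact K.one_mem
        · have h7 : x4 = Icg i hi * Icg i hi := by
            apply Units.ext
            rw [hx4c, Units.val_mul, hIv, smul_one_mul, hi, eq_neg_of_add_eq_zero_left h6]
          rw [h7]
          exact K.mul_mem hIK hIK
      · rcases mul_eq_zero.mp h5 with h6 | h6
        · have h7 : x4 = Icg i hi := by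
            apply Units.ext
            rw [hx4c, hIv, sub_eq_zero.mp h6]
          rw [h7]
          exact hIK
        · have h7 : x4 = Icg i hi * Icg i hi * Icg i hi := by
            apply Units.ext
            rw [hx4c, Units.val_mul, Units.val_mul, hIv, smul_one_mul, smul_one_mul, hi,
              eq_neg_of_add_eq_zero_left h6]
            congr 1
            ring
          rw [h7]
          exact K.mul_mem (K.mul_mem hIK hIK) hIK
    rw [hx4] at hx4K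
    have k3 := (Subgroup.mul_mem_cancel_right K (memK f4 g2 hf4 hg2K)).mp hx4K
    have k2 := (Subgroup.mul_mem_cancel_right K (memK f3 h2 hf3 hh2K)).mp k3
    have k1 := (Subgroup.mul_mem_cancel_right K (memK f2 g1 hf2 hg1K)).mp k2
    exact (Subgroup.mul_mem_cancel_right K (memK f1 h1 hf1 hh1K)).mp k1
  · intro hg
    have hle : R0 i hi ≤ R.comap (MulAut.conj Q).toMonoidHom := by
      unfold R0
      rw [Subgroup.closure_le]
      intro s hs
      simp only [Set.mem_insert_iff, Set.mem_singleton_iff] at hs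
      rw [SetLike.mem_coe, Subgroup.mem_comap]
      show Q * s * Q⁻¹ ∈ R
      have back : ∀ (a b : GL (Fin 4) F), Q⁻¹ * a * Q = b → Q * b * Q⁻¹ = a := by
        intro a b hab
        rw [← hab]
        group
      rcases hs with rfl | rfl | rfl | rfl | rfl
      · rw [back _ _ (hcen _ i hIv)]
        exact Icg_mem_R P
      · rw [back _ _ e1]
        exact hg1
      · rw [back _ _ e2]
        exact hh1
      · rw [back _ _ e3]
        exact hg2
      · rw [back _ _ e4]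
        exact hh2
    have h5 := hle ((hK g).mp hg)
    rw [Subgroup.mem_comap] at h5
    have h6 : (MulAut.conj Q).toMonoidHom (Q⁻¹ * g * Q) = g := by
      show Q * (Q⁻¹ * g * Q) * Q⁻¹ = g
      group
    rw [h6] at h5
    exact h5

theorem norm_transport (Q : GL (Fin 4) F) (R R' : Subgroup (GL (Fin 4) F))
    (hQ : ∀ g : GL (Fin 4) F, g ∈ R ↔ Q⁻¹ * g * Q ∈ R') (n : GL (Fin 4) F)
    (hn : n ∈ Cfsg.Geo.subgroupNormalizer R') :
    Q * n * Q⁻¹ ∈ Cfsg.Geo.subgroupNormalizer R := by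
  unfold Cfsg.Geo.subgroupNormalizer at hn ⊢
  rw [Subgroup.mem_normalizer_iff] at hn ⊢
  intro h
  rw [hQ, hQ, hn (Q⁻¹ * h * Q)]
  have h1 : Q⁻¹ * (Q * n * Q⁻¹ * h * (Q * n * Q⁻¹)⁻¹) * Q = n * (Q⁻¹ * h * Q) * n⁻¹ := by group
  rw [h1]

theorem transport_elt (Q : GL (Fin 4) F) (R R' : Subgroup (GL (Fin 4) F))
    (hQ : ∀ g : GL (Fin 4) F, g ∈ R ↔ Q⁻¹ * g * Q ∈ R') (k : ℕ) (τ : F)
    (h : ∃ n : GL (Fin 4) F, n ∈ Cfsg.Geo.subgroupNormalizer R' ∧ n ^ k = 1 ∧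
      Matrix.trace n.val = τ) :
    ∃ n : GL (Fin 4) F, n ∈ Cfsg.Geo.subgroupNormalizer R ∧ n ^ k = 1 ∧
      Matrix.trace n.val = τ := by
  obtain ⟨n, hn, hk, ht⟩ := h
  refine ⟨Q * n * Q⁻¹, norm_transport Q R R' hQ n hn, ?_, ?_⟩
  · rw [conj_pow, hk]
    group
  · rw [Units.val_mul, Units.val_mul, Matrix.trace_units_conj, ht]

/-- The elements of the normalizer needed for the classes of elements of orders `2`, `3`, `5`. -/
theorem exists_norm_elt [Finite F] (P : PData R i) :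
    (∃ n : GL (Fin 4) F, n ∈ Cfsg.Geo.subgroupNormalizer R ∧ n ^ 2 = 1 ∧
      Matrix.trace n.val = 2) ∧
    (∃ n : GL (Fin 4) F, n ∈ Cfsg.Geo.subgroupNormalizer R ∧ n ^ 2 = 1 ∧
      Matrix.trace n.val = 0) ∧
    (∃ n : GL (Fin 4) F, n ∈ Cfsg.Geo.subgroupNormalizer R ∧ n ^ 3 = 1 ∧
      Matrix.trace n.val = 1) ∧
    (∃ n : GL (Fin 4) F, n ∈ Cfsg.Geo.subgroupNormalizer R ∧ n ^ 3 = 1 ∧
      Matrix.trace n.val = -2) ∧
    (∃ n : GL (Fin 4) F, n ∈ Cfsg.Geo.subgroupNormalizer R ∧ n ^ 5 = 1 ∧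
      Matrix.trace n.val = -1) := by
  obtain ⟨Q, hQ⟩ := exists_std P
  exact ⟨transport_elt Q R _ hQ 2 2 (CZ_norm i P.sq),
    transport_elt Q R _ hQ 2 0 (Z1_norm i P.sq),
    transport_elt Q R _ hQ 3 1 (P3_norm i P.sq),
    transport_elt Q R _ hQ 3 (-2) (U3_norm i P.sq P.two),
    transport_elt Q R _ hQ 5 (-1) (M5_norm i P.sq P.two)⟩

end std

end Cfsg.Agent.Lib.Helper37.Pauli4B
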