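import Mathlib
import Cfsg.Agent.Lib.Helper40.SSConj

/-!
# Characteristic polynomials of `4 × 4` matrices of orders `2`, `3`, `5`

If a matrix is killed by a product of two monic irreducible polynomials, its characteristic
polynomial is a product of powers of them, and it is determined by the trace when the
characteristic is large enough.
-/

set_option autoImplicit false

namespace Cfsg.Agent.Lib.Helper37.Pauli4D

open Polynomial

variable {F : Type*} [Field F]

/-- An irreducible factor of the characteristic polynomial divides every annihilating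
polynomial. -/
theorem irred_dvd_of_aeval {n : Type*} [Fintype n] [DecidableEq n] (A : Matrix n n F)
    (g f : F[X]) (hg : aeval A g = 0) (hf : Irreducible f) (hfd : f ∣ A.charpoly) : f ∣ g := by
  have hfd' : f ∣ (Matrix.toLin' A).charpoly := by
    rw [Matrix.charpoly_toLin']
    exact hfd
  obtain ⟨v, hv, hfv⟩ :=
    Cfsg.Agent.Lib.Helper40.SSConj.exists_ker_of_dvd_charpoly (Matrix.toLin' A) f hf hfd'
  rw [← Cfsg.Agent.Lib.Helper40.SSConj.ev_eq_zero_iff (Matrix.toLin' A) v hv f hf hfv g,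
    Cfsg.Agent.Lib.Helper40.SSConj.ev_apply]
  have h1 : aeval (Matrix.toLin' A) g = 0 := by
    have h2 := Polynomial.aeval_algHom_apply
      (Matrix.toLinAlgEquiv' (R := F) (n := n)).toAlgHom A g
    rw [hg, map_zero] at h2
    exact h2
  rw [h1]
  rfl

/-- A monic polynomial all of whose monic irreducible factors are `p₁` or `p₂` is a product of
powers of them. -/
theorem factor_form (p₁ p₂ : F[X]) (hp₁ : p₁.Monic) (hp₂ : p₂.Monic) :
    ∀ (d : ℕ) (χ : F[X]), χ.natDegree = d → χ.Monic →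
      (∀ f : F[X], Irreducible f → f.Monic → f ∣ χ → f = p₁ ∨ f = p₂) →
      ∃ a b : ℕ, χ = p₁ ^ a * p₂ ^ b := by
  intro d
  induction d using Nat.strong_induction_on with
  | _ d ih =>
    intro χ hd hχ hall
    by_cases h1 : χ = 1
    · exact ⟨0, 0, by rw [h1, pow_zero, pow_zero, one_mul]⟩
    · have hnu : ¬ IsUnit χ := fun hu => h1 (hχ.isUnit_iff.mp hu)
      obtain ⟨f, hf, hfd⟩ := WfDvdMonoid.exists_irreducible_factor hnu hχ.ne_zero
      have hf0 : f ≠ 0 := hf.ne_zero
      have hu : IsUnit (C (f.leadingCoeff)⁻¹) := by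
        rw [Polynomial.isUnit_C]
        exact IsUnit.mk0 _ (inv_ne_zero (leadingCoeff_ne_zero.mpr hf0))
      have hf'm : (f * C (f.leadingCoeff)⁻¹).Monic := monic_mul_leadingCoeff_inv hf0
      have hf'i : Irreducible (f * C (f.leadingCoeff)⁻¹) :=
        irreducible_mul_leadingCoeff_inv.mpr hf
      have hf'd : f * C (f.leadingCoeff)⁻¹ ∣ χ := (IsUnit.mul_right_dvd hu).mpr hfd
      have step : ∀ p : F[X], p.Monic → Irreducible p → p ∣ χ →
          ∃ χ' : F[X], χ = p * χ' ∧ ∃ a b : ℕ, χ' = p₁ ^ a * p₂ ^ b := by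
        intro p hpm hpi hpd
        obtain ⟨χ', hχ'⟩ := hpd
        have hχ'm : χ'.Monic := hpm.of_mul_monic_left (by rw [← hχ']; exact hχ)
        have hdeg : χ.natDegree = p.natDegree + χ'.natDegree := by
          rw [hχ', Monic.natDegree_mul hpm hχ'm]
        have hpos := hpi.natDegree_pos
        have hlt : χ'.natDegree < d := by omega
        refine ⟨χ', hχ', ih _ hlt χ' rfl hχ'm ?_⟩
        intro f' hf'irr hf'mon hf'dvd
        exact hall f' hf'irr hf'mon (by rw [hχ']; exact Dvd.dvd.mul_left hf'dvd p)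
      rcases hall _ hf'i hf'm hf'd with h | h
      · rw [h] at hf'd hf'i
        obtain ⟨χ', hχ', a, b, hab⟩ := step p₁ hp₁ hf'i hf'd
        exact ⟨a + 1, b, by rw [hχ', hab, pow_succ]; ring⟩
      · rw [h] at hf'd hf'i
        obtain ⟨χ', hχ', a, b, hab⟩ := step p₂ hp₂ hf'i hf'd
        exact ⟨a, b + 1, by rw [hχ', hab, pow_succ]; ring⟩

theorem charpoly_form (A : Matrix (Fin 4) (Fin 4) F) (g p₁ p₂ : F[X]) (hg : aeval A g = 0)
    (hp₁ : p₁.Monic) (hp₂ : p₂.Monic)
    (hdiv : ∀ f : F[X], Irreducible f → f.Monic → f ∣ g → f = p₁ ∨ f = p₂) :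
    ∃ a b : ℕ, A.charpoly = p₁ ^ a * p₂ ^ b ∧ a * p₁.natDegree + b * p₂.natDegree = 4 ∧
      Matrix.trace A = -((a : F) * p₁.nextCoeff + (b : F) * p₂.nextCoeff) := by
  obtain ⟨a, b, hab⟩ := factor_form p₁ p₂ hp₁ hp₂ _ A.charpoly rfl (Matrix.charpoly_monic A)
    (fun f hf hfm hfd => hdiv f hf hfm (irred_dvd_of_aeval A g f hg hf hfd))
  refine ⟨a, b, hab, ?_, ?_⟩
  · have h1 := Matrix.charpoly_natDegree_eq_dim A
    rw [hab, Monic.natDegree_mul (hp₁.pow a) (hp₂.pow b), Monic.natDegree_pow hp₁,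
      Monic.natDegree_pow hp₂, Fintype.card_fin] at h1
    exact h1
  · have h1 := Matrix.trace_eq_neg_charpoly_coeff A
    have h2 : A.charpoly.nextCoeff = A.charpoly.coeff (Fintype.card (Fin 4) - 1) := by
      rw [nextCoeff_of_natDegree_pos (by rw [Matrix.charpoly_natDegree_eq_dim]; simp),
        Matrix.charpoly_natDegree_eq_dim]
    rw [h1, ← h2, hab, Monic.nextCoeff_mul (hp₁.pow a) (hp₂.pow b), Monic.nextCoeff_pow hp₁,
      Monic.nextCoeff_pow hp₂, nsmul_eq_mul, nsmul_eq_mul]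

theorem form_of_two_irred (A : Matrix (Fin 4) (Fin 4) F) (p₁ p₂ : F[X]) (hp₁ : p₁.Monic)
    (hp₂ : p₂.Monic) (hi₁ : Irreducible p₁) (hi₂ : Irreducible p₂)
    (hg : aeval A (p₁ * p₂) = 0) :
    ∃ a b : ℕ, A.charpoly = p₁ ^ a * p₂ ^ b ∧ a * p₁.natDegree + b * p₂.natDegree = 4 ∧
      Matrix.trace A = -((a : F) * p₁.nextCoeff + (b : F) * p₂.nextCoeff) := by
  apply charpoly_form A (p₁ * p₂) p₁ p₂ hg hp₁ hp₂
  intro f hf hfm hfd
  rcases hf.prime.dvd_or_dvd hfd with h | h
  · left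
    exact eq_of_monic_of_associated hfm hp₁ (hf.associated_of_dvd hi₁ h)
  · right
    exact eq_of_monic_of_associated hfm hp₂ (hf.associated_of_dvd hi₂ h)

theorem cast_inj_small (h2 : (2 : F) ≠ 0) (h3 : (3 : F) ≠ 0) (a a' : ℕ) (ha : a ≤ 4)
    (ha' : a' ≤ 4) (h : (a : F) = (a' : F)) : a = a' := by
  have h4 : (4 : F) ≠ 0 := by
    intro h
    have h' : (2 : F) * 2 = 0 := by linear_combination h
    rcases mul_eq_zero.mp h' with h'' | h'' <;> exact h2 h''
  have key : ∀ (u d : ℕ), d ≤ 4 → (u : F) = ((u + d : ℕ) : F) → d = 0 := by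
    intro u d hd hud
    have h5 : (d : F) = 0 := by
      push_cast at hud
      linear_combination -hud
    interval_cases d
    · rfl
    · exfalso
      push_cast at h5
      exact one_ne_zero h5
    · exfalso
      push_cast at h5
      exact h2 h5
    · exfalso
      push_cast at h5
      exact h3 h5
    · exfalso
      push_cast at h5
      exact h4 h5
  rcases le_total a a' with hle | hle
  · obtain ⟨d, rfl⟩ := Nat.exists_eq_add_of_le hle
    have := key a d (by omega) h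
    omega
  · obtain ⟨d, rfl⟩ := Nat.exists_eq_add_of_le hle
    have := key a' d (by omega) h.symm
    omega

/-- Two matrices with characteristic polynomials of the same shape and equal traces have the
same characteristic polynomial. -/
theorem charpoly_eq_of_form (h2 : (2 : F) ≠ 0) (h3 : (3 : F) ≠ 0) (p₁ p₂ : F[X]) (d₂ : ℕ)
    (hd₂ : 0 < d₂) (hk : ((d₂ : F) + 1) ≠ 0) (y n : Matrix (Fin 4) (Fin 4) F)
    (hy : ∃ a b : ℕ, y.charpoly = p₁ ^ a * p₂ ^ b ∧ a + d₂ * b = 4 ∧
      Matrix.trace y = (a : F) - (b : F))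
    (hn : ∃ a b : ℕ, n.charpoly = p₁ ^ a * p₂ ^ b ∧ a + d₂ * b = 4 ∧
      Matrix.trace n = (a : F) - (b : F))
    (ht : Matrix.trace y = Matrix.trace n) : y.charpoly = n.charpoly := by
  obtain ⟨a, b, hab, hdeg, htr⟩ := hy
  obtain ⟨a', b', hab', hdeg', htr'⟩ := hn
  have e1 : (a : F) + (d₂ : F) * (b : F) = 4 := by
    have := congrArg (Nat.cast : ℕ → F) hdeg
    push_cast at this
    exact this
  have e2 : (a' : F) + (d₂ : F) * (b' : F) = 4 := by
    have := congrArg (Nat.cast : ℕ → F) hdeg'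
    push_cast at this
    exact this
  rw [htr, htr'] at ht
  have e3 : ((d₂ : F) + 1) * ((a : F) - (a' : F)) = 0 := by
    linear_combination (d₂ : F) * ht + e1 - e2
  have e4 : (a : F) = (a' : F) := by
    rcases mul_eq_zero.mp e3 with h | h
    · exact absurd h hk
    · exact sub_eq_zero.mp h
  have e5 : a = a' := cast_inj_small h2 h3 a a' (by omega) (by omega) e4
  have e6 : b = b' := by
    have : d₂ * b = d₂ * b' := by omega
    exact Nat.eq_of_mul_eq_mul_left hd₂ this
  rw [hab, hab', e5, e6]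

/-! ### Involutions -/

theorem form_sq (y : Matrix (Fin 4) (Fin 4) F) (hy : y ^ 2 = 1) :
    ∃ a b : ℕ, y.charpoly = (X - C (1 : F)) ^ a * (X - C (-1 : F)) ^ b ∧ a + 1 * b = 4 ∧
      Matrix.trace y = (a : F) - (b : F) := by
  have hg : aeval y ((X - C (1 : F)) * (X - C (-1 : F))) = 0 := by
    have e : (X - C (1 : F)) * (X - C (-1 : F)) = X ^ 2 - 1 := by
      rw [map_neg, map_one]
      ring
    rw [e, map_sub, map_pow, aeval_X, map_one, hy, sub_self]
  obtain ⟨a, b, hab, hdeg, htr⟩ := form_of_two_irred y _ _ (monic_X_sub_C 1)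
    (monic_X_sub_C (-1)) (irreducible_X_sub_C 1) (irreducible_X_sub_C (-1)) hg
  refine ⟨a, b, hab, ?_, ?_⟩
  · rw [natDegree_X_sub_C, natDegree_X_sub_C] at hdeg
    omega
  · rw [htr, nextCoeff_X_sub_C, nextCoeff_X_sub_C]
    ring

theorem charpoly_eq_sq (h2 : (2 : F) ≠ 0) (h3 : (3 : F) ≠ 0) (y n : Matrix (Fin 4) (Fin 4) F)
    (hy : y ^ 2 = 1) (hn : n ^ 2 = 1) (ht : Matrix.trace y = Matrix.trace n) :
    y.charpoly = n.charpoly := by
  refine charpoly_eq_of_form h2 h3 _ _ 1 (by norm_num) ?_ y n (form_sq y hy) (form_sq n hn) ht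
  intro h
  apply h2
  push_cast at h
  linear_combination h

theorem trace_vals_sq (y : Matrix (Fin 4) (Fin 4) F) (hy : y ^ 2 = 1) :
    Matrix.trace y = 4 ∨ Matrix.trace y = 2 ∨ Matrix.trace y = 0 ∨ Matrix.trace y = -2 ∨
      Matrix.trace y = -4 := by
  obtain ⟨a, b, -, hab, ht⟩ := form_sq y hy
  have hc : (a = 4 ∧ b = 0) ∨ (a = 3 ∧ b = 1) ∨ (a = 2 ∧ b = 2) ∨ (a = 1 ∧ b = 3) ∨
      (a = 0 ∧ b = 4) := by omega
  rw [ht]
  rcases hc with ⟨rfl, rfl⟩ | ⟨rfl, rfl⟩ | ⟨rfl, rfl⟩ | ⟨rfl, rfl⟩ | ⟨rfl, rfl⟩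
  · left
    push_cast
    ring
  · right; left
    push_cast
    ring
  · right; right; left
    push_cast
    ring
  · right; right; right; left
    push_cast
    ring
  · right; right; right; right
    push_cast
    ring

/-- If `x² = c` with `c` a non-square, then `det x = c²`. -/
theorem det_of_sq_nonsquare (c : F) (hc : ∀ d : F, d * d ≠ c) (x : Matrix (Fin 4) (Fin 4) F)
    (hx : x * x = c • (1 : Matrix (Fin 4) (Fin 4) F)) : x.det = c ^ 2 := by
  have hdeg : (X ^ 2 - C c : F[X]).natDegree = 2 := natDegree_X_pow_sub_C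
  have hm : (X ^ 2 - C c : F[X]).Monic := monic_X_pow_sub_C c (by norm_num)
  have hirr : Irreducible (X ^ 2 - C c : F[X]) := by
    apply irreducible_of_degree_le_three_of_not_isRoot
    · rw [hdeg]
      decide
    · intro d hd
      apply hc d
      simp only [IsRoot, eval_sub, eval_pow, eval_X, eval_C] at hd
      linear_combination hd
  have hg : aeval x (X ^ 2 - C c : F[X]) = 0 := by
    rw [map_sub, map_pow, aeval_X, aeval_C, Algebra.algebraMap_eq_smul_one, pow_two, hx, sub_self]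
  obtain ⟨a, b, hab, hdeg', -⟩ := charpoly_form x (X ^ 2 - C c) (X ^ 2 - C c) (X ^ 2 - C c) hg hm hm
    (fun f hf hfm hfd => Or.inl (eq_of_monic_of_associated hfm hm (hf.associated_of_dvd hirr hfd)))
  have hχ : x.charpoly = (X ^ 2 - C c) ^ 2 := by
    rw [hab, ← pow_add]
    congr 1
    rw [hdeg] at hdeg'
    omega
  rw [Matrix.det_eq_sign_charpoly_coeff, hχ, Fintype.card_fin, coeff_zero_eq_eval_zero]
  simp
  ring

/-! ### Elements of order three -/

/-- The polynomial `X² + X + 1`. -/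
noncomputable def q3 (F : Type*) [Field F] : F[X] := X ^ 2 + X + 1

theorem q3_natDegree : (q3 F).natDegree = 2 := by
  unfold q3
  compute_degree!

theorem q3_monic : (q3 F).Monic := by
  unfold Monic leadingCoeff
  rw [q3_natDegree]
  unfold q3
  simp [coeff_X_pow, coeff_X, coeff_one]

theorem q3_nextCoeff : (q3 F).nextCoeff = 1 := by
  rw [nextCoeff_of_natDegree_pos (by rw [q3_natDegree]; norm_num), q3_natDegree]
  unfold q3
  simp [coeff_X_pow, coeff_X, coeff_one]

theorem q3_irreducible (hω : ∀ w : F, w ^ 2 + w + 1 ≠ 0) : Irreducible (q3 F) := by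
  apply irreducible_of_degree_le_three_of_not_isRoot
  · rw [q3_natDegree]
    decide
  · intro x hx
    apply hω x
    unfold q3 at hx
    simpa [IsRoot] using hx

theorem form_cube (hω : ∀ w : F, w ^ 2 + w + 1 ≠ 0) (y : Matrix (Fin 4) (Fin 4) F)
    (hy : y ^ 3 = 1) :
    ∃ a b : ℕ, y.charpoly = (X - C (1 : F)) ^ a * (q3 F) ^ b ∧ a + 2 * b = 4 ∧
      Matrix.trace y = (a : F) - (b : F) := by
  have hg : aeval y ((X - C (1 : F)) * q3 F) = 0 := by
    have e : (X - C (1 : F)) * q3 F = X ^ 3 - 1 := by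
      unfold q3
      rw [map_one]
      ring
    rw [e, map_sub, map_pow, aeval_X, map_one, hy, sub_self]
  obtain ⟨a, b, hab, hdeg, htr⟩ := form_of_two_irred y _ _ (monic_X_sub_C 1) q3_monic
    (irreducible_X_sub_C 1) (q3_irreducible hω) hg
  refine ⟨a, b, hab, ?_, ?_⟩
  · rw [natDegree_X_sub_C, q3_natDegree] at hdeg
    omega
  · rw [htr, nextCoeff_X_sub_C, q3_nextCoeff]
    ring

theorem charpoly_eq_cube (h2 : (2 : F) ≠ 0) (h3 : (3 : F) ≠ 0)
    (hω : ∀ w : F, w ^ 2 + w + 1 ≠ 0) (y n : Matrix (Fin 4) (Fin 4) F)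
    (hy : y ^ 3 = 1) (hn : n ^ 3 = 1) (ht : Matrix.trace y = Matrix.trace n) :
    y.charpoly = n.charpoly := by
  refine charpoly_eq_of_form h2 h3 _ _ 2 (by norm_num) ?_ y n (form_cube hω y hy)
    (form_cube hω n hn) ht
  intro h
  apply h3
  push_cast at h
  linear_combination h

theorem trace_vals_cube (hω : ∀ w : F, w ^ 2 + w + 1 ≠ 0) (y : Matrix (Fin 4) (Fin 4) F)
    (hy : y ^ 3 = 1) :
    Matrix.trace y = 4 ∨ Matrix.trace y = 1 ∨ Matrix.trace y = -2 := by
  obtain ⟨a, b, -, hab, ht⟩ := form_cube hω y hy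
  have hc : (a = 4 ∧ b = 0) ∨ (a = 2 ∧ b = 1) ∨ (a = 0 ∧ b = 2) := by omega
  rw [ht]
  rcases hc with ⟨rfl, rfl⟩ | ⟨rfl, rfl⟩ | ⟨rfl, rfl⟩
  · left
    push_cast
    ring
  · right; left
    push_cast
    ring
  · right; right
    push_cast
    ring

/-! ### Elements of order five -/

theorem cyc5_natDegree : (cyclotomic 5 F).natDegree = 4 := by
  rw [natDegree_cyclotomic, Nat.totient_prime (by norm_num)]

theorem cyc5_nextCoeff : (cyclotomic 5 F).nextCoeff = 1 := by
  have hp5 : Fact (Nat.Prime 5) := ⟨by norm_num⟩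
  rw [nextCoeff_of_natDegree_pos (by rw [cyc5_natDegree]; norm_num), cyc5_natDegree,
    cyclotomic_prime]
  simp [Finset.sum_range_succ, coeff_X_pow, coeff_X, coeff_one]

theorem form_five (hirr : Irreducible (cyclotomic 5 F)) (y : Matrix (Fin 4) (Fin 4) F)
    (hy : y ^ 5 = 1) :
    ∃ a b : ℕ, y.charpoly = (X - C (1 : F)) ^ a * (cyclotomic 5 F) ^ b ∧ a + 4 * b = 4 ∧
      Matrix.trace y = (a : F) - (b : F) := by
  have hp5 : Fact (Nat.Prime 5) := ⟨by norm_num⟩
  have hg : aeval y ((X - C (1 : F)) * cyclotomic 5 F) = 0 := by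
    have e : (X - C (1 : F)) * cyclotomic 5 F = X ^ 5 - 1 := by
      rw [map_one, mul_comm]
      exact cyclotomic_prime_mul_X_sub_one F 5
    rw [e, map_sub, map_pow, aeval_X, map_one, hy, sub_self]
  obtain ⟨a, b, hab, hdeg, htr⟩ := form_of_two_irred y _ _ (monic_X_sub_C 1)
    (cyclotomic.monic 5 F) (irreducible_X_sub_C 1) hirr hg
  refine ⟨a, b, hab, ?_, ?_⟩
  · rw [natDegree_X_sub_C, cyc5_natDegree] at hdeg
    omega
  · rw [htr, nextCoeff_X_sub_C, cyc5_nextCoeff]
    ring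

theorem charpoly_eq_five (h2 : (2 : F) ≠ 0) (h3 : (3 : F) ≠ 0) (h5 : (5 : F) ≠ 0)
    (hirr : Irreducible (cyclotomic 5 F)) (y n : Matrix (Fin 4) (Fin 4) F)
    (hy : y ^ 5 = 1) (hn : n ^ 5 = 1) (ht : Matrix.trace y = Matrix.trace n) :
    y.charpoly = n.charpoly := by
  refine charpoly_eq_of_form h2 h3 _ _ 4 (by norm_num) ?_ y n (form_five hirr y hy)
    (form_five hirr n hn) ht
  intro h
  apply h5
  push_cast at h
  linear_combination h

theorem trace_vals_five (hirr : Irreducible (cyclotomic 5 F)) (y : Matrix (Fin 4) (Fin 4) F)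
    (hy : y ^ 5 = 1) :
    Matrix.trace y = 4 ∨ Matrix.trace y = -1 := by
  obtain ⟨a, b, -, hab, ht⟩ := form_five hirr y hy
  have hc : (a = 4 ∧ b = 0) ∨ (a = 0 ∧ b = 1) := by omega
  rw [ht]
  rcases hc with ⟨rfl, rfl⟩ | ⟨rfl, rfl⟩
  · left
    push_cast
    ring
  · right
    push_cast
    ring

end Cfsg.Agent.Lib.Helper37.Pauli4D
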