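import Mathlib
import Cfsg.Prelude.Def_GeometricClasses
import Cfsg.Agent.Lib.Helper37.Pauli4A
import Cfsg.Agent.Lib.Helper37.Pauli4B
import Cfsg.Agent.Lib.Helper37.Pauli4C
import Cfsg.Agent.Lib.Helper37.Pauli4D
import Cfsg.Agent.Lib.Helper40.SSConj

/-!
# Elements of prime order of `PSL_4(p)` and the normalizer of `4 ∘ 2^{1+4}`

Conjugacy of elements of orders `2`, `3`, `5` into the normalizer of the symplectic-type group
`R` (by trace comparison), and elements of prime order not conjugate into it.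
-/

set_option autoImplicit false

open scoped MatrixGroups

namespace Cfsg.Agent.Lib.Helper37.Pauli4E

open Cfsg.Agent.Lib.Helper37.Pauli4A Cfsg.Agent.Lib.Helper37.Pauli4B
  Cfsg.Agent.Lib.Helper37.Pauli4C Cfsg.Agent.Lib.Helper37.Pauli4D

variable {F : Type*} [Field F]

/-! ### Basic facts -/

theorem mem_SL_iff (g : GL (Fin 4) F) :
    g ∈ Cfsg.Geo.specialLinear (Fin 4) F ↔ (g : Matrix (Fin 4) (Fin 4) F).det = 1 := by
  unfold Cfsg.Geo.specialLinear
  rw [MonoidHom.mem_ker]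
  constructor
  · intro h
    have := congrArg Units.val h
    simpa using this
  · intro h
    apply Units.ext
    simpa using h

theorem exists_scalar (s : F) (hs : s ≠ 0) :
    ∃ Sg : GL (Fin 4) F, (Sg : Matrix (Fin 4) (Fin 4) F) = s • (1 : Matrix (Fin 4) (Fin 4) F) := by
  refine ⟨⟨s • 1, s⁻¹ • 1, ?_, ?_⟩, rfl⟩
  · rw [Matrix.smul_mul, Matrix.mul_smul, Matrix.one_mul, smul_smul, mul_inv_cancel₀ hs,
      one_smul]
  · rw [Matrix.smul_mul, Matrix.mul_smul, Matrix.one_mul, smul_smul, inv_mul_cancel₀ hs,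
      one_smul]

/-- Scalar multiples of elements of the normalizer lie in the normalizer. -/
theorem smul_mem_normalizer (R : Subgroup (GL (Fin 4) F)) (M M' : GL (Fin 4) F)
    (hM : M ∈ Cfsg.Geo.subgroupNormalizer R) (s : F) (hs : s ≠ 0)
    (hM' : (M' : Matrix (Fin 4) (Fin 4) F) = s • (M : Matrix (Fin 4) (Fin 4) F)) :
    M' ∈ Cfsg.Geo.subgroupNormalizer R := by
  obtain ⟨Sg, hSg⟩ := exists_scalar s hs
  have hcen : Sg ∈ Subgroup.center (GL (Fin 4) F) := by
    rw [Subgroup.mem_center_iff]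
    intro t
    apply Units.ext
    rw [Units.val_mul, Units.val_mul, hSg, Matrix.mul_smul, Matrix.smul_mul, Matrix.mul_one,
      Matrix.one_mul]
  have hSgN : Sg ∈ Cfsg.Geo.subgroupNormalizer R := Subgroup.center_le_normalizer _ hcen
  have e : M' = Sg * M := by
    apply Units.ext
    rw [Units.val_mul, hSg, hM', Matrix.smul_mul, Matrix.one_mul]
  rw [e]
  exact Subgroup.mul_mem _ hSgN hM

/-- If a scalar multiple of `x` has the characteristic polynomial of an element of the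
normalizer of the same order, then `x` is conjugate into the normalizer by a matrix of
determinant one. -/
theorem conj_of_trace [Finite F] (R : Subgroup (GL (Fin 4) F)) (x : GL (Fin 4) F) (d : F)
    (hd : d ≠ 0) (N : ℕ) (hN : (N : F) ≠ 0) (hy : (d⁻¹ • x.val) ^ N = 1)
    (hcp : ∀ n : Matrix (Fin 4) (Fin 4) F, n ^ N = 1 →
      Matrix.trace (d⁻¹ • x.val) = Matrix.trace n → (d⁻¹ • x.val).charpoly = n.charpoly)
    (h : ∃ n : GL (Fin 4) F, n ∈ Cfsg.Geo.subgroupNormalizer R ∧ n ^ N = 1 ∧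
      Matrix.trace n.val = Matrix.trace (d⁻¹ • x.val)) :
    ∃ g ∈ Cfsg.Geo.specialLinear (Fin 4) F, g⁻¹ * x * g ∈ Cfsg.Geo.subgroupNormalizer R := by
  obtain ⟨n, hn, hnN, ht⟩ := h
  have hnN' : n.val ^ N = 1 := by rw [← Units.val_pow_eq_pow_val, hnN, Units.val_one]
  obtain ⟨S, hS1, hS⟩ := Cfsg.Agent.Lib.Helper40.SSConj.matrix_conj_det_one (d⁻¹ • x.val) n.val N
    hN hy hnN' (hcp n.val hnN' ht.symm)
  have hSdet : S.det ≠ 0 := by
    rw [hS1]
    exact one_ne_zero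
  obtain ⟨Sg, hSg⟩ : ∃ Sg : GL (Fin 4) F, Sg.val = S :=
    ⟨Matrix.GeneralLinearGroup.mkOfDetNeZero S hSdet, rfl⟩
  refine ⟨Sg⁻¹, Subgroup.inv_mem _ ((mem_SL_iff _).2 (by rw [hSg, hS1])), ?_⟩
  rw [inv_inv]
  apply smul_mem_normalizer R n _ hn d hd
  have h1 : Sg.val * x.val = d • (n.val * Sg.val) := by
    rw [hSg, ← hS, Matrix.mul_smul, smul_smul, mul_inv_cancel₀ hd, one_smul]
  rw [Units.val_mul, Units.val_mul, h1, Matrix.smul_mul, Matrix.mul_assoc, Units.mul_inv,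
    Matrix.mul_one]

theorem one_elt (R : Subgroup (GL (Fin 4) F)) (N : ℕ) :
    ∃ n : GL (Fin 4) F, n ∈ Cfsg.Geo.subgroupNormalizer R ∧ n ^ N = 1 ∧
      Matrix.trace n.val = 4 := by
  refine ⟨1, Subgroup.one_mem _, one_pow N, ?_⟩
  rw [Units.val_one, Matrix.trace_one, Fintype.card_fin]
  norm_num

/-- Roots of order coprime to `q - 1` exist in a finite field. -/
theorem exists_root_of_coprime [Fintype F] (r : ℕ) (hcop : Nat.Coprime (Fintype.card F - 1) r)
    (z : F) (hz : z ≠ 0) : ∃ d : F, d ^ r = z := by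
  classical
  have hcop' : (Nat.card Fˣ).Coprime r := by
    rw [Nat.card_units, Nat.card_eq_fintype_card]
    exact hcop
  obtain ⟨u, hu⟩ := (powCoprime hcop').surjective (Units.mk0 z hz)
  refine ⟨(u : F), ?_⟩
  have h1 := congrArg Units.val hu
  rw [powCoprime_apply, Units.val_pow_eq_pow_val, Units.val_mk0] at h1
  exact h1

/-! ### Arithmetic of the field -/

theorem natCast_ne_zero_of_lt {p : ℕ} [CharP F p] (k : ℕ) (hk0 : 0 < k) (hk : k < p) :
    (k : F) ≠ 0 := by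
  intro h
  rw [CharP.cast_eq_zero_iff F p] at h
  have := Nat.le_of_dvd hk0 h
  omega

theorem five_ne_zero {p : ℕ} [CharP F p] (hp : p.Prime) (hp5 : p ≠ 5) : (5 : F) ≠ 0 := by
  intro h
  have h' : ((5 : ℕ) : F) = 0 := by exact_mod_cast h
  rw [CharP.cast_eq_zero_iff F p] at h'
  exact hp5 ((Nat.prime_dvd_prime_iff_eq hp (by norm_num)).mp h')

theorem seven_le_of_prime {r : ℕ} (hr : r.Prime) (h2 : r ≠ 2) (h3 : r ≠ 3) (h5 : r ≠ 5) :
    7 ≤ r := by
  by_contra h
  push Not at h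
  have := hr.two_le
  have h4 : r = 4 ∨ r = 6 := by omega
  rcases h4 with h4 | h4
  · rw [h4] at hr
    exact absurd hr (by norm_num)
  · rw [h4] at hr
    exact absurd hr (by norm_num)

/-- No primitive cube roots of unity when `p ≡ 2 (mod 3)`. -/
theorem no_omega [Fintype F] {p : ℕ} (hF : Fintype.card F = p) (hp3 : p % 3 = 2)
    (h3 : (3 : F) ≠ 0) : ∀ w : F, w ^ 2 + w + 1 ≠ 0 := by
  classical
  intro w hw
  have hw3 : w ^ 3 = 1 := by linear_combination (w - 1) * hw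
  have hw1 : w ≠ 1 := by
    intro h
    rw [h] at hw
    apply h3
    linear_combination hw
  have hw0 : w ≠ 0 := by
    intro h
    rw [h] at hw3
    norm_num at hw3
  have : Fact (Nat.Prime 3) := ⟨by norm_num⟩
  have ho : orderOf (Units.mk0 w hw0) = 3 := by
    apply orderOf_eq_prime
    · apply Units.ext
      rw [Units.val_pow_eq_pow_val, Units.val_mk0, hw3, Units.val_one]
    · intro h
      apply hw1
      have h1 := congrArg Units.val h
      rw [Units.val_mk0, Units.val_one] at h1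
      exact h1
  have hdvd : 3 ∣ Nat.card Fˣ := by
    rw [← ho]
    exact orderOf_dvd_natCard _
  rw [Nat.card_units, Nat.card_eq_fintype_card, hF] at hdvd
  omega

/-- Primitive cube roots of unity exist when `p ≡ 1 (mod 3)`. -/
theorem exists_omega [Fintype F] {p : ℕ} (hF : Fintype.card F = p) (hp3 : p % 3 = 1) :
    ∃ ω : F, ω ^ 2 + ω + 1 = 0 := by
  classical
  have h3dvd : 3 ∣ Nat.card Fˣ := by
    rw [Nat.card_units, Nat.card_eq_fintype_card, hF]
    omega
  have : Fact (Nat.Prime 3) := ⟨by norm_num⟩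
  obtain ⟨w, hw⟩ := exists_prime_orderOf_dvd_card' (G := Fˣ) 3 h3dvd
  have hw3' : w ^ 3 = 1 := by
    have h4 := pow_orderOf_eq_one w
    rw [hw] at h4
    exact h4
  have hw3 : (w : F) ^ 3 = 1 := by
    rw [← Units.val_pow_eq_pow_val, hw3', Units.val_one]
  have hw1 : (w : F) ≠ 1 := by
    intro h
    have h4 : w = 1 := Units.ext h
    rw [h4, orderOf_one] at hw
    norm_num at hw
  refine ⟨(w : F), ?_⟩
  have hf : ((w : F) - 1) * ((w : F) ^ 2 + (w : F) + 1) = 0 := by linear_combination hw3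
  rcases mul_eq_zero.mp hf with h | h
  · exact absurd (sub_eq_zero.mp h) hw1
  · exact h

theorem coprime_pred_three {p : ℕ} (hp3 : p % 3 = 2) : Nat.Coprime (p - 1) 3 := by
  apply Nat.Coprime.symm
  rw [Nat.Prime.coprime_iff_not_dvd Nat.prime_three]
  omega

theorem coprime_pred_five {p : ℕ} (hp5 : p % 5 = 2 ∨ p % 5 = 3) : Nat.Coprime (p - 1) 5 := by
  apply Nat.Coprime.symm
  rw [Nat.Prime.coprime_iff_not_dvd Nat.prime_five]
  omega

theorem order_four_iff (a : ZMod 5) : orderOf a = 4 ↔ (a ^ 4 = 1 ∧ a ^ 2 ≠ 1) := by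
  constructor
  · intro h
    refine ⟨by rw [← h]; exact pow_orderOf_eq_one a, fun h2 => ?_⟩
    have h1 := orderOf_dvd_of_pow_eq_one h2
    rw [h] at h1
    norm_num at h1
  · rintro ⟨h4, h2⟩
    apply orderOf_eq_of_pow_and_pow_div_prime (by norm_num) h4
    intro q hq hq4
    have hq2 : q = 2 := by
      have h1 : q ∣ 2 ^ 2 := hq4
      exact (Nat.prime_dvd_prime_iff_eq hq Nat.prime_two).mp (hq.dvd_of_dvd_pow h1)
    subst hq2
    exact h2

theorem order_mod_five (p : ℕ) : orderOf (p : ZMod 5) = 4 ↔ (p % 5 = 2 ∨ p % 5 = 3) := by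
  rw [order_four_iff]
  have h : (p : ZMod 5) = ((p % 5 : ℕ) : ZMod 5) := by rw [ZMod.natCast_mod]
  rw [h]
  have hlt : p % 5 < 5 := Nat.mod_lt _ (by norm_num)
  generalize p % 5 = k at hlt ⊢
  interval_cases k <;> decide

/-- The fifth cyclotomic polynomial is irreducible when `p` has order `4` modulo `5`. -/
theorem cyc5_irreducible [Fintype F] {p : ℕ} [Fact p.Prime] (hF : Fintype.card F = p)
    (h5 : orderOf (p : ZMod 5) = 4) : Irreducible (Polynomial.cyclotomic 5 F) := by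
  have hpp : p.Prime := Fact.out
  have hmod := (order_mod_five p).1 h5
  have hcop : p.Coprime 5 := by
    rw [Nat.coprime_primes hpp (by norm_num)]
    intro h
    rw [h] at hmod
    omega
  have hK : Fintype.card F = p ^ 1 := by
    rw [pow_one]
    exact hF
  apply Polynomial.irreducible_of_dvd_cyclotomic_of_natDegree hK hcop (dvd_refl _)
  rw [cyc5_natDegree, ← orderOf_units, ZMod.coe_unitOfCoprime, pow_one, h5]

/-- A root of `t² + t - 1` (that is, `√5`) exists when `p ≡ ±1 (mod 5)` and `p ≡ 1 (mod 4)`. -/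
theorem exists_golden {p : ℕ} [Fact p.Prime] [CharP F p] (hp4 : p % 4 = 1) (h2 : (2 : F) ≠ 0)
    (hp5 : p % 5 = 1 ∨ p % 5 = 4) : ∃ t : F, t ^ 2 + t - 1 = 0 := by
  have : Fact (Nat.Prime 5) := ⟨by norm_num⟩
  have hsq : IsSquare ((5 : ℕ) : ZMod p) := by
    rw [ZMod.exists_sq_eq_prime_iff_of_mod_four_eq_one hp4 (by norm_num)]
    have h : (p : ZMod 5) = ((p % 5 : ℕ) : ZMod 5) := by rw [ZMod.natCast_mod]
    rw [h]
    rcases hp5 with h' | h'
    · rw [h']
      exact ⟨1, by simp⟩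
    · rw [h']
      exact ⟨2, by norm_num⟩
  obtain ⟨s, hs⟩ := hsq
  have hs' : (ZMod.castHom (dvd_refl p) F) s * (ZMod.castHom (dvd_refl p) F) s = 5 := by
    have h1 := congrArg (ZMod.castHom (dvd_refl p) F) hs
    rw [map_natCast, map_mul] at h1
    rw [← h1]
    norm_num
  obtain ⟨u, hu⟩ : ∃ u : F, 2 * u = 1 := ⟨2⁻¹, mul_inv_cancel₀ h2⟩
  refine ⟨((ZMod.castHom (dvd_refl p) F) s - 1) * u, ?_⟩
  linear_combination u ^ 2 * hs' +
    (1 + 2 * u - ((ZMod.castHom (dvd_refl p) F) s - 1) * u) * hu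

/-! ### Elements conjugate into the normalizer -/

section std

variable {R : Subgroup (GL (Fin 4) F)} {i : F}

theorem conj_two_aux [Finite F] (P : PData R i) (h3 : (3 : F) ≠ 0) (x : GL (Fin 4) F) (d : F)
    (hd : d ≠ 0) (hy : (d⁻¹ • x.val) ^ 2 = 1)
    (ht : Matrix.trace (d⁻¹ • x.val) = 4 ∨ Matrix.trace (d⁻¹ • x.val) = 2 ∨
      Matrix.trace (d⁻¹ • x.val) = 0) :
    ∃ g ∈ Cfsg.Geo.specialLinear (Fin 4) F, g⁻¹ * x * g ∈ Cfsg.Geo.subgroupNormalizer R := by
  have h2 := P.two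
  have hN : ((2 : ℕ) : F) ≠ 0 := by exact_mod_cast h2
  obtain ⟨e2, e0, -, -, -⟩ := exists_norm_elt P
  apply conj_of_trace R x d hd 2 hN hy (fun n hn ht' => charpoly_eq_sq h2 h3 _ n hy hn ht')
  rcases ht with h | h | h
  · rw [h]
    exact one_elt R 2
  · rw [h]
    exact e2
  · rw [h]
    exact e0

/-- Elements of order 2 of `PSL_4(p)` are conjugate into the normalizer. -/
theorem conj_two [Finite F] (P : PData R i) (h3 : (3 : F) ≠ 0) (x : GL (Fin 4) F)
    (hx : x ∈ Cfsg.Geo.specialLinear (Fin 4) F)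
    (hx2 : ∃ z : F, ((x ^ 2 : GL (Fin 4) F) : Matrix (Fin 4) (Fin 4) F) =
      z • (1 : Matrix (Fin 4) (Fin 4) F)) :
    ∃ g ∈ Cfsg.Geo.specialLinear (Fin 4) F, g⁻¹ * x * g ∈ Cfsg.Geo.subgroupNormalizer R := by
  obtain ⟨z, hz⟩ := hx2
  have hxx : x.val * x.val = z • (1 : Matrix (Fin 4) (Fin 4) F) := by
    rw [← hz, pow_two, Units.val_mul]
  have hdet : x.val.det = 1 := (mem_SL_iff x).1 hx
  by_cases hsq : ∃ d : F, d * d = z
  · obtain ⟨d, hd⟩ := hsq
    have hz0 : z ≠ 0 := by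
      intro h0
      rw [h0, zero_smul] at hxx
      have h1 := congrArg Matrix.det hxx
      rw [Matrix.det_mul, hdet, Matrix.det_zero] at h1
      norm_num at h1
    have hd0 : d ≠ 0 := by
      intro h0
      rw [h0, mul_zero] at hd
      exact hz0 hd.symm
    have hy : (d⁻¹ • x.val) ^ 2 = 1 := by
      rw [pow_two, Matrix.smul_mul, Matrix.mul_smul, smul_smul, hxx, smul_smul, ← hd]
      have e : d⁻¹ * d⁻¹ * (d * d) = 1 := by
        field_simp
      rw [e, one_smul]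
    have e' : (-d)⁻¹ • x.val = -(d⁻¹ • x.val) := by rw [inv_neg, neg_smul]
    have hy' : ((-d)⁻¹ • x.val) ^ 2 = 1 := by
      rw [e', neg_sq]
      exact hy
    have htr' : Matrix.trace ((-d)⁻¹ • x.val) = -Matrix.trace (d⁻¹ • x.val) := by
      rw [e', Matrix.trace_neg]
    rcases trace_vals_sq _ hy with h | h | h | h | h
    · exact conj_two_aux P h3 x d hd0 hy (Or.inl h)
    · exact conj_two_aux P h3 x d hd0 hy (Or.inr (Or.inl h))
    · exact conj_two_aux P h3 x d hd0 hy (Or.inr (Or.inr h))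
    · exact conj_two_aux P h3 x (-d) (neg_ne_zero.mpr hd0) hy'
        (Or.inr (Or.inl (by rw [htr', h, neg_neg])))
    · exact conj_two_aux P h3 x (-d) (neg_ne_zero.mpr hd0) hy'
        (Or.inl (by rw [htr', h, neg_neg]))
  · exfalso
    have hc : ∀ d : F, d * d ≠ z := fun d hd => hsq ⟨d, hd⟩
    have h1 := det_of_sq_nonsquare z hc x.val hxx
    rw [hdet] at h1
    have h2 : (z - 1) * (z + 1) = 0 := by linear_combination -h1
    rcases mul_eq_zero.mp h2 with h | h
    · exact hc 1 (by rw [one_mul]; exact (sub_eq_zero.mp h).symm)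
    · exact hc i (by rw [P.sq]; linear_combination -h)

/-- Elements of order 3 of `PSL_4(p)`, `p ≡ 2 (mod 3)`, are conjugate into the normalizer. -/
theorem conj_three [Finite F] (P : PData R i) (h3 : (3 : F) ≠ 0)
    (hω : ∀ w : F, w ^ 2 + w + 1 ≠ 0) (hroot : ∀ z : F, z ≠ 0 → ∃ d : F, d ^ 3 = z)
    (x : GL (Fin 4) F)
    (hx3 : ∃ z : F, ((x ^ 3 : GL (Fin 4) F) : Matrix (Fin 4) (Fin 4) F) =
      z • (1 : Matrix (Fin 4) (Fin 4) F)) :
    ∃ g ∈ Cfsg.Geo.specialLinear (Fin 4) F, g⁻¹ * x * g ∈ Cfsg.Geo.subgroupNormalizer R := by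
  obtain ⟨z, hz⟩ := hx3
  have hz0 : z ≠ 0 := by
    intro h0
    rw [h0, zero_smul] at hz
    exact (x ^ 3).ne_zero hz
  obtain ⟨d, hd⟩ := hroot z hz0
  have hd0 : d ≠ 0 := by
    intro h0
    rw [h0] at hd
    apply hz0
    rw [← hd]
    norm_num
  have hy : (d⁻¹ • x.val) ^ 3 = 1 := by
    rw [smul_pow, ← Units.val_pow_eq_pow_val, hz, smul_smul, inv_pow, hd, inv_mul_cancel₀ hz0,
      one_smul]
  have h2 := P.two
  have hN : ((3 : ℕ) : F) ≠ 0 := by exact_mod_cast h3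
  obtain ⟨-, -, e1, e2, -⟩ := exists_norm_elt P
  apply conj_of_trace R x d hd0 3 hN hy
    (fun n hn ht' => charpoly_eq_cube h2 h3 hω _ n hy hn ht')
  rcases trace_vals_cube hω _ hy with h | h | h
  · rw [h]
    exact one_elt R 3
  · rw [h]
    exact e1
  · rw [h]
    exact e2

/-- Elements of order 5 of `PSL_4(p)`, `p` of order `4` modulo `5`, are conjugate into the
normalizer. -/
theorem conj_five [Finite F] (P : PData R i) (h3 : (3 : F) ≠ 0) (h5 : (5 : F) ≠ 0)
    (hirr : Irreducible (Polynomial.cyclotomic 5 F))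
    (hroot : ∀ z : F, z ≠ 0 → ∃ d : F, d ^ 5 = z) (x : GL (Fin 4) F)
    (hx5 : ∃ z : F, ((x ^ 5 : GL (Fin 4) F) : Matrix (Fin 4) (Fin 4) F) =
      z • (1 : Matrix (Fin 4) (Fin 4) F)) :
    ∃ g ∈ Cfsg.Geo.specialLinear (Fin 4) F, g⁻¹ * x * g ∈ Cfsg.Geo.subgroupNormalizer R := by
  obtain ⟨z, hz⟩ := hx5
  have hz0 : z ≠ 0 := by
    intro h0
    rw [h0, zero_smul] at hz
    exact (x ^ 5).ne_zero hz
  obtain ⟨d, hd⟩ := hroot z hz0
  have hd0 : d ≠ 0 := by
    intro h0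
    rw [h0] at hd
    apply hz0
    rw [← hd]
    norm_num
  have hy : (d⁻¹ • x.val) ^ 5 = 1 := by
    rw [smul_pow, ← Units.val_pow_eq_pow_val, hz, smul_smul, inv_pow, hd, inv_mul_cancel₀ hz0,
      one_smul]
  have h2 := P.two
  have hN : ((5 : ℕ) : F) ≠ 0 := by exact_mod_cast h5
  obtain ⟨-, -, -, -, e5⟩ := exists_norm_elt P
  apply conj_of_trace R x d hd0 5 hN hy
    (fun n hn ht' => charpoly_eq_five h2 h3 h5 hirr _ n hy hn ht')
  rcases trace_vals_five hirr _ hy with h | h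
  · rw [h]
    exact one_elt R 5
  · rw [h]
    exact e5

/-! ### Elements not conjugate into the normalizer -/

theorem conj_trace (x g : GL (Fin 4) F) :
    Matrix.trace (g⁻¹ * x * g).val = Matrix.trace x.val := by
  rw [Units.val_mul, Units.val_mul, Matrix.trace_units_conj']

theorem conj_inv_trace (x g : GL (Fin 4) F) :
    Matrix.trace ((g⁻¹ * x * g)⁻¹).val = Matrix.trace (x⁻¹).val := by
  have e : (g⁻¹ * x * g)⁻¹ = g⁻¹ * x⁻¹ * g := by group
  rw [e, conj_trace]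

theorem conj_nonscalar (x g : GL (Fin 4) F)
    (hns : ∀ c : F, x.val ≠ c • (1 : Matrix (Fin 4) (Fin 4) F)) :
    ∀ c : F, (g⁻¹ * x * g).val ≠ c • (1 : Matrix (Fin 4) (Fin 4) F) := by
  intro c hc
  apply hns c
  have hxe : x.val = g.val * (g⁻¹ * x * g).val * (g⁻¹).val := by
    rw [← Units.val_mul, ← Units.val_mul]
    congr 1
    group
  rw [hxe, hc, Matrix.mul_smul, Matrix.mul_one, Matrix.smul_mul, Units.mul_inv]

theorem conj_pow_one (x g : GL (Fin 4) F) (k : ℕ) (h : x ^ k = 1) :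
    (g⁻¹ * x * g) ^ k = 1 := by
  have h4 := conj_pow (a := g⁻¹) (b := x) (i := k)
  rw [inv_inv] at h4
  rw [h4, h, mul_one, inv_mul_cancel]

/-- `diag(a, a, a, 1)`. -/
def D3 (a : F) : Matrix (Fin 4) (Fin 4) F := Matrix.diagonal ![a, a, a, 1]

theorem D3_mul (a b : F) : D3 a * D3 b = D3 (a * b) := by
  unfold D3
  rw [Matrix.diagonal_mul_diagonal]
  congr 1
  funext k
  fin_cases k <;> simp

theorem D3_one : D3 (1 : F) = 1 := by
  unfold D3
  rw [← Matrix.diagonal_one]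
  congr 1
  funext k
  fin_cases k <;> simp

theorem D3_trace (a : F) : Matrix.trace (D3 a) = 3 * a + 1 := by
  unfold D3
  rw [Matrix.trace_diagonal, Fin.sum_univ_four]
  show a + a + a + 1 = 3 * a + 1
  ring

theorem D3_det (a : F) : (D3 a).det = a ^ 3 := by
  unfold D3
  rw [Matrix.det_diagonal, Fin.prod_univ_four]
  show a * a * a * 1 = a ^ 3
  ring

theorem D3_ne_scalar (a : F) (ha : a ≠ 1) (c : F) :
    D3 a ≠ c • (1 : Matrix (Fin 4) (Fin 4) F) := by
  intro h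
  have h0 : a = c := by
    have := congrFun (congrFun h 0) 0
    simpa [D3] using this
  have h3 : (1 : F) = c := by
    have := congrFun (congrFun h 3) 3
    simpa [D3] using this
  exact ha (h0.trans h3.symm)

/-- For `p ≡ 1 (mod 3)`, the element `diag(ω, ω, ω, 1)` of order 3 is not conjugate into the
normalizer. -/
theorem bad_three (P : PData R i) (h3 : (3 : F) ≠ 0) (ω : F) (hω : ω ^ 2 + ω + 1 = 0) :
    ¬ (∀ x ∈ Cfsg.Geo.specialLinear (Fin 4) F,
      (∃ z : F, ((x ^ 3 : GL (Fin 4) F) : Matrix (Fin 4) (Fin 4) F) =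
        z • (1 : Matrix (Fin 4) (Fin 4) F)) →
      (∀ z : F, (x : Matrix (Fin 4) (Fin 4) F) ≠ z • (1 : Matrix (Fin 4) (Fin 4) F)) →
      ∃ g ∈ Cfsg.Geo.specialLinear (Fin 4) F,
        g⁻¹ * x * g ∈ Cfsg.Geo.subgroupNormalizer R) := by
  intro hall
  have hω3 : ω ^ 3 = 1 := by linear_combination (ω - 1) * hω
  have hω1 : ω ≠ 1 := by
    intro h
    rw [h] at hω
    apply h3
    linear_combination hω
  have hinv : D3 ω * D3 (ω ^ 2) = 1 := by
    have e : ω * ω ^ 2 = 1 := by linear_combination hω3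
    rw [D3_mul, e, D3_one]
  obtain ⟨x, hxv, hxi⟩ : ∃ x : GL (Fin 4) F, x.val = D3 ω ∧ (x⁻¹).val = D3 (ω ^ 2) :=
    ⟨gl (D3 ω) (D3 (ω ^ 2)) hinv, rfl, rfl⟩
  have hx3 : x ^ 3 = 1 := by
    apply Units.ext
    have e : ω * ω * ω = 1 := by linear_combination hω3
    rw [Units.val_pow_eq_pow_val, hxv, Units.val_one, pow_succ, pow_two, D3_mul, D3_mul, e,
      D3_one]
  have hxSL : x ∈ Cfsg.Geo.specialLinear (Fin 4) F := by
    rw [mem_SL_iff, hxv, D3_det, hω3]
  have hns : ∀ z : F, x.val ≠ z • (1 : Matrix (Fin 4) (Fin 4) F) := by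
    intro z
    rw [hxv]
    exact D3_ne_scalar ω hω1 z
  obtain ⟨g, -, hg⟩ := hall x hxSL ⟨1, by rw [hx3, Units.val_one, one_smul]⟩ hns
  have hn3 := conj_pow_one x g 3 hx3
  have hnns := conj_nonscalar x g hns
  have htr := trace_three P (g⁻¹ * x * g) hg hn3 hnns
  rw [conj_trace, conj_inv_trace, hxv, hxi, D3_trace, D3_trace] at htr
  have e7 : (3 * ω + 1) * (3 * ω ^ 2 + 1) = 7 := by linear_combination 9 * hω3 + 3 * hω
  rw [e7] at htr
  rcases htr with h | h
  · have h6 : (2 : F) * 3 = 0 := by linear_combination h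
    rcases mul_eq_zero.mp h6 with h' | h'
    · exact P.two h'
    · exact h3 h'
  · apply h3
    linear_combination h

/-- Block-diagonal matrices with a `2 × 2` block and an identity block. -/
def Bl (a b c d : F) : Matrix (Fin 4) (Fin 4) F := !![a,b,0,0; c,d,0,0; 0,0,1,0; 0,0,0,1]

theorem Bl_mul (a b c d a' b' c' d' : F) :
    Bl a b c d * Bl a' b' c' d' =
      Bl (a * a' + b * c') (a * b' + b * d') (c * a' + d * c') (c * b' + d * d') := by
  ext k l
  fin_cases k <;> fin_cases l <;> simp [Bl, Matrix.mul_apply, Fin.sum_univ_four]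

theorem Bl_one : Bl (1 : F) 0 0 1 = 1 := by
  ext k l
  fin_cases k <;> fin_cases l <;> simp [Bl]

theorem Bl_congr {a b c d a' b' c' d' : F} (h1 : a = a') (h2 : b = b') (h3 : c = c')
    (h4 : d = d') : Bl a b c d = Bl a' b' c' d' := by
  rw [h1, h2, h3, h4]

theorem Bl_trace (a b c d : F) : Matrix.trace (Bl a b c d) = a + d + 2 := by
  rw [Matrix.trace, Fin.sum_univ_four]
  show a + d + 1 + 1 = a + d + 2
  ring

theorem Bl_det (a b c d : F) : (Bl a b c d).det = a * d - b * c := by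
  have e : Fin.succAbove (1 : Fin 4) (2 : Fin 3) = 3 := rfl
  simp [Bl, Matrix.det_succ_row_zero, Fin.sum_univ_succ, e]
  ring

/-- For `p ≡ ±1 (mod 5)`, an element of order 5 with a two-dimensional fixed space is not
conjugate into the normalizer. -/
theorem bad_five (P : PData R i) (h5 : (5 : F) ≠ 0) (t : F) (ht : t ^ 2 + t - 1 = 0) :
    ¬ (∀ x ∈ Cfsg.Geo.specialLinear (Fin 4) F,
      (∃ z : F, ((x ^ 5 : GL (Fin 4) F) : Matrix (Fin 4) (Fin 4) F) =
        z • (1 : Matrix (Fin 4) (Fin 4) F)) →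
      (∀ z : F, (x : Matrix (Fin 4) (Fin 4) F) ≠ z • (1 : Matrix (Fin 4) (Fin 4) F)) →
      ∃ g ∈ Cfsg.Geo.specialLinear (Fin 4) F,
        g⁻¹ * x * g ∈ Cfsg.Geo.subgroupNormalizer R) := by
  intro hall
  have hinv : Bl 0 (-1) 1 t * Bl t 1 (-1) 0 = 1 := by
    rw [Bl_mul, ← Bl_one]
    exact Bl_congr (by ring) (by ring) (by ring) (by ring)
  obtain ⟨x, hxv, hxi⟩ : ∃ x : GL (Fin 4) F, x.val = Bl 0 (-1) 1 t ∧
      (x⁻¹).val = Bl t 1 (-1) 0 := ⟨gl _ _ hinv, rfl, rfl⟩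
  have hx5 : x ^ 5 = 1 := by
    apply Units.ext
    rw [Units.val_one, Units.val_pow_eq_pow_val, hxv]
    have h2 : Bl 0 (-1) 1 t ^ 2 = Bl (-1) (-t) t (-t) := by
      rw [pow_two, Bl_mul]
      exact Bl_congr (by ring) (by ring) (by ring) (by linear_combination ht)
    have h4 : Bl 0 (-1) 1 t ^ 4 = Bl t 1 (-1) 0 := by
      have e : Bl 0 (-1) 1 t ^ 4 = (Bl 0 (-1) 1 t ^ 2) ^ 2 := pow_mul (Bl 0 (-1) 1 t) 2 2
      rw [e, h2, pow_two, Bl_mul]
      exact Bl_congr (by linear_combination -ht) (by linear_combination ht)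
        (by linear_combination -ht) (by ring)
    have e5 : Bl 0 (-1) 1 t ^ 5 = Bl 0 (-1) 1 t ^ 4 * Bl 0 (-1) 1 t :=
      pow_succ (Bl 0 (-1) 1 t) 4
    rw [e5, h4, Bl_mul, ← Bl_one]
    exact Bl_congr (by ring) (by ring) (by ring) (by ring)
  have hxSL : x ∈ Cfsg.Geo.specialLinear (Fin 4) F := by
    rw [mem_SL_iff, hxv, Bl_det]
    ring
  have hns : ∀ z : F, x.val ≠ z • (1 : Matrix (Fin 4) (Fin 4) F) := by
    intro z hz
    rw [hxv] at hz
    have h01 := congrFun (congrFun hz 0) 1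
    simp [Bl] at h01
  obtain ⟨g, -, hg⟩ := hall x hxSL ⟨1, by rw [hx5, Units.val_one, one_smul]⟩ hns
  have hn5 := conj_pow_one x g 5 hx5
  have hnns := conj_nonscalar x g hns
  have htr := (trace_five P (g⁻¹ * x * g) hg hn5 hnns).1
  rw [conj_trace, conj_inv_trace, hxv, hxi, Bl_trace, Bl_trace] at htr
  apply h5
  linear_combination (3 * t - 1) * htr - (3 * t + 8) * ht

/-- The transvections `1 + a E₀₁`. -/
def Tv (a : F) : Matrix (Fin 4) (Fin 4) F := Matrix.transvection 0 1 a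

theorem Tv_mul (a b : F) : Tv a * Tv b = Tv (a + b) := by
  unfold Tv
  have h01 : (0 : Fin 4) ≠ 1 := by decide
  rw [Matrix.transvection_mul_transvection_same 0 1 h01]

theorem Tv_zero : Tv (0 : F) = 1 := by
  unfold Tv
  rw [Matrix.transvection_zero]

theorem Tv_det (a : F) : (Tv a).det = 1 := by
  unfold Tv
  rw [Matrix.det_transvection_of_ne _ _ (by decide)]

theorem Tv_eq (a : F) : Tv a = 1 + Matrix.single 0 1 a := rfl

theorem single_sq (a b : F) :
    (Matrix.single 0 1 a : Matrix (Fin 4) (Fin 4) F) * Matrix.single 0 1 b = 0 := by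
  have h10 : (1 : Fin 4) ≠ 0 := by decide
  rw [Matrix.single_mul_single_of_ne a 0 1 0 h10]

theorem unip_trace (P : PData R i) (n : GL (Fin 4) F)
    (hn : n ∈ Cfsg.Geo.subgroupNormalizer R) (hn5 : n ^ 5 = 1)
    (E : Matrix (Fin 4) (Fin 4) F) (hE : E * E = 0) (hnE : n.val = 1 + E)
    (c : GL (Fin 4) F) (hc : c ∈ R) (hcomm : n * c ≠ c * n) :
    Matrix.trace (c.val * E * (c⁻¹).val * E) = 4 := by
  have hni : (n⁻¹).val = 1 - E := by
    have h1 : n.val * (1 - E) = 1 := by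
      have e : (1 + E) * (1 - E) = 1 - E * E := by noncomm_ring
      rw [hnE, e, hE, sub_zero]
    calc (n⁻¹).val = (n⁻¹).val * (n.val * (1 - E)) := by rw [h1, Matrix.mul_one]
      _ = 1 - E := by rw [← Matrix.mul_assoc, Units.inv_mul, Matrix.one_mul]
  have h0 := term_ncomm P n hn 5 (by norm_num) (by norm_num) hn5 c hc hcomm
  rw [hnE, hni] at h0
  have hCC : c.val * (c⁻¹).val = 1 := Units.mul_inv c
  have hCC' : (c⁻¹).val * c.val = 1 := Units.inv_mul c
  have e1 : c.val * (1 + E) * (c⁻¹).val * (1 - E) =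
      1 - E + c.val * E * (c⁻¹).val - c.val * E * (c⁻¹).val * E := by
    have e2 : c.val * (1 + E) * (c⁻¹).val = 1 + c.val * E * (c⁻¹).val := by
      rw [Matrix.mul_add, Matrix.mul_one, Matrix.add_mul, hCC]
    rw [e2]
    noncomm_ring
  have e3 : Matrix.trace (c.val * E * (c⁻¹).val) = Matrix.trace E := by
    rw [Matrix.trace_mul_comm, ← Matrix.mul_assoc, hCC', Matrix.one_mul]
  rw [e1, Matrix.trace_sub, Matrix.trace_add, Matrix.trace_sub, Matrix.trace_one,
    Fintype.card_fin, e3] at h0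
  have e4 : ((4 : ℕ) : F) = 4 := by norm_num
  rw [e4] at h0
  linear_combination -h0

/-- A non-scalar unipotent element `1 + E`, `E² = 0`, of order 5 cannot normalize `R`. -/
theorem unip_false (P : PData R i) (h3 : (3 : F) ≠ 0) (n : GL (Fin 4) F)
    (hn : n ∈ Cfsg.Geo.subgroupNormalizer R) (hn5 : n ^ 5 = 1)
    (E : Matrix (Fin 4) (Fin 4) F) (hE : E * E = 0) (hnE : n.val = 1 + E)
    (hns : ∀ c : F, n.val ≠ c • (1 : Matrix (Fin 4) (Fin 4) F)) : False := by
  obtain ⟨c, hc, hcns⟩ := exists_nonscalar P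
  have hcent := (trace_five P n hn hn5 hns).2
  have hcomm1 : n * c ≠ c * n := fun h => by
    obtain ⟨a, ha⟩ := hcent c hc h
    exact hcns a ha
  have h6 : n ^ 6 = n := by rw [pow_succ, hn5, one_mul]
  have h6' : (n ^ 2) ^ 3 = n := by
    have e : (n ^ 2) ^ 3 = n ^ 6 := (pow_mul n 2 3).symm
    rw [e, h6]
  have hcomm2 : n ^ 2 * c ≠ c * n ^ 2 := by
    intro h
    apply hcomm1
    have hc2 : Commute (n ^ 2) c := h
    have h7 : (n ^ 2) ^ 3 * c = c * (n ^ 2) ^ 3 := (hc2.pow_left 3).eq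
    rw [h6'] at h7
    exact h7
  have hn2 : n ^ 2 ∈ Cfsg.Geo.subgroupNormalizer R := Subgroup.pow_mem _ hn 2
  have hn25 : (n ^ 2) ^ 5 = 1 := by
    rw [← pow_mul, mul_comm, pow_mul, hn5, one_pow]
  have hE2 : (E + E) * (E + E) = 0 := by
    simp only [Matrix.mul_add, Matrix.add_mul, hE, add_zero]
  have hnE2 : (n ^ 2).val = 1 + (E + E) := by
    have e : (1 + E) * (1 + E) = 1 + (E + E) + E * E := by noncomm_ring
    rw [Units.val_pow_eq_pow_val, hnE, pow_two, e, hE, add_zero]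
  have t1 := unip_trace P n hn hn5 E hE hnE c hc hcomm1
  have t2 := unip_trace P (n ^ 2) hn2 hn25 (E + E) hE2 hnE2 c hc hcomm2
  have e : c.val * (E + E) * (c⁻¹).val * (E + E) =
      c.val * E * (c⁻¹).val * E + c.val * E * (c⁻¹).val * E +
        (c.val * E * (c⁻¹).val * E + c.val * E * (c⁻¹).val * E) := by
    noncomm_ring
  rw [e, Matrix.trace_add, Matrix.trace_add, t1] at t2
  have h12 : (2 : F) * 2 * 3 = 0 := by linear_combination t2
  rcases mul_eq_zero.mp h12 with h' | h'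
  · rcases mul_eq_zero.mp h' with h'' | h''
    · exact P.two h''
    · exact P.two h''
  · exact h3 h'

/-- In characteristic 5, transvections (of order 5) are not conjugate into the normalizer. -/
theorem bad_five_char (P : PData R i) (h3 : (3 : F) ≠ 0) (h5 : (5 : F) = 0) :
    ¬ (∀ x ∈ Cfsg.Geo.specialLinear (Fin 4) F,
      (∃ z : F, ((x ^ 5 : GL (Fin 4) F) : Matrix (Fin 4) (Fin 4) F) =
        z • (1 : Matrix (Fin 4) (Fin 4) F)) →
      (∀ z : F, (x : Matrix (Fin 4) (Fin 4) F) ≠ z • (1 : Matrix (Fin 4) (Fin 4) F)) →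
      ∃ g ∈ Cfsg.Geo.specialLinear (Fin 4) F,
        g⁻¹ * x * g ∈ Cfsg.Geo.subgroupNormalizer R) := by
  intro hall
  have hinv : Tv (1 : F) * Tv (-1) = 1 := by
    rw [Tv_mul, add_neg_cancel, Tv_zero]
  obtain ⟨x, hxv⟩ : ∃ x : GL (Fin 4) F, x.val = Tv (1 : F) := ⟨gl _ _ hinv, rfl⟩
  have hx5 : x ^ 5 = 1 := by
    apply Units.ext
    rw [Units.val_one, Units.val_pow_eq_pow_val, hxv]
    have h2 : Tv (1 : F) ^ 2 = Tv (1 + 1) := by
      rw [pow_two, Tv_mul]
    have h4 : Tv (1 : F) ^ 4 = Tv (1 + 1 + (1 + 1)) := by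
      have e : Tv (1 : F) ^ 4 = (Tv (1 : F) ^ 2) ^ 2 := pow_mul (Tv (1 : F)) 2 2
      rw [e, h2, pow_two, Tv_mul]
    have e5 : Tv (1 : F) ^ 5 = Tv (1 : F) ^ 4 * Tv (1 : F) := pow_succ (Tv (1 : F)) 4
    have e0 : (1 + 1 + (1 + 1) + 1 : F) = 0 := by linear_combination h5
    rw [e5, h4, Tv_mul, e0, Tv_zero]
  have hxSL : x ∈ Cfsg.Geo.specialLinear (Fin 4) F := by
    rw [mem_SL_iff, hxv, Tv_det]
  have hns : ∀ z : F, x.val ≠ z • (1 : Matrix (Fin 4) (Fin 4) F) := by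
    intro z hz
    rw [hxv] at hz
    have h01 := congrFun (congrFun hz 0) 1
    simp [Tv, Matrix.transvection] at h01
  obtain ⟨g, -, hg⟩ := hall x hxSL ⟨1, by rw [hx5, Units.val_one, one_smul]⟩ hns
  have hn5 := conj_pow_one x g 5 hx5
  have hnns := conj_nonscalar x g hns
  apply unip_false P h3 (g⁻¹ * x * g) hg hn5 ((g⁻¹).val * Matrix.single 0 1 1 * g.val) ?_ ?_ hnns
  · have e : (g⁻¹).val * Matrix.single 0 1 1 * g.val * ((g⁻¹).val * Matrix.single 0 1 1 * g.val) =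
        (g⁻¹).val * (Matrix.single 0 1 1 * (g.val * (g⁻¹).val) * Matrix.single 0 1 1) * g.val := by
      simp only [Matrix.mul_assoc]
    rw [e, Units.mul_inv, Matrix.mul_one, single_sq, Matrix.mul_zero, Matrix.zero_mul]
  · rw [Units.val_mul, Units.val_mul, hxv, Tv_eq, Matrix.mul_add, Matrix.add_mul, Matrix.mul_one,
      Units.inv_mul]

/-- For a prime `r ≥ 7` dividing the index, some element of order `r` is not conjugate into
the normalizer. -/
theorem bad_ge_seven [Fintype F] (P : PData R i) (r : ℕ) [Fact r.Prime] (hr7 : 7 ≤ r)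
    (hΩ : r ∣ (Cfsg.Geo.subgroupNormalizer R).relIndex (Cfsg.Geo.specialLinear (Fin 4) F)) :
    ¬ (∀ x ∈ Cfsg.Geo.specialLinear (Fin 4) F,
      (∃ z : F, ((x ^ r : GL (Fin 4) F) : Matrix (Fin 4) (Fin 4) F) =
        z • (1 : Matrix (Fin 4) (Fin 4) F)) →
      (∀ z : F, (x : Matrix (Fin 4) (Fin 4) F) ≠ z • (1 : Matrix (Fin 4) (Fin 4) F)) →
      ∃ g ∈ Cfsg.Geo.specialLinear (Fin 4) F,
        g⁻¹ * x * g ∈ Cfsg.Geo.subgroupNormalizer R) := by
  classical
  intro hall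
  have hrp : r.Prime := Fact.out
  have hdvd : r ∣ Nat.card ↥(Cfsg.Geo.specialLinear (Fin 4) F) :=
    dvd_trans hΩ (Subgroup.relIndex_dvd_card _ _)
  obtain ⟨x, hx⟩ := exists_prime_orderOf_dvd_card' r hdvd
  have hxr : (x : GL (Fin 4) F) ^ r = 1 := by
    have h1 : x ^ r = 1 := by rw [← hx]; exact pow_orderOf_eq_one x
    have h2 := congrArg Subtype.val h1
    rw [Subgroup.coe_pow, Subgroup.coe_one] at h2
    exact h2
  have hx1 : (x : GL (Fin 4) F) ≠ 1 := by
    intro h1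
    have h4 : x = 1 := Subtype.ext h1
    rw [h4, orderOf_one] at hx
    have := hrp.one_lt
    omega
  have hns : ∀ z : F, ((x : GL (Fin 4) F) : Matrix (Fin 4) (Fin 4) F) ≠
      z • (1 : Matrix (Fin 4) (Fin 4) F) := by
    intro z hz
    have hd : ((x : GL (Fin 4) F) : Matrix (Fin 4) (Fin 4) F).det = 1 := (mem_SL_iff _).1 x.2
    rw [hz, Matrix.det_smul, Matrix.det_one, Fintype.card_fin, mul_one] at hd
    have hzr : z ^ r = 1 := by
      have h1 := congrArg (fun u : GL (Fin 4) F => (u : Matrix (Fin 4) (Fin 4) F)) hxr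
      simp only [Units.val_pow_eq_pow_val, Units.val_one] at h1
      rw [hz, smul_pow, one_pow] at h1
      have h2 := congrFun (congrFun h1 0) 0
      simpa using h2
    have hcop : Nat.gcd 4 r = 1 := by
      have h2r : Nat.Coprime 2 r := (Nat.coprime_primes Nat.prime_two hrp).2 (by omega)
      have h4r : Nat.Coprime (2 ^ 2) r := Nat.Coprime.pow_left 2 h2r
      exact h4r
    have ho : orderOf z ∣ 1 := by
      rw [← hcop]
      exact Nat.dvd_gcd (orderOf_dvd_of_pow_eq_one hd) (orderOf_dvd_of_pow_eq_one hzr)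
    have hz1 : z = 1 := orderOf_eq_one_iff.mp (Nat.dvd_one.mp ho)
    apply hx1
    apply Units.ext
    rw [hz, hz1, one_smul, Units.val_one]
  obtain ⟨g', -, hconj⟩ := hall x x.2 ⟨1, by rw [hxr, Units.val_one, one_smul]⟩ hns
  have hy := conj_pow_one (x : GL (Fin 4) F) g' r hxr
  obtain ⟨ξ, hξ⟩ := scalar_of_ge_seven P (g'⁻¹ * (x : GL (Fin 4) F) * g') hconj r hr7 hy
  exact conj_nonscalar (x : GL (Fin 4) F) g' hns ξ hξ

end std

end Cfsg.Agent.Lib.Helper37.Pauli4E
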