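import Mathlib
import Cfsg.Agent.Lib.Helper37.Pauli4D
import Cfsg.Agent.Lib.Helper40.HermAdj
import Cfsg.Agent.Lib.Helper40.UnitDet

/-!
# Characteristic polynomials of unitary `4 × 4` matrices of orders `2`, `3`, `5`

Three-factor versions of the results of `Pauli4D`, the trace of the inverse of a matrix from its
characteristic polynomial, and the resulting shapes of the characteristic polynomials of unitary
matrices of orders `3` and `5`.
-/

set_option autoImplicit false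

namespace Cfsg.Agent.Lib.Helper37.Pauli4F

open Polynomial Cfsg.Agent.Lib.Helper37.Pauli4D Cfsg.Agent.Lib.Helper40.HermAdj

variable {F : Type*} [Field F]

/-! ### Three irreducible factors -/

theorem factor_form3 (p₁ p₂ p₃ : F[X]) (hp₁ : p₁.Monic) (hp₂ : p₂.Monic) (hp₃ : p₃.Monic) :
    ∀ (d : ℕ) (χ : F[X]), χ.natDegree = d → χ.Monic →
      (∀ f : F[X], Irreducible f → f.Monic → f ∣ χ → f = p₁ ∨ f = p₂ ∨ f = p₃) →
      ∃ a b c : ℕ, χ = p₁ ^ a * p₂ ^ b * p₃ ^ c := by
  intro d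
  induction d using Nat.strong_induction_on with
  | _ d ih =>
    intro χ hd hχ hall
    by_cases h1 : χ = 1
    · exact ⟨0, 0, 0, by rw [h1, pow_zero, pow_zero, pow_zero, one_mul, one_mul]⟩
    · have hnu : ¬ IsUnit χ := fun hu => h1 (hχ.isUnit_iff.mp hu)
      obtain ⟨f, hf, hfd⟩ := WfDvdMonoid.exists_irreducible_factor hnu hχ.ne_zero
      have hf0 : f ≠ 0 := hf.ne_zero
      have hu : IsUnit (C (f.leadingCoeff)⁻¹) := by
        rw [Polynomial.isUnit_C]
        exact IsUnit.mk0 _ (inv_ne_zero (leadingCoeff_ne_zero.mpr hf0))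
      have hf'm : (f * C (f.leadingCoeff)⁻¹).Monic := monic_mul_leadingCoeff_inv hf0
      have hf'i : Irreducible (f * C (f.leadingCoeff)⁻¹) :=
        irreducible_mul_leadingCoeff_inv.mpr hf
      have hf'd : f * C (f.leadingCoeff)⁻¹ ∣ χ := (IsUnit.mul_right_dvd hu).mpr hfd
      have step : ∀ p : F[X], p.Monic → Irreducible p → p ∣ χ →
          ∃ χ' : F[X], χ = p * χ' ∧ ∃ a b c : ℕ, χ' = p₁ ^ a * p₂ ^ b * p₃ ^ c := by
        intro p hpm hpi hpd
        obtain ⟨χ', hχ'⟩ := hpd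
        have hχ'm : χ'.Monic := hpm.of_mul_monic_left (by rw [← hχ']; exact hχ)
        have hdeg : χ.natDegree = p.natDegree + χ'.natDegree := by
          rw [hχ', Monic.natDegree_mul hpm hχ'm]
        have hpos := hpi.natDegree_pos
        have hlt : χ'.natDegree < d := by omega
        refine ⟨χ', hχ', ih _ hlt χ' rfl hχ'm ?_⟩
        intro f' hf'irr hf'mon hf'dvd
        exact hall f' hf'irr hf'mon (by rw [hχ']; exact Dvd.dvd.mul_left hf'dvd p)
      rcases hall _ hf'i hf'm hf'd with h | h | h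
      · rw [h] at hf'd hf'i
        obtain ⟨χ', hχ', a, b, c, hab⟩ := step p₁ hp₁ hf'i hf'd
        exact ⟨a + 1, b, c, by rw [hχ', hab, pow_succ]; ring⟩
      · rw [h] at hf'd hf'i
        obtain ⟨χ', hχ', a, b, c, hab⟩ := step p₂ hp₂ hf'i hf'd
        exact ⟨a, b + 1, c, by rw [hχ', hab, pow_succ]; ring⟩
      · rw [h] at hf'd hf'i
        obtain ⟨χ', hχ', a, b, c, hab⟩ := step p₃ hp₃ hf'i hf'd
        exact ⟨a, b, c + 1, by rw [hχ', hab, pow_succ]; ring⟩

theorem charpoly_form3 (A : Matrix (Fin 4) (Fin 4) F) (g p₁ p₂ p₃ : F[X]) (hg : aeval A g = 0)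
    (hp₁ : p₁.Monic) (hp₂ : p₂.Monic) (hp₃ : p₃.Monic)
    (hdiv : ∀ f : F[X], Irreducible f → f.Monic → f ∣ g → f = p₁ ∨ f = p₂ ∨ f = p₃) :
    ∃ a b c : ℕ, A.charpoly = p₁ ^ a * p₂ ^ b * p₃ ^ c ∧
      a * p₁.natDegree + b * p₂.natDegree + c * p₃.natDegree = 4 ∧
      Matrix.trace A =
        -((a : F) * p₁.nextCoeff + (b : F) * p₂.nextCoeff + (c : F) * p₃.nextCoeff) := by
  obtain ⟨a, b, c, hab⟩ := factor_form3 p₁ p₂ p₃ hp₁ hp₂ hp₃ _ A.charpoly rfl
    (Matrix.charpoly_monic A)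
    (fun f hf hfm hfd => hdiv f hf hfm (irred_dvd_of_aeval A g f hg hf hfd))
  refine ⟨a, b, c, hab, ?_, ?_⟩
  · have h1 := Matrix.charpoly_natDegree_eq_dim A
    rw [hab, Monic.natDegree_mul ((hp₁.pow a).mul (hp₂.pow b)) (hp₃.pow c),
      Monic.natDegree_mul (hp₁.pow a) (hp₂.pow b), Monic.natDegree_pow hp₁,
      Monic.natDegree_pow hp₂, Monic.natDegree_pow hp₃, Fintype.card_fin] at h1
    exact h1
  · rw [Matrix.trace_eq_neg_charpoly_nextCoeff, hab,
      Monic.nextCoeff_mul ((hp₁.pow a).mul (hp₂.pow b)) (hp₃.pow c),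
      Monic.nextCoeff_mul (hp₁.pow a) (hp₂.pow b), Monic.nextCoeff_pow hp₁,
      Monic.nextCoeff_pow hp₂, Monic.nextCoeff_pow hp₃, nsmul_eq_mul, nsmul_eq_mul, nsmul_eq_mul]

theorem form_of_three_irred (A : Matrix (Fin 4) (Fin 4) F) (p₁ p₂ p₃ : F[X]) (hp₁ : p₁.Monic)
    (hp₂ : p₂.Monic) (hp₃ : p₃.Monic) (hi₁ : Irreducible p₁) (hi₂ : Irreducible p₂)
    (hi₃ : Irreducible p₃) (hg : aeval A (p₁ * p₂ * p₃) = 0) :
    ∃ a b c : ℕ, A.charpoly = p₁ ^ a * p₂ ^ b * p₃ ^ c ∧
      a * p₁.natDegree + b * p₂.natDegree + c * p₃.natDegree = 4 ∧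
      Matrix.trace A =
        -((a : F) * p₁.nextCoeff + (b : F) * p₂.nextCoeff + (c : F) * p₃.nextCoeff) := by
  apply charpoly_form3 A (p₁ * p₂ * p₃) p₁ p₂ p₃ hg hp₁ hp₂ hp₃
  intro f hf hfm hfd
  rcases hf.prime.dvd_or_dvd hfd with h | h
  · rcases hf.prime.dvd_or_dvd h with h' | h'
    · left
      exact eq_of_monic_of_associated hfm hp₁ (hf.associated_of_dvd hi₁ h')
    · right
      left
      exact eq_of_monic_of_associated hfm hp₂ (hf.associated_of_dvd hi₂ h')
  · right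
    right
    exact eq_of_monic_of_associated hfm hp₃ (hf.associated_of_dvd hi₃ h)

/-! ### The trace of the inverse -/

/-- The logarithmic derivative at `0`. -/
noncomputable def logd (f : F[X]) : F := f.coeff 1 / f.coeff 0

theorem logd_mul (f g : F[X]) (hf : f.coeff 0 ≠ 0) (hg : g.coeff 0 ≠ 0) :
    logd (f * g) = logd f + logd g := by
  unfold logd
  rw [mul_coeff_zero, mul_coeff_one, div_add_div _ _ hf hg]
  congr 1
  ring

theorem coeff_zero_pow' (f : F[X]) (k : ℕ) : (f ^ k).coeff 0 = f.coeff 0 ^ k := by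
  rw [coeff_zero_eq_eval_zero, eval_pow, ← coeff_zero_eq_eval_zero]

theorem logd_pow (f : F[X]) (hf : f.coeff 0 ≠ 0) (k : ℕ) : logd (f ^ k) = (k : F) * logd f := by
  induction k with
  | zero =>
    unfold logd
    simp [coeff_one]
  | succ k ih =>
    rw [pow_succ, logd_mul _ _ (by rw [coeff_zero_pow']; exact pow_ne_zero _ hf) hf, ih]
    push_cast
    ring

theorem logd_form3 (p₁ p₂ p₃ : F[X]) (h₁ : p₁.coeff 0 ≠ 0) (h₂ : p₂.coeff 0 ≠ 0)
    (h₃ : p₃.coeff 0 ≠ 0) (a b c : ℕ) :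
    (p₁ ^ a * p₂ ^ b * p₃ ^ c).coeff 0 ≠ 0 ∧
      logd (p₁ ^ a * p₂ ^ b * p₃ ^ c) =
        (a : F) * logd p₁ + (b : F) * logd p₂ + (c : F) * logd p₃ := by
  have e₁ : (p₁ ^ a).coeff 0 ≠ 0 := by
    rw [coeff_zero_pow']
    exact pow_ne_zero _ h₁
  have e₂ : (p₂ ^ b).coeff 0 ≠ 0 := by
    rw [coeff_zero_pow']
    exact pow_ne_zero _ h₂
  have e₃ : (p₃ ^ c).coeff 0 ≠ 0 := by
    rw [coeff_zero_pow']
    exact pow_ne_zero _ h₃
  have e₁₂ : (p₁ ^ a * p₂ ^ b).coeff 0 ≠ 0 := by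
    rw [mul_coeff_zero]
    exact mul_ne_zero e₁ e₂
  refine ⟨by rw [mul_coeff_zero]; exact mul_ne_zero e₁₂ e₃, ?_⟩
  rw [logd_mul _ _ e₁₂ e₃, logd_mul _ _ e₁ e₂, logd_pow _ h₁, logd_pow _ h₂, logd_pow _ h₃]

theorem coeff_zero_X_sub_C (c : F) : (X - C c : F[X]).coeff 0 = -c := by
  simp

theorem logd_X_sub_C (c : F) : logd (X - C c) = -c⁻¹ := by
  unfold logd
  rw [coeff_zero_X_sub_C]
  have e : (X - C c : F[X]).coeff 1 = 1 := by
    simp [coeff_X]
  rw [e, one_div, inv_neg]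

theorem coeff_one_charpoly (A B : Matrix (Fin 4) (Fin 4) F) (hAB : A * B = 1) :
    A.charpoly.coeff 1 = -(A.charpoly.coeff 0 * Matrix.trace B) := by
  have hBA : B * A = 1 := mul_eq_one_comm.mp hAB
  have hBu : IsUnit B := IsUnit.of_mul_eq_one A hBA
  have hinv : B⁻¹ = A := Matrix.inv_eq_right_inv hBA
  have h1 := Matrix.charpoly_inv B hBu
  rw [hinv, Fintype.card_fin] at h1
  have e : ((-1 : F[X]) ^ 4) = 1 := by norm_num
  rw [h1, e, one_mul, coeff_C_mul, coeff_C_mul, Matrix.coeff_charpolyRev_eq_neg_trace,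
    coeff_zero_eq_eval_zero, Matrix.eval_charpolyRev]
  ring

/-- The trace of the inverse of a matrix, from its characteristic polynomial. -/
theorem trace_inv_eq (A B : Matrix (Fin 4) (Fin 4) F) (hAB : A * B = 1)
    (h0 : A.charpoly.coeff 0 ≠ 0) : Matrix.trace B = -logd A.charpoly := by
  unfold logd
  rw [coeff_one_charpoly A B hAB, neg_div, neg_neg, mul_div_cancel_left₀ _ h0]

/-! ### The adjoint -/

theorem trace_adj (φ : F →+* F) (M : Matrix (Fin 4) (Fin 4) F) :
    Matrix.trace (adj φ M) = φ (Matrix.trace M) := by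
  simp only [Matrix.trace, Matrix.diag_apply, adj_apply, map_sum]

theorem adj_smul (φ : F →+* F) (c : F) (M : Matrix (Fin 4) (Fin 4) F) :
    adj φ (c • M) = φ c • adj φ M := by
  ext k l
  simp [adj_apply]

theorem adj_neg (φ : F →+* F) (M : Matrix (Fin 4) (Fin 4) F) : adj φ (-M) = -adj φ M := by
  ext k l
  simp [adj_apply]

theorem adj_pow (φ : F →+* F) (M : Matrix (Fin 4) (Fin 4) F) (k : ℕ) :
    adj φ (M ^ k) = adj φ M ^ k := by
  induction k with
  | zero => rw [pow_zero, pow_zero, adj_one]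
  | succ k ih => rw [pow_succ, adj_mul, ih, pow_succ']

/-! ### Small casts -/

theorem cast_inj_even (h2 : (2 : F) ≠ 0) (a a' : ℕ) (ha : a ≤ 4) (ha' : a' ≤ 4)
    (hpar : a % 2 = a' % 2) (h : (a : F) = (a' : F)) : a = a' := by
  have h4 : (4 : F) ≠ 0 := by
    intro h
    have h' : (2 : F) * 2 = 0 := by linear_combination h
    rcases mul_eq_zero.mp h' with h'' | h'' <;> exact h2 h''
  have key : ∀ (u d : ℕ), d ≤ 4 → d % 2 = 0 → (u : F) = ((u + d : ℕ) : F) → d = 0 := by
    intro u d hd hd2 hud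
    have h5 : (d : F) = 0 := by
      push_cast at hud
      linear_combination -hud
    interval_cases d
    · rfl
    · omega
    · exfalso
      push_cast at h5
      exact h2 h5
    · omega
    · exfalso
      push_cast at h5
      exact h4 h5
  rcases le_total a a' with hle | hle
  · obtain ⟨d, rfl⟩ := Nat.exists_eq_add_of_le hle
    have := key a d (by omega) (by omega) h
    omega
  · obtain ⟨d, rfl⟩ := Nat.exists_eq_add_of_le hle
    have := key a' d (by omega) (by omega) h.symm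
    omega

theorem cast_inj_two (h2 : (2 : F) ≠ 0) (a a' : ℕ) (ha : a ≤ 2) (ha' : a' ≤ 2)
    (h : (a : F) = (a' : F)) : a = a' := by
  have key : ∀ (u d : ℕ), d ≤ 2 → (u : F) = ((u + d : ℕ) : F) → d = 0 := by
    intro u d hd hud
    have h5 : (d : F) = 0 := by
      push_cast at hud
      linear_combination -hud
    interval_cases d
    · rfl
    · exfalso
      push_cast at h5
      exact one_ne_zero h5
    · exfalso
      push_cast at h5
      exact h2 h5
  rcases le_total a a' with hle | hle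
  · obtain ⟨d, rfl⟩ := Nat.exists_eq_add_of_le hle
    have := key a d (by omega) h
    omega
  · obtain ⟨d, rfl⟩ := Nat.exists_eq_add_of_le hle
    have := key a' d (by omega) h.symm
    omega

/-! ### Involutions -/

theorem sq_type (y : Matrix (Fin 4) (Fin 4) F) (hy : y ^ 2 = 1) :
    ∃ a b : ℕ, y.charpoly = (X - C (1 : F)) ^ a * (X - C (-1 : F)) ^ b ∧ a + b = 4 ∧
      Matrix.trace y = (a : F) - (b : F) ∧ y.det = (-1 : F) ^ b := by
  obtain ⟨a, b, hab, hdeg, htr⟩ := form_sq y hy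
  refine ⟨a, b, hab, by omega, htr, ?_⟩
  rw [Matrix.det_eq_sign_charpoly_coeff, hab, Fintype.card_fin, coeff_zero_eq_eval_zero]
  simp only [eval_mul, eval_pow, eval_sub, eval_X, eval_C]
  have ha : a = 4 - b := by omega
  have hb : b ≤ 4 := by omega
  subst ha
  interval_cases b <;> norm_num

theorem neg_one_pow_parity (h2 : (2 : F) ≠ 0) (b b' : ℕ) (h : (-1 : F) ^ b = (-1 : F) ^ b') :
    b % 2 = b' % 2 := by
  rcases Nat.even_or_odd b with hb | hb <;> rcases Nat.even_or_odd b' with hb' | hb'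
  · rw [Nat.even_iff] at hb hb'
    omega
  · exfalso
    rw [hb.neg_one_pow, hb'.neg_one_pow] at h
    apply h2
    linear_combination h
  · exfalso
    rw [hb.neg_one_pow, hb'.neg_one_pow] at h
    apply h2
    linear_combination -h
  · rw [Nat.odd_iff] at hb hb'
    omega

/-- Two involutions with the same trace and determinant have the same characteristic
polynomial (odd characteristic). -/
theorem sq_charpoly_eq (h2 : (2 : F) ≠ 0) (y n : Matrix (Fin 4) (Fin 4) F) (hy : y ^ 2 = 1)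
    (hn : n ^ 2 = 1) (ht : Matrix.trace y = Matrix.trace n) (hd : y.det = n.det) :
    y.charpoly = n.charpoly := by
  obtain ⟨a, b, hab, hdeg, htr, hdet⟩ := sq_type y hy
  obtain ⟨a', b', hab', hdeg', htr', hdet'⟩ := sq_type n hn
  rw [hdet, hdet'] at hd
  have hpar := neg_one_pow_parity h2 b b' hd
  rw [htr, htr'] at ht
  have e1 : (a : F) + (b : F) = 4 := by
    have := congrArg (Nat.cast : ℕ → F) hdeg
    push_cast at this
    exact this
  have e2 : (a' : F) + (b' : F) = 4 := by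
    have := congrArg (Nat.cast : ℕ → F) hdeg'
    push_cast at this
    exact this
  have e3 : (2 : F) * ((b : F) - (b' : F)) = 0 := by linear_combination -ht + e1 - e2
  have e4 : (b : F) = (b' : F) := by
    rcases mul_eq_zero.mp e3 with h | h
    · exact absurd h h2
    · exact sub_eq_zero.mp h
  have e5 : b = b' := cast_inj_even h2 b b' (by omega) (by omega) hpar e4
  have e6 : a = a' := by omega
  rw [hab, hab', e5, e6]

/-! ### Unitary elements of order three -/

/-- A unitary matrix of order `3`, when the cube roots of unity are fixed by the involution,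
has characteristic polynomial `(X - 1)^a (X² + X + 1)^b`. -/
theorem unitary_cube_form (φ : F →+* F) (ω : F) (hω : ω ^ 2 + ω + 1 = 0) (hφω : φ ω = ω)
    (h2 : (2 : F) ≠ 0) (h3 : (3 : F) ≠ 0)
    (y : Matrix (Fin 4) (Fin 4) F) (hyU : adj φ y * y = 1) (hy : y ^ 3 = 1) :
    ∃ a b : ℕ, y.charpoly = (X - C (1 : F)) ^ a * (q3 F) ^ b ∧ a + 2 * b = 4 ∧
      Matrix.trace y = (a : F) - (b : F) := by
  have hω3 : ω ^ 3 = 1 := by linear_combination (ω - 1) * hω
  have hω0 : ω ≠ 0 := by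
    intro h
    rw [h] at hω3
    norm_num at hω3
  have hωne : ω - ω ^ 2 ≠ 0 := by
    intro h
    have h1 : ω = 1 := by
      have h4 : ω * (ω - 1) = 0 := by linear_combination -h
      rcases mul_eq_zero.mp h4 with h' | h'
      · exact absurd h' hω0
      · exact sub_eq_zero.mp h'
    rw [h1] at hω
    apply h3
    linear_combination hω
  have hW : (C ω : F[X]) ^ 2 + C ω + 1 = 0 := by
    rw [← C_pow, ← C_add, ← C_1, ← C_add, hω, C_0]
  have hg : aeval y ((X - C (1 : F)) * (X - C ω) * (X - C (ω ^ 2))) = 0 := by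
    have e : (X - C (1 : F)) * (X - C ω) * (X - C (ω ^ 2)) = X ^ 3 - 1 := by
      rw [C_pow, C_1]
      linear_combination (X - 1) * (C ω - 1 - X) * hW
    rw [e, map_sub, map_pow, aeval_X, map_one, hy, sub_self]
  obtain ⟨a, b, c, hab, hdeg, htr⟩ := form_of_three_irred y _ _ _ (monic_X_sub_C 1)
    (monic_X_sub_C ω) (monic_X_sub_C (ω ^ 2)) (irreducible_X_sub_C 1) (irreducible_X_sub_C ω)
    (irreducible_X_sub_C (ω ^ 2)) hg
  rw [natDegree_X_sub_C, natDegree_X_sub_C, natDegree_X_sub_C] at hdeg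
  rw [nextCoeff_X_sub_C, nextCoeff_X_sub_C, nextCoeff_X_sub_C] at htr
  have hyU' : y * adj φ y = 1 := mul_eq_one_comm.mp hyU
  have c1 : (X - C (1 : F) : F[X]).coeff 0 ≠ 0 := by
    rw [coeff_zero_X_sub_C]
    exact neg_ne_zero.mpr one_ne_zero
  have c2 : (X - C ω : F[X]).coeff 0 ≠ 0 := by
    rw [coeff_zero_X_sub_C]
    exact neg_ne_zero.mpr hω0
  have c3 : (X - C (ω ^ 2) : F[X]).coeff 0 ≠ 0 := by
    rw [coeff_zero_X_sub_C]
    exact neg_ne_zero.mpr (pow_ne_zero _ hω0)
  obtain ⟨hc0, hlog⟩ := logd_form3 _ _ _ c1 c2 c3 a b c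
  have ht2 := trace_inv_eq y (adj φ y) hyU' (by rw [hab]; exact hc0)
  have i1 : ω⁻¹ = ω ^ 2 := inv_eq_of_mul_eq_one_right (by linear_combination hω3)
  have i2 : (ω ^ 2)⁻¹ = ω := inv_eq_of_mul_eq_one_right (by linear_combination hω3)
  rw [trace_adj, hab, hlog, logd_X_sub_C, logd_X_sub_C, logd_X_sub_C, inv_one, i1, i2, htr] at ht2
  simp only [map_neg, map_add, map_mul, map_natCast, map_one, map_pow, hφω] at ht2
  have hbc : ((b : F) - (c : F)) * (ω - ω ^ 2) = 0 := by linear_combination ht2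
  have hbc' : (b : F) = (c : F) := by
    rcases mul_eq_zero.mp hbc with h | h
    · exact sub_eq_zero.mp h
    · exact absurd h hωne
  have hbc'' : b = c := cast_inj_small h2 h3 b c (by omega) (by omega) hbc'
  subst hbc''
  refine ⟨a, b, ?_, by omega, ?_⟩
  · have e : (X - C ω) * (X - C (ω ^ 2)) = q3 F := by
      unfold q3
      rw [C_pow]
      linear_combination (C ω - 1 - X) * hW
    rw [hab, mul_assoc, ← mul_pow, e]
  · rw [htr]
    linear_combination (b : F) * hω

/-! ### Unitary elements of order five -/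

/-- The polynomial `X² - t X + 1`. -/
noncomputable def q5 (t : F) : F[X] := X ^ 2 - C t * X + 1

theorem q5_natDegree (t : F) : (q5 t).natDegree = 2 := by
  unfold q5
  compute_degree!

theorem q5_monic (t : F) : (q5 t).Monic := by
  unfold Monic leadingCoeff
  rw [q5_natDegree]
  unfold q5
  simp [coeff_X_pow, coeff_one]

theorem q5_nextCoeff (t : F) : (q5 t).nextCoeff = -t := by
  rw [nextCoeff_of_natDegree_pos (by rw [q5_natDegree]; norm_num), q5_natDegree]
  unfold q5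
  simp [coeff_X_pow, coeff_X, coeff_one]

theorem q5_coeff_zero (t : F) : (q5 t).coeff 0 = 1 := by
  unfold q5
  simp [coeff_X_pow, coeff_X, coeff_one]

theorem q5_coeff_one (t : F) : (q5 t).coeff 1 = -t := by
  unfold q5
  simp [coeff_X_pow, coeff_X, coeff_one]

theorem q5_logd (t : F) : logd (q5 t) = -t := by
  unfold logd
  rw [q5_coeff_zero, q5_coeff_one, div_one]

theorem q5_irreducible (t : F) (h : ∀ ζ : F, ζ ^ 2 - t * ζ + 1 ≠ 0) : Irreducible (q5 t) := by
  apply irreducible_of_degree_le_three_of_not_isRoot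
  · rw [q5_natDegree]
    decide
  · intro x hx
    apply h x
    unfold q5 at hx
    simpa [IsRoot] using hx

/-- A unitary matrix of order `5`, when the involution exchanges the two roots `t`, `-1 - t` of
`X² + X - 1` and there are no fifth roots of unity, has characteristic polynomial
`(X - 1)^a Φ₅^b`. -/
theorem unitary_five_form (φ : F →+* F) (t : F) (ht : t ^ 2 + t - 1 = 0) (hφt : φ t = -1 - t)
    (hirr₁ : ∀ ζ : F, ζ ^ 2 - t * ζ + 1 ≠ 0) (hirr₂ : ∀ ζ : F, ζ ^ 2 - (-1 - t) * ζ + 1 ≠ 0)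
    (h2 : (2 : F) ≠ 0) (htt : t - (-1 - t) ≠ 0)
    (y : Matrix (Fin 4) (Fin 4) F) (hyU : adj φ y * y = 1) (hy : y ^ 5 = 1) :
    ∃ a b : ℕ, y.charpoly = (X - C (1 : F)) ^ a * (q5 t * q5 (-1 - t)) ^ b ∧ a + 4 * b = 4 ∧
      Matrix.trace y = (a : F) - (b : F) := by
  have hT : (C t : F[X]) ^ 2 + C t - 1 = 0 := by
    rw [← C_pow, ← C_add, ← C_1, ← C_sub, ht, C_0]
  have hg : aeval y ((X - C (1 : F)) * q5 t * q5 (-1 - t)) = 0 := by
    have e : (X - C (1 : F)) * q5 t * q5 (-1 - t) = X ^ 5 - 1 := by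
      unfold q5
      rw [C_sub, C_neg, C_1]
      linear_combination (-(X - 1) * X ^ 2) * hT
    rw [e, map_sub, map_pow, aeval_X, map_one, hy, sub_self]
  obtain ⟨a, b, c, hab, hdeg, htr⟩ := form_of_three_irred y _ _ _ (monic_X_sub_C 1)
    (q5_monic t) (q5_monic (-1 - t)) (irreducible_X_sub_C 1) (q5_irreducible t hirr₁)
    (q5_irreducible (-1 - t) hirr₂) hg
  rw [natDegree_X_sub_C, q5_natDegree, q5_natDegree] at hdeg
  rw [nextCoeff_X_sub_C, q5_nextCoeff, q5_nextCoeff] at htr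
  have hyU' : y * adj φ y = 1 := mul_eq_one_comm.mp hyU
  have c1 : (X - C (1 : F) : F[X]).coeff 0 ≠ 0 := by
    rw [coeff_zero_X_sub_C]
    exact neg_ne_zero.mpr one_ne_zero
  have c2 : (q5 t).coeff 0 ≠ 0 := by
    rw [q5_coeff_zero]
    exact one_ne_zero
  have c3 : (q5 (-1 - t)).coeff 0 ≠ 0 := by
    rw [q5_coeff_zero]
    exact one_ne_zero
  obtain ⟨hc0, hlog⟩ := logd_form3 _ _ _ c1 c2 c3 a b c
  have ht2 := trace_inv_eq y (adj φ y) hyU' (by rw [hab]; exact hc0)
  rw [trace_adj, hab, hlog, logd_X_sub_C, q5_logd, q5_logd, inv_one, htr] at ht2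
  simp only [map_neg, map_add, map_mul, map_natCast, map_one, map_sub, hφt] at ht2
  have hbc : ((b : F) - (c : F)) * (t - (-1 - t)) = 0 := by linear_combination -ht2
  have hbc' : (b : F) = (c : F) := by
    rcases mul_eq_zero.mp hbc with h | h
    · exact sub_eq_zero.mp h
    · exact absurd h htt
  have hbc'' : b = c := cast_inj_two h2 b c (by omega) (by omega) hbc'
  subst hbc''
  refine ⟨a, b, ?_, by omega, ?_⟩
  · rw [hab, mul_assoc, ← mul_pow]
  · rw [htr]
    ring

/-- Matrices with characteristic polynomials `(X - 1)^a Q^b`, `a + 4 b = 4`, and equal traces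
have the same characteristic polynomial. -/
theorem charpoly_eq_of_form5 (h5 : (5 : F) ≠ 0) (Q : F[X]) (y n : Matrix (Fin 4) (Fin 4) F)
    (hy : ∃ a b : ℕ, y.charpoly = (X - C (1 : F)) ^ a * Q ^ b ∧ a + 4 * b = 4 ∧
      Matrix.trace y = (a : F) - (b : F))
    (hn : ∃ a b : ℕ, n.charpoly = (X - C (1 : F)) ^ a * Q ^ b ∧ a + 4 * b = 4 ∧
      Matrix.trace n = (a : F) - (b : F))
    (ht : Matrix.trace y = Matrix.trace n) : y.charpoly = n.charpoly := by
  obtain ⟨a, b, hab, hdeg, htr⟩ := hy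
  obtain ⟨a', b', hab', hdeg', htr'⟩ := hn
  have hc : (a = 4 ∧ b = 0) ∨ (a = 0 ∧ b = 1) := by omega
  have hc' : (a' = 4 ∧ b' = 0) ∨ (a' = 0 ∧ b' = 1) := by omega
  rw [htr, htr'] at ht
  rcases hc with ⟨rfl, rfl⟩ | ⟨rfl, rfl⟩ <;> rcases hc' with ⟨rfl, rfl⟩ | ⟨rfl, rfl⟩
  · rw [hab, hab']
  · exfalso
    apply h5
    push_cast at ht
    linear_combination ht
  · exfalso
    apply h5
    push_cast at ht
    linear_combination -ht
  · rw [hab, hab']

end Cfsg.Agent.Lib.Helper37.Pauli4F
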