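import Mathlib
import Cfsg.Prelude.Def_GeometricClasses
import Cfsg.Prelude.Def_LieClassical
import Cfsg.Agent.Lib.Helper40.HermAdj
import Cfsg.Agent.Lib.Helper40.UnitDet
import Cfsg.Agent.Lib.Helper37.Pauli4A
import Cfsg.Agent.Lib.Helper37.Pauli4B
import Cfsg.Agent.Lib.Helper37.Pauli4C
import Cfsg.Agent.Lib.Helper37.Pauli4D
import Cfsg.Agent.Lib.Helper37.Pauli4E
import Cfsg.Agent.Lib.Helper37.Pauli4F

/-!
# Unitary elements of the normalizer of `4 ∘ 2^{1+4}` and conjugacy in `SU_4(p)`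

For `R ≤ GU_4(p)` of symplectic type `4 ∘ 2^{1+4}`: the standard elements of orders `2`, `3`,
`5` of the normalizer are unitary, and elements of `SU_4(p)` of orders `2`, `3`
(`p ≡ 1 (mod 3)`) and `5` (`p ≡ ±2 (mod 5)`) are `SU_4(p)`-conjugate into the normalizer.
-/

set_option autoImplicit false

open scoped MatrixGroups

namespace Cfsg.Agent.Lib.Helper37.Pauli4G

open Polynomial Cfsg.Agent.Lib.Helper37.Pauli4A Cfsg.Agent.Lib.Helper37.Pauli4B
  Cfsg.Agent.Lib.Helper37.Pauli4C Cfsg.Agent.Lib.Helper37.Pauli4D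
  Cfsg.Agent.Lib.Helper37.Pauli4E Cfsg.Agent.Lib.Helper37.Pauli4F
  Cfsg.Agent.Lib.Helper40.HermAdj

universe u

variable {F : Type u} [Field F]

/-! ### Standard elements with more data -/

theorem CZ_eq_diag : CZ F = Matrix.diagonal ![1, 1, 1, -1] := by
  ext a b
  fin_cases a <;> fin_cases b <;> simp [CZ]

theorem CZ_det : (CZ F).det = -1 := by
  rw [CZ_eq_diag, Matrix.det_diagonal, Fin.prod_univ_four]
  show (1 : F) * 1 * 1 * (-1) = -1
  ring

theorem Z1_eq_diag : Z1 F = Matrix.diagonal ![1, 1, -1, -1] := by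
  ext a b
  fin_cases a <;> fin_cases b <;> simp [Z1]

theorem Z1_det : (Z1 F).det = 1 := by
  rw [Z1_eq_diag, Matrix.det_diagonal, Fin.prod_univ_four]
  show (1 : F) * 1 * (-1) * (-1) = 1
  ring

theorem CZ_trace : Matrix.trace (CZ F) = 2 := by
  simp [CZ, Matrix.trace, Fin.sum_univ_four]
  norm_num

theorem CZ_norm2 [Finite F] (i : F) (hi : i * i = -1) :
    ∃ n : GL (Fin 4) F, n ∈ Cfsg.Geo.subgroupNormalizer (R0 i hi) ∧ n ^ 2 = 1 ∧
      Matrix.trace n.val = 2 ∧ Matrix.trace (n⁻¹).val = 2 ∧ n.val.det = -1 := by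
  refine ⟨gl (CZ F) (CZ F) (CZ_sq i hi), ?_, ?_, ?_, ?_, ?_⟩
  · apply mem_norm_R0
    · exact ⟨Z1g i hi, Z1g_mem i hi, CZ_Z1 i hi⟩
    · exact ⟨X1g i hi * Z2g i hi, Subgroup.mul_mem _ (X1g_mem i hi) (Z2g_mem i hi),
        CZ_X1 i hi⟩
    · exact ⟨Z2g i hi, Z2g_mem i hi, CZ_Z2 i hi⟩
    · exact ⟨Z1g i hi * X2g i hi, Subgroup.mul_mem _ (Z1g_mem i hi) (X2g_mem i hi),
        CZ_X2 i hi⟩
  · apply Units.ext
    rw [Units.val_pow_eq_pow_val, pow_two]
    exact CZ_sq i hi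
  · exact CZ_trace
  · exact CZ_trace
  · exact CZ_det

theorem P3_norm2 [Finite F] (i : F) (hi : i * i = -1) :
    ∃ n : GL (Fin 4) F, n ∈ Cfsg.Geo.subgroupNormalizer (R0 i hi) ∧ n ^ 3 = 1 ∧
      Matrix.trace n.val = 1 ∧ Matrix.trace (n⁻¹).val = 1 := by
  refine ⟨gl (P3 F) (P3i F) (P3_inv i hi), ?_, ?_, ?_, ?_⟩
  · apply mem_norm_R0
    · exact ⟨Z1g i hi * Z2g i hi, Subgroup.mul_mem _ (Z1g_mem i hi) (Z2g_mem i hi),
        P3_Z1 i hi⟩
    · exact ⟨X2g i hi, X2g_mem i hi, P3_X1 i hi⟩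
    · exact ⟨Z1g i hi, Z1g_mem i hi, P3_Z2 i hi⟩
    · exact ⟨X1g i hi * X2g i hi, Subgroup.mul_mem _ (X1g_mem i hi) (X2g_mem i hi),
        P3_X2 i hi⟩
  · apply Units.ext
    rw [Units.val_pow_eq_pow_val, gl_val, pow_succ, pow_two, P3_sq i hi]
    exact mul_eq_one_comm.mp (P3_inv i hi)
  · rw [gl_val]
    simp [P3, Matrix.trace, Fin.sum_univ_four]
  · show Matrix.trace (P3i F) = 1
    simp [P3i, Matrix.trace, Fin.sum_univ_four]

theorem U3_norm2 [Finite F] (i : F) (hi : i * i = -1) (h2 : (2 : F) ≠ 0) :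
    ∃ n : GL (Fin 4) F, n ∈ Cfsg.Geo.subgroupNormalizer (R0 i hi) ∧ n ^ 3 = 1 ∧
      Matrix.trace n.val = -2 ∧ Matrix.trace (n⁻¹).val = -2 := by
  have h4 : (4 : F) ≠ 0 := by
    intro h
    have h' : (2 : F) * 2 = 0 := by linear_combination h
    rcases mul_eq_zero.mp h' with h'' | h'' <;> exact h2 h''
  have hinv : ((2⁻¹ : F) • U3 F i) * ((4⁻¹ : F) • (U3 F i * U3 F i)) = 1 := by
    rw [Matrix.smul_mul, Matrix.mul_smul, smul_smul, U3_cube i hi, Sc_eq, smul_smul]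
    have e : (2⁻¹ * 4⁻¹ * 8 : F) = 1 := by
      field_simp
      norm_num
    rw [e, one_smul]
  refine ⟨gl ((2⁻¹ : F) • U3 F i) ((4⁻¹ : F) • (U3 F i * U3 F i)) hinv, ?_, ?_, ?_, ?_⟩
  · apply mem_norm_R0
    · exact ⟨Icg i hi * Icg i hi * Icg i hi * Z1g i hi * X1g i hi,
        Subgroup.mul_mem _ (Subgroup.mul_mem _ (Subgroup.mul_mem _ (Subgroup.mul_mem _
          (Icg_mem i hi) (Icg_mem i hi)) (Icg_mem i hi)) (Z1g_mem i hi)) (X1g_mem i hi),
        smul_rel _ _ _ _ (U3_Z1 i hi)⟩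
    · exact ⟨Z1g i hi, Z1g_mem i hi, smul_rel _ _ _ _ (U3_X1 i hi)⟩
    · exact ⟨Z2g i hi, Z2g_mem i hi, smul_rel _ _ _ _ (U3_Z2 i hi)⟩
    · exact ⟨X2g i hi, X2g_mem i hi, smul_rel _ _ _ _ (U3_X2 i hi)⟩
  · apply Units.ext
    have hU : U3 F i ^ 3 = Sc F 8 := by
      rw [pow_succ', pow_two]
      exact U3_cube i hi
    rw [Units.val_pow_eq_pow_val, gl_val, _root_.smul_pow, hU, Sc_eq, smul_smul]
    have e : ((2⁻¹ : F) ^ 3 * 8 : F) = 1 := by
      field_simp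
      norm_num
    rw [e, one_smul]
    rfl
  · rw [gl_val, Matrix.trace_smul]
    simp [U3, Matrix.trace, Fin.sum_univ_four]
    field_simp
    ring
  · show Matrix.trace ((4⁻¹ : F) • (U3 F i * U3 F i)) = -2
    have e : Matrix.trace (U3 F i * U3 F i) = -8 := by
      simp [U3, Matrix.trace, Fin.sum_univ_four]
      linear_combination 8 * hi
    rw [Matrix.trace_smul, smul_eq_mul, e, inv_mul_eq_div, div_eq_iff h4]
    norm_num

variable {R : Subgroup (GL (Fin 4) F)} {i : F}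

theorem transport_elt2 (Q : GL (Fin 4) F) (R R' : Subgroup (GL (Fin 4) F))
    (hQ : ∀ g : GL (Fin 4) F, g ∈ R ↔ Q⁻¹ * g * Q ∈ R') (k : ℕ) (τ τ' δ : F)
    (h : ∃ n : GL (Fin 4) F, n ∈ Cfsg.Geo.subgroupNormalizer R' ∧ n ^ k = 1 ∧
      Matrix.trace n.val = τ ∧ Matrix.trace (n⁻¹).val = τ' ∧ n.val.det = δ) :
    ∃ n : GL (Fin 4) F, n ∈ Cfsg.Geo.subgroupNormalizer R ∧ n ^ k = 1 ∧
      Matrix.trace n.val = τ ∧ Matrix.trace (n⁻¹).val = τ' ∧ n.val.det = δ := by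
  obtain ⟨n, hn, hk, ht, hti, hd⟩ := h
  refine ⟨Q * n * Q⁻¹, norm_transport Q R R' hQ n hn, ?_, ?_, ?_, ?_⟩
  · rw [conj_pow, hk]
    group
  · rw [Units.val_mul, Units.val_mul, Matrix.trace_units_conj, ht]
  · have e : (Q * n * Q⁻¹)⁻¹ = Q * n⁻¹ * Q⁻¹ := by group
    rw [e, Units.val_mul, Units.val_mul, Matrix.trace_units_conj, hti]
  · rw [Units.val_mul, Units.val_mul, Matrix.det_units_conj, hd]

/-- Elements of the normalizer of orders `2` and `3`, with the traces of their inverses. -/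
theorem exists_norm_elt2 [Finite F] (P : PData R i) :
    (∃ n : GL (Fin 4) F, n ∈ Cfsg.Geo.subgroupNormalizer R ∧ n ^ 2 = 1 ∧
      Matrix.trace n.val = 2 ∧ Matrix.trace (n⁻¹).val = 2 ∧ n.val.det = -1) ∧
    (∃ n : GL (Fin 4) F, n ∈ Cfsg.Geo.subgroupNormalizer R ∧ n ^ 3 = 1 ∧
      Matrix.trace n.val = 1 ∧ Matrix.trace (n⁻¹).val = 1) ∧
    (∃ n : GL (Fin 4) F, n ∈ Cfsg.Geo.subgroupNormalizer R ∧ n ^ 3 = 1 ∧
      Matrix.trace n.val = -2 ∧ Matrix.trace (n⁻¹).val = -2) := by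
  obtain ⟨Q, hQ⟩ := exists_std P
  refine ⟨transport_elt2 Q R _ hQ 2 2 2 (-1) (CZ_norm2 i P.sq), ?_, ?_⟩
  · obtain ⟨n, h1, h2, h3, h4⟩ := P3_norm2 i P.sq
    obtain ⟨n', h1', h2', h3', h4', -⟩ :=
      transport_elt2 Q R _ hQ 3 1 1 n.val.det ⟨n, h1, h2, h3, h4, rfl⟩
    exact ⟨n', h1', h2', h3', h4'⟩
  · obtain ⟨n, h1, h2, h3, h4⟩ := U3_norm2 i P.sq P.two
    obtain ⟨n', h1', h2', h3', h4', -⟩ :=
      transport_elt2 Q R _ hQ 3 (-2) (-2) n.val.det ⟨n, h1, h2, h3, h4, rfl⟩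
    exact ⟨n', h1', h2', h3', h4'⟩

/-- An involution of trace `0` and determinant `1` in `R`. -/
theorem exists_invol (P : PData R i) :
    ∃ n : GL (Fin 4) F, n ∈ R ∧ n ^ 2 = 1 ∧ Matrix.trace n.val = 0 ∧ n.val.det = 1 := by
  obtain ⟨Q, hQ⟩ := exists_std P
  refine ⟨Q * Z1g i P.sq * Q⁻¹, ?_, ?_, ?_, ?_⟩
  · rw [hQ]
    have e : Q⁻¹ * (Q * Z1g i P.sq * Q⁻¹) * Q = Z1g i P.sq := by group
    rw [e]
    exact Z1g_mem i P.sq
  · rw [conj_pow]
    have e : Z1g i P.sq ^ 2 = 1 := by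
      apply Units.ext
      rw [Units.val_pow_eq_pow_val, pow_two]
      exact Z1_sq i P.sq
    rw [e]
    group
  · rw [Units.val_mul, Units.val_mul, Matrix.trace_units_conj]
    show Matrix.trace (Z1 F) = 0
    simp [Z1, Matrix.trace, Fin.sum_univ_four]
  · rw [Units.val_mul, Units.val_mul, Matrix.det_units_conj]
    exact Z1_det

/-! ### Unitarity of elements of the normalizer -/

theorem adj_comm_aux (φ : F →+* F) (Mm A A' : Matrix (Fin 4) (Fin 4) F)
    (hMa : A' * Mm = Mm * A) (h1 : adj φ A' * A' = 1) (h2 : adj φ A * A = 1) :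
    (adj φ Mm * Mm) * A = A * (adj φ Mm * Mm) := by
  have h2' : A * adj φ A = 1 := mul_eq_one_comm.mp h2
  obtain ⟨P, hPdef⟩ : ∃ P : Matrix (Fin 4) (Fin 4) F, P = adj φ Mm * Mm := ⟨_, rfl⟩
  rw [← hPdef]
  have e1 : adj φ (Mm * A) * (Mm * A) = adj φ A * P * A := by
    rw [adj_mul, hPdef]
    simp only [mul_assoc]
  have e2 : adj φ (A' * Mm) * (A' * Mm) = P := by
    rw [adj_mul, hPdef]
    calc adj φ Mm * adj φ A' * (A' * Mm) = adj φ Mm * (adj φ A' * A') * Mm := by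
          simp only [mul_assoc]
      _ = adj φ Mm * Mm := by rw [h1, mul_one]
  have hP : adj φ A * P * A = P := by rw [← e1, ← hMa, e2]
  calc P * A = (A * adj φ A) * P * A := by rw [h2', one_mul]
    _ = A * (adj φ A * P * A) := by simp only [mul_assoc]
    _ = A * P := by rw [hP]

/-- If `R` consists of unitary matrices and `M` normalizes `R`, then `adj M * M` centralizes
`R`. -/
theorem adj_comm_of_normalizer (φ : F →+* F)
    (hRU : ∀ a ∈ R, adj φ (a : Matrix (Fin 4) (Fin 4) F) * (a : Matrix (Fin 4) (Fin 4) F) = 1)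
    (M : GL (Fin 4) F) (hM : M ∈ Cfsg.Geo.subgroupNormalizer R) (a : GL (Fin 4) F)
    (ha : a ∈ R) :
    (adj φ (M : Matrix (Fin 4) (Fin 4) F) * (M : Matrix (Fin 4) (Fin 4) F)) *
        (a : Matrix (Fin 4) (Fin 4) F) =
      (a : Matrix (Fin 4) (Fin 4) F) *
        (adj φ (M : Matrix (Fin 4) (Fin 4) F) * (M : Matrix (Fin 4) (Fin 4) F)) := by
  have ha' : M * a * M⁻¹ ∈ R := ((Subgroup.mem_normalizer_iff.1 hM) a).1 ha
  have hMa : ((M * a * M⁻¹ : GL (Fin 4) F) : Matrix (Fin 4) (Fin 4) F) *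
      (M : Matrix (Fin 4) (Fin 4) F) =
      (M : Matrix (Fin 4) (Fin 4) F) * (a : Matrix (Fin 4) (Fin 4) F) := by
    rw [← Units.val_mul, ← Units.val_mul, inv_mul_cancel_right]
  exact adj_comm_aux φ _ _ _ hMa (hRU _ ha') (hRU a ha)

/-- An element of the normalizer of a unitary `R` is unitary up to a scalar. -/
theorem exists_multiplier (P : PData R i) (φ : F →+* F)
    (hRU : ∀ a ∈ R, adj φ (a : Matrix (Fin 4) (Fin 4) F) * (a : Matrix (Fin 4) (Fin 4) F) = 1)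
    (M : GL (Fin 4) F) (hM : M ∈ Cfsg.Geo.subgroupNormalizer R) :
    ∃ ξ : F, adj φ M.val * M.val = ξ • (1 : Matrix (Fin 4) (Fin 4) F) :=
  P.commutant _ (fun a ha => adj_comm_of_normalizer φ hRU M hM a ha)

/-- An element of the normalizer whose trace is nonzero, fixed by the involution and equal to
the trace of its inverse is unitary. -/
theorem unitary_of_trace (P : PData R i) (φ : F →+* F)
    (hRU : ∀ a ∈ R, adj φ (a : Matrix (Fin 4) (Fin 4) F) * (a : Matrix (Fin 4) (Fin 4) F) = 1)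
    (n : GL (Fin 4) F) (hn : n ∈ Cfsg.Geo.subgroupNormalizer R)
    (ht : Matrix.trace (n⁻¹).val = Matrix.trace n.val)
    (hφt : φ (Matrix.trace n.val) = Matrix.trace n.val) (ht0 : Matrix.trace n.val ≠ 0) :
    adj φ n.val * n.val = 1 := by
  obtain ⟨ξ, hξ⟩ := exists_multiplier P φ hRU n hn
  have h1 : adj φ n.val = ξ • (n⁻¹).val := by
    calc adj φ n.val = adj φ n.val * (n.val * (n⁻¹).val) := by
          rw [Units.mul_inv, Matrix.mul_one]
      _ = ξ • (n⁻¹).val := by rw [← Matrix.mul_assoc, hξ, Matrix.smul_mul, Matrix.one_mul]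
  have h2 := congrArg Matrix.trace h1
  rw [trace_adj, Matrix.trace_smul, smul_eq_mul, ht, hφt] at h2
  have h3 : ξ = 1 := by
    have h4 : (ξ - 1) * Matrix.trace n.val = 0 := by linear_combination -h2
    rcases mul_eq_zero.mp h4 with h | h
    · exact sub_eq_zero.mp h
    · exact absurd h ht0
  rw [hξ, h3, one_smul]

theorem scalar_unitary (φ : F →+* F) (c : F)
    (h : adj φ (c • (1 : Matrix (Fin 4) (Fin 4) F)) * (c • (1 : Matrix (Fin 4) (Fin 4) F)) = 1) :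
    φ c * c = 1 := by
  rw [adj_smul, adj_one, Cfsg.Agent.Lib.Helper37.Pauli4B.smul_one_mul] at h
  have h1 := congrFun (congrFun h 0) 0
  simpa using h1

theorem unitary_smul (φ : F →+* F) (c : F) (y : Matrix (Fin 4) (Fin 4) F) (hc : φ c * c = 1)
    (hy : adj φ y * y = 1) : adj φ (c • y) * (c • y) = 1 := by
  rw [adj_smul, Matrix.smul_mul, Matrix.mul_smul, smul_smul, hy, hc, one_smul]

theorem phi_i (P : PData R i) (φ : F →+* F)
    (hRU : ∀ a ∈ R, adj φ (a : Matrix (Fin 4) (Fin 4) F) * (a : Matrix (Fin 4) (Fin 4) F) = 1) :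
    φ i * i = 1 := by
  have h := hRU (Icg i P.sq) (Icg_mem_R P)
  have e : (Icg i P.sq).val = i • (1 : Matrix (Fin 4) (Fin 4) F) := Sc_eq i
  rw [e] at h
  exact scalar_unitary φ i h

theorem scalar_norm_of_pow {p : ℕ} (φ : F →+* F) (hφ : ∀ x, φ x = x ^ p) (x : GL (Fin 4) F)
    (hx : x ∈ Cfsg.GU 4 F p) (k : ℕ) (z : F)
    (hz : ((x ^ k : GL (Fin 4) F) : Matrix (Fin 4) (Fin 4) F) =
      z • (1 : Matrix (Fin 4) (Fin 4) F)) : φ z * z = 1 := by
  have h1 := (mem_GU_iff φ hφ (x ^ k)).1 (Subgroup.pow_mem _ hx k)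
  rw [hz] at h1
  exact scalar_unitary φ z h1

theorem scalar_pow_four (x : GL (Fin 4) F) (hdet : x.val.det = 1) (k : ℕ) (z : F)
    (hz : ((x ^ k : GL (Fin 4) F) : Matrix (Fin 4) (Fin 4) F) =
      z • (1 : Matrix (Fin 4) (Fin 4) F)) : z ^ 4 = 1 := by
  have h1 := congrArg Matrix.det hz
  rw [Units.val_pow_eq_pow_val, Matrix.det_pow, hdet, one_pow, Matrix.det_smul, Matrix.det_one,
    Fintype.card_fin, mul_one] at h1
  exact h1.symm

/-- The involution of trace `2` of the normalizer is unitary. -/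
theorem exists_CZ_U [Finite F] (P : PData R i) (φ : F →+* F)
    (hRU : ∀ a ∈ R, adj φ (a : Matrix (Fin 4) (Fin 4) F) * (a : Matrix (Fin 4) (Fin 4) F) = 1) :
    ∃ n : GL (Fin 4) F, n ∈ Cfsg.Geo.subgroupNormalizer R ∧ adj φ n.val * n.val = 1 ∧
      n.val ^ 2 = 1 ∧ Matrix.trace n.val = 2 ∧ n.val.det = -1 := by
  obtain ⟨⟨n, hn, hn2, ht, hti, hd⟩, -, -⟩ := exists_norm_elt2 P
  refine ⟨n, hn, unitary_of_trace P φ hRU n hn (by rw [hti, ht]) ?_ ?_, ?_, ht, hd⟩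
  · rw [ht]
    exact map_ofNat φ 2
  · rw [ht]
    exact P.two
  · rw [← Units.val_pow_eq_pow_val, hn2, Units.val_one]

theorem exists_P3_U [Finite F] (P : PData R i) (φ : F →+* F)
    (hRU : ∀ a ∈ R, adj φ (a : Matrix (Fin 4) (Fin 4) F) * (a : Matrix (Fin 4) (Fin 4) F) = 1) :
    ∃ n : GL (Fin 4) F, n ∈ Cfsg.Geo.subgroupNormalizer R ∧ adj φ n.val * n.val = 1 ∧
      n.val ^ 3 = 1 ∧ Matrix.trace n.val = 1 := by
  obtain ⟨-, ⟨n, hn, hn3, ht, hti⟩, -⟩ := exists_norm_elt2 P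
  refine ⟨n, hn, unitary_of_trace P φ hRU n hn (by rw [hti, ht]) ?_ ?_, ?_, ht⟩
  · rw [ht, map_one]
  · rw [ht]
    exact one_ne_zero
  · rw [← Units.val_pow_eq_pow_val, hn3, Units.val_one]

theorem exists_U3_U [Finite F] (P : PData R i) (φ : F →+* F)
    (hRU : ∀ a ∈ R, adj φ (a : Matrix (Fin 4) (Fin 4) F) * (a : Matrix (Fin 4) (Fin 4) F) = 1) :
    ∃ n : GL (Fin 4) F, n ∈ Cfsg.Geo.subgroupNormalizer R ∧ adj φ n.val * n.val = 1 ∧
      n.val ^ 3 = 1 ∧ Matrix.trace n.val = -2 := by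
  obtain ⟨-, -, ⟨n, hn, hn3, ht, hti⟩⟩ := exists_norm_elt2 P
  refine ⟨n, hn, unitary_of_trace P φ hRU n hn (by rw [hti, ht]) ?_ ?_, ?_, ht⟩
  · rw [ht, map_neg]
    congr 1
    exact map_ofNat φ 2
  · rw [ht]
    exact neg_ne_zero.mpr P.two
  · rw [← Units.val_pow_eq_pow_val, hn3, Units.val_one]

theorem exists_M5_U [Finite F] (P : PData R i) (φ : F →+* F)
    (hRU : ∀ a ∈ R, adj φ (a : Matrix (Fin 4) (Fin 4) F) * (a : Matrix (Fin 4) (Fin 4) F) = 1)
    (h5 : (5 : F) ≠ 0) (hno5 : ∀ c : F, c ^ 5 = 1 → c = 1) :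
    ∃ n : GL (Fin 4) F, n ∈ Cfsg.Geo.subgroupNormalizer R ∧ adj φ n.val * n.val = 1 ∧
      n.val ^ 5 = 1 ∧ Matrix.trace n.val = -1 := by
  obtain ⟨-, -, -, -, n, hn, hn5, ht⟩ := exists_norm_elt P
  have hn5' : n.val ^ 5 = 1 := by rw [← Units.val_pow_eq_pow_val, hn5, Units.val_one]
  have hns : ∀ c : F, n.val ≠ c • (1 : Matrix (Fin 4) (Fin 4) F) := by
    intro c hc
    have hc5 : c ^ 5 = 1 := scalar_pow_eq_one c 5 (by rw [← hc]; exact hn5')
    have hc1 := hno5 c hc5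
    rw [hc, hc1, one_smul, Matrix.trace_one, Fintype.card_fin] at ht
    apply h5
    have e4 : ((4 : ℕ) : F) = 4 := by norm_num
    rw [e4] at ht
    linear_combination ht
  have hti := (trace_five P n hn hn5 hns).1
  rw [ht] at hti
  have hti' : Matrix.trace (n⁻¹).val = -1 := by linear_combination -hti
  refine ⟨n, hn, unitary_of_trace P φ hRU n hn (by rw [hti', ht]) ?_ ?_, hn5', ht⟩
  · rw [ht, map_neg, map_one]
  · rw [ht]
    exact neg_ne_zero.mpr one_ne_zero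

/-- Unitary involutions of the normalizer of all types. -/
theorem invol_types [Finite F] (P : PData R i) (φ : F →+* F)
    (hRU : ∀ a ∈ R, adj φ (a : Matrix (Fin 4) (Fin 4) F) * (a : Matrix (Fin 4) (Fin 4) F) = 1)
    (a b : ℕ) (hab : a + b = 4) :
    ∃ n : GL (Fin 4) F, n ∈ Cfsg.Geo.subgroupNormalizer R ∧ adj φ n.val * n.val = 1 ∧
      n.val ^ 2 = 1 ∧ Matrix.trace n.val = (a : F) - (b : F) ∧ n.val.det = (-1 : F) ^ b := by
  obtain ⟨c, hc, hcU, hc2, hct, hcd⟩ := exists_CZ_U P φ hRU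
  obtain ⟨e, he, he2, het, hed⟩ := exists_invol P
  have hb : b ≤ 4 := by omega
  interval_cases b
  · have ha : a = 4 := by omega
    subst ha
    refine ⟨1, Subgroup.one_mem _, ?_, ?_, ?_, ?_⟩
    · rw [Units.val_one, adj_one, Matrix.one_mul]
    · rw [Units.val_one, one_pow]
    · rw [Units.val_one, Matrix.trace_one, Fintype.card_fin]
      norm_num
    · rw [Units.val_one, Matrix.det_one, pow_zero]
  · have ha : a = 3 := by omega
    subst ha
    refine ⟨c, hc, hcU, hc2, ?_, ?_⟩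
    · rw [hct]
      norm_num
    · rw [hcd, pow_one]
  · have ha : a = 2 := by omega
    subst ha
    refine ⟨e, Subgroup.le_normalizer he, hRU e he, ?_, ?_, ?_⟩
    · rw [← Units.val_pow_eq_pow_val, he2, Units.val_one]
    · rw [het]
      norm_num
    · rw [hed]
      norm_num
  · have ha : a = 1 := by omega
    subst ha
    refine ⟨-c, smul_mem_normalizer R c (-c) hc (-1) (by norm_num)
      (by rw [Units.val_neg, neg_smul, one_smul]), ?_, ?_, ?_, ?_⟩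
    · rw [Units.val_neg, adj_neg, neg_mul_neg]
      exact hcU
    · rw [Units.val_neg, neg_sq]
      exact hc2
    · rw [Units.val_neg, Matrix.trace_neg, hct]
      norm_num
    · rw [Units.val_neg, Matrix.det_neg, Fintype.card_fin, hcd]
      norm_num
  · have ha : a = 0 := by omega
    subst ha
    refine ⟨-1, smul_mem_normalizer R 1 (-1) (Subgroup.one_mem _) (-1) (by norm_num)
      (by rw [Units.val_neg, neg_smul, one_smul]), ?_, ?_, ?_, ?_⟩
    · rw [Units.val_neg, Units.val_one, adj_neg, adj_one, neg_mul_neg, Matrix.one_mul]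
    · rw [Units.val_neg, Units.val_one, neg_sq, one_pow]
    · rw [Units.val_neg, Units.val_one, Matrix.trace_neg, Matrix.trace_one, Fintype.card_fin]
      norm_num
    · rw [Units.val_neg, Units.val_one, Matrix.det_neg, Matrix.det_one, Fintype.card_fin]
      norm_num

/-! ### Conjugacy by unitary matrices of determinant one -/

/-- If `x = e • y` with `y` unitary of order dividing `N` having the characteristic polynomial
of a unitary element `n` of the normalizer with `n ^ N = 1`, then `x` is conjugate into the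
normalizer by a unitary matrix of determinant one. -/
theorem conj_unitary [Fintype F] {p : ℕ} (φ : F →+* F) (hφ : ∀ x, φ x = x ^ p)
    (hφ2 : ∀ x, φ (φ x) = x) (l : F) (hl : φ l ≠ l) (R : Subgroup (GL (Fin 4) F))
    (x : GL (Fin 4) F) (e : F) (he : e ≠ 0) (y : Matrix (Fin 4) (Fin 4) F)
    (hxy : x.val = e • y) (hyU : adj φ y * y = 1) (N : ℕ) (hN : (N : F) ≠ 0) (hyN : y ^ N = 1)
    (n : GL (Fin 4) F) (hn : n ∈ Cfsg.Geo.subgroupNormalizer R)
    (hnU : adj φ n.val * n.val = 1) (hnN : n.val ^ N = 1) (hcp : y.charpoly = n.val.charpoly) :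
    ∃ g ∈ Cfsg.GU 4 F p ⊓ Cfsg.Geo.specialLinear (Fin 4) F,
      g⁻¹ * x * g ∈ Cfsg.Geo.subgroupNormalizer R := by
  classical
  obtain ⟨U, hUU, hUd, hUx⟩ := Cfsg.Agent.Lib.Helper40.UnitDet.su_conj_core φ hφ2 l hl
    y n.val hyU hnU N hN hyN hnN hcp
  have hU0 : U.det ≠ 0 := by
    rw [hUd]
    exact one_ne_zero
  obtain ⟨Ug, hUg⟩ : ∃ Ug : GL (Fin 4) F, (Ug : Matrix (Fin 4) (Fin 4) F) = U :=
    ⟨Matrix.GeneralLinearGroup.mkOfDetNeZero U hU0, rfl⟩
  have hUgU : Ug ∈ Cfsg.GU 4 F p := (mem_GU_iff φ hφ Ug).2 (by rw [hUg]; exact hUU)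
  have hUgS : Ug ∈ Cfsg.Geo.specialLinear (Fin 4) F :=
    (mem_SL_iff Ug).2 (by rw [hUg]; exact hUd)
  refine ⟨Ug⁻¹, Subgroup.mem_inf.2 ⟨Subgroup.inv_mem _ hUgU, Subgroup.inv_mem _ hUgS⟩, ?_⟩
  rw [inv_inv]
  apply smul_mem_normalizer R n _ hn e he
  have h1 : Ug.val * x.val = e • (n.val * Ug.val) := by
    rw [hUg, hxy, Matrix.mul_smul, hUx]
  rw [Units.val_mul, Units.val_mul, h1, Matrix.smul_mul, Matrix.mul_assoc, Units.mul_inv,
    Matrix.mul_one]

/-! ### Arithmetic of the field with `p²` elements -/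

theorem card_half {p : ℕ} (hp4 : p % 4 = 3) :
    ∃ K : ℕ, p ^ 2 / 2 = 4 * K ∧ p ^ 2 / 2 = (p - 1) * ((p + 1) / 2) := by
  obtain ⟨m, hm⟩ : ∃ m, p = 4 * m + 3 := ⟨p / 4, by omega⟩
  subst hm
  obtain ⟨K, hK⟩ : ∃ K : ℕ, K = 2 * m ^ 2 + 3 * m + 1 := ⟨_, rfl⟩
  have e1 : (4 * m + 3) ^ 2 = 8 * K + 1 := by
    rw [hK]
    ring
  have e2 : 4 * m + 3 - 1 = 4 * m + 2 := by omega
  have e3 : (4 * m + 3 + 1) / 2 = 2 * m + 2 := by omega
  have e4 : (4 * m + 2) * (2 * m + 2) = 4 * K := by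
    rw [hK]
    ring
  refine ⟨K, ?_, ?_⟩
  · rw [e1]
    omega
  · rw [e1, e2, e3, e4]
    omega

section field

variable [Fintype F] {p : ℕ} [CharP F p]

/-- Fourth roots of unity are squares in the field with `p²` elements. -/
theorem fourth_root_sq (hF : Fintype.card F = p ^ 2) (hp4 : p % 4 = 3) (z : F)
    (hz : z ^ 4 = 1) : ∃ d : F, d * d = z := by
  obtain ⟨K, hK, -⟩ := card_half hp4
  have hz0 : z ≠ 0 := by
    intro h
    rw [h] at hz
    norm_num at hz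
  have hchar : ringChar F ≠ 2 := by
    rw [ringChar.eq F p]
    omega
  have hsq : IsSquare z := by
    rw [FiniteField.isSquare_iff hchar hz0, hF, hK, pow_mul, hz, one_pow]
  obtain ⟨d, hd⟩ := hsq
  exact ⟨d, hd.symm⟩

/-- Elements fixed by the involution are squares in the field with `p²` elements. -/
theorem fixed_sq (hF : Fintype.card F = p ^ 2) (hp4 : p % 4 = 3) (φ : F →+* F)
    (hφ : ∀ x, φ x = x ^ p) (a : F) (ha : φ a = a) : ∃ s : F, s * s = a := by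
  by_cases ha0 : a = 0
  · exact ⟨0, by rw [ha0, mul_zero]⟩
  obtain ⟨K, -, hK⟩ := card_half hp4
  have hchar : ringChar F ≠ 2 := by
    rw [ringChar.eq F p]
    omega
  have hap : a ^ (p - 1) = 1 := by
    have h1 : a ^ (p - 1) * a = 1 * a := by
      rw [← pow_succ, one_mul]
      have e : p - 1 + 1 = p := by omega
      rw [e, ← hφ, ha]
    exact mul_right_cancel₀ ha0 h1
  have hsq : IsSquare a := by
    rw [FiniteField.isSquare_iff hchar ha0, hF, hK, pow_mul, hap, one_pow]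
  obtain ⟨s, hs⟩ := hsq
  exact ⟨s, hs.symm⟩

theorem exists_golden_sq (hF : Fintype.card F = p ^ 2) (hp4 : p % 4 = 3) (φ : F →+* F)
    (hφ : ∀ x, φ x = x ^ p) (h2 : (2 : F) ≠ 0) : ∃ t : F, t ^ 2 + t - 1 = 0 := by
  obtain ⟨s, hs⟩ := fixed_sq hF hp4 φ hφ 5 (map_ofNat φ 5)
  obtain ⟨u, hu⟩ : ∃ u : F, 2 * u = 1 := ⟨2⁻¹, mul_inv_cancel₀ h2⟩
  refine ⟨(s - 1) * u, ?_⟩
  linear_combination u ^ 2 * hs + (1 + 2 * u - (s - 1) * u) * hu

end field

theorem sq_mod_three {p : ℕ} (hp3 : p % 3 ≠ 0) : p ^ 2 % 3 = 1 := by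
  rw [pow_two, Nat.mul_mod]
  have h : p % 3 = 1 ∨ p % 3 = 2 := by omega
  rcases h with h | h <;> simp [h]

theorem exists_omega_sq [Fintype F] {p : ℕ} (hF : Fintype.card F = p ^ 2) (hp3 : p % 3 ≠ 0) :
    ∃ ω : F, ω ^ 2 + ω + 1 = 0 :=
  exists_omega (p := p ^ 2) hF (sq_mod_three hp3)

theorem phi_omega_one {p : ℕ} (φ : F →+* F) (hφ : ∀ x, φ x = x ^ p) (hp3 : p % 3 = 1) (ω : F)
    (hω3 : ω ^ 3 = 1) : φ ω = ω := by
  obtain ⟨k, hk⟩ : ∃ k, p = 3 * k + 1 := ⟨p / 3, by omega⟩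
  rw [hφ, hk, pow_succ, pow_mul, hω3, one_pow, one_mul]

theorem phi_omega_two {p : ℕ} (φ : F →+* F) (hφ : ∀ x, φ x = x ^ p) (hp3 : p % 3 = 2) (ω : F)
    (hω3 : ω ^ 3 = 1) : φ ω * ω = 1 := by
  obtain ⟨k, hk⟩ : ∃ k, p = 3 * k + 2 := ⟨p / 3, by omega⟩
  have e : 3 * k + 2 + 1 = 3 * (k + 1) := by ring
  rw [hφ, ← pow_succ, hk, e, pow_mul, hω3, one_pow]

theorem no_fifth_root [Fintype F] {p : ℕ} (hF : Fintype.card F = p ^ 2)
    (hp5 : p % 5 = 2 ∨ p % 5 = 3) : ∀ c : F, c ^ 5 = 1 → c = 1 := by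
  classical
  intro c hc
  by_contra hc1
  have hc0 : c ≠ 0 := by
    intro h
    rw [h] at hc
    norm_num at hc
  have : Fact (Nat.Prime 5) := ⟨by norm_num⟩
  have ho : orderOf (Units.mk0 c hc0) = 5 := by
    apply orderOf_eq_prime
    · apply Units.ext
      rw [Units.val_pow_eq_pow_val, Units.val_mk0, hc, Units.val_one]
    · intro h
      apply hc1
      have h1 := congrArg Units.val h
      rw [Units.val_mk0, Units.val_one] at h1
      exact h1
  have hdvd : 5 ∣ Nat.card Fˣ := by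
    rw [← ho]
    exact orderOf_dvd_natCard _
  rw [Nat.card_units, Nat.card_eq_fintype_card, hF] at hdvd
  have h4 : p ^ 2 % 5 = 4 := by
    rw [pow_two, Nat.mul_mod]
    rcases hp5 with h | h <;> simp [h]
  omega

theorem q5_no_root (h5 : (5 : F) ≠ 0) (hno5 : ∀ c : F, c ^ 5 = 1 → c = 1) (t : F)
    (ht : t ^ 2 + t - 1 = 0) : ∀ ζ : F, ζ ^ 2 - t * ζ + 1 ≠ 0 := by
  intro ζ h1
  have h5' : ζ ^ 5 = 1 := by
    linear_combination (ζ - 1) * (ζ ^ 2 + (1 + t) * ζ + 1) * h1 + (ζ - 1) * ζ ^ 2 * ht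
  have hζ := hno5 ζ h5'
  rw [hζ] at h1
  apply h5
  linear_combination ht + (t + 3) * h1

theorem phi_golden [Fintype F] {p : ℕ} [CharP F p] (hF : Fintype.card F = p ^ 2)
    (hp4 : p % 4 = 3) (φ : F →+* F) (hφ : ∀ x, φ x = x ^ p) (h2 : (2 : F) ≠ 0)
    (h5 : (5 : F) ≠ 0) (hno5 : ∀ c : F, c ^ 5 = 1 → c = 1) (t : F)
    (ht : t ^ 2 + t - 1 = 0) : φ t = -1 - t := by
  have h1 : φ t ^ 2 + φ t - 1 = 0 := by
    have h := congrArg φ ht
    simpa only [map_add, map_sub, map_pow, map_one, map_zero] using h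
  have h3 : (φ t - t) * (φ t - (-1 - t)) = 0 := by linear_combination h1 - ht
  rcases mul_eq_zero.mp h3 with h | h
  · exfalso
    have hfix : φ t = t := sub_eq_zero.mp h
    obtain ⟨e, he⟩ := fixed_sq hF hp4 φ hφ (t ^ 2 - 4)
      (by rw [map_sub, map_pow, hfix, map_ofNat])
    obtain ⟨u, hu⟩ : ∃ u : F, 2 * u = 1 := ⟨2⁻¹, mul_inv_cancel₀ h2⟩
    apply q5_no_root h5 hno5 t ht ((t + e) * u)
    linear_combination u ^ 2 * he + (t * (t + e) * u - (2 * u + 1)) * hu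
  · exact sub_eq_zero.mp h

/-! ### Elements conjugate into the normalizer -/

section conj

variable [Fintype F] {p : ℕ} [Fact p.Prime] [CharP F p]

omit [Fact (Nat.Prime p)] in
/-- Elements of order 2 of `PSU_4(p)` are conjugate into the normalizer. -/
theorem conj_two_U (hF : Fintype.card F = p ^ 2) (hp4 : p % 4 = 3) (P : PData R i)
    (φ : F →+* F) (hφ : ∀ x, φ x = x ^ p) (hφ2 : ∀ x, φ (φ x) = x) (l : F) (hl : φ l ≠ l)
    (hRU : R ≤ Cfsg.GU 4 F p) (x : GL (Fin 4) F)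
    (hx : x ∈ Cfsg.GU 4 F p ⊓ Cfsg.Geo.specialLinear (Fin 4) F)
    (hx2 : ∃ z : F, ((x ^ 2 : GL (Fin 4) F) : Matrix (Fin 4) (Fin 4) F) =
      z • (1 : Matrix (Fin 4) (Fin 4) F)) :
    ∃ g ∈ Cfsg.GU 4 F p ⊓ Cfsg.Geo.specialLinear (Fin 4) F,
      g⁻¹ * x * g ∈ Cfsg.Geo.subgroupNormalizer R := by
  have h2 := P.two
  have hRU' : ∀ a ∈ R, adj φ (a : Matrix (Fin 4) (Fin 4) F) *
      (a : Matrix (Fin 4) (Fin 4) F) = 1 := fun a ha => (mem_GU_iff φ hφ a).1 (hRU ha)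
  have hφi := phi_i P φ hRU'
  obtain ⟨z, hz⟩ := hx2
  have hxU : adj φ x.val * x.val = 1 := (mem_GU_iff φ hφ x).1 hx.1
  have hdet : x.val.det = 1 := (mem_SL_iff x).1 hx.2
  have hzU : φ z * z = 1 := scalar_norm_of_pow φ hφ x hx.1 2 z hz
  have hz4 : z ^ 4 = 1 := scalar_pow_four x hdet 2 z hz
  have hxx : x.val * x.val = z • (1 : Matrix (Fin 4) (Fin 4) F) := by
    rw [← hz, pow_two, Units.val_mul]
  obtain ⟨d, hd⟩ := fourth_root_sq hF hp4 z hz4
  have hz0 : z ≠ 0 := by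
    intro h
    rw [h] at hz4
    norm_num at hz4
  have hd0 : d ≠ 0 := by
    intro h0
    rw [h0, mul_zero] at hd
    exact hz0 hd.symm
  obtain ⟨di, hdi⟩ : ∃ di : F, di * d = 1 := ⟨d⁻¹, inv_mul_cancel₀ hd0⟩
  have hφdd : φ di * φ d = 1 := by rw [← map_mul, hdi, map_one]
  obtain ⟨y, hy⟩ : ∃ y : Matrix (Fin 4) (Fin 4) F, y = di • x.val := ⟨_, rfl⟩
  have hy2 : y ^ 2 = 1 := by
    rw [hy, pow_two, Matrix.smul_mul, Matrix.mul_smul, smul_smul, hxx, smul_smul]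
    have e : di * di * z = 1 := by
      rw [← hd]
      linear_combination (di * d + 1) * hdi
    rw [e, one_smul]
  have hνν : (φ d * d) * (φ d * d) = 1 := by
    have e : φ d * d * (φ d * d) = φ (d * d) * (d * d) := by
      rw [map_mul]
      ring
    rw [e, hd, hzU]
  have hν : φ d * d = 1 := by
    have h1 : (φ d * d - 1) * (φ d * d + 1) = 0 := by linear_combination hνν
    rcases mul_eq_zero.mp h1 with h | h
    · exact sub_eq_zero.mp h
    · exfalso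
      have hν' : φ d * d = -1 := by linear_combination h
      have hφdi : φ di * di = -1 := by
        linear_combination (φ di * di) * hν' - (di * d) * hφdd - hdi
      have hyU : adj φ y * y = -1 := by
        rw [hy, adj_smul, Matrix.smul_mul, Matrix.mul_smul, smul_smul, hxU, hφdi, neg_smul,
          one_smul]
      have hadj : adj φ y = -y := by
        calc adj φ y = adj φ y * (y * y) := by rw [← pow_two, hy2, Matrix.mul_one]
          _ = -y := by rw [← Matrix.mul_assoc, hyU, Matrix.neg_mul, Matrix.one_mul]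
      obtain ⟨a, b, -, hab, htr, hdt⟩ := sq_type y hy2
      have h1 := congrArg Matrix.trace hadj
      rw [trace_adj, Matrix.trace_neg, htr, map_sub, map_natCast, map_natCast] at h1
      have h3 : (a : F) = (b : F) := by
        have h4 : (2 : F) * ((a : F) - (b : F)) = 0 := by linear_combination h1
        rcases mul_eq_zero.mp h4 with h | h
        · exact absurd h h2
        · exact sub_eq_zero.mp h
      have hab' : a = b := cast_inj_even h2 a b (by omega) (by omega) (by omega) h3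
      have hb : b = 2 := by omega
      rw [hb] at hdt
      have hdet_y : y.det = di ^ 4 := by
        rw [hy, Matrix.det_smul, Fintype.card_fin, hdet, mul_one]
      have hdi4 : di ^ 4 = 1 := by
        rw [← hdet_y, hdt]
        norm_num
      have hd4 : d ^ 4 = 1 := by
        have e : d ^ 4 = (di * d) ^ 4 := by rw [mul_pow, hdi4, one_mul]
        rw [e, hdi, one_pow]
      have hzz : (z - 1) * (z + 1) = 0 := by
        rw [← hd]
        linear_combination hd4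
      rcases mul_eq_zero.mp hzz with h | h
      · have hdd : (d - 1) * (d + 1) = 0 := by linear_combination hd + h
        rcases mul_eq_zero.mp hdd with h' | h'
        · have hd1 : d = 1 := sub_eq_zero.mp h'
          rw [hd1, map_one, one_mul] at hν'
          apply h2
          linear_combination hν'
        · have hd1 : d = -1 := by linear_combination h'
          rw [hd1, map_neg, map_one] at hν'
          apply h2
          linear_combination hν'
      · have hdd : (d - i) * (d + i) = 0 := by linear_combination hd + h - P.sq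
        rcases mul_eq_zero.mp hdd with h' | h'
        · have hd1 : d = i := sub_eq_zero.mp h'
          rw [hd1, hφi] at hν'
          apply h2
          linear_combination hν'
        · have hd1 : d = -i := by linear_combination h'
          rw [hd1, map_neg, neg_mul_neg, hφi] at hν'
          apply h2
          linear_combination hν'
  have hφdi : φ di * di = 1 := by
    linear_combination -(φ di * di) * hν + (di * d) * hφdd + hdi
  have hyU : adj φ y * y = 1 := by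
    rw [hy]
    exact unitary_smul φ di x.val hφdi hxU
  have hxy : x.val = d • y := by
    rw [hy, smul_smul, mul_comm d di, hdi, one_smul]
  have hN : ((2 : ℕ) : F) ≠ 0 := by exact_mod_cast h2
  obtain ⟨a, b, -, hab, htr, hdt⟩ := sq_type y hy2
  obtain ⟨n, hn, hnU, hn2, hnt, hnd⟩ := invol_types P φ hRU' a b hab
  have hcp := sq_charpoly_eq h2 y n.val hy2 hn2 (by rw [htr, hnt]) (by rw [hdt, hnd])
  exact conj_unitary φ hφ hφ2 l hl R x d hd0 y hxy hyU 2 hN hy2 n hn hnU hn2 hcp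

/-- Elements of order 3 of `PSU_4(p)`, `p ≡ 1 (mod 3)`, are conjugate into the normalizer. -/
theorem conj_three_U (hF : Fintype.card F = p ^ 2) (hp3 : p % 3 = 1) (P : PData R i)
    (φ : F →+* F) (hφ : ∀ x, φ x = x ^ p) (hφ2 : ∀ x, φ (φ x) = x) (l : F) (hl : φ l ≠ l)
    (hRU : R ≤ Cfsg.GU 4 F p) (x : GL (Fin 4) F)
    (hx : x ∈ Cfsg.GU 4 F p ⊓ Cfsg.Geo.specialLinear (Fin 4) F)
    (hx3 : ∃ z : F, ((x ^ 3 : GL (Fin 4) F) : Matrix (Fin 4) (Fin 4) F) =
      z • (1 : Matrix (Fin 4) (Fin 4) F)) :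
    ∃ g ∈ Cfsg.GU 4 F p ⊓ Cfsg.Geo.specialLinear (Fin 4) F,
      g⁻¹ * x * g ∈ Cfsg.Geo.subgroupNormalizer R := by
  have h2 := P.two
  have hpp : p.Prime := Fact.out
  have h3 : (3 : F) ≠ 0 := by
    have h := natCast_ne_zero_of_lt (F := F) (p := p) 3 (by norm_num)
      (by have := hpp.two_le; omega)
    exact_mod_cast h
  obtain ⟨ω, hω⟩ := exists_omega_sq (F := F) hF (by omega)
  have hω3 : ω ^ 3 = 1 := by linear_combination (ω - 1) * hω
  have hφω : φ ω = ω := phi_omega_one φ hφ hp3 ω hω3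
  have hRU' : ∀ a ∈ R, adj φ (a : Matrix (Fin 4) (Fin 4) F) *
      (a : Matrix (Fin 4) (Fin 4) F) = 1 := fun a ha => (mem_GU_iff φ hφ a).1 (hRU ha)
  obtain ⟨z, hz⟩ := hx3
  have hxU : adj φ x.val * x.val = 1 := (mem_GU_iff φ hφ x).1 hx.1
  have hdet : x.val.det = 1 := (mem_SL_iff x).1 hx.2
  have hzU : φ z * z = 1 := scalar_norm_of_pow φ hφ x hx.1 3 z hz
  have hz4 : z ^ 4 = 1 := scalar_pow_four x hdet 3 z hz
  have hz0 : z ≠ 0 := by
    intro h
    rw [h] at hz4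
    norm_num at hz4
  obtain ⟨y, hy⟩ : ∃ y : Matrix (Fin 4) (Fin 4) F, y = z • x.val := ⟨_, rfl⟩
  have hyU : adj φ y * y = 1 := by
    rw [hy]
    exact unitary_smul φ z x.val hzU hxU
  have hy3 : y ^ 3 = 1 := by
    rw [hy, _root_.smul_pow, ← Units.val_pow_eq_pow_val, hz, smul_smul]
    have e : z ^ 3 * z = 1 := by
      rw [← hz4]
      ring
    rw [e, one_smul]
  have hxy : x.val = z⁻¹ • y := by
    rw [hy, smul_smul, inv_mul_cancel₀ hz0, one_smul]
  have hN : ((3 : ℕ) : F) ≠ 0 := by exact_mod_cast h3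
  obtain ⟨a, b, hab, hdeg, htr⟩ := unitary_cube_form φ ω hω hφω h2 h3 y hyU hy3
  have h3' : ((2 : ℕ) : F) + 1 ≠ 0 := by
    intro h
    apply h3
    push_cast at h
    linear_combination h
  have key : ∀ n : GL (Fin 4) F, n ∈ Cfsg.Geo.subgroupNormalizer R →
      adj φ n.val * n.val = 1 → n.val ^ 3 = 1 → Matrix.trace y = Matrix.trace n.val →
      ∃ g ∈ Cfsg.GU 4 F p ⊓ Cfsg.Geo.specialLinear (Fin 4) F,
        g⁻¹ * x * g ∈ Cfsg.Geo.subgroupNormalizer R := by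
    intro n hn hnU hn3 htn
    have hcp := charpoly_eq_of_form h2 h3 (X - C (1 : F)) (q3 F) 2 (by norm_num) h3' y n.val
      ⟨a, b, hab, hdeg, htr⟩ (unitary_cube_form φ ω hω hφω h2 h3 n.val hnU hn3) htn
    exact conj_unitary φ hφ hφ2 l hl R x z⁻¹ (inv_ne_zero hz0) y hxy hyU 3 hN hy3 n hn hnU
      hn3 hcp
  have hc : (a = 4 ∧ b = 0) ∨ (a = 2 ∧ b = 1) ∨ (a = 0 ∧ b = 2) := by omega
  rcases hc with ⟨rfl, rfl⟩ | ⟨rfl, rfl⟩ | ⟨rfl, rfl⟩
  · apply key 1 (Subgroup.one_mem _) (by rw [Units.val_one, adj_one, Matrix.one_mul])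
      (by rw [Units.val_one, one_pow])
    rw [htr, Units.val_one, Matrix.trace_one, Fintype.card_fin]
    norm_num
  · obtain ⟨n, hn, hnU, hn3, hnt⟩ := exists_P3_U P φ hRU'
    apply key n hn hnU hn3
    rw [htr, hnt]
    norm_num
  · obtain ⟨n, hn, hnU, hn3, hnt⟩ := exists_U3_U P φ hRU'
    apply key n hn hnU hn3
    rw [htr, hnt]
    norm_num

/-- Elements of order 5 of `PSU_4(p)`, `p ≡ ±2 (mod 5)`, are conjugate into the normalizer. -/
theorem conj_five_U (hF : Fintype.card F = p ^ 2) (hp4 : p % 4 = 3)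
    (hp5 : p % 5 = 2 ∨ p % 5 = 3) (P : PData R i)
    (φ : F →+* F) (hφ : ∀ x, φ x = x ^ p) (hφ2 : ∀ x, φ (φ x) = x) (l : F) (hl : φ l ≠ l)
    (hRU : R ≤ Cfsg.GU 4 F p) (x : GL (Fin 4) F)
    (hx : x ∈ Cfsg.GU 4 F p ⊓ Cfsg.Geo.specialLinear (Fin 4) F)
    (hx5 : ∃ z : F, ((x ^ 5 : GL (Fin 4) F) : Matrix (Fin 4) (Fin 4) F) =
      z • (1 : Matrix (Fin 4) (Fin 4) F)) :
    ∃ g ∈ Cfsg.GU 4 F p ⊓ Cfsg.Geo.specialLinear (Fin 4) F,
      g⁻¹ * x * g ∈ Cfsg.Geo.subgroupNormalizer R := by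
  have h2 := P.two
  have hpp : p.Prime := Fact.out
  have hp5' : p ≠ 5 := by
    intro h
    rw [h] at hp5
    omega
  have h5 : (5 : F) ≠ 0 := five_ne_zero (p := p) hpp hp5'
  have hno5 := no_fifth_root (F := F) hF hp5
  obtain ⟨t, ht⟩ := exists_golden_sq hF hp4 φ hφ h2
  have hφt := phi_golden hF hp4 φ hφ h2 h5 hno5 t ht
  have hirr₁ := q5_no_root h5 hno5 t ht
  have hirr₂ := q5_no_root h5 hno5 (-1 - t) (by linear_combination ht)
  have htt : t - (-1 - t) ≠ 0 := by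
    intro h
    apply h5
    linear_combination (2 * t + 1) * h - 4 * ht
  have hRU' : ∀ a ∈ R, adj φ (a : Matrix (Fin 4) (Fin 4) F) *
      (a : Matrix (Fin 4) (Fin 4) F) = 1 := fun a ha => (mem_GU_iff φ hφ a).1 (hRU ha)
  obtain ⟨z, hz⟩ := hx5
  have hxU : adj φ x.val * x.val = 1 := (mem_GU_iff φ hφ x).1 hx.1
  have hdet : x.val.det = 1 := (mem_SL_iff x).1 hx.2
  have hzU : φ z * z = 1 := scalar_norm_of_pow φ hφ x hx.1 5 z hz
  have hz4 : z ^ 4 = 1 := scalar_pow_four x hdet 5 z hz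
  have hz0 : z ≠ 0 := by
    intro h
    rw [h] at hz4
    norm_num at hz4
  obtain ⟨y, hy⟩ : ∃ y : Matrix (Fin 4) (Fin 4) F, y = z ^ 3 • x.val := ⟨_, rfl⟩
  have hyU : adj φ y * y = 1 := by
    rw [hy]
    exact unitary_smul φ (z ^ 3) x.val (by rw [map_pow, ← mul_pow, hzU, one_pow]) hxU
  have hy5 : y ^ 5 = 1 := by
    rw [hy, _root_.smul_pow, ← Units.val_pow_eq_pow_val, hz, smul_smul]
    have e : (z ^ 3) ^ 5 * z = 1 := by
      have e' : (z ^ 3) ^ 5 * z = (z ^ 4) ^ 4 := by ring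
      rw [e', hz4, one_pow]
    rw [e, one_smul]
  have hxy : x.val = (z ^ 3)⁻¹ • y := by
    rw [hy, smul_smul, inv_mul_cancel₀ (pow_ne_zero 3 hz0), one_smul]
  have hN : ((5 : ℕ) : F) ≠ 0 := by exact_mod_cast h5
  obtain ⟨a, b, hab, hdeg, htr⟩ := unitary_five_form φ t ht hφt hirr₁ hirr₂ h2 htt y hyU hy5
  have key : ∀ n : GL (Fin 4) F, n ∈ Cfsg.Geo.subgroupNormalizer R →
      adj φ n.val * n.val = 1 → n.val ^ 5 = 1 → Matrix.trace y = Matrix.trace n.val →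
      ∃ g ∈ Cfsg.GU 4 F p ⊓ Cfsg.Geo.specialLinear (Fin 4) F,
        g⁻¹ * x * g ∈ Cfsg.Geo.subgroupNormalizer R := by
    intro n hn hnU hn5 htn
    have hcp := charpoly_eq_of_form5 h5 (q5 t * q5 (-1 - t)) y n.val
      ⟨a, b, hab, hdeg, htr⟩ (unitary_five_form φ t ht hφt hirr₁ hirr₂ h2 htt n.val hnU hn5)
      htn
    exact conj_unitary φ hφ hφ2 l hl R x (z ^ 3)⁻¹ (inv_ne_zero (pow_ne_zero 3 hz0)) y hxy
      hyU 5 hN hy5 n hn hnU hn5 hcp
  have hc : (a = 4 ∧ b = 0) ∨ (a = 0 ∧ b = 1) := by omega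
  rcases hc with ⟨rfl, rfl⟩ | ⟨rfl, rfl⟩
  · apply key 1 (Subgroup.one_mem _) (by rw [Units.val_one, adj_one, Matrix.one_mul])
      (by rw [Units.val_one, one_pow])
    rw [htr, Units.val_one, Matrix.trace_one, Fintype.card_fin]
    norm_num
  · obtain ⟨n, hn, hnU, hn5, hnt⟩ := exists_M5_U P φ hRU' h5 hno5
    apply key n hn hnU hn5
    rw [htr, hnt]
    norm_num

end conj

end Cfsg.Agent.Lib.Helper37.Pauli4G
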