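import Mathlib
import Cfsg.Prelude.Def_GeometricClasses
import Cfsg.Prelude.Def_LieClassical
import Cfsg.Agent.Lib.Helper40.HermAdj
import Cfsg.Agent.Lib.Helper37.Pauli4A
import Cfsg.Agent.Lib.Helper37.Pauli4B
import Cfsg.Agent.Lib.Helper37.Pauli4C
import Cfsg.Agent.Lib.Helper37.Pauli4E
import Cfsg.Agent.Lib.Helper37.Pauli4F

/-!
# Elements of prime order of `SU_4(p)` not conjugate into the normalizer of `4 ∘ 2^{1+4}`

Elements of orders `3` and `5` of `SU_4(p)` that are not conjugate into the normalizer of the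
symplectic-type group `R` (by the fixed-point trace formula), including unitary transvections
in characteristic `3`, and the primes `r ≥ 7`.
-/

set_option autoImplicit false

open scoped MatrixGroups

namespace Cfsg.Agent.Lib.Helper37.Pauli4H

open Cfsg.Agent.Lib.Helper37.Pauli4A Cfsg.Agent.Lib.Helper37.Pauli4B
  Cfsg.Agent.Lib.Helper37.Pauli4C Cfsg.Agent.Lib.Helper37.Pauli4E
  Cfsg.Agent.Lib.Helper37.Pauli4F Cfsg.Agent.Lib.Helper40.HermAdj

universe u

variable {F : Type u} [Field F]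

section poly

open Polynomial

theorem q5_mul_eq (t : F) (ht : t ^ 2 + t - 1 = 0) :
    (X - C (1 : F)) * q5 t * q5 (-1 - t) = X ^ 5 - 1 := by
  have hT : (C t : F[X]) ^ 2 + C t - 1 = 0 := by
    rw [← C_pow, ← C_add, ← C_1, ← C_sub, ht, C_0]
  unfold q5
  rw [C_sub, C_neg, C_1]
  linear_combination (-(X - 1) * X ^ 2) * hT

/-- A matrix with `L² = tL - 1`, `t² + t - 1 = 0`, has order dividing `5`. -/
theorem pow_five_of_q5 (t : F) (ht : t ^ 2 + t - 1 = 0) (L : Matrix (Fin 4) (Fin 4) F)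
    (hL : L * L = t • L - 1) : L ^ 5 = 1 := by
  have h0 : aeval L (q5 t) = 0 := by
    unfold q5
    rw [map_add, map_sub, map_pow, map_mul, aeval_X, aeval_C, map_one, pow_two, hL,
      Algebra.algebraMap_eq_smul_one, Matrix.smul_mul, Matrix.one_mul]
    abel
  have h1 : aeval L ((X - C (1 : F)) * q5 t * q5 (-1 - t)) = 0 := by
    rw [mul_right_comm, map_mul, h0, mul_zero]
  rw [q5_mul_eq t ht, map_sub, map_pow, aeval_X, map_one] at h1
  exact sub_eq_zero.mp h1

end poly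

variable {R : Subgroup (GL (Fin 4) F)} {i : F}

/-! ### Generic shape of a counterexample -/

/-- A non-scalar element of `K` with `x ^ r = 1`, no conjugate of which normalizes `R`, is a
counterexample. -/
theorem bad_of_elt (K : Subgroup (GL (Fin 4) F)) (r : ℕ) (x : GL (Fin 4) F) (hxK : x ∈ K)
    (hxr : x ^ r = 1) (hns : ∀ z : F, x.val ≠ z • (1 : Matrix (Fin 4) (Fin 4) F))
    (hbad : ∀ g : GL (Fin 4) F, g⁻¹ * x * g ∉ Cfsg.Geo.subgroupNormalizer R) :
    ¬ (∀ x ∈ K,
      (∃ z : F, ((x ^ r : GL (Fin 4) F) : Matrix (Fin 4) (Fin 4) F) =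
        z • (1 : Matrix (Fin 4) (Fin 4) F)) →
      (∀ z : F, (x : Matrix (Fin 4) (Fin 4) F) ≠ z • (1 : Matrix (Fin 4) (Fin 4) F)) →
      ∃ g ∈ K, g⁻¹ * x * g ∈ Cfsg.Geo.subgroupNormalizer R) := by
  intro hall
  obtain ⟨g, -, hg⟩ := hall x hxK ⟨1, by rw [hxr, Units.val_one, one_smul]⟩ hns
  exact hbad g hg

/-! ### Order three, `p ≡ 2 (mod 3)` -/

theorem adj_D3 (φ : F →+* F) (a : F) : adj φ (D3 a) = D3 (φ a) := by
  ext k l
  rw [adj_apply]
  fin_cases k <;> fin_cases l <;> simp [D3]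

/-- For `p ≡ 2 (mod 3)`, the unitary element `diag(ω, ω, ω, 1)` of order 3 is not conjugate
into the normalizer. -/
theorem bad_three_U {p : ℕ} (P : PData R i) (φ : F →+* F) (hφ : ∀ x, φ x = x ^ p)
    (h3 : (3 : F) ≠ 0) (ω : F) (hω : ω ^ 2 + ω + 1 = 0) (hφω : φ ω * ω = 1) :
    ¬ (∀ x ∈ Cfsg.GU 4 F p ⊓ Cfsg.Geo.specialLinear (Fin 4) F,
      (∃ z : F, ((x ^ 3 : GL (Fin 4) F) : Matrix (Fin 4) (Fin 4) F) =
        z • (1 : Matrix (Fin 4) (Fin 4) F)) →
      (∀ z : F, (x : Matrix (Fin 4) (Fin 4) F) ≠ z • (1 : Matrix (Fin 4) (Fin 4) F)) →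
      ∃ g ∈ Cfsg.GU 4 F p ⊓ Cfsg.Geo.specialLinear (Fin 4) F,
        g⁻¹ * x * g ∈ Cfsg.Geo.subgroupNormalizer R) := by
  have hω3 : ω ^ 3 = 1 := by linear_combination (ω - 1) * hω
  have hω1 : ω ≠ 1 := by
    intro h
    rw [h] at hω
    apply h3
    linear_combination hω
  have hinv : D3 ω * D3 (ω ^ 2) = 1 := by
    have e : ω * ω ^ 2 = 1 := by linear_combination hω3
    rw [D3_mul, e, D3_one]
  obtain ⟨x, hxv, hxi⟩ : ∃ x : GL (Fin 4) F, x.val = D3 ω ∧ (x⁻¹).val = D3 (ω ^ 2) :=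
    ⟨gl (D3 ω) (D3 (ω ^ 2)) hinv, rfl, rfl⟩
  have hx3 : x ^ 3 = 1 := by
    apply Units.ext
    have e : ω * ω * ω = 1 := by linear_combination hω3
    rw [Units.val_pow_eq_pow_val, hxv, Units.val_one, pow_succ, pow_two, D3_mul, D3_mul, e,
      D3_one]
  have hxSL : x ∈ Cfsg.Geo.specialLinear (Fin 4) F := by
    rw [mem_SL_iff, hxv, D3_det, hω3]
  have hxU : x ∈ Cfsg.GU 4 F p := by
    rw [mem_GU_iff φ hφ, hxv, adj_D3, D3_mul, hφω, D3_one]
  have hns : ∀ z : F, x.val ≠ z • (1 : Matrix (Fin 4) (Fin 4) F) := by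
    intro z
    rw [hxv]
    exact D3_ne_scalar ω hω1 z
  apply bad_of_elt _ 3 x (Subgroup.mem_inf.2 ⟨hxU, hxSL⟩) hx3 hns
  intro g hg
  have htr := trace_three P (g⁻¹ * x * g) hg (conj_pow_one x g 3 hx3) (conj_nonscalar x g hns)
  rw [conj_trace, conj_inv_trace, hxv, hxi, D3_trace, D3_trace] at htr
  have e7 : (3 * ω + 1) * (3 * ω ^ 2 + 1) = 7 := by linear_combination 9 * hω3 + 3 * hω
  rw [e7] at htr
  rcases htr with h | h
  · have h6 : (2 : F) * 3 = 0 := by linear_combination h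
    rcases mul_eq_zero.mp h6 with h' | h'
    · exact P.two h'
    · exact h3 h'
  · apply h3
    linear_combination h

/-! ### Transvections -/

theorem inv_one_add (n : GL (Fin 4) F) (E : Matrix (Fin 4) (Fin 4) F) (hE : E * E = 0)
    (hnE : n.val = 1 + E) : (n⁻¹).val = 1 - E := by
  have h1 : n.val * (1 - E) = 1 := by
    have e : (1 + E) * (1 - E) = 1 - E * E := by noncomm_ring
    rw [hnE, e, hE, sub_zero]
  calc (n⁻¹).val = (n⁻¹).val * (n.val * (1 - E)) := by rw [h1, Matrix.mul_one]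
    _ = 1 - E := by rw [← Matrix.mul_assoc, Units.inv_mul, Matrix.one_mul]

theorem unip_trace_gen (P : PData R i) (n : GL (Fin 4) F)
    (hn : n ∈ Cfsg.Geo.subgroupNormalizer R) (r : ℕ) (hr : r.Prime) (hr2 : r ≠ 2)
    (hnr : n ^ r = 1) (E : Matrix (Fin 4) (Fin 4) F) (hE : E * E = 0) (hnE : n.val = 1 + E)
    (c : GL (Fin 4) F) (hc : c ∈ R) (hcomm : n * c ≠ c * n) :
    Matrix.trace (c.val * E * (c⁻¹).val * E) = 4 := by
  have hni : (n⁻¹).val = 1 - E := inv_one_add n E hE hnE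
  have h0 := term_ncomm P n hn r hr hr2 hnr c hc hcomm
  rw [hnE, hni] at h0
  have hCC : c.val * (c⁻¹).val = 1 := Units.mul_inv c
  have hCC' : (c⁻¹).val * c.val = 1 := Units.inv_mul c
  have e1 : c.val * (1 + E) * (c⁻¹).val * (1 - E) =
      1 - E + c.val * E * (c⁻¹).val - c.val * E * (c⁻¹).val * E := by
    have e2 : c.val * (1 + E) * (c⁻¹).val = 1 + c.val * E * (c⁻¹).val := by
      rw [Matrix.mul_add, Matrix.mul_one, Matrix.add_mul, hCC]
    rw [e2]
    noncomm_ring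
  have e3 : Matrix.trace (c.val * E * (c⁻¹).val) = Matrix.trace E := by
    rw [Matrix.trace_mul_comm, ← Matrix.mul_assoc, hCC', Matrix.one_mul]
  rw [e1, Matrix.trace_sub, Matrix.trace_add, Matrix.trace_sub, Matrix.trace_one,
    Fintype.card_fin, e3] at h0
  have e4 : ((4 : ℕ) : F) = 4 := by norm_num
  rw [e4] at h0
  linear_combination -h0

/-- A unipotent element `1 + E` of odd prime order of the normalizer, with `E` of rank one
and square zero, is scalar. -/
theorem transv_scalar (P : PData R i) (n : GL (Fin 4) F)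
    (hn : n ∈ Cfsg.Geo.subgroupNormalizer R) (r : ℕ) (hr : r.Prime) (hr2 : r ≠ 2)
    (hnr : n ^ r = 1) (E : Matrix (Fin 4) (Fin 4) F) (hE : E * E = 0)
    (hrank : ∀ M : Matrix (Fin 4) (Fin 4) F, E * M * E = Matrix.trace (M * E) • E)
    (hnE : n.val = 1 + E) : ∃ s : F, n.val = s • (1 : Matrix (Fin 4) (Fin 4) F) := by
  classical
  by_contra hns
  push Not at hns
  have hfin := P.finite
  have hni : (n⁻¹).val = 1 - E := inv_one_add n E hE hnE
  have key : ∀ c : GL (Fin 4) F, c ∈ R → n * c ≠ c * n → Matrix.trace (c.val * E) ≠ 0 := by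
    intro c hc hcomm h0
    have t := unip_trace_gen P n hn r hr hr2 hnr E hE hnE c hc hcomm
    have e : c.val * E * (c⁻¹).val * E = c.val * (E * (c⁻¹).val * E) := by
      simp only [Matrix.mul_assoc]
    rw [e, hrank, Matrix.mul_smul, Matrix.trace_smul, smul_eq_mul, h0, mul_zero] at t
    exact P.four_ne t.symm
  obtain ⟨c, hc, hcn⟩ : ∃ c ∈ R, n * c ≠ c * n := by
    by_contra hall
    push Not at hall
    obtain ⟨s, hs⟩ := P.commutant n.val (fun x hx => by
      have h1 := congrArg Units.val (hall x hx)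
      rw [Units.val_mul, Units.val_mul] at h1
      exact h1)
    exact hns s hs
  have hlamc := key c hc hcn
  have hc1 : n * c * n⁻¹ ∈ R := ((Subgroup.mem_normalizer_iff.1 hn) c).1 hc
  -- the main dichotomy
  have hmain : ∀ e : GL (Fin 4) F, e ∈ R → e * c = c * e →
      (∃ s : F, (c * e).val = s • (1 : Matrix (Fin 4) (Fin 4) F)) ∨
      (∃ s : F, (n * c * n⁻¹ * e).val = s • (1 : Matrix (Fin 4) (Fin 4) F)) ∨
      n * e = e * n := by
    intro e he hec
    by_cases h1 : ∃ s : F, (c * e).val = s • (1 : Matrix (Fin 4) (Fin 4) F)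
    · exact Or.inl h1
    by_cases h2 : ∃ s : F, (n * c * n⁻¹ * e).val = s • (1 : Matrix (Fin 4) (Fin 4) F)
    · exact Or.inr (Or.inl h2)
    right
    right
    by_contra hne
    have hlame := key e he hne
    push Not at h1 h2
    have t1 : Matrix.trace (c * e).val = 0 := trace_zero P (c * e) (R.mul_mem hc he) h1
    have t2 : Matrix.trace (n * c * n⁻¹ * e).val = 0 :=
      trace_zero P _ (R.mul_mem hc1 he) h2
    have hec' : e.val * c.val = c.val * e.val := by
      have h3 := congrArg Units.val hec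
      rw [Units.val_mul, Units.val_mul] at h3
      exact h3
    have e1 : (n * c * n⁻¹ * e).val = c.val * e.val + E * (c.val * e.val) -
        c.val * E * e.val - (E * c.val * E) * e.val := by
      rw [Units.val_mul, Units.val_mul, Units.val_mul, hnE, hni]
      noncomm_ring
    rw [e1, hrank, Matrix.trace_sub, Matrix.trace_sub, Matrix.trace_add, Matrix.smul_mul,
      Matrix.trace_smul, smul_eq_mul] at t2
    rw [Units.val_mul] at t1
    have e2 : Matrix.trace (E * (c.val * e.val)) = Matrix.trace (c.val * E * e.val) := by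
      rw [Matrix.trace_mul_comm E (c.val * e.val), Matrix.trace_mul_comm (c.val * E) e.val,
        ← Matrix.mul_assoc, hec']
    have e3 : Matrix.trace (E * e.val) = Matrix.trace (e.val * E) := Matrix.trace_mul_comm _ _
    rw [t1, e2, e3] at t2
    have h4 : Matrix.trace (c.val * E) * Matrix.trace (e.val * E) = 0 := by
      linear_combination -t2
    rcases mul_eq_zero.mp h4 with h | h
    · exact hlamc h
    · exact hlame h
  -- scalar elements of `R` are central
  have hscal_center : ∀ g : R,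
      (∃ s : F, (g : GL (Fin 4) F).val = s • (1 : Matrix (Fin 4) (Fin 4) F)) →
      g ∈ Subgroup.center R := by
    rintro g ⟨s, hs⟩
    rw [Subgroup.mem_center_iff]
    intro g'
    apply Subtype.ext
    apply Units.ext
    rw [Subgroup.coe_mul, Subgroup.coe_mul, Units.val_mul, Units.val_mul, hs, Matrix.smul_mul,
      Matrix.mul_smul, Matrix.one_mul, Matrix.mul_one]
  obtain ⟨c', hc'⟩ : ∃ c' : R, (c' : GL (Fin 4) F) = c := ⟨⟨c, hc⟩, rfl⟩
  obtain ⟨c₁, hc₁⟩ : ∃ c₁ : R, (c₁ : GL (Fin 4) F) = n * c * n⁻¹ := ⟨⟨_, hc1⟩, rfl⟩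
  have hccen : c' ∉ Subgroup.center R := by
    intro hz
    obtain ⟨s, hs⟩ := center_scalar P c' hz
    rw [hc'] at hs
    apply hcn
    apply Units.ext
    rw [Units.val_mul, Units.val_mul, hs, Matrix.mul_smul, Matrix.smul_mul, Matrix.mul_one,
      Matrix.one_mul]
  obtain ⟨a, ha⟩ : ∃ a : R, a * c' ≠ c' * a := by
    by_contra hall
    push Not at hall
    exact hccen (Subgroup.mem_center_iff.mpr hall)
  have anti : ∀ u : R, u * c' ≠ c' * u →
      (u : GL (Fin 4) F).val * (c' : GL (Fin 4) F).val =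
        -((c' : GL (Fin 4) F).val * (u : GL (Fin 4) F).val) := by
    intro u hu
    exact (P.comm u u.2 c' c'.2).resolve_left (fun h => hu ((comm_iff u c').mpr h))
  obtain ⟨D, hD⟩ : ∃ D : Subgroup R, ∀ t : R, t ∈ D ↔ t * c' = c' * t :=
    ⟨Subgroup.centralizer {c'}, fun t => by
      rw [Subgroup.mem_centralizer_iff]
      constructor
      · intro h1
        exact (h1 c' rfl).symm
      · intro h1 y hy
        rw [Set.mem_singleton_iff.mp hy]
        exact h1.symm⟩
  have hidx : D.index = 2 := by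
    rw [Subgroup.index_eq_two_iff]
    refine ⟨a, fun b => ?_⟩
    by_cases hb : b ∈ D
    · right
      refine ⟨hb, ?_⟩
      rw [hD] at hb ⊢
      intro h1
      apply ha
      have h2 : a * c' = b⁻¹ * (b * a * c') := by group
      rw [h2, h1]
      calc b⁻¹ * (c' * (b * a)) = b⁻¹ * ((c' * b) * a) := by group
        _ = b⁻¹ * ((b * c') * a) := by rw [hb]
        _ = c' * a := by group
    · left
      refine ⟨?_, hb⟩
      rw [hD] at hb ⊢
      rw [comm_iff]
      have h1 := anti b hb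
      have h2 := anti a ha
      rw [Subgroup.coe_mul, Units.val_mul, Matrix.mul_assoc, h2, Matrix.mul_neg,
        ← Matrix.mul_assoc, h1, Matrix.neg_mul, neg_neg, Matrix.mul_assoc]
  have hcardD : Nat.card D = 32 := by
    have h1 := Subgroup.card_mul_index D
    rw [hidx, P.card] at h1
    omega
  -- counting
  have hk : Nat.card (D ⊓ fixSub R n : Subgroup R) ≤ 16 := by
    have hdvd : Nat.card (D ⊓ fixSub R n : Subgroup R) ∣ Nat.card D :=
      Subgroup.card_dvd_of_le inf_le_left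
    rw [hcardD] at hdvd
    have hne : Nat.card (D ⊓ fixSub R n : Subgroup R) ≠ 32 := by
      intro h32
      have heq : D ⊓ fixSub R n = D :=
        Subgroup.eq_of_le_of_card_ge inf_le_left (le_of_eq (by rw [h32, hcardD]))
      have hcD : c' ∈ D := (hD c').mpr rfl
      rw [← heq] at hcD
      have h3 := (mem_fixSub n c').mp (Subgroup.mem_inf.mp hcD).2
      rw [hc'] at h3
      exact hcn h3
    obtain ⟨m, hm⟩ := hdvd
    have hm0 : m ≠ 0 := by
      rintro rfl
      omega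
    have hm1 : m ≠ 1 := by
      rintro rfl
      omega
    have h2m : 2 ≤ m := by omega
    have h4 := Nat.mul_le_mul_left (Nat.card (D ⊓ fixSub R n : Subgroup R)) h2m
    omega
  obtain ⟨S₁, hS₁⟩ : ∃ S₁ : Set R,
      S₁ = (fun z : R => c'⁻¹ * z) '' (Subgroup.center R : Set R) := ⟨_, rfl⟩
  obtain ⟨S₂, hS₂⟩ : ∃ S₂ : Set R,
      S₂ = (fun z : R => c₁⁻¹ * z) '' (Subgroup.center R : Set R) := ⟨_, rfl⟩
  obtain ⟨S₃, hS₃⟩ : ∃ S₃ : Set R, S₃ = ((D ⊓ fixSub R n : Subgroup R) : Set R) := ⟨_, rfl⟩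
  have hZ : ((Subgroup.center R : Subgroup R) : Set R).ncard = 4 := by
    rw [← Nat.card_coe_set_eq]
    exact P.center
  have hA : (D : Set R).ncard = 32 := by
    rw [← Nat.card_coe_set_eq]
    exact hcardD
  have hc1' : S₁.ncard ≤ 4 := by
    rw [hS₁]
    exact le_trans (Set.ncard_image_le (Set.toFinite _)) (le_of_eq hZ)
  have hc2' : S₂.ncard ≤ 4 := by
    rw [hS₂]
    exact le_trans (Set.ncard_image_le (Set.toFinite _)) (le_of_eq hZ)
  have hc3' : S₃.ncard ≤ 16 := by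
    rw [hS₃, ← Nat.card_coe_set_eq]
    exact hk
  have hsub : (D : Set R) ⊆ (S₁ ∪ S₂) ∪ S₃ := by
    intro e he
    have he' : e ∈ D := he
    have hec : (e : GL (Fin 4) F) * c = c * (e : GL (Fin 4) F) := by
      have h1 := (hD e).mp he'
      have h2 := congrArg (fun t : R => (t : GL (Fin 4) F)) h1
      simp only [Subgroup.coe_mul] at h2
      rw [hc'] at h2
      exact h2
    rcases hmain (e : GL (Fin 4) F) e.2 hec with ⟨s, hs⟩ | ⟨s, hs⟩ | h
    · left
      left
      rw [hS₁]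
      refine ⟨c' * e, hscal_center (c' * e) ⟨s, ?_⟩, ?_⟩
      · rw [Subgroup.coe_mul, hc']
        exact hs
      · simp
    · left
      right
      rw [hS₂]
      refine ⟨c₁ * e, hscal_center (c₁ * e) ⟨s, ?_⟩, ?_⟩
      · rw [Subgroup.coe_mul, hc₁]
        exact hs
      · simp
    · right
      rw [hS₃]
      exact Subgroup.mem_inf.mpr ⟨he', (mem_fixSub n e).mpr h⟩
  have h32 := Set.ncard_le_ncard hsub (Set.toFinite _)
  have hU1 := Set.ncard_union_le (S₁ ∪ S₂) S₃
  have hU2 := Set.ncard_union_le S₁ S₂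
  omega

/-- The vector `(1, 1, 1, 0)`. -/
def w3 (F : Type u) [Field F] : Fin 4 → F := ![1, 1, 1, 0]

theorem w3_dot (h3 : (3 : F) = 0) : w3 F ⬝ᵥ w3 F = 0 := by
  have e : w3 F ⬝ᵥ w3 F = 1 + 1 + 1 := by
    simp [w3, dotProduct, Fin.sum_univ_four]
  rw [e]
  linear_combination h3

theorem vmv_sandwich (u v : Fin 4 → F) (M : Matrix (Fin 4) (Fin 4) F) :
    Matrix.vecMulVec u v * M * Matrix.vecMulVec u v =
      Matrix.trace (M * Matrix.vecMulVec u v) • Matrix.vecMulVec u v := by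
  rw [Matrix.vecMulVec_mul, Matrix.vecMulVec_mul_vecMulVec, Matrix.mul_vecMulVec,
    Matrix.trace_vecMulVec, Matrix.vecMulVec_smul]
  congr 1
  rw [← Matrix.dotProduct_mulVec, dotProduct_comm]

theorem conj_rank (E : Matrix (Fin 4) (Fin 4) F)
    (hrank : ∀ M : Matrix (Fin 4) (Fin 4) F, E * M * E = Matrix.trace (M * E) • E)
    (g : GL (Fin 4) F) (M : Matrix (Fin 4) (Fin 4) F) :
    ((g⁻¹).val * E * g.val) * M * ((g⁻¹).val * E * g.val) =
      Matrix.trace (M * ((g⁻¹).val * E * g.val)) • ((g⁻¹).val * E * g.val) := by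
  have e : (g⁻¹).val * E * g.val * M * ((g⁻¹).val * E * g.val) =
      (g⁻¹).val * (E * (g.val * M * (g⁻¹).val) * E) * g.val := by
    simp only [Matrix.mul_assoc]
  have ht : Matrix.trace (g.val * M * (g⁻¹).val * E) =
      Matrix.trace (M * ((g⁻¹).val * E * g.val)) := by
    have e1 : M * ((g⁻¹).val * E * g.val) = (M * ((g⁻¹).val * E)) * g.val := by
      simp only [Matrix.mul_assoc]
    rw [e1, Matrix.trace_mul_comm (M * ((g⁻¹).val * E)) g.val]
    simp only [Matrix.mul_assoc]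
  rw [e, hrank, Matrix.mul_smul, Matrix.smul_mul, ht]

/-- In characteristic 3, a unitary transvection (of order 3) is not conjugate into the
normalizer. -/
theorem bad_three_char {p : ℕ} (P : PData R i) (φ : F →+* F) (hφ : ∀ x, φ x = x ^ p)
    (hφi : φ i * i = 1) (h3 : (3 : F) = 0) :
    ¬ (∀ x ∈ Cfsg.GU 4 F p ⊓ Cfsg.Geo.specialLinear (Fin 4) F,
      (∃ z : F, ((x ^ 3 : GL (Fin 4) F) : Matrix (Fin 4) (Fin 4) F) =
        z • (1 : Matrix (Fin 4) (Fin 4) F)) →
      (∀ z : F, (x : Matrix (Fin 4) (Fin 4) F) ≠ z • (1 : Matrix (Fin 4) (Fin 4) F)) →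
      ∃ g ∈ Cfsg.GU 4 F p ⊓ Cfsg.Geo.specialLinear (Fin 4) F,
        g⁻¹ * x * g ∈ Cfsg.Geo.subgroupNormalizer R) := by
  have hi := P.sq
  have hi0 : i ≠ 0 := by
    intro h0
    rw [h0, mul_zero] at hi
    norm_num at hi
  have hφi' : φ i = -i := by linear_combination (-i) * hφi + φ i * hi
  obtain ⟨E, hEdef⟩ : ∃ E : Matrix (Fin 4) (Fin 4) F,
      E = Matrix.vecMulVec (i • w3 F) (w3 F) := ⟨_, rfl⟩
  have hdot : w3 F ⬝ᵥ (i • w3 F) = 0 := by
    rw [dotProduct_smul, w3_dot h3, smul_zero]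
  have hE : E * E = 0 := by
    rw [hEdef, Matrix.vecMulVec_mul_vecMulVec, hdot, zero_smul, Matrix.vecMulVec_zero]
  have hrank : ∀ M : Matrix (Fin 4) (Fin 4) F, E * M * E = Matrix.trace (M * E) • E := by
    intro M
    rw [hEdef]
    exact vmv_sandwich _ _ M
  have hadj : adj φ E = -E := by
    rw [hEdef]
    ext k l
    rw [adj_apply]
    fin_cases k <;> fin_cases l <;> simp [w3, Matrix.vecMulVec_apply, hφi']
  have h01 : E 0 1 = i := by
    rw [hEdef]
    simp [w3, Matrix.vecMulVec_apply]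
  have hinv : (1 + E) * (1 - E) = 1 := by
    have e : (1 + E) * (1 - E) = 1 - E * E := by noncomm_ring
    rw [e, hE, sub_zero]
  obtain ⟨x, hxv⟩ : ∃ x : GL (Fin 4) F, x.val = 1 + E := ⟨gl _ _ hinv, rfl⟩
  have hxU : x ∈ Cfsg.GU 4 F p := by
    rw [mem_GU_iff φ hφ, hxv, adj_add, adj_one, hadj]
    have e : (1 + -E) * (1 + E) = 1 - E * E := by noncomm_ring
    rw [e, hE, sub_zero]
  have hx3' : x.val ^ 3 = 1 := by
    have e2 : (1 + E) * (1 + E) = 1 + (E + E) + E * E := by noncomm_ring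
    have e3 : (1 + (E + E)) * (1 + E) = 1 + (E + E + E) + (E * E + E * E) := by noncomm_ring
    have e4 : E + E + E = (3 : F) • E := by
      have e5 : (3 : F) = 1 + 1 + 1 := by norm_num
      rw [e5, add_smul, add_smul, one_smul]
    rw [hxv, pow_succ, pow_two, e2, hE, add_zero, e3, hE, add_zero, add_zero, e4, h3,
      zero_smul, add_zero]
  have hx3 : x ^ 3 = 1 := by
    apply Units.ext
    rw [Units.val_pow_eq_pow_val, hx3', Units.val_one]
  have hdet : x.val.det = 1 := by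
    have hd3 : x.val.det ^ 3 = 1 := by rw [← Matrix.det_pow, hx3', Matrix.det_one]
    have h0 : (x.val.det - 1) ^ 3 = 0 := by
      linear_combination hd3 - x.val.det * (x.val.det - 1) * h3
    exact sub_eq_zero.mp ((pow_eq_zero_iff (by norm_num)).mp h0)
  have hns : ∀ z : F, x.val ≠ z • (1 : Matrix (Fin 4) (Fin 4) F) := by
    intro z hz
    rw [hxv] at hz
    have h := congrFun (congrFun hz 0) 1
    simp [h01] at h
    exact hi0 h
  apply bad_of_elt _ 3 x (Subgroup.mem_inf.2 ⟨hxU, (mem_SL_iff x).2 hdet⟩) hx3 hns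
  intro g hg
  have hE' : (g⁻¹).val * E * g.val * ((g⁻¹).val * E * g.val) = 0 := by
    have e : (g⁻¹).val * E * g.val * ((g⁻¹).val * E * g.val) =
        (g⁻¹).val * (E * (g.val * (g⁻¹).val) * E) * g.val := by
      simp only [Matrix.mul_assoc]
    rw [e, Units.mul_inv, Matrix.mul_one, hE, Matrix.mul_zero, Matrix.zero_mul]
  have hnE : (g⁻¹ * x * g).val = 1 + (g⁻¹).val * E * g.val := by
    rw [Units.val_mul, Units.val_mul, hxv, Matrix.mul_add, Matrix.add_mul, Matrix.mul_one,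
      Units.inv_mul]
  obtain ⟨s, hs⟩ := transv_scalar P (g⁻¹ * x * g) hg 3 Nat.prime_three (by norm_num)
    (conj_pow_one x g 3 hx3) _ hE' (conj_rank E hrank g) hnE
  exact conj_nonscalar x g hns s hs

/-! ### Order five, `p ≡ ±1 (mod 5)` -/

/-- Left multiplication by the quaternion `a + b i + c j`. -/
def Lq (a b c : F) : Matrix (Fin 4) (Fin 4) F := !![a,-b,-c,0; b,a,0,c; c,0,a,-b; 0,-c,b,a]

theorem Lq_mul_transpose (a b c : F) :
    Lq a b c * (Lq a b c).transpose =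
      (a ^ 2 + b ^ 2 + c ^ 2) • (1 : Matrix (Fin 4) (Fin 4) F) := by
  ext k l
  fin_cases k <;> fin_cases l <;> simp [Lq, Matrix.mul_apply, Fin.sum_univ_four] <;> ring

theorem Lq_sq (a b c : F) :
    Lq a b c * Lq a b c =
      (2 * a) • Lq a b c - (a ^ 2 + b ^ 2 + c ^ 2) • (1 : Matrix (Fin 4) (Fin 4) F) := by
  ext k l
  fin_cases k <;> fin_cases l <;> simp [Lq, Matrix.mul_apply, Fin.sum_univ_four] <;> ring

theorem exists_quat {p : ℕ} [Fact p.Prime] (hp4 : p % 4 = 3) (hp5 : p % 5 = 1 ∨ p % 5 = 4) :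
    ∃ a b c : ZMod p, a ^ 2 + b ^ 2 + c ^ 2 = 1 ∧ (2 * a) ^ 2 + 2 * a - 1 = 0 := by
  have hpp : p.Prime := Fact.out
  have : Fact (Nat.Prime 5) := ⟨by norm_num⟩
  have hp2 : p ≠ 2 := by omega
  have hsq5 : IsSquare ((p : ℕ) : ZMod 5) := by
    have h : (p : ZMod 5) = ((p % 5 : ℕ) : ZMod 5) := by rw [ZMod.natCast_mod]
    rw [h]
    rcases hp5 with h' | h'
    · rw [h']
      exact ⟨1, by simp⟩
    · rw [h']
      exact ⟨2, by norm_num⟩
  have hsq : IsSquare ((5 : ℕ) : ZMod p) :=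
    (ZMod.exists_sq_eq_prime_iff_of_mod_four_eq_one (p := 5) (q := p) (by norm_num) hp2).1 hsq5
  obtain ⟨s, hs⟩ := hsq
  have h2 : (2 : ZMod p) ≠ 0 := by
    have h := natCast_ne_zero_of_lt (F := ZMod p) (p := p) 2 (by norm_num)
      (by have := hpp.two_le; omega)
    exact_mod_cast h
  obtain ⟨u, hu⟩ : ∃ u : ZMod p, 2 * u = 1 := ⟨2⁻¹, mul_inv_cancel₀ h2⟩
  obtain ⟨b, c, hbc⟩ := ZMod.sq_add_sq p (1 - ((s - 1) * u * u) ^ 2)
  have hs' : s * s = 5 := by
    rw [← hs]
    norm_num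
  refine ⟨(s - 1) * u * u, b, c, by linear_combination hbc, ?_⟩
  linear_combination u ^ 2 * hs' + ((1 + 2 * u - (s - 1) * u) +
    (s - 1) * u * (2 * ((s - 1) * u * u) + (s - 1) * u + 1)) * hu

theorem exists_quat_F {p : ℕ} [Fact p.Prime] [CharP F p] (φ : F →+* F)
    (hφ : ∀ x, φ x = x ^ p) (hp4 : p % 4 = 3) (hp5 : p % 5 = 1 ∨ p % 5 = 4) :
    ∃ a b c : F, φ a = a ∧ φ b = b ∧ φ c = c ∧ a ^ 2 + b ^ 2 + c ^ 2 = 1 ∧
      (2 * a) ^ 2 + 2 * a - 1 = 0 := by
  obtain ⟨a, b, c, h1, h2⟩ := exists_quat hp4 hp5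
  have hfix : ∀ y : ZMod p, φ (ZMod.castHom (dvd_refl p) F y) = ZMod.castHom (dvd_refl p) F y := by
    intro y
    rw [hφ, ← map_pow, ZMod.pow_card]
  refine ⟨ZMod.castHom (dvd_refl p) F a, ZMod.castHom (dvd_refl p) F b,
    ZMod.castHom (dvd_refl p) F c, hfix a, hfix b, hfix c, ?_, ?_⟩
  · have h := congrArg (ZMod.castHom (dvd_refl p) F) h1
    simpa only [map_add, map_pow, map_one] using h
  · have h := congrArg (ZMod.castHom (dvd_refl p) F) h2
    simpa only [map_add, map_sub, map_mul, map_pow, map_one, map_zero, map_ofNat] using h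

/-- For `p ≡ ±1 (mod 5)`, a unitary element of order 5 with two eigenvalues of multiplicity 2
is not conjugate into the normalizer. -/
theorem bad_five_U {p : ℕ} [Fact p.Prime] [CharP F p] (P : PData R i) (φ : F →+* F)
    (hφ : ∀ x, φ x = x ^ p) (hp4 : p % 4 = 3) (hp5 : p % 5 = 1 ∨ p % 5 = 4) :
    ¬ (∀ x ∈ Cfsg.GU 4 F p ⊓ Cfsg.Geo.specialLinear (Fin 4) F,
      (∃ z : F, ((x ^ 5 : GL (Fin 4) F) : Matrix (Fin 4) (Fin 4) F) =
        z • (1 : Matrix (Fin 4) (Fin 4) F)) →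
      (∀ z : F, (x : Matrix (Fin 4) (Fin 4) F) ≠ z • (1 : Matrix (Fin 4) (Fin 4) F)) →
      ∃ g ∈ Cfsg.GU 4 F p ⊓ Cfsg.Geo.specialLinear (Fin 4) F,
        g⁻¹ * x * g ∈ Cfsg.Geo.subgroupNormalizer R) := by
  have hpp : p.Prime := Fact.out
  have hp5' : p ≠ 5 := by
    intro h
    rw [h] at hp4
    omega
  have h5 : (5 : F) ≠ 0 := five_ne_zero (p := p) hpp hp5'
  obtain ⟨a, b, c, ha, hb, hc, h1, h2⟩ := exists_quat_F (F := F) φ hφ hp4 hp5
  obtain ⟨t, ht⟩ : ∃ t : F, t = 2 * a := ⟨_, rfl⟩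
  rw [← ht] at h2
  have hLT : Lq a b c * (Lq a b c).transpose = 1 := by
    rw [Lq_mul_transpose, h1, one_smul]
  have hLL : Lq a b c * Lq a b c = t • Lq a b c - 1 := by
    rw [Lq_sq, h1, one_smul, ht]
  have hL5 : Lq a b c ^ 5 = 1 := pow_five_of_q5 t h2 _ hLL
  obtain ⟨x, hxv, hxi⟩ : ∃ x : GL (Fin 4) F, x.val = Lq a b c ∧
      (x⁻¹).val = (Lq a b c).transpose := ⟨gl _ _ hLT, rfl, rfl⟩
  have hx5 : x ^ 5 = 1 := by
    apply Units.ext
    rw [Units.val_pow_eq_pow_val, hxv, hL5, Units.val_one]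
  have hadj : adj φ (Lq a b c) = (Lq a b c).transpose := by
    ext k l
    rw [adj_apply, Matrix.transpose_apply]
    fin_cases k <;> fin_cases l <;> simp [Lq, ha, hb, hc]
  have hxU : x ∈ Cfsg.GU 4 F p := by
    rw [mem_GU_iff φ hφ, hxv, hadj]
    exact mul_eq_one_comm.mp hLT
  have hdet : x.val.det = 1 := by
    have hd2 : x.val.det ^ 2 = 1 := by
      have h := congrArg Matrix.det hLT
      rw [Matrix.det_mul, Matrix.det_transpose, Matrix.det_one] at h
      rw [hxv, pow_two]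
      exact h
    have hd5 : x.val.det ^ 5 = 1 := by
      rw [← Matrix.det_pow, hxv, hL5, Matrix.det_one]
    linear_combination hd5 - x.val.det * (x.val.det ^ 2 + 1) * hd2
  have hns : ∀ z : F, x.val ≠ z • (1 : Matrix (Fin 4) (Fin 4) F) := by
    intro z hz
    rw [hxv] at hz
    have h10 := congrFun (congrFun hz 1) 0
    have h20 := congrFun (congrFun hz 2) 0
    simp [Lq] at h10 h20
    apply h5
    rw [h10, h20] at h1
    have ht4 : t ^ 2 = 4 := by
      rw [ht]
      linear_combination 4 * h1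
    linear_combination (3 - t) * h2 + (t - 2) * ht4
  apply bad_of_elt _ 5 x (Subgroup.mem_inf.2 ⟨hxU, (mem_SL_iff x).2 hdet⟩) hx5 hns
  intro g hg
  have htr := (trace_five P (g⁻¹ * x * g) hg (conj_pow_one x g 5 hx5)
    (conj_nonscalar x g hns)).1
  have hL : Matrix.trace (Lq a b c) = 2 * t := by
    rw [ht]
    simp [Lq, Matrix.trace, Fin.sum_univ_four]
    ring
  rw [conj_trace, conj_inv_trace, hxv, hxi, Matrix.trace_transpose, hL] at htr
  apply h5
  linear_combination (4 * t + 7) * htr - (16 * t + 12) * h2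

/-! ### Primes at least seven -/

/-- For a prime `r ≥ 7` dividing the index in a subgroup `K` of `SL_4`, some element of `K`
of order `r` is not `K`-conjugate into the normalizer. -/
theorem bad_ge_seven_sub [Fintype F] (P : PData R i) (K : Subgroup (GL (Fin 4) F))
    (hK : K ≤ Cfsg.Geo.specialLinear (Fin 4) F) (r : ℕ) [Fact r.Prime] (hr7 : 7 ≤ r)
    (hΩ : r ∣ (Cfsg.Geo.subgroupNormalizer R).relIndex K) :
    ¬ (∀ x ∈ K,
      (∃ z : F, ((x ^ r : GL (Fin 4) F) : Matrix (Fin 4) (Fin 4) F) =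
        z • (1 : Matrix (Fin 4) (Fin 4) F)) →
      (∀ z : F, (x : Matrix (Fin 4) (Fin 4) F) ≠ z • (1 : Matrix (Fin 4) (Fin 4) F)) →
      ∃ g ∈ K, g⁻¹ * x * g ∈ Cfsg.Geo.subgroupNormalizer R) := by
  classical
  intro hall
  have hrp : r.Prime := Fact.out
  have hdvd : r ∣ Nat.card ↥K := dvd_trans hΩ (Subgroup.relIndex_dvd_card _ _)
  obtain ⟨x, hx⟩ := exists_prime_orderOf_dvd_card' r hdvd
  have hxr : (x : GL (Fin 4) F) ^ r = 1 := by
    have h1 : x ^ r = 1 := by rw [← hx]; exact pow_orderOf_eq_one x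
    have h2 := congrArg Subtype.val h1
    rw [Subgroup.coe_pow, Subgroup.coe_one] at h2
    exact h2
  have hx1 : (x : GL (Fin 4) F) ≠ 1 := by
    intro h1
    have h4 : x = 1 := Subtype.ext h1
    rw [h4, orderOf_one] at hx
    have := hrp.one_lt
    omega
  have hns : ∀ z : F, ((x : GL (Fin 4) F) : Matrix (Fin 4) (Fin 4) F) ≠
      z • (1 : Matrix (Fin 4) (Fin 4) F) := by
    intro z hz
    have hd : ((x : GL (Fin 4) F) : Matrix (Fin 4) (Fin 4) F).det = 1 :=
      (mem_SL_iff _).1 (hK x.2)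
    rw [hz, Matrix.det_smul, Matrix.det_one, Fintype.card_fin, mul_one] at hd
    have hzr : z ^ r = 1 := by
      have h1 := congrArg (fun u : GL (Fin 4) F => (u : Matrix (Fin 4) (Fin 4) F)) hxr
      simp only [Units.val_pow_eq_pow_val, Units.val_one] at h1
      rw [hz, smul_pow, one_pow] at h1
      have h2 := congrFun (congrFun h1 0) 0
      simpa using h2
    have hcop : Nat.gcd 4 r = 1 := by
      have h2r : Nat.Coprime 2 r := (Nat.coprime_primes Nat.prime_two hrp).2 (by omega)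
      have h4r : Nat.Coprime (2 ^ 2) r := Nat.Coprime.pow_left 2 h2r
      exact h4r
    have ho : orderOf z ∣ 1 := by
      rw [← hcop]
      exact Nat.dvd_gcd (orderOf_dvd_of_pow_eq_one hd) (orderOf_dvd_of_pow_eq_one hzr)
    have hz1 : z = 1 := orderOf_eq_one_iff.mp (Nat.dvd_one.mp ho)
    apply hx1
    apply Units.ext
    rw [hz, hz1, one_smul, Units.val_one]
  obtain ⟨g', -, hconj⟩ := hall x x.2 ⟨1, by rw [hxr, Units.val_one, one_smul]⟩ hns
  have hy := conj_pow_one (x : GL (Fin 4) F) g' r hxr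
  obtain ⟨ξ, hξ⟩ := scalar_of_ge_seven P (g'⁻¹ * (x : GL (Fin 4) F) * g') hconj r hr7 hy
  exact conj_nonscalar (x : GL (Fin 4) F) g' hns ξ hξ

end Cfsg.Agent.Lib.Helper37.Pauli4H
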