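import Mathlib
import Cfsg.Prelude.Def_GeometricClasses
import Cfsg.Prelude.Def_ClassicalGeometry
import Cfsg.Agent.Lib.Helper93.SympType
import Cfsg.Agent.Lib.Helper37.Pauli4A

/-!
# Extraspecial groups `2^{1+4}` in `GL_4(F)` (index type `Fin 2 ⊕ Fin 2`): abstract data and
fixed-point formulas

`QData R` packages the elementary facts about an absolutely irreducible 2-group `R` of
symplectic type, order `2^5`, exponent `4` and centre of order `2` inside
`GL (Fin 2 ⊕ Fin 2) F`: the scalar `-1` lies in `R`, any two elements commute or anticommute,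
squares are `±1` and the commutant is scalar.

For `n` in the normalizer of `R` with `n^r = 1`, `r` an odd prime, we prove
`|C_R(n)| = 2 * tr(n) * tr(n⁻¹)` in `F` and `|C_R(n)| ≡ 32 (mod r)`.
-/

set_option autoImplicit false

open scoped MatrixGroups

namespace Cfsg.Agent.Lib.Helper37.Pauli5A

variable {F : Type*} [Field F]

theorem card_iota : Fintype.card (Fin 2 ⊕ Fin 2) = 4 := by
  simp

/-- Elementary data of the group `2^{1+4}` inside `GL_4(F)`. -/
structure QData (R : Subgroup (GL (Fin 2 ⊕ Fin 2) F)) : Prop where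
  card : Nat.card R = 32
  two : (2 : F) ≠ 0
  neg_mem : ∀ s : GL (Fin 2 ⊕ Fin 2) F, s.val = -1 → s ∈ R
  scal_pm : ∀ x ∈ R, ∀ c : F, x.val = c • (1 : Matrix (Fin 2 ⊕ Fin 2) (Fin 2 ⊕ Fin 2) F) →
    c = 1 ∨ c = -1
  comm : ∀ x ∈ R, ∀ y ∈ R, x.val * y.val = y.val * x.val ∨ x.val * y.val = -(y.val * x.val)
  sqr : ∀ x ∈ R, x.val * x.val = 1 ∨ x.val * x.val = -1
  commutant : ∀ M : Matrix (Fin 2 ⊕ Fin 2) (Fin 2 ⊕ Fin 2) F, (∀ x ∈ R, M * x.val = x.val * M) →
    ∃ c : F, M = c • (1 : Matrix (Fin 2 ⊕ Fin 2) (Fin 2 ⊕ Fin 2) F)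
  center : Nat.card (Subgroup.center R) = 2

theorem exists_qdata (R : Subgroup (GL (Fin 2 ⊕ Fin 2) F)) (h2 : (2 : F) ≠ 0)
    (hs : Cfsg.Geo.IsSymplecticTypeGroup 2 R)
    (hi : Cfsg.Geo.ActsAbsolutelyIrreducibly (Cfsg.Geo.matrixSet R))
    (hc : Nat.card R = 2 ^ 5) (hz : Nat.card (Subgroup.center R) = 2) : QData R := by
  classical
  have hfin : Finite R := Nat.finite_of_card_ne_zero (by rw [hc]; norm_num)
  have hexp : Monoid.exponent R = 4 := by
    rw [hs.exponent_eq]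
    rfl
  have hpow4 : ∀ q : R, q ^ 4 = 1 := fun q => by
    have h1 := Monoid.pow_exponent_eq_one q
    rw [hexp] at h1
    exact h1
  have hcomm : ∀ M : Matrix (Fin 2 ⊕ Fin 2) (Fin 2 ⊕ Fin 2) F, (∀ x ∈ R, M * x.val = x.val * M) →
      ∃ c : F, M = c • (1 : Matrix (Fin 2 ⊕ Fin 2) (Fin 2 ⊕ Fin 2) F) := by
    intro M hM
    apply hi.2 M
    rintro s ⟨g, hg, rfl⟩
    exact hM g hg
  have hcs : ∀ z : R, z ∈ Subgroup.center R →
      ∃ c : F, (z : GL (Fin 2 ⊕ Fin 2) F).val =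
        c • (1 : Matrix (Fin 2 ⊕ Fin 2) (Fin 2 ⊕ Fin 2) F) := by
    intro z hz'
    apply hcomm
    intro x hx
    have h1 := (Subgroup.mem_center_iff.mp hz') ⟨x, hx⟩
    have h3 := congrArg (fun t : R => (t : GL (Fin 2 ⊕ Fin 2) F).val) h1
    simp only [Subgroup.coe_mul, Units.val_mul] at h3
    exact h3.symm
  have hcsq : ∀ z : R, z ∈ Subgroup.center R → z * z = 1 := by
    intro z hz'
    have h1 : (⟨z, hz'⟩ : Subgroup.center R) ^ Nat.card (Subgroup.center R) = 1 :=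
      pow_card_eq_one'
    rw [hz] at h1
    have h3 := congrArg (fun t : Subgroup.center R => (t : R)) h1
    simp only [Subgroup.coe_pow, Subgroup.coe_one] at h3
    rw [← pow_two]
    exact h3
  have hpm : ∀ z : R, z ∈ Subgroup.center R → ∀ c : F,
      (z : GL (Fin 2 ⊕ Fin 2) F).val = c • (1 : Matrix (Fin 2 ⊕ Fin 2) (Fin 2 ⊕ Fin 2) F) →
      c = 1 ∨ c = -1 := by
    intro z hz' c hc'
    have h1 := congrArg (fun t : R => (t : GL (Fin 2 ⊕ Fin 2) F).val) (hcsq z hz')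
    simp only [Subgroup.coe_mul, Units.val_mul, Subgroup.coe_one, Units.val_one] at h1
    rw [hc', Matrix.smul_mul, Matrix.mul_smul, Matrix.one_mul, smul_smul] at h1
    have h3 := congrFun (congrFun h1 (Sum.inl 0)) (Sum.inl 0)
    simp only [Matrix.smul_apply, Matrix.one_apply_eq, smul_eq_mul, mul_one] at h3
    have h5 : (c - 1) * (c + 1) = 0 := by linear_combination h3
    rcases mul_eq_zero.mp h5 with h | h
    · left
      exact sub_eq_zero.mp h
    · right
      exact eq_neg_of_add_eq_zero_left h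
  obtain ⟨z, hzc, hz1⟩ : ∃ z : R, z ∈ Subgroup.center R ∧ z ≠ 1 := by
    by_contra hno
    push Not at hno
    have hbot : Subgroup.center R = ⊥ :=
      (Subgroup.eq_bot_iff_forall _).mpr (fun x hx => hno x hx)
    rw [hbot] at hz
    simp at hz
  have hzv : (z : GL (Fin 2 ⊕ Fin 2) F).val = -1 := by
    obtain ⟨c, hc'⟩ := hcs z hzc
    rcases hpm z hzc c hc' with h | h
    · exfalso
      apply hz1
      apply Subtype.ext
      apply Units.ext
      rw [hc', h, one_smul]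
      rfl
    · rw [hc', h, neg_smul, one_smul]
  have hT : Cfsg.IsOfSymplecticType R := ⟨hs.pGroup, hs.cyclic_of_characteristic⟩
  have hord : orderOf z = 2 := by
    have hp2 : Fact (Nat.Prime 2) := ⟨Nat.prime_two⟩
    apply orderOf_eq_prime _ hz1
    rw [pow_two]
    exact hcsq z hzc
  obtain ⟨-, hsq, hcm⟩ :=
    Cfsg.Agent.Lib.Helper93.SympType.structure_thm hT hpow4 z hord hzc
  have hscal_center : ∀ x : R, ∀ c : F,
      (x : GL (Fin 2 ⊕ Fin 2) F).val = c • (1 : Matrix (Fin 2 ⊕ Fin 2) (Fin 2 ⊕ Fin 2) F) →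
      x ∈ Subgroup.center R := by
    intro x c hxc
    rw [Subgroup.mem_center_iff]
    intro g
    apply Subtype.ext
    apply Units.ext
    rw [Subgroup.coe_mul, Subgroup.coe_mul, Units.val_mul, Units.val_mul, hxc, Matrix.smul_mul,
      Matrix.mul_smul, Matrix.one_mul, Matrix.mul_one]
  refine ⟨by rw [hc]; norm_num, h2, ?_, ?_, ?_, ?_, hcomm, hz⟩
  · intro s hs'
    have h1 : s = (z : GL (Fin 2 ⊕ Fin 2) F) := by
      apply Units.ext
      rw [hs', hzv]
    rw [h1]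
    exact z.2
  · intro x hx c hxc
    exact hpm ⟨x, hx⟩ (hscal_center ⟨x, hx⟩ c hxc) c hxc
  · intro x hx y hy
    have h1 : ∀ w : R, (⟨x, hx⟩ : R) * ⟨y, hy⟩ * (⟨x, hx⟩ : R)⁻¹ * (⟨y, hy⟩ : R)⁻¹ = w →
        x.val * y.val = (w : GL (Fin 2 ⊕ Fin 2) F).val * (y.val * x.val) := by
      intro w hw
      have h3 : (⟨x, hx⟩ : R) * ⟨y, hy⟩ = w * (⟨y, hy⟩ * ⟨x, hx⟩) := by
        rw [← hw]
        group
      have h4 := congrArg (fun t : R => (t : GL (Fin 2 ⊕ Fin 2) F).val) h3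
      simp only [Subgroup.coe_mul, Units.val_mul] at h4
      exact h4
    rcases hcm ⟨x, hx⟩ ⟨y, hy⟩ with h | h
    · left
      have h3 := h1 1 h
      rw [Subgroup.coe_one, Units.val_one, Matrix.one_mul] at h3
      exact h3
    · right
      have h3 := h1 z h
      rw [hzv, neg_one_mul] at h3
      exact h3
  · intro x hx
    rcases hsq ⟨x, hx⟩ with h | h
    · left
      have h4 := congrArg (fun t : R => (t : GL (Fin 2 ⊕ Fin 2) F).val) h
      simp only [Subgroup.coe_mul, Units.val_mul, Subgroup.coe_one, Units.val_one] at h4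
      exact h4
    · right
      have h4 := congrArg (fun t : R => (t : GL (Fin 2 ⊕ Fin 2) F).val) h
      rw [hzv] at h4
      simp only [Subgroup.coe_mul, Units.val_mul] at h4
      exact h4

section mach

variable {R : Subgroup (GL (Fin 2 ⊕ Fin 2) F)}

theorem QData.finite (P : QData R) : Finite R :=
  Nat.finite_of_card_ne_zero (by rw [P.card]; norm_num)

theorem QData.four_ne (P : QData R) : (4 : F) ≠ 0 := by
  intro h4
  have h : (2 : F) * 2 = 0 := by linear_combination h4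
  rcases mul_eq_zero.mp h with h' | h' <;> exact P.two h'

theorem QData.scal_pow (P : QData R) (x : GL (Fin 2 ⊕ Fin 2) F) (hx : x ∈ R) (c : F)
    (h : x.val = c • (1 : Matrix (Fin 2 ⊕ Fin 2) (Fin 2 ⊕ Fin 2) F)) : c ^ 4 = 1 := by
  rcases P.scal_pm x hx c h with h1 | h1 <;> rw [h1] <;> norm_num

/-- Non-scalar elements of `R` have trace zero. -/
theorem trace_zero (P : QData R) (x : GL (Fin 2 ⊕ Fin 2) F) (hx : x ∈ R)
    (hns : ∀ c : F, x.val ≠ c • (1 : Matrix (Fin 2 ⊕ Fin 2) (Fin 2 ⊕ Fin 2) F)) : Matrix.trace x.val = 0 := by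
  have h1 : ∃ y ∈ R, x.val * y.val ≠ y.val * x.val := by
    by_contra hall
    push Not at hall
    obtain ⟨c, hc⟩ := P.commutant x.val (fun y hy => hall y hy)
    exact hns c hc
  obtain ⟨y, hy, hxy⟩ := h1
  have h2 : x.val * y.val = -(y.val * x.val) := (P.comm x hx y hy).resolve_left hxy
  have h3 : x.val = -(y.val * x.val * (y⁻¹).val) := by
    calc x.val = x.val * y.val * (y⁻¹).val := by
          rw [Matrix.mul_assoc, Units.mul_inv, Matrix.mul_one]
      _ = _ := by rw [h2, Matrix.neg_mul]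
  have h4 : Matrix.trace x.val = - Matrix.trace x.val := by
    conv_lhs => rw [h3]
    rw [Matrix.trace_neg, Matrix.trace_mul_cycle, Units.inv_mul, Matrix.one_mul]
  have h5 : (2 : F) * Matrix.trace x.val = 0 := by linear_combination h4
  exact (mul_eq_zero.mp h5).resolve_left P.two

/-- Averaging over `R` projects onto the scalars. -/
theorem twirl [Fintype R] (P : QData R) (M : Matrix (Fin 2 ⊕ Fin 2) (Fin 2 ⊕ Fin 2) F) :
    ∑ g : R, (g : GL (Fin 2 ⊕ Fin 2) F).val * M * ((g : GL (Fin 2 ⊕ Fin 2) F)⁻¹).val =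
      (8 * Matrix.trace M) • (1 : Matrix (Fin 2 ⊕ Fin 2) (Fin 2 ⊕ Fin 2) F) := by
  obtain ⟨S, hSdef⟩ : ∃ S : Matrix (Fin 2 ⊕ Fin 2) (Fin 2 ⊕ Fin 2) F,
      S = ∑ g : R, (g : GL (Fin 2 ⊕ Fin 2) F).val * M * ((g : GL (Fin 2 ⊕ Fin 2) F)⁻¹).val := ⟨_, rfl⟩
  rw [← hSdef]
  have hS : ∀ h : R, S * (h : GL (Fin 2 ⊕ Fin 2) F).val = (h : GL (Fin 2 ⊕ Fin 2) F).val * S := by
    intro h
    have e1 : (h : GL (Fin 2 ⊕ Fin 2) F).val * S * ((h : GL (Fin 2 ⊕ Fin 2) F)⁻¹).val = S := by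
      rw [hSdef, Finset.mul_sum, Finset.sum_mul]
      refine Fintype.sum_equiv (Equiv.mulLeft h) _ _ (fun g => ?_)
      simp only [Equiv.coe_mulLeft, Subgroup.coe_mul, Units.val_mul, mul_inv_rev]
      simp only [Matrix.mul_assoc]
    calc S * (h : GL (Fin 2 ⊕ Fin 2) F).val
        = ((h : GL (Fin 2 ⊕ Fin 2) F).val * S * ((h : GL (Fin 2 ⊕ Fin 2) F)⁻¹).val) * (h : GL (Fin 2 ⊕ Fin 2) F).val := by
          rw [e1]
      _ = (h : GL (Fin 2 ⊕ Fin 2) F).val * S := by
          rw [Matrix.mul_assoc, Units.inv_mul, Matrix.mul_one]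
  obtain ⟨c, hc⟩ := P.commutant S (fun x hx => hS ⟨x, hx⟩)
  have ht : Matrix.trace S = 32 * Matrix.trace M := by
    rw [hSdef, Matrix.trace_sum]
    have h1 : ∀ g : R, Matrix.trace ((g : GL (Fin 2 ⊕ Fin 2) F).val * M * ((g : GL (Fin 2 ⊕ Fin 2) F)⁻¹).val) =
        Matrix.trace M := by
      intro g
      rw [Matrix.trace_mul_cycle, Units.inv_mul, Matrix.one_mul]
    rw [Finset.sum_congr rfl (fun g _ => h1 g), Finset.sum_const, Finset.card_univ,
      ← Nat.card_eq_fintype_card, P.card, nsmul_eq_mul]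
    norm_num
  rw [hc, Matrix.trace_smul, Matrix.trace_one, card_iota, smul_eq_mul] at ht
  have h4 := P.four_ne
  have hc' : c = 8 * Matrix.trace M := by
    apply mul_right_cancel₀ h4
    have e4 : ((4 : ℕ) : F) = 4 := by norm_num
    rw [e4] at ht
    linear_combination ht
  rw [hc, hc']

/-- The centralizer in `R` of an element of `GL_4(F)`. -/
def fixSub (R : Subgroup (GL (Fin 2 ⊕ Fin 2) F)) (n : GL (Fin 2 ⊕ Fin 2) F) : Subgroup R :=
  (Subgroup.centralizer {n}).subgroupOf R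

theorem mem_fixSub (n : GL (Fin 2 ⊕ Fin 2) F) (t : R) :
    t ∈ fixSub R n ↔ n * (t : GL (Fin 2 ⊕ Fin 2) F) = (t : GL (Fin 2 ⊕ Fin 2) F) * n := by
  unfold fixSub
  rw [Subgroup.mem_subgroupOf, Subgroup.mem_centralizer_iff]
  constructor
  · intro h1
    exact h1 n rfl
  · intro h1 y hy
    rw [Set.mem_singleton_iff.mp hy]
    exact h1

theorem pow_comm_aux (a b : Matrix (Fin 2 ⊕ Fin 2) (Fin 2 ⊕ Fin 2) F) (c : F) (h : a * b = c • (b * a)) (k : ℕ) :
    a * b ^ k = c ^ k • (b ^ k * a) := by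
  induction k with
  | zero => simp
  | succ k ih =>
    rw [pow_succ, ← Matrix.mul_assoc, ih, Matrix.smul_mul, Matrix.mul_assoc, h, Matrix.mul_smul,
      smul_smul, ← Matrix.mul_assoc, pow_succ]

theorem eq_one_of_pow (c : F) (r : ℕ) (hr : r.Prime) (hr2 : r ≠ 2) (h4 : c ^ 4 = 1)
    (hcr : c ^ r = 1) : c = 1 := by
  have h1 : orderOf c ∣ r := orderOf_dvd_of_pow_eq_one hcr
  have h2 : orderOf c ∣ 4 := orderOf_dvd_of_pow_eq_one h4
  rcases (Nat.dvd_prime hr).mp h1 with h | h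
  · exact orderOf_eq_one_iff.mp h
  · exfalso
    rw [h] at h2
    have h5 := Nat.le_of_dvd (by norm_num) h2
    have h6 := hr.two_le
    interval_cases r
    · exact hr2 rfl
    · omega
    · exact absurd hr (by norm_num)

theorem term_comm (n g : GL (Fin 2 ⊕ Fin 2) F) (hcomm : n * g = g * n) :
    Matrix.trace (g.val * n.val * (g⁻¹).val * (n⁻¹).val) = 4 := by
  have h0 : (g * n * g⁻¹ * n⁻¹).val = g.val * n.val * (g⁻¹).val * (n⁻¹).val := by
    simp only [Units.val_mul]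
  have h1 : g * n * g⁻¹ * n⁻¹ = 1 := by
    rw [← hcomm]
    group
  rw [← h0, h1, Units.val_one, Matrix.trace_one, card_iota]
  norm_num

/-- The trace of the commutator of `g ∈ R` with a normalizing element of odd prime order
not commuting with `g` vanishes. -/
theorem term_ncomm (P : QData R) (n : GL (Fin 2 ⊕ Fin 2) F) (hn : n ∈ Cfsg.Geo.subgroupNormalizer R)
    (r : ℕ) (hr : r.Prime) (hr2 : r ≠ 2) (hnr : n ^ r = 1) (g : GL (Fin 2 ⊕ Fin 2) F) (hg : g ∈ R)
    (hcomm : n * g ≠ g * n) :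
    Matrix.trace (g.val * n.val * (g⁻¹).val * (n⁻¹).val) = 0 := by
  have hw : g * n * g⁻¹ * n⁻¹ ∈ R := by
    have h1 : n * g⁻¹ * n⁻¹ ∈ R := ((Subgroup.mem_normalizer_iff.1 hn) g⁻¹).1 (R.inv_mem hg)
    have h2 : g * n * g⁻¹ * n⁻¹ = g * (n * g⁻¹ * n⁻¹) := by group
    rw [h2]
    exact R.mul_mem hg h1
  have h0 : (g * n * g⁻¹ * n⁻¹).val = g.val * n.val * (g⁻¹).val * (n⁻¹).val := by
    simp only [Units.val_mul]
  rw [← h0]
  apply trace_zero P _ hw
  intro c hc
  apply hcomm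
  have h1 : g.val * n.val = c • (n.val * g.val) := by
    have h2 : g * n = (g * n * g⁻¹ * n⁻¹) * (n * g) := by group
    have h3 := congrArg Units.val h2
    rw [Units.val_mul, Units.val_mul (g * n * g⁻¹ * n⁻¹), hc, Matrix.smul_mul,
      Matrix.one_mul, Units.val_mul] at h3
    exact h3
  have h4 := pow_comm_aux g.val n.val c h1 r
  have h5 : n.val ^ r = 1 := by
    rw [← Units.val_pow_eq_pow_val, hnr, Units.val_one]
  rw [h5, Matrix.mul_one, Matrix.one_mul] at h4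
  have h6 : c ^ r = 1 := by
    have h7 : (1 : Matrix (Fin 2 ⊕ Fin 2) (Fin 2 ⊕ Fin 2) F) = c ^ r • (1 : Matrix (Fin 2 ⊕ Fin 2) (Fin 2 ⊕ Fin 2) F) := by
      calc (1 : Matrix (Fin 2 ⊕ Fin 2) (Fin 2 ⊕ Fin 2) F) = g.val * (g⁻¹).val := by rw [Units.mul_inv]
        _ = (c ^ r • g.val) * (g⁻¹).val := by rw [← h4]
        _ = c ^ r • (1 : Matrix (Fin 2 ⊕ Fin 2) (Fin 2 ⊕ Fin 2) F) := by
            rw [Matrix.smul_mul, Units.mul_inv]
    have h8 := congrFun (congrFun h7 (Sum.inl 0)) (Sum.inl 0)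
    simp only [Matrix.one_apply_eq, Matrix.smul_apply, smul_eq_mul, mul_one] at h8
    exact h8.symm
  have h9 : c = 1 := eq_one_of_pow c r hr hr2 (P.scal_pow _ hw c hc) h6
  rw [h9, one_smul] at h1
  apply Units.ext
  rw [Units.val_mul, Units.val_mul, h1]

/-- `|C_R(n)| = 2 tr(n) tr(n⁻¹)` in `F`, for `n` normalizing `R` of odd prime order. -/
theorem card_fix_trace (P : QData R) (n : GL (Fin 2 ⊕ Fin 2) F)
    (hn : n ∈ Cfsg.Geo.subgroupNormalizer R) (r : ℕ) (hr : r.Prime) (hr2 : r ≠ 2)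
    (hnr : n ^ r = 1) :
    (Nat.card (fixSub R n) : F) = 2 * Matrix.trace n.val * Matrix.trace (n⁻¹).val := by
  classical
  have hfin := P.finite
  let _ : Fintype ↥R := Fintype.ofFinite _
  have h1 : ∑ g : R, Matrix.trace ((g : GL (Fin 2 ⊕ Fin 2) F).val * n.val *
      ((g : GL (Fin 2 ⊕ Fin 2) F)⁻¹).val * (n⁻¹).val) =
      8 * Matrix.trace n.val * Matrix.trace (n⁻¹).val := by
    rw [← Matrix.trace_sum, ← Finset.sum_mul, twirl P, Matrix.smul_mul, Matrix.one_mul,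
      Matrix.trace_smul, smul_eq_mul]
  have h2 : ∑ g : R, Matrix.trace ((g : GL (Fin 2 ⊕ Fin 2) F).val * n.val *
      ((g : GL (Fin 2 ⊕ Fin 2) F)⁻¹).val * (n⁻¹).val) = 4 * (Nat.card (fixSub R n) : F) := by
    have h3 : ∀ g : R, Matrix.trace ((g : GL (Fin 2 ⊕ Fin 2) F).val * n.val *
        ((g : GL (Fin 2 ⊕ Fin 2) F)⁻¹).val * (n⁻¹).val) =
        4 * (if g ∈ fixSub R n then (1 : F) else 0) := by
      intro g
      by_cases hg : g ∈ fixSub R n
      · rw [if_pos hg, term_comm n g ((mem_fixSub n g).mp hg), mul_one]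
      · rw [if_neg hg, term_ncomm P n hn r hr hr2 hnr g g.2
          (fun h => hg ((mem_fixSub n g).mpr h)), mul_zero]
    rw [Finset.sum_congr rfl (fun g _ => h3 g), ← Finset.mul_sum, Finset.sum_boole]
    congr 2
    rw [Nat.card_eq_fintype_card, Fintype.card_subtype]
  have h4 := P.four_ne
  apply mul_left_cancel₀ h4
  rw [← h2, h1]
  ring

end mach

section count

variable {R : Subgroup (GL (Fin 2 ⊕ Fin 2) F)}


theorem card_fix_modEq (P : QData R) (n : GL (Fin 2 ⊕ Fin 2) F)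
    (hn : n ∈ Cfsg.Geo.subgroupNormalizer R) (r : ℕ) [Fact r.Prime] (hnr : n ^ r = 1) :
    32 ≡ Nat.card (fixSub R n) [MOD r] := by
  have hfin := P.finite
  have h1 := Cfsg.Agent.Lib.Helper37.Pauli4A.card_fixed_modEq R n
    (fun t ht => ((Subgroup.mem_normalizer_iff.1 hn) t).1 ht) r hnr (fixSub R n)
    (fun t => mem_fixSub n t)
  rw [P.card] at h1
  exact h1

theorem center_scalar (P : QData R) (z : R) (hz : z ∈ Subgroup.center R) :
    ∃ c : F, (z : GL (Fin 2 ⊕ Fin 2) F).val = c • (1 : Matrix (Fin 2 ⊕ Fin 2) (Fin 2 ⊕ Fin 2) F) := by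
  apply P.commutant
  intro x hx
  have h1 := (Subgroup.mem_center_iff.mp hz) ⟨x, hx⟩
  have h3 := congrArg (fun t : R => (t : GL (Fin 2 ⊕ Fin 2) F).val) h1
  simp only [Subgroup.coe_mul, Units.val_mul] at h3
  exact h3.symm

theorem center_le_fixSub (P : QData R) (n : GL (Fin 2 ⊕ Fin 2) F) :
    Subgroup.center R ≤ fixSub R n := by
  intro z hz
  obtain ⟨c, hc⟩ := center_scalar P z hz
  rw [mem_fixSub]
  apply Units.ext
  rw [Units.val_mul, Units.val_mul, hc, Matrix.smul_mul, Matrix.mul_smul, Matrix.one_mul,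
    Matrix.mul_one]

theorem two_dvd_card_fix (P : QData R) (n : GL (Fin 2 ⊕ Fin 2) F) : 2 ∣ Nat.card (fixSub R n) := by
  have h1 := Subgroup.card_dvd_of_le (center_le_fixSub P n)
  rw [P.center] at h1
  exact h1

theorem card_fix_dvd (P : QData R) (n : GL (Fin 2 ⊕ Fin 2) F) : Nat.card (fixSub R n) ∣ 32 := by
  have h1 := Subgroup.card_subgroup_dvd_card (fixSub R n)
  rw [P.card] at h1
  exact h1

theorem scalar_of_fix_top (P : QData R) (n : GL (Fin 2 ⊕ Fin 2) F)
    (h : Nat.card (fixSub R n) = 32) :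
    ∃ c : F, n.val = c • (1 : Matrix (Fin 2 ⊕ Fin 2) (Fin 2 ⊕ Fin 2) F) := by
  have hfin := P.finite
  have htop : fixSub R n = ⊤ := Subgroup.eq_top_of_card_eq _ (by rw [h, P.card])
  apply P.commutant
  intro x hx
  have h1 : (⟨x, hx⟩ : R) ∈ fixSub R n := by
    rw [htop]
    exact Subgroup.mem_top _
  have h2 := (mem_fixSub n _).mp h1
  have h3 := congrArg Units.val h2
  rw [Units.val_mul, Units.val_mul] at h3
  exact h3

theorem scalar_of_fix_two (P : QData R) (n : GL (Fin 2 ⊕ Fin 2) F)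
    (h : Nat.card (fixSub R n) = 2) (t : GL (Fin 2 ⊕ Fin 2) F) (ht : t ∈ R) (hc : n * t = t * n) :
    ∃ c : F, t.val = c • (1 : Matrix (Fin 2 ⊕ Fin 2) (Fin 2 ⊕ Fin 2) F) := by
  have hfin := P.finite
  have heq : Subgroup.center R = fixSub R n :=
    Subgroup.eq_of_le_of_card_ge (center_le_fixSub P n) (by rw [h, P.center])
  have h1 : (⟨t, ht⟩ : R) ∈ Subgroup.center R := by
    rw [heq, mem_fixSub]
    exact hc
  exact center_scalar P _ h1

theorem comm_iff (u v : R) :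
    u * v = v * u ↔ (u : GL (Fin 2 ⊕ Fin 2) F).val * (v : GL (Fin 2 ⊕ Fin 2) F).val =
      (v : GL (Fin 2 ⊕ Fin 2) F).val * (u : GL (Fin 2 ⊕ Fin 2) F).val := by
  constructor
  · intro h
    have h3 := congrArg (fun t : R => (t : GL (Fin 2 ⊕ Fin 2) F).val) h
    simp only [Subgroup.coe_mul, Units.val_mul] at h3
    exact h3
  · intro h
    apply Subtype.ext
    apply Units.ext
    rw [Subgroup.coe_mul, Subgroup.coe_mul, Units.val_mul, Units.val_mul, h]

/-- An element of order `7` of the normalizer cannot have exactly `4` fixed points on `R`. -/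
theorem not_fix_four (P : QData R) (n : GL (Fin 2 ⊕ Fin 2) F)
    (hn : n ∈ Cfsg.Geo.subgroupNormalizer R) (h7 : n ^ 7 = 1)
    (hk : Nat.card (fixSub R n) = 4) : False := by
  classical
  have hfin := P.finite
  have hp7 : Fact (Nat.Prime 7) := ⟨by norm_num⟩
  -- a non-central fixed element
  obtain ⟨c, hcfix, hccen⟩ : ∃ c : R, c ∈ fixSub R n ∧ c ∉ Subgroup.center R := by
    by_contra hall
    push Not at hall
    have h1 : fixSub R n ≤ Subgroup.center R := fun c hc => hall c hc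
    have h2 := Subgroup.card_le_of_le h1
    rw [hk, P.center] at h2
    omega
  obtain ⟨a, ha⟩ : ∃ a : R, a * c ≠ c * a := by
    by_contra hall
    push Not at hall
    exact hccen (Subgroup.mem_center_iff.mpr hall)
  have anti : ∀ u : R, u * c ≠ c * u →
      (u : GL (Fin 2 ⊕ Fin 2) F).val * (c : GL (Fin 2 ⊕ Fin 2) F).val =
        -((c : GL (Fin 2 ⊕ Fin 2) F).val * (u : GL (Fin 2 ⊕ Fin 2) F).val) := by
    intro u hu
    exact (P.comm u u.2 c c.2).resolve_left (fun h => hu ((comm_iff u c).mpr h))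
  obtain ⟨D, hD⟩ : ∃ D : Subgroup R, ∀ t : R, t ∈ D ↔ t * c = c * t :=
    ⟨Subgroup.centralizer {c}, fun t => by
      rw [Subgroup.mem_centralizer_iff]
      constructor
      · intro h1
        exact (h1 c rfl).symm
      · intro h1 y hy
        rw [Set.mem_singleton_iff.mp hy]
        exact h1.symm⟩
  have hidx : D.index = 2 := by
    rw [Subgroup.index_eq_two_iff]
    refine ⟨a, fun b => ?_⟩
    by_cases hb : b ∈ D
    · right
      refine ⟨hb, ?_⟩
      rw [hD] at hb ⊢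
      intro h1
      apply ha
      have h2 : a * c = b⁻¹ * (b * a * c) := by group
      rw [h2, h1]
      calc b⁻¹ * (c * (b * a)) = b⁻¹ * ((c * b) * a) := by group
        _ = b⁻¹ * ((b * c) * a) := by rw [hb]
        _ = c * a := by group
    · left
      refine ⟨?_, hb⟩
      rw [hD] at hb ⊢
      rw [comm_iff]
      have h1 := anti b hb
      have h2 := anti a ha
      rw [Subgroup.coe_mul, Units.val_mul, Matrix.mul_assoc, h2, Matrix.mul_neg,
        ← Matrix.mul_assoc, h1, Matrix.neg_mul, neg_neg, Matrix.mul_assoc]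
  have hcardD : Nat.card D = 16 := by
    have h1 := Subgroup.card_mul_index D
    rw [hidx, P.card] at h1
    omega
  -- the action on D
  have hnc : n * (c : GL (Fin 2 ⊕ Fin 2) F) = (c : GL (Fin 2 ⊕ Fin 2) F) * n := (mem_fixSub n c).mp hcfix
  obtain ⟨D', hD'⟩ : ∃ D' : Subgroup (GL (Fin 2 ⊕ Fin 2) F), D' = D.map R.subtype := ⟨_, rfl⟩
  have hmemD' : ∀ t : GL (Fin 2 ⊕ Fin 2) F, t ∈ D' ↔ t ∈ R ∧ t * (c : GL (Fin 2 ⊕ Fin 2) F) = (c : GL (Fin 2 ⊕ Fin 2) F) * t := by
    intro t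
    rw [hD', Subgroup.mem_map]
    constructor
    · rintro ⟨u, hu, rfl⟩
      refine ⟨u.2, ?_⟩
      have h1 := (hD u).mp hu
      have h2 := congrArg (fun t : R => (t : GL (Fin 2 ⊕ Fin 2) F)) h1
      simp only [Subgroup.coe_mul] at h2
      exact h2
    · rintro ⟨htR, htc⟩
      refine ⟨⟨t, htR⟩, ?_, rfl⟩
      rw [hD]
      apply Subtype.ext
      rw [Subgroup.coe_mul, Subgroup.coe_mul]
      exact htc
  have hcardD' : Nat.card D' = 16 := by
    rw [hD', Subgroup.card_map_of_injective (Subgroup.subtype_injective R), hcardD]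
  have hfinD' : Finite D' := Nat.finite_of_card_ne_zero (by rw [hcardD']; norm_num)
  have hstab : ∀ t ∈ D', n * t * n⁻¹ ∈ D' := by
    intro t ht
    rw [hmemD'] at ht ⊢
    refine ⟨((Subgroup.mem_normalizer_iff.1 hn) t).1 ht.1, ?_⟩
    have h1 : n⁻¹ * (c : GL (Fin 2 ⊕ Fin 2) F) = (c : GL (Fin 2 ⊕ Fin 2) F) * n⁻¹ := by
      rw [eq_mul_inv_iff_mul_eq, mul_assoc, ← hnc, ← mul_assoc, inv_mul_cancel, one_mul]
    calc n * t * n⁻¹ * (c : GL (Fin 2 ⊕ Fin 2) F) = n * t * (n⁻¹ * (c : GL (Fin 2 ⊕ Fin 2) F)) := by group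
      _ = n * (t * (c : GL (Fin 2 ⊕ Fin 2) F)) * n⁻¹ := by rw [h1]; group
      _ = n * ((c : GL (Fin 2 ⊕ Fin 2) F) * t) * n⁻¹ := by rw [ht.2]
      _ = (n * (c : GL (Fin 2 ⊕ Fin 2) F)) * t * n⁻¹ := by group
      _ = (c : GL (Fin 2 ⊕ Fin 2) F) * (n * t * n⁻¹) := by rw [hnc]; group
  obtain ⟨K, hK⟩ : ∃ K : Subgroup D', ∀ t : D', t ∈ K ↔ n * (t : GL (Fin 2 ⊕ Fin 2) F) = (t : GL (Fin 2 ⊕ Fin 2) F) * n :=
    ⟨(Subgroup.centralizer {n}).subgroupOf D', fun t => by
      rw [Subgroup.mem_subgroupOf, Subgroup.mem_centralizer_iff]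
      constructor
      · intro h1
        exact h1 n rfl
      · intro h1 y hy
        rw [Set.mem_singleton_iff.mp hy]
        exact h1⟩
  have hmod := Cfsg.Agent.Lib.Helper37.Pauli4A.card_fixed_modEq D' n hstab 7 h7 K hK
  rw [hcardD'] at hmod
  -- K maps injectively into the fixed subgroup
  obtain ⟨K', hK'⟩ : ∃ K' : Subgroup (GL (Fin 2 ⊕ Fin 2) F), K' = K.map D'.subtype := ⟨_, rfl⟩
  have hcardK' : Nat.card K' = Nat.card K := by
    rw [hK', Subgroup.card_map_of_injective (Subgroup.subtype_injective D')]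
  obtain ⟨Cf, hCf⟩ : ∃ Cf : Subgroup (GL (Fin 2 ⊕ Fin 2) F), Cf = (fixSub R n).map R.subtype := ⟨_, rfl⟩
  have hcardCf : Nat.card Cf = 4 := by
    rw [hCf, Subgroup.card_map_of_injective (Subgroup.subtype_injective R), hk]
  have hK'le : K' ≤ Cf := by
    intro t ht
    rw [hK', Subgroup.mem_map] at ht
    obtain ⟨u, hu, rfl⟩ := ht
    rw [hCf, Subgroup.mem_map]
    have h1 := (hmemD' (u : GL (Fin 2 ⊕ Fin 2) F)).mp u.2
    exact ⟨⟨(u : GL (Fin 2 ⊕ Fin 2) F), h1.1⟩, (mem_fixSub n _).mpr ((hK u).mp hu), rfl⟩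
  have hdvd : Nat.card K ∣ 4 := by
    rw [← hcardK', ← hcardCf]
    exact Subgroup.card_dvd_of_le hK'le
  have hK4 : Nat.card K = 2 := by
    have h1 := Nat.le_of_dvd (by norm_num) hdvd
    unfold Nat.ModEq at hmod
    interval_cases (Nat.card K) <;> omega
  -- the centre is contained in K'
  obtain ⟨Z', hZ'⟩ : ∃ Z' : Subgroup (GL (Fin 2 ⊕ Fin 2) F), Z' = (Subgroup.center R).map R.subtype :=
    ⟨_, rfl⟩
  have hcardZ' : Nat.card Z' = 2 := by
    rw [hZ', Subgroup.card_map_of_injective (Subgroup.subtype_injective R), P.center]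
  have hZ'le : Z' ≤ K' := by
    intro t ht
    rw [hZ', Subgroup.mem_map] at ht
    obtain ⟨u, hu, rfl⟩ := ht
    rw [hK', Subgroup.mem_map]
    have h1 : (u : GL (Fin 2 ⊕ Fin 2) F) ∈ D' := by
      rw [hmemD']
      refine ⟨u.2, ?_⟩
      have h2 := (Subgroup.mem_center_iff.mp hu) c
      have h3 := congrArg (fun t : R => (t : GL (Fin 2 ⊕ Fin 2) F)) h2
      simp only [Subgroup.coe_mul] at h3
      exact h3.symm
    refine ⟨⟨(u : GL (Fin 2 ⊕ Fin 2) F), h1⟩, ?_, rfl⟩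
    rw [hK]
    exact (mem_fixSub n u).mp (center_le_fixSub P n hu)
  have hfinK' : Finite K' := Nat.finite_of_card_ne_zero (by rw [hcardK', hK4]; norm_num)
  have hZK : Z' = K' := Subgroup.eq_of_le_of_card_ge hZ'le (by rw [hcardZ', hcardK', hK4])
  have hcK' : (c : GL (Fin 2 ⊕ Fin 2) F) ∈ K' := by
    rw [hK', Subgroup.mem_map]
    have h1 : (c : GL (Fin 2 ⊕ Fin 2) F) ∈ D' := by
      rw [hmemD']
      exact ⟨c.2, rfl⟩
    exact ⟨⟨(c : GL (Fin 2 ⊕ Fin 2) F), h1⟩, (hK _).mpr hnc, rfl⟩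
  rw [← hZK, hZ', Subgroup.mem_map] at hcK'
  obtain ⟨u, hu, hu'⟩ := hcK'
  have h1 : u = c := Subtype.ext hu'
  rw [h1] at hu
  exact hccen hu

end count

section top

variable {R : Subgroup (GL (Fin 2 ⊕ Fin 2) F)}

theorem prime_ge_seven_aux {r : ℕ} (hr : r.Prime) (h7 : 7 ≤ r) :
    ¬ r ∣ 30 ∧ ¬ r ∣ 24 ∧ ¬ r ∣ 16 ∧ (r ∣ 28 → r = 7) := by
  refine ⟨?_, ?_, ?_, ?_⟩
  · intro h
    have h1 := Nat.le_of_dvd (by norm_num) h
    interval_cases r <;> first | omega | (exact absurd hr (by norm_num))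
  · intro h
    have h1 := Nat.le_of_dvd (by norm_num) h
    interval_cases r <;> first | omega | (exact absurd hr (by norm_num))
  · intro h
    have h1 := Nat.le_of_dvd (by norm_num) h
    interval_cases r <;> first | omega | (exact absurd hr (by norm_num))
  · intro h
    have h1 := Nat.le_of_dvd (by norm_num) h
    interval_cases r <;> first | omega | (exact absurd hr (by norm_num))

/-- Elements of prime order `r ≥ 7` of the normalizer are scalar. -/
theorem scalar_of_ge_seven (P : QData R) (n : GL (Fin 2 ⊕ Fin 2) F)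
    (hn : n ∈ Cfsg.Geo.subgroupNormalizer R) (r : ℕ) [Fact r.Prime] (h7 : 7 ≤ r)
    (hnr : n ^ r = 1) : ∃ c : F, n.val = c • (1 : Matrix (Fin 2 ⊕ Fin 2) (Fin 2 ⊕ Fin 2) F) := by
  have hrp : r.Prime := Fact.out
  have hmod := card_fix_modEq P n hn r hnr
  have hdvd := card_fix_dvd P n
  have h4 := two_dvd_card_fix P n
  obtain ⟨h30, h24, h16, h28⟩ := prime_ge_seven_aux hrp h7
  have hle := Nat.le_of_dvd (by norm_num) hdvd
  obtain ⟨k, hk⟩ : ∃ k, k = Nat.card (fixSub R n) := ⟨_, rfl⟩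
  rw [← hk] at hmod hdvd h4 hle
  have hcases : k = 2 ∨ k = 4 ∨ k = 8 ∨ k = 16 ∨ k = 32 := by
    interval_cases k <;> omega
  rcases hcases with rfl | rfl | rfl | rfl | rfl
  · exact absurd ((Nat.modEq_iff_dvd' (by norm_num)).mp hmod.symm) h30
  · have h := h28 ((Nat.modEq_iff_dvd' (by norm_num)).mp hmod.symm)
    subst h
    exact (not_fix_four P n hn hnr hk.symm).elim
  · exact absurd ((Nat.modEq_iff_dvd' (by norm_num)).mp hmod.symm) h24
  · exact absurd ((Nat.modEq_iff_dvd' (by norm_num)).mp hmod.symm) h16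
  · exact scalar_of_fix_top P n hk.symm

/-- Non-scalar elements of order `3` of the normalizer fix `2` or `8` elements of `R`. -/
theorem card_three (P : QData R) (n : GL (Fin 2 ⊕ Fin 2) F)
    (hn : n ∈ Cfsg.Geo.subgroupNormalizer R) (hn3 : n ^ 3 = 1)
    (hns : ∀ c : F, n.val ≠ c • (1 : Matrix (Fin 2 ⊕ Fin 2) (Fin 2 ⊕ Fin 2) F)) :
    Nat.card (fixSub R n) = 2 ∨ Nat.card (fixSub R n) = 8 := by
  have hp3 : Fact (Nat.Prime 3) := ⟨by norm_num⟩
  have hmod := card_fix_modEq P n hn 3 hn3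
  have hdvd := card_fix_dvd P n
  have h4 := two_dvd_card_fix P n
  have hle := Nat.le_of_dvd (by norm_num) hdvd
  obtain ⟨k, hk⟩ : ∃ k, k = Nat.card (fixSub R n) := ⟨_, rfl⟩
  rw [← hk] at hmod hdvd h4 hle ⊢
  unfold Nat.ModEq at hmod
  have hcases : k = 2 ∨ k = 8 ∨ k = 32 := by
    interval_cases k <;> omega
  rcases hcases with rfl | rfl | rfl
  · exact Or.inl rfl
  · exact Or.inr rfl
  · exfalso
    obtain ⟨c, hc⟩ := scalar_of_fix_top P n hk.symm
    exact hns c hc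

/-- Non-scalar elements of order `5` of the normalizer have `tr(n) tr(n⁻¹) = 1` and
centralize only the scalars of `R`. -/
theorem trace_five (P : QData R) (n : GL (Fin 2 ⊕ Fin 2) F)
    (hn : n ∈ Cfsg.Geo.subgroupNormalizer R) (hn5 : n ^ 5 = 1)
    (hns : ∀ c : F, n.val ≠ c • (1 : Matrix (Fin 2 ⊕ Fin 2) (Fin 2 ⊕ Fin 2) F)) :
    Matrix.trace n.val * Matrix.trace (n⁻¹).val = 1 ∧
      ∀ t ∈ R, n * t = t * n →
        ∃ c : F, t.val = c • (1 : Matrix (Fin 2 ⊕ Fin 2) (Fin 2 ⊕ Fin 2) F) := by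
  have hp5 : Fact (Nat.Prime 5) := ⟨by norm_num⟩
  have hmod := card_fix_modEq P n hn 5 hn5
  have hdvd := card_fix_dvd P n
  have h4 := two_dvd_card_fix P n
  have htr := card_fix_trace P n hn 5 (by norm_num) (by norm_num) hn5
  have hle := Nat.le_of_dvd (by norm_num) hdvd
  obtain ⟨k, hk⟩ : ∃ k, k = Nat.card (fixSub R n) := ⟨_, rfl⟩
  rw [← hk] at hmod hdvd h4 hle htr
  unfold Nat.ModEq at hmod
  have hcases : k = 2 ∨ k = 32 := by
    interval_cases k <;> omega
  rcases hcases with rfl | rfl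
  · refine ⟨?_, fun t ht hc => scalar_of_fix_two P n hk.symm t ht hc⟩
    apply mul_left_cancel₀ P.two
    have e2 : ((2 : ℕ) : F) = 2 := by norm_num
    rw [e2] at htr
    linear_combination -htr
  · exfalso
    obtain ⟨c, hc⟩ := scalar_of_fix_top P n hk.symm
    exact hns c hc

end top

/-- An element conjugating a finite subgroup into itself normalizes it. -/
theorem mem_normalizer_of_finite {G : Type*} [Group G] (R : Subgroup G) [Finite R]
    (n : G) (h : ∀ s ∈ R, n * s * n⁻¹ ∈ R) : n ∈ Subgroup.normalizer (R : Set G) := by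
  have hle0 : R ≤ R.comap (MulAut.conj n).toMonoidHom := by
    intro x hx
    exact h x hx
  have hcard : Nat.card (R.comap (MulAut.conj n).toMonoidHom) = Nat.card R := by
    rw [Subgroup.comap_equiv_eq_map_symm']
    exact Subgroup.card_map_of_injective (MulEquiv.injective _)
  have hfinK : Finite ↥(R.comap (MulAut.conj n).toMonoidHom) :=
    Nat.finite_of_card_ne_zero (by rw [hcard]; exact Nat.card_pos.ne')
  have heq : R = R.comap (MulAut.conj n).toMonoidHom :=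
    Subgroup.eq_of_le_of_card_ge hle0 (le_of_eq hcard)
  rw [Subgroup.mem_normalizer_iff]
  intro x
  constructor
  · intro hx
    exact h x hx
  · intro hx
    rw [heq]
    exact hx

end Cfsg.Agent.Lib.Helper37.Pauli5A
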