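import Mathlib
import Cfsg.Prelude.Def_GeometricClasses
import Cfsg.Prelude.Def_ClassicalGeometry
import Cfsg.Agent.Lib.Helper40.SympConj
import Cfsg.Agent.Lib.Helper40.SSConj
import Cfsg.Agent.Lib.Helper37.Pauli5A

/-!
# The extraspecial group `2^{1+4}` inside `Sp_4(F)`: symplectic tools

* the bridge between `Cfsg.spGL` and the symplectic adjoint `sadj`, and conjugacy in `Sp`;
* the "transposed twirl" `∑_{x ∈ R} x A x = -8 sadj(A)` for `R ≤ Sp_4(F)`;
* the trace of an element of order `3` of the normalizer with only two fixed points;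
* rank-one unipotent elements of the normalizer are scalar.
-/

set_option autoImplicit false

open scoped MatrixGroups

namespace Cfsg.Agent.Lib.Helper37.Pauli5B

open Cfsg.Agent.Lib.Helper37.Pauli5A Cfsg.Agent.Lib.Helper40.SympConj

open Matrix

variable {F : Type*} [Field F]

section bridge

theorem mem_spGL_iff_sadj {m : ℕ} (g : GL (Fin m ⊕ Fin m) F) :
    g ∈ Cfsg.spGL m F ↔ sadj g.val * g.val = 1 := by
  constructor
  · intro h
    apply eq_of_form
    intro u w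
    have h1 : Cfsg.sympForm m F (g.val *ᵥ u) (g.val *ᵥ w) = Cfsg.sympForm m F u w := h u w
    unfold Cfsg.sympForm at h1
    rw [adjoint_rel] at h1
    rw [← Matrix.mulVec_mulVec, Matrix.one_mulVec]
    exact h1
  · intro h u w
    show Cfsg.sympForm m F (g.val *ᵥ u) (g.val *ᵥ w) = Cfsg.sympForm m F u w
    unfold Cfsg.sympForm
    rw [adjoint_rel, Matrix.mulVec_mulVec w (sadj g.val) g.val, h, Matrix.one_mulVec]

theorem scalar_pm (c : F)
    (h : sadj (c • (1 : Matrix (Fin 2 ⊕ Fin 2) (Fin 2 ⊕ Fin 2) F)) *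
      (c • (1 : Matrix (Fin 2 ⊕ Fin 2) (Fin 2 ⊕ Fin 2) F)) = 1) : c = 1 ∨ c = -1 := by
  rw [sadj_smul, sadj_one, Matrix.smul_mul, Matrix.mul_smul, Matrix.one_mul, smul_smul] at h
  have h3 := congrFun (congrFun h (Sum.inl 0)) (Sum.inl 0)
  simp only [Matrix.smul_apply, Matrix.one_apply_eq, smul_eq_mul, mul_one] at h3
  have h5 : (c - 1) * (c + 1) = 0 := by linear_combination h3
  rcases mul_eq_zero.mp h5 with h | h
  · left
    exact sub_eq_zero.mp h
  · right
    exact eq_neg_of_add_eq_zero_left h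

/-- Conjugacy under an invertible matrix of two elements of `Sp_4(F)`, the first of order
prime to the characteristic, implies conjugacy in `Sp_4(F)`. -/
theorem sp_conj [Fintype F] (x w : GL (Fin 2 ⊕ Fin 2) F) (hx : x ∈ Cfsg.spGL 2 F)
    (hw : w ∈ Cfsg.spGL 2 F) (N : ℕ) (hN : (N : F) ≠ 0) (hxN : x.val ^ N = 1)
    (X : Matrix (Fin 2 ⊕ Fin 2) (Fin 2 ⊕ Fin 2) F) (hX : IsUnit X)
    (hconj : X * x.val = w.val * X) : ∃ g ∈ Cfsg.spGL 2 F, g⁻¹ * x * g = w := by
  have hxs := (mem_symp_iff x.val).mpr ((mem_spGL_iff_sadj x).mp hx)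
  have hws := (mem_symp_iff w.val).mpr ((mem_spGL_iff_sadj w).mp hw)
  have hc := symp_conj (⟨x.val, hxs⟩ : Matrix.symplecticGroup (Fin 2) F) ⟨w.val, hws⟩ N hN hxN
    X hX hconj
  rw [isConj_iff] at hc
  obtain ⟨c, hc⟩ := hc
  have h1 : (c : Matrix (Fin 2 ⊕ Fin 2) (Fin 2 ⊕ Fin 2) F) *
      ((c⁻¹ : Matrix.symplecticGroup (Fin 2) F) : Matrix (Fin 2 ⊕ Fin 2) (Fin 2 ⊕ Fin 2) F) = 1 :=
    congrArg Subtype.val (mul_inv_cancel c)
  have h2 : ((c⁻¹ : Matrix.symplecticGroup (Fin 2) F) :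
      Matrix (Fin 2 ⊕ Fin 2) (Fin 2 ⊕ Fin 2) F) *
      (c : Matrix (Fin 2 ⊕ Fin 2) (Fin 2 ⊕ Fin 2) F) = 1 :=
    congrArg Subtype.val (inv_mul_cancel c)
  refine ⟨⟨((c⁻¹ : Matrix.symplecticGroup (Fin 2) F) :
      Matrix (Fin 2 ⊕ Fin 2) (Fin 2 ⊕ Fin 2) F), (c : Matrix (Fin 2 ⊕ Fin 2) (Fin 2 ⊕ Fin 2) F),
      h2, h1⟩, ?_, ?_⟩
  · rw [mem_spGL_iff_sadj]
    exact (mem_symp_iff _).mp (c⁻¹).2
  · apply Units.ext
    exact congrArg Subtype.val hc

/-- Elements of `Sp_4(F)` of order prime to the characteristic with the same characteristic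
polynomial are conjugate in `Sp_4(F)`. -/
theorem sp_conj_of_charpoly [Fintype F] (x w : GL (Fin 2 ⊕ Fin 2) F) (hx : x ∈ Cfsg.spGL 2 F)
    (hw : w ∈ Cfsg.spGL 2 F) (N : ℕ) (hN : (N : F) ≠ 0) (hxN : x.val ^ N = 1)
    (hwN : w.val ^ N = 1) (hcp : x.val.charpoly = w.val.charpoly) :
    ∃ g ∈ Cfsg.spGL 2 F, g⁻¹ * x * g = w := by
  obtain ⟨P, Q, hPQ, -, hPA⟩ :=
    Cfsg.Agent.Lib.Helper40.SSConj.matrix_conj x.val w.val N hN hxN hwN hcp
  exact sp_conj x w hx hw N hN hxN P (IsUnit.of_mul_eq_one Q hPQ) hPA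

/-- For `g ∈ Sp`, the symplectic adjoint is the inverse. -/
theorem sadj_eq_inv (g : GL (Fin 2 ⊕ Fin 2) F) (hg : g ∈ Cfsg.spGL 2 F) :
    sadj g.val = (g⁻¹).val := by
  have h := (mem_spGL_iff_sadj g).mp hg
  calc sadj g.val = sadj g.val * (g.val * (g⁻¹).val) := by rw [Units.mul_inv, Matrix.mul_one]
    _ = (g⁻¹).val := by rw [← Matrix.mul_assoc, h, Matrix.one_mul]

theorem trace_sadj (M : Matrix (Fin 2 ⊕ Fin 2) (Fin 2 ⊕ Fin 2) F) :
    Matrix.trace (sadj M) = Matrix.trace M := by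
  unfold sadj
  rw [Matrix.trace_mul_cycle, J_mul_neg_J, Matrix.one_mul, Matrix.trace_transpose]

end bridge

section twirl

variable {R : Subgroup (GL (Fin 2 ⊕ Fin 2) F)}

theorem single_sandwich (M N : Matrix (Fin 2 ⊕ Fin 2) (Fin 2 ⊕ Fin 2) F)
    (i j k l : Fin 2 ⊕ Fin 2) :
    (M * Matrix.single j l (1 : F) * N) i k = M i j * N l k := by
  simp [Matrix.mul_apply, Matrix.single_apply, ite_and, Finset.sum_ite_eq]

theorem trace_single' (j l : Fin 2 ⊕ Fin 2) :
    Matrix.trace (Matrix.single j l (1 : F)) = if l = j then 1 else 0 := by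
  simp [Matrix.trace, Matrix.single_apply, ite_and, Finset.sum_ite_eq]

theorem twirl_entry [Fintype R] (P : QData R) (i j k l : Fin 2 ⊕ Fin 2) :
    ∑ g : R, (g : GL (Fin 2 ⊕ Fin 2) F).val i j * ((g : GL (Fin 2 ⊕ Fin 2) F)⁻¹).val l k =
      if j = l ∧ i = k then 8 else 0 := by
  have h := congrFun (congrFun (twirl P (Matrix.single j l (1 : F))) i) k
  rw [Matrix.sum_apply] at h
  simp only [single_sandwich] at h
  rw [h, trace_single']
  by_cases hjl : j = l
  · by_cases hik : i = k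
    · subst hjl
      subst hik
      simp
    · subst hjl
      simp [hik]
  · have hlj : ¬ l = j := fun h' => hjl h'.symm
    simp [hjl, hlj]

/-- The partially transposed twirl. -/
theorem twirl_pt [Fintype R] (P : QData R) (B : Matrix (Fin 2 ⊕ Fin 2) (Fin 2 ⊕ Fin 2) F) :
    ∑ x : R, (x : GL (Fin 2 ⊕ Fin 2) F).val * B *
      (((x : GL (Fin 2 ⊕ Fin 2) F)⁻¹).val)ᵀ = (8 : F) • Bᵀ := by
  ext i l
  rw [Matrix.sum_apply]
  simp only [Matrix.mul_apply, Matrix.transpose_apply, Matrix.smul_apply, smul_eq_mul]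
  calc ∑ x : R, ∑ k, (∑ j, (x : GL (Fin 2 ⊕ Fin 2) F).val i j * B j k) *
        ((x : GL (Fin 2 ⊕ Fin 2) F)⁻¹).val l k
      = ∑ k, ∑ j, B j k * ∑ x : R, (x : GL (Fin 2 ⊕ Fin 2) F).val i j *
          ((x : GL (Fin 2 ⊕ Fin 2) F)⁻¹).val l k := by
        rw [Finset.sum_comm]
        refine Finset.sum_congr rfl (fun k _ => ?_)
        simp only [Finset.sum_mul]
        rw [Finset.sum_comm]
        refine Finset.sum_congr rfl (fun j _ => ?_)
        rw [Finset.mul_sum]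
        refine Finset.sum_congr rfl (fun x _ => ?_)
        ring
    _ = 8 * B l i := by
        simp only [twirl_entry P]
        simp [ite_and, Finset.sum_ite_eq, Finset.sum_ite_eq', mul_comm]

/-- The transposed twirl: `∑_{x ∈ R} x A x = -8 sadj(A)` for `R ≤ Sp_4(F)`. -/
theorem twirl_sq [Fintype R] (P : QData R) (hRf : R ≤ Cfsg.spGL 2 F)
    (A : Matrix (Fin 2 ⊕ Fin 2) (Fin 2 ⊕ Fin 2) F) :
    ∑ x : R, (x : GL (Fin 2 ⊕ Fin 2) F).val * A * (x : GL (Fin 2 ⊕ Fin 2) F).val =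
      (-8 : F) • sadj A := by
  have h1 : ∀ x : R, (x : GL (Fin 2 ⊕ Fin 2) F).val * A * (x : GL (Fin 2 ⊕ Fin 2) F).val =
      ((x : GL (Fin 2 ⊕ Fin 2) F).val * (A * (-Matrix.J (Fin 2) F)) *
        (((x : GL (Fin 2 ⊕ Fin 2) F)⁻¹).val)ᵀ) * Matrix.J (Fin 2) F := by
    intro x
    have hx := sadj_eq_inv ((x : GL (Fin 2 ⊕ Fin 2) F)⁻¹)
      ((Cfsg.spGL 2 F).inv_mem (hRf x.2))
    rw [inv_inv] at hx
    have e : (x : GL (Fin 2 ⊕ Fin 2) F).val * A * (x : GL (Fin 2 ⊕ Fin 2) F).val =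
        (x : GL (Fin 2 ⊕ Fin 2) F).val * A * sadj ((x : GL (Fin 2 ⊕ Fin 2) F)⁻¹).val := by
      rw [hx]
    rw [e]
    unfold sadj
    simp only [Matrix.mul_assoc]
  rw [Finset.sum_congr rfl (fun x _ => h1 x), ← Finset.sum_mul, twirl_pt P]
  unfold sadj
  simp only [Matrix.transpose_mul, Matrix.transpose_neg, Matrix.J_transpose, neg_neg,
    Matrix.smul_mul, Matrix.neg_mul, smul_neg, neg_smul, Matrix.mul_assoc]

end twirl

section three

variable {R : Subgroup (GL (Fin 2 ⊕ Fin 2) F)}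

theorem grp_three {G : Type*} [Group G] (x n z : G) (hz : ∀ g : G, z * g = g * z)
    (hzz : z * z = 1) (hn : n ^ 3 = 1) (h : x * n * x * n⁻¹ = z) : n * x = x * n := by
  have h1 : x * n * x = z * n := by
    rw [← h]
    group
  have h2 : n * x = x⁻¹ * z * n := by
    rw [mul_assoc, ← h1]
    group
  have h3 : n * x⁻¹ = z * x * n := by
    have e : x * n = z * n * x⁻¹ := by
      rw [← h1]
      group
    have e2 : n * x⁻¹ = z⁻¹ * (z * n * x⁻¹) := by group
    have hzi : z⁻¹ = z := inv_eq_of_mul_eq_one_left hzz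
    rw [e2, ← e, hzi, mul_assoc]
  have h4 : n * n * x = x * (n * n) := by
    calc n * n * x = n * (n * x) := by group
      _ = n * (x⁻¹ * z * n) := by rw [h2]
      _ = (n * x⁻¹) * z * n := by group
      _ = (z * x * n) * z * n := by rw [h3]
      _ = z * x * (n * z) * n := by group
      _ = z * x * (z * n) * n := by rw [hz n]
      _ = z * (x * z) * n * n := by group
      _ = z * (z * x) * n * n := by rw [hz x]
      _ = (z * z) * x * n * n := by group
      _ = x * (n * n) := by rw [hzz]; group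
  have h5 : n = (n * n) * (n * n) := by
    have e : (n * n) * (n * n) = n ^ 3 * n := by
      rw [pow_succ, pow_succ, pow_succ, pow_zero, one_mul]
      simp only [mul_assoc]
    rw [e, hn, one_mul]
  calc n * x = (n * n) * ((n * n) * x) := by rw [← mul_assoc, ← h5]
    _ = (n * n) * (x * (n * n)) := by rw [h4]
    _ = ((n * n) * x) * (n * n) := by group
    _ = (x * (n * n)) * (n * n) := by rw [h4]
    _ = x * ((n * n) * (n * n)) := by group
    _ = x * n := by rw [← h5]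

/-- An element of order `3` of `N(R) ∩ Sp_4(F)` fixing only `±1` in `R` has trace `-1`. -/
theorem three_trace (P : QData R) (hRf : R ≤ Cfsg.spGL 2 F) (n : GL (Fin 2 ⊕ Fin 2) F)
    (hn : n ∈ Cfsg.Geo.subgroupNormalizer R) (hnS : n ∈ Cfsg.spGL 2 F) (hn3 : n ^ 3 = 1)
    (hC : Nat.card (fixSub R n) = 2) : Matrix.trace n.val = -1 := by
  classical
  have hfin := P.finite
  let _ : Fintype ↥R := Fintype.ofFinite _
  have h8 : (8 : F) ≠ 0 := by
    intro h
    have h' : (2 : F) * 4 = 0 := by linear_combination h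
    rcases mul_eq_zero.mp h' with h'' | h''
    · exact P.two h''
    · exact P.four_ne h''
  have hinv : (n⁻¹).val * (n⁻¹).val = n.val := by
    have e : n⁻¹ * n⁻¹ = n := by
      have e2 : n⁻¹ * n⁻¹ = (n ^ 3)⁻¹ * n := by group
      rw [e2, hn3, inv_one, one_mul]
    rw [← Units.val_mul, e]
  have hA : ∑ x : R, Matrix.trace ((x : GL (Fin 2 ⊕ Fin 2) F).val * n.val *
      (x : GL (Fin 2 ⊕ Fin 2) F).val * (n⁻¹).val) = -8 * Matrix.trace n.val := by
    rw [← Matrix.trace_sum, ← Finset.sum_mul, twirl_sq P hRf, sadj_eq_inv n hnS,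
      Matrix.smul_mul, hinv, Matrix.trace_smul, smul_eq_mul]
  have hB : ∑ x : R, Matrix.trace ((x : GL (Fin 2 ⊕ Fin 2) F).val * n.val *
      (x : GL (Fin 2 ⊕ Fin 2) F).val * (n⁻¹).val) = 4 * (Nat.card (fixSub R n) : F) := by
    have h3 : ∀ x : R, Matrix.trace ((x : GL (Fin 2 ⊕ Fin 2) F).val * n.val *
        (x : GL (Fin 2 ⊕ Fin 2) F).val * (n⁻¹).val) =
        4 * (if x ∈ fixSub R n then (1 : F) else 0) := by
      intro x
      have h0 : ((x : GL (Fin 2 ⊕ Fin 2) F) * n * (x : GL (Fin 2 ⊕ Fin 2) F) * n⁻¹).val =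
          (x : GL (Fin 2 ⊕ Fin 2) F).val * n.val * (x : GL (Fin 2 ⊕ Fin 2) F).val * (n⁻¹).val := by
        simp only [Units.val_mul]
      rw [← h0]
      by_cases hx : x ∈ fixSub R n
      · rw [if_pos hx, mul_one]
        have hcomm := (mem_fixSub n x).mp hx
        obtain ⟨c, hc⟩ := scalar_of_fix_two P n hC (x : GL (Fin 2 ⊕ Fin 2) F) x.2 hcomm
        have hxx : (x : GL (Fin 2 ⊕ Fin 2) F) * (x : GL (Fin 2 ⊕ Fin 2) F) = 1 := by
          apply Units.ext
          rw [Units.val_mul, hc, Matrix.smul_mul, Matrix.mul_smul, Matrix.one_mul, smul_smul,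
            Units.val_one]
          rcases P.scal_pm _ x.2 c hc with h | h <;> rw [h] <;> simp
        have e : (x : GL (Fin 2 ⊕ Fin 2) F) * n * (x : GL (Fin 2 ⊕ Fin 2) F) * n⁻¹ = 1 := by
          rw [← hcomm]
          calc n * (x : GL (Fin 2 ⊕ Fin 2) F) * (x : GL (Fin 2 ⊕ Fin 2) F) * n⁻¹
              = n * ((x : GL (Fin 2 ⊕ Fin 2) F) * (x : GL (Fin 2 ⊕ Fin 2) F)) * n⁻¹ := by group
            _ = 1 := by rw [hxx]; group
        rw [e, Units.val_one, Matrix.trace_one, card_iota]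
        norm_num
      · rw [if_neg hx, mul_zero]
        have hwR : (x : GL (Fin 2 ⊕ Fin 2) F) * n * (x : GL (Fin 2 ⊕ Fin 2) F) * n⁻¹ ∈ R := by
          have h1 : n * (x : GL (Fin 2 ⊕ Fin 2) F) * n⁻¹ ∈ R :=
            ((Subgroup.mem_normalizer_iff.1 hn) x).1 x.2
          have h2 : (x : GL (Fin 2 ⊕ Fin 2) F) * n * (x : GL (Fin 2 ⊕ Fin 2) F) * n⁻¹ =
              (x : GL (Fin 2 ⊕ Fin 2) F) * (n * (x : GL (Fin 2 ⊕ Fin 2) F) * n⁻¹) := by group
          rw [h2]
          exact R.mul_mem x.2 h1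
        apply trace_zero P _ hwR
        intro c hc
        apply hx
        rw [mem_fixSub]
        apply grp_three (x : GL (Fin 2 ⊕ Fin 2) F) n _ _ _ hn3 rfl
        · intro g
          apply Units.ext
          rw [Units.val_mul, hc, Units.val_mul, hc, Matrix.smul_mul, Matrix.mul_smul,
            Matrix.one_mul, Matrix.mul_one]
        · apply Units.ext
          rw [Units.val_mul, hc, Matrix.smul_mul, Matrix.mul_smul, Matrix.one_mul, smul_smul,
            Units.val_one]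
          rcases P.scal_pm _ hwR c hc with h | h <;> rw [h] <;> simp
    rw [Finset.sum_congr rfl (fun g _ => h3 g), ← Finset.mul_sum, Finset.sum_boole]
    congr 2
    rw [Nat.card_eq_fintype_card, Fintype.card_subtype]
  rw [hB, hC] at hA
  apply mul_left_cancel₀ h8
  have e2 : ((2 : ℕ) : F) = 2 := by norm_num
  rw [e2] at hA
  linear_combination hA

end three

/-! ### Rank-one unipotent elements -/

section transv

variable {R : Subgroup (GL (Fin 2 ⊕ Fin 2) F)}

theorem inv_one_add (n : GL (Fin 2 ⊕ Fin 2) F) (E : Matrix (Fin 2 ⊕ Fin 2) (Fin 2 ⊕ Fin 2) F) (hE : E * E = 0)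
    (hnE : n.val = 1 + E) : (n⁻¹).val = 1 - E := by
  have h1 : n.val * (1 - E) = 1 := by
    have e : (1 + E) * (1 - E) = 1 - E * E := by noncomm_ring
    rw [hnE, e, hE, sub_zero]
  calc (n⁻¹).val = (n⁻¹).val * (n.val * (1 - E)) := by rw [h1, Matrix.mul_one]
    _ = 1 - E := by rw [← Matrix.mul_assoc, Units.inv_mul, Matrix.one_mul]

theorem unip_trace_gen (P : QData R) (n : GL (Fin 2 ⊕ Fin 2) F)
    (hn : n ∈ Cfsg.Geo.subgroupNormalizer R) (r : ℕ) (hr : r.Prime) (hr2 : r ≠ 2)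
    (hnr : n ^ r = 1) (E : Matrix (Fin 2 ⊕ Fin 2) (Fin 2 ⊕ Fin 2) F) (hE : E * E = 0) (hnE : n.val = 1 + E)
    (c : GL (Fin 2 ⊕ Fin 2) F) (hc : c ∈ R) (hcomm : n * c ≠ c * n) :
    Matrix.trace (c.val * E * (c⁻¹).val * E) = 4 := by
  have hni : (n⁻¹).val = 1 - E := inv_one_add n E hE hnE
  have h0 := term_ncomm P n hn r hr hr2 hnr c hc hcomm
  rw [hnE, hni] at h0
  have hCC : c.val * (c⁻¹).val = 1 := Units.mul_inv c
  have hCC' : (c⁻¹).val * c.val = 1 := Units.inv_mul c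
  have e1 : c.val * (1 + E) * (c⁻¹).val * (1 - E) =
      1 - E + c.val * E * (c⁻¹).val - c.val * E * (c⁻¹).val * E := by
    have e2 : c.val * (1 + E) * (c⁻¹).val = 1 + c.val * E * (c⁻¹).val := by
      rw [Matrix.mul_add, Matrix.mul_one, Matrix.add_mul, hCC]
    rw [e2]
    noncomm_ring
  have e3 : Matrix.trace (c.val * E * (c⁻¹).val) = Matrix.trace E := by
    rw [Matrix.trace_mul_comm, ← Matrix.mul_assoc, hCC', Matrix.one_mul]
  rw [e1, Matrix.trace_sub, Matrix.trace_add, Matrix.trace_sub, Matrix.trace_one,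
    card_iota, e3] at h0
  have e4 : ((4 : ℕ) : F) = 4 := by norm_num
  rw [e4] at h0
  linear_combination -h0

/-- A unipotent element `1 + E` of odd prime order of the normalizer, with `E` of rank one
and square zero, is scalar. -/
theorem transv_scalar (P : QData R) (n : GL (Fin 2 ⊕ Fin 2) F)
    (hn : n ∈ Cfsg.Geo.subgroupNormalizer R) (r : ℕ) (hr : r.Prime) (hr2 : r ≠ 2)
    (hnr : n ^ r = 1) (E : Matrix (Fin 2 ⊕ Fin 2) (Fin 2 ⊕ Fin 2) F) (hE : E * E = 0)
    (hrank : ∀ M : Matrix (Fin 2 ⊕ Fin 2) (Fin 2 ⊕ Fin 2) F, E * M * E = Matrix.trace (M * E) • E)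
    (hnE : n.val = 1 + E) : ∃ s : F, n.val = s • (1 : Matrix (Fin 2 ⊕ Fin 2) (Fin 2 ⊕ Fin 2) F) := by
  classical
  by_contra hns
  push Not at hns
  have hfin := P.finite
  have hni : (n⁻¹).val = 1 - E := inv_one_add n E hE hnE
  have key : ∀ c : GL (Fin 2 ⊕ Fin 2) F, c ∈ R → n * c ≠ c * n → Matrix.trace (c.val * E) ≠ 0 := by
    intro c hc hcomm h0
    have t := unip_trace_gen P n hn r hr hr2 hnr E hE hnE c hc hcomm
    have e : c.val * E * (c⁻¹).val * E = c.val * (E * (c⁻¹).val * E) := by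
      simp only [Matrix.mul_assoc]
    rw [e, hrank, Matrix.mul_smul, Matrix.trace_smul, smul_eq_mul, h0, mul_zero] at t
    exact P.four_ne t.symm
  obtain ⟨c, hc, hcn⟩ : ∃ c ∈ R, n * c ≠ c * n := by
    by_contra hall
    push Not at hall
    obtain ⟨s, hs⟩ := P.commutant n.val (fun x hx => by
      have h1 := congrArg Units.val (hall x hx)
      rw [Units.val_mul, Units.val_mul] at h1
      exact h1)
    exact hns s hs
  have hlamc := key c hc hcn
  have hc1 : n * c * n⁻¹ ∈ R := ((Subgroup.mem_normalizer_iff.1 hn) c).1 hc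
  -- the main dichotomy
  have hmain : ∀ e : GL (Fin 2 ⊕ Fin 2) F, e ∈ R → e * c = c * e →
      (∃ s : F, (c * e).val = s • (1 : Matrix (Fin 2 ⊕ Fin 2) (Fin 2 ⊕ Fin 2) F)) ∨
      (∃ s : F, (n * c * n⁻¹ * e).val = s • (1 : Matrix (Fin 2 ⊕ Fin 2) (Fin 2 ⊕ Fin 2) F)) ∨
      n * e = e * n := by
    intro e he hec
    by_cases h1 : ∃ s : F, (c * e).val = s • (1 : Matrix (Fin 2 ⊕ Fin 2) (Fin 2 ⊕ Fin 2) F)
    · exact Or.inl h1
    by_cases h2 : ∃ s : F, (n * c * n⁻¹ * e).val = s • (1 : Matrix (Fin 2 ⊕ Fin 2) (Fin 2 ⊕ Fin 2) F)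
    · exact Or.inr (Or.inl h2)
    right
    right
    by_contra hne
    have hlame := key e he hne
    push Not at h1 h2
    have t1 : Matrix.trace (c * e).val = 0 := trace_zero P (c * e) (R.mul_mem hc he) h1
    have t2 : Matrix.trace (n * c * n⁻¹ * e).val = 0 :=
      trace_zero P _ (R.mul_mem hc1 he) h2
    have hec' : e.val * c.val = c.val * e.val := by
      have h3 := congrArg Units.val hec
      rw [Units.val_mul, Units.val_mul] at h3
      exact h3
    have e1 : (n * c * n⁻¹ * e).val = c.val * e.val + E * (c.val * e.val) -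
        c.val * E * e.val - (E * c.val * E) * e.val := by
      rw [Units.val_mul, Units.val_mul, Units.val_mul, hnE, hni]
      noncomm_ring
    rw [e1, hrank, Matrix.trace_sub, Matrix.trace_sub, Matrix.trace_add, Matrix.smul_mul,
      Matrix.trace_smul, smul_eq_mul] at t2
    rw [Units.val_mul] at t1
    have e2 : Matrix.trace (E * (c.val * e.val)) = Matrix.trace (c.val * E * e.val) := by
      rw [Matrix.trace_mul_comm E (c.val * e.val), Matrix.trace_mul_comm (c.val * E) e.val,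
        ← Matrix.mul_assoc, hec']
    have e3 : Matrix.trace (E * e.val) = Matrix.trace (e.val * E) := Matrix.trace_mul_comm _ _
    rw [t1, e2, e3] at t2
    have h4 : Matrix.trace (c.val * E) * Matrix.trace (e.val * E) = 0 := by
      linear_combination -t2
    rcases mul_eq_zero.mp h4 with h | h
    · exact hlamc h
    · exact hlame h
  -- scalar elements of `R` are central
  have hscal_center : ∀ g : R,
      (∃ s : F, (g : GL (Fin 2 ⊕ Fin 2) F).val = s • (1 : Matrix (Fin 2 ⊕ Fin 2) (Fin 2 ⊕ Fin 2) F)) →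
      g ∈ Subgroup.center R := by
    rintro g ⟨s, hs⟩
    rw [Subgroup.mem_center_iff]
    intro g'
    apply Subtype.ext
    apply Units.ext
    rw [Subgroup.coe_mul, Subgroup.coe_mul, Units.val_mul, Units.val_mul, hs, Matrix.smul_mul,
      Matrix.mul_smul, Matrix.one_mul, Matrix.mul_one]
  obtain ⟨c', hc'⟩ : ∃ c' : R, (c' : GL (Fin 2 ⊕ Fin 2) F) = c := ⟨⟨c, hc⟩, rfl⟩
  obtain ⟨c₁, hc₁⟩ : ∃ c₁ : R, (c₁ : GL (Fin 2 ⊕ Fin 2) F) = n * c * n⁻¹ := ⟨⟨_, hc1⟩, rfl⟩
  have hccen : c' ∉ Subgroup.center R := by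
    intro hz
    obtain ⟨s, hs⟩ := center_scalar P c' hz
    rw [hc'] at hs
    apply hcn
    apply Units.ext
    rw [Units.val_mul, Units.val_mul, hs, Matrix.mul_smul, Matrix.smul_mul, Matrix.mul_one,
      Matrix.one_mul]
  obtain ⟨a, ha⟩ : ∃ a : R, a * c' ≠ c' * a := by
    by_contra hall
    push Not at hall
    exact hccen (Subgroup.mem_center_iff.mpr hall)
  have anti : ∀ u : R, u * c' ≠ c' * u →
      (u : GL (Fin 2 ⊕ Fin 2) F).val * (c' : GL (Fin 2 ⊕ Fin 2) F).val =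
        -((c' : GL (Fin 2 ⊕ Fin 2) F).val * (u : GL (Fin 2 ⊕ Fin 2) F).val) := by
    intro u hu
    exact (P.comm u u.2 c' c'.2).resolve_left (fun h => hu ((comm_iff u c').mpr h))
  obtain ⟨D, hD⟩ : ∃ D : Subgroup R, ∀ t : R, t ∈ D ↔ t * c' = c' * t :=
    ⟨Subgroup.centralizer {c'}, fun t => by
      rw [Subgroup.mem_centralizer_iff]
      constructor
      · intro h1
        exact (h1 c' rfl).symm
      · intro h1 y hy
        rw [Set.mem_singleton_iff.mp hy]
        exact h1.symm⟩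
  have hidx : D.index = 2 := by
    rw [Subgroup.index_eq_two_iff]
    refine ⟨a, fun b => ?_⟩
    by_cases hb : b ∈ D
    · right
      refine ⟨hb, ?_⟩
      rw [hD] at hb ⊢
      intro h1
      apply ha
      have h2 : a * c' = b⁻¹ * (b * a * c') := by group
      rw [h2, h1]
      calc b⁻¹ * (c' * (b * a)) = b⁻¹ * ((c' * b) * a) := by group
        _ = b⁻¹ * ((b * c') * a) := by rw [hb]
        _ = c' * a := by group
    · left
      refine ⟨?_, hb⟩
      rw [hD] at hb ⊢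
      rw [comm_iff]
      have h1 := anti b hb
      have h2 := anti a ha
      rw [Subgroup.coe_mul, Units.val_mul, Matrix.mul_assoc, h2, Matrix.mul_neg,
        ← Matrix.mul_assoc, h1, Matrix.neg_mul, neg_neg, Matrix.mul_assoc]
  have hcardD : Nat.card D = 16 := by
    have h1 := Subgroup.card_mul_index D
    rw [hidx, P.card] at h1
    omega
  -- counting
  have hk : Nat.card (D ⊓ fixSub R n : Subgroup R) ≤ 8 := by
    have hdvd : Nat.card (D ⊓ fixSub R n : Subgroup R) ∣ Nat.card D :=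
      Subgroup.card_dvd_of_le inf_le_left
    rw [hcardD] at hdvd
    have hne : Nat.card (D ⊓ fixSub R n : Subgroup R) ≠ 16 := by
      intro h32
      have heq : D ⊓ fixSub R n = D :=
        Subgroup.eq_of_le_of_card_ge inf_le_left (le_of_eq (by rw [h32, hcardD]))
      have hcD : c' ∈ D := (hD c').mpr rfl
      rw [← heq] at hcD
      have h3 := (mem_fixSub n c').mp (Subgroup.mem_inf.mp hcD).2
      rw [hc'] at h3
      exact hcn h3
    obtain ⟨m, hm⟩ := hdvd
    have hm0 : m ≠ 0 := by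
      rintro rfl
      omega
    have hm1 : m ≠ 1 := by
      rintro rfl
      omega
    have h2m : 2 ≤ m := by omega
    have h4 := Nat.mul_le_mul_left (Nat.card (D ⊓ fixSub R n : Subgroup R)) h2m
    omega
  obtain ⟨S₁, hS₁⟩ : ∃ S₁ : Set R,
      S₁ = (fun z : R => c'⁻¹ * z) '' (Subgroup.center R : Set R) := ⟨_, rfl⟩
  obtain ⟨S₂, hS₂⟩ : ∃ S₂ : Set R,
      S₂ = (fun z : R => c₁⁻¹ * z) '' (Subgroup.center R : Set R) := ⟨_, rfl⟩
  obtain ⟨S₃, hS₃⟩ : ∃ S₃ : Set R, S₃ = ((D ⊓ fixSub R n : Subgroup R) : Set R) := ⟨_, rfl⟩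
  have hZ : ((Subgroup.center R : Subgroup R) : Set R).ncard = 2 := by
    rw [← Nat.card_coe_set_eq]
    exact P.center
  have hA : (D : Set R).ncard = 16 := by
    rw [← Nat.card_coe_set_eq]
    exact hcardD
  have hc1' : S₁.ncard ≤ 2 := by
    rw [hS₁]
    exact le_trans (Set.ncard_image_le (Set.toFinite _)) (le_of_eq hZ)
  have hc2' : S₂.ncard ≤ 2 := by
    rw [hS₂]
    exact le_trans (Set.ncard_image_le (Set.toFinite _)) (le_of_eq hZ)
  have hc3' : S₃.ncard ≤ 8 := by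
    rw [hS₃, ← Nat.card_coe_set_eq]
    exact hk
  have hsub : (D : Set R) ⊆ (S₁ ∪ S₂) ∪ S₃ := by
    intro e he
    have he' : e ∈ D := he
    have hec : (e : GL (Fin 2 ⊕ Fin 2) F) * c = c * (e : GL (Fin 2 ⊕ Fin 2) F) := by
      have h1 := (hD e).mp he'
      have h2 := congrArg (fun t : R => (t : GL (Fin 2 ⊕ Fin 2) F)) h1
      simp only [Subgroup.coe_mul] at h2
      rw [hc'] at h2
      exact h2
    rcases hmain (e : GL (Fin 2 ⊕ Fin 2) F) e.2 hec with ⟨s, hs⟩ | ⟨s, hs⟩ | h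
    · left
      left
      rw [hS₁]
      refine ⟨c' * e, hscal_center (c' * e) ⟨s, ?_⟩, ?_⟩
      · rw [Subgroup.coe_mul, hc']
        exact hs
      · simp
    · left
      right
      rw [hS₂]
      refine ⟨c₁ * e, hscal_center (c₁ * e) ⟨s, ?_⟩, ?_⟩
      · rw [Subgroup.coe_mul, hc₁]
        exact hs
      · simp
    · right
      rw [hS₃]
      exact Subgroup.mem_inf.mpr ⟨he', (mem_fixSub n e).mpr h⟩
  have h32 := Set.ncard_le_ncard hsub (Set.toFinite _)
  have hU1 := Set.ncard_union_le (S₁ ∪ S₂) S₃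
  have hU2 := Set.ncard_union_le S₁ S₂
  omega


theorem vmv_sandwich (u v : Fin 2 ⊕ Fin 2 → F) (M : Matrix (Fin 2 ⊕ Fin 2) (Fin 2 ⊕ Fin 2) F) :
    Matrix.vecMulVec u v * M * Matrix.vecMulVec u v =
      Matrix.trace (M * Matrix.vecMulVec u v) • Matrix.vecMulVec u v := by
  rw [Matrix.vecMulVec_mul, Matrix.vecMulVec_mul_vecMulVec, Matrix.mul_vecMulVec,
    Matrix.trace_vecMulVec, Matrix.vecMulVec_smul]
  congr 1
  rw [← Matrix.dotProduct_mulVec, dotProduct_comm]

theorem conj_rank (E : Matrix (Fin 2 ⊕ Fin 2) (Fin 2 ⊕ Fin 2) F)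
    (hrank : ∀ M : Matrix (Fin 2 ⊕ Fin 2) (Fin 2 ⊕ Fin 2) F, E * M * E = Matrix.trace (M * E) • E)
    (g : GL (Fin 2 ⊕ Fin 2) F) (M : Matrix (Fin 2 ⊕ Fin 2) (Fin 2 ⊕ Fin 2) F) :
    ((g⁻¹).val * E * g.val) * M * ((g⁻¹).val * E * g.val) =
      Matrix.trace (M * ((g⁻¹).val * E * g.val)) • ((g⁻¹).val * E * g.val) := by
  have e : (g⁻¹).val * E * g.val * M * ((g⁻¹).val * E * g.val) =
      (g⁻¹).val * (E * (g.val * M * (g⁻¹).val) * E) * g.val := by
    simp only [Matrix.mul_assoc]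
  have ht : Matrix.trace (g.val * M * (g⁻¹).val * E) =
      Matrix.trace (M * ((g⁻¹).val * E * g.val)) := by
    have e1 : M * ((g⁻¹).val * E * g.val) = (M * ((g⁻¹).val * E)) * g.val := by
      simp only [Matrix.mul_assoc]
    rw [e1, Matrix.trace_mul_comm (M * ((g⁻¹).val * E)) g.val]
    simp only [Matrix.mul_assoc]
  rw [e, hrank, Matrix.mul_smul, Matrix.smul_mul, ht]


end transv

end Cfsg.Agent.Lib.Helper37.Pauli5B
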