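import Mathlib
import Cfsg.Prelude.Def_GeometricClasses
import Cfsg.Prelude.Def_ClassicalGeometry
import Cfsg.Agent.Lib.Helper40.SympConj
import Cfsg.Agent.Lib.Helper37.Pauli5A
import Cfsg.Agent.Lib.Helper37.Pauli5B
import Cfsg.Agent.Lib.Helper37.SympBound

/-!
# The extraspecial group `2^{1+4}_-` inside `Sp_4(F)`: an element of order five of the normalizer

From a frame of `R` we find a chain `a, b, c, d` of elements of order four (consecutive ones
anticommuting, the others commuting); the product `(1+a)(1+b)(1+c)(1+d)/4` is symplectic,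
normalizes `R` and permutes `a, b, c, d, abcd` cyclically, so a power of it has order five.
-/

set_option autoImplicit false
set_option linter.unusedSimpArgs false

open scoped MatrixGroups

namespace Cfsg.Agent.Lib.Helper37.Pauli5C

open Cfsg.Agent.Lib.Helper37.Pauli5A Cfsg.Agent.Lib.Helper37.Pauli5B
  Cfsg.Agent.Lib.Helper40.SympConj

open Matrix

variable {F : Type*} [Field F]

section words

theorem swap_mul (A B C : Matrix (Fin 2 ⊕ Fin 2) (Fin 2 ⊕ Fin 2) F) (h : A * B = B * A) :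
    A * (B * C) = B * (A * C) := by
  rw [← Matrix.mul_assoc, h, Matrix.mul_assoc]

theorem aswap_mul (A B C : Matrix (Fin 2 ⊕ Fin 2) (Fin 2 ⊕ Fin 2) F) (h : A * B = -(B * A)) :
    A * (B * C) = -(B * (A * C)) := by
  rw [← Matrix.mul_assoc, h, Matrix.neg_mul, Matrix.mul_assoc]

theorem sq_mul (A C : Matrix (Fin 2 ⊕ Fin 2) (Fin 2 ⊕ Fin 2) F) (h : A * A = 1) : A * (A * C) = C := by
  rw [← Matrix.mul_assoc, h, Matrix.one_mul]

theorem nsq_mul (A C : Matrix (Fin 2 ⊕ Fin 2) (Fin 2 ⊕ Fin 2) F) (h : A * A = -1) :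
    A * (A * C) = -C := by
  rw [← Matrix.mul_assoc, h, Matrix.neg_mul, Matrix.one_mul]

theorem anti_sq (A B : Matrix (Fin 2 ⊕ Fin 2) (Fin 2 ⊕ Fin 2) F) (h : A * B = -(B * A)) :
    (A * B) * (A * B) = -((A * A) * (B * B)) := by
  have hBA : B * A = -(A * B) := by rw [h, neg_neg]
  calc (A * B) * (A * B) = A * (B * A) * B := by simp only [Matrix.mul_assoc]
    _ = -((A * A) * (B * B)) := by
        rw [hBA]
        simp only [Matrix.mul_neg, Matrix.neg_mul, Matrix.mul_assoc]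

theorem comm_sq (A B : Matrix (Fin 2 ⊕ Fin 2) (Fin 2 ⊕ Fin 2) F) (h : A * B = B * A) :
    (A * B) * (A * B) = (A * A) * (B * B) := by
  calc (A * B) * (A * B) = A * (B * A) * B := by simp only [Matrix.mul_assoc]
    _ = (A * A) * (B * B) := by
        rw [← h]
        simp only [Matrix.mul_assoc]

theorem eq_zero_of_eq_neg (h2 : (2 : F) ≠ 0) (M : Matrix (Fin 2 ⊕ Fin 2) (Fin 2 ⊕ Fin 2) F)
    (h : M = -M) : M = 0 := by
  ext i j
  have h1 := congrFun (congrFun h i) j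
  simp only [Matrix.neg_apply] at h1
  have h3 : (2 : F) * M i j = 0 := by linear_combination h1
  simpa using (mul_eq_zero.mp h3).resolve_left h2

theorem trace_zero_of_anti (h2 : (2 : F) ≠ 0) (X : Matrix (Fin 2 ⊕ Fin 2) (Fin 2 ⊕ Fin 2) F)
    (h : GL (Fin 2 ⊕ Fin 2) F) (hX : X * h.val = -(h.val * X)) : Matrix.trace X = 0 := by
  have h1 : X = -(h.val * X * (h⁻¹).val) := by
    calc X = X * h.val * (h⁻¹).val := by
          rw [Matrix.mul_assoc, Units.mul_inv, Matrix.mul_one]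
      _ = _ := by rw [hX, Matrix.neg_mul]
  have h4 : Matrix.trace X = - Matrix.trace X := by
    conv_lhs => rw [h1]
    rw [Matrix.trace_neg, Matrix.trace_mul_cycle, Units.inv_mul, Matrix.one_mul]
  have h5 : (2 : F) * Matrix.trace X = 0 := by linear_combination h4
  exact (mul_eq_zero.mp h5).resolve_left h2

theorem ne_of_trace_ne {A B : Matrix (Fin 2 ⊕ Fin 2) (Fin 2 ⊕ Fin 2) F}
    (h : Matrix.trace A ≠ Matrix.trace B) : A ≠ B := fun e => h (by rw [e])

/-- Two commuting symplectic involutions of `Sp_4(F)` cannot both, together with their product,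
have trace zero. -/
theorem no_klein (h2 : (2 : F) ≠ 0) (m₁ m₂ : Matrix (Fin 2 ⊕ Fin 2) (Fin 2 ⊕ Fin 2) F)
    (h₁ : m₁ * m₁ = 1) (h₂ : m₂ * m₂ = 1) (hc : m₁ * m₂ = m₂ * m₁) (s₁ : sadj m₁ * m₁ = 1)
    (s₂ : sadj m₂ * m₂ = 1) (t₁ : Matrix.trace m₁ = 0) (t₂ : Matrix.trace m₂ = 0)
    (t₃ : Matrix.trace (m₁ * m₂) = 0) : False := by
  classical
  have h4 : (4 : F) ≠ 0 := by
    intro h
    have h' : (2 : F) * 2 = 0 := by linear_combination h
    rcases mul_eq_zero.mp h' with h'' | h'' <;> exact h2 h''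
  have tr1 : Matrix.trace (1 : Matrix (Fin 2 ⊕ Fin 2) (Fin 2 ⊕ Fin 2) F) = 4 := by
    rw [Matrix.trace_one, card_iota]
    norm_num
  have trn : Matrix.trace (-1 : Matrix (Fin 2 ⊕ Fin 2) (Fin 2 ⊕ Fin 2) F) = -4 := by
    rw [Matrix.trace_neg, tr1]
  have d01 : (1 : Matrix (Fin 2 ⊕ Fin 2) (Fin 2 ⊕ Fin 2) F) ≠ -1 := by
    intro h
    have h' := congrArg Matrix.trace h
    rw [tr1, trn] at h'
    have h8 : (2 : F) * 4 = 0 := by linear_combination h'
    rcases mul_eq_zero.mp h8 with h'' | h''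
    · exact h2 h''
    · exact h4 h''
  have d02 : (1 : Matrix (Fin 2 ⊕ Fin 2) (Fin 2 ⊕ Fin 2) F) ≠ m₁ :=
    ne_of_trace_ne (by rw [tr1, t₁]; exact h4)
  have d03 : (1 : Matrix (Fin 2 ⊕ Fin 2) (Fin 2 ⊕ Fin 2) F) ≠ m₂ :=
    ne_of_trace_ne (by rw [tr1, t₂]; exact h4)
  have d04 : (1 : Matrix (Fin 2 ⊕ Fin 2) (Fin 2 ⊕ Fin 2) F) ≠ m₁ * m₂ :=
    ne_of_trace_ne (by rw [tr1, t₃]; exact h4)
  have d12 : (-1 : Matrix (Fin 2 ⊕ Fin 2) (Fin 2 ⊕ Fin 2) F) ≠ m₁ :=
    ne_of_trace_ne (by rw [trn, t₁]; exact neg_ne_zero.mpr h4)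
  have d13 : (-1 : Matrix (Fin 2 ⊕ Fin 2) (Fin 2 ⊕ Fin 2) F) ≠ m₂ :=
    ne_of_trace_ne (by rw [trn, t₂]; exact neg_ne_zero.mpr h4)
  have d14 : (-1 : Matrix (Fin 2 ⊕ Fin 2) (Fin 2 ⊕ Fin 2) F) ≠ m₁ * m₂ :=
    ne_of_trace_ne (by rw [trn, t₃]; exact neg_ne_zero.mpr h4)
  have d23 : m₁ ≠ m₂ := by
    intro h
    have e : m₁ * m₂ = 1 := by
      rw [← h]
      exact h₁
    rw [e, tr1] at t₃
    exact h4 t₃
  have d24 : m₁ ≠ m₁ * m₂ := by
    intro h
    have e : m₂ = 1 := by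
      calc m₂ = (m₁ * m₁) * m₂ := by rw [h₁, Matrix.one_mul]
        _ = m₁ * (m₁ * m₂) := by rw [Matrix.mul_assoc]
        _ = m₁ * m₁ := by rw [← h]
        _ = 1 := h₁
    rw [e, tr1] at t₂
    exact h4 t₂
  have d34 : m₂ ≠ m₁ * m₂ := by
    intro h
    have e : m₁ = 1 := by
      calc m₁ = m₁ * (m₂ * m₂) := by rw [h₂, Matrix.mul_one]
        _ = (m₁ * m₂) * m₂ := by rw [Matrix.mul_assoc]
        _ = m₂ * m₂ := by rw [← h]
        _ = 1 := h₂
    rw [e, tr1] at t₁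
    exact h4 t₁
  obtain ⟨m, hm⟩ : ∃ m : Fin 5 → Matrix (Fin 2 ⊕ Fin 2) (Fin 2 ⊕ Fin 2) F,
      m = ![1, -1, m₁, m₂, m₁ * m₂] := ⟨_, rfl⟩
  have hm0 : m 0 = 1 := by rw [hm]; rfl
  have hm1 : m 1 = -1 := by rw [hm]; rfl
  have hm2 : m 2 = m₁ := by rw [hm]; rfl
  have hm3 : m 3 = m₂ := by rw [hm]; rfl
  have hm4 : m 4 = m₁ * m₂ := by rw [hm]; rfl
  have hdist : ∀ a b : Fin 5, a < b → m a ≠ m b := by
    intro a b hlt
    fin_cases a <;> fin_cases b <;> first | (exact absurd hlt (by decide)) | skip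
    · show m 0 ≠ m 1
      rw [hm0, hm1]
      exact d01
    · show m 0 ≠ m 2
      rw [hm0, hm2]
      exact d02
    · show m 0 ≠ m 3
      rw [hm0, hm3]
      exact d03
    · show m 0 ≠ m 4
      rw [hm0, hm4]
      exact d04
    · show m 1 ≠ m 2
      rw [hm1, hm2]
      exact d12
    · show m 1 ≠ m 3
      rw [hm1, hm3]
      exact d13
    · show m 1 ≠ m 4
      rw [hm1, hm4]
      exact d14
    · show m 2 ≠ m 3
      rw [hm2, hm3]
      exact d23
    · show m 2 ≠ m 4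
      rw [hm2, hm4]
      exact d24
    · show m 3 ≠ m 4
      rw [hm3, hm4]
      exact d34
  have hinj : Function.Injective m := by
    intro a b hab
    by_contra hne
    rcases lt_or_gt_of_ne hne with hlt | hlt
    · exact hdist a b hlt hab
    · exact hdist b a hlt hab.symm
  have hcm : Commute m₁ m₂ := hc
  have hall : ∀ a, Commute (m a) m₁ ∧ Commute (m a) m₂ := by
    intro a
    fin_cases a
    · show Commute (m 0) m₁ ∧ Commute (m 0) m₂
      rw [hm0]
      exact ⟨Commute.one_left _, Commute.one_left _⟩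
    · show Commute (m 1) m₁ ∧ Commute (m 1) m₂
      rw [hm1]
      exact ⟨(Commute.one_left _).neg_left, (Commute.one_left _).neg_left⟩
    · show Commute (m 2) m₁ ∧ Commute (m 2) m₂
      rw [hm2]
      exact ⟨Commute.refl _, hcm⟩
    · show Commute (m 3) m₁ ∧ Commute (m 3) m₂
      rw [hm3]
      exact ⟨hcm.symm, Commute.refl _⟩
    · show Commute (m 4) m₁ ∧ Commute (m 4) m₂
      rw [hm4]
      exact ⟨(Commute.refl m₁).mul_left hcm.symm, hcm.mul_left (Commute.refl m₂)⟩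
  have hcomm : ∀ a b, m a * m b = m b * m a := by
    intro a b
    fin_cases b
    · show m a * m 0 = m 0 * m a
      rw [hm0, Matrix.mul_one, Matrix.one_mul]
    · show m a * m 1 = m 1 * m a
      rw [hm1, Matrix.mul_neg, Matrix.neg_mul, Matrix.mul_one, Matrix.one_mul]
    · show m a * m 2 = m 2 * m a
      rw [hm2]
      exact (hall a).1
    · show m a * m 3 = m 3 * m a
      rw [hm3]
      exact (hall a).2
    · show m a * m 4 = m 4 * m a
      rw [hm4]
      exact (hall a).1.mul_right (hall a).2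
  have hsq : ∀ a, m a * m a = 1 := by
    intro a
    fin_cases a
    · show m 0 * m 0 = 1
      rw [hm0, Matrix.one_mul]
    · show m 1 * m 1 = 1
      rw [hm1, Matrix.mul_neg, Matrix.neg_mul, Matrix.mul_one, neg_neg]
    · show m 2 * m 2 = 1
      rw [hm2]
      exact h₁
    · show m 3 * m 3 = 1
      rw [hm3]
      exact h₂
    · show m 4 * m 4 = 1
      rw [hm4, comm_sq _ _ hc, h₁, h₂, Matrix.one_mul]
  have hmem : ∀ a, m a ∈ Matrix.symplecticGroup (Fin 2) F := by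
    intro a
    fin_cases a
    · show m 0 ∈ Matrix.symplecticGroup (Fin 2) F
      rw [hm0]
      exact Submonoid.one_mem _
    · show m 1 ∈ Matrix.symplecticGroup (Fin 2) F
      rw [hm1]
      exact SymplecticGroup.neg_mem (Submonoid.one_mem _)
    · show m 2 ∈ Matrix.symplecticGroup (Fin 2) F
      rw [hm2]
      exact (mem_symp_iff _).mpr s₁
    · show m 3 ∈ Matrix.symplecticGroup (Fin 2) F
      rw [hm3]
      exact (mem_symp_iff _).mpr s₂
    · show m 4 ∈ Matrix.symplecticGroup (Fin 2) F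
      rw [hm4]
      exact Submonoid.mul_mem _ ((mem_symp_iff _).mpr s₁) ((mem_symp_iff _).mpr s₂)
  have hpres : ∀ a, (m a)ᵀ * Matrix.J (Fin 2) F * m a = Matrix.J (Fin 2) F :=
    fun a => SymplecticGroup.mem_iff'.mp (hmem a)
  have key := Cfsg.Agent.Lib.Helper37.SympBound.card_le_two_pow_half h2 m hinj hcomm hsq
    (Matrix.J (Fin 2) F) (-Matrix.J (Fin 2) F) J_mul_neg_J (Matrix.J_transpose _ _) hpres
  rw [Nat.card_eq_fintype_card, Fintype.card_fin, card_iota] at key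
  norm_num at key

end words

section frame

variable {R : Subgroup (GL (Fin 2 ⊕ Fin 2) F)}

theorem exists_nonscalar (P : QData R) :
    ∃ x ∈ R, ∀ c : F, x.val ≠ c • (1 : Matrix (Fin 2 ⊕ Fin 2) (Fin 2 ⊕ Fin 2) F) := by
  by_contra hall
  push Not at hall
  have htop : Subgroup.center R = ⊤ := by
    rw [eq_top_iff]
    intro z _
    rw [Subgroup.mem_center_iff]
    intro g
    obtain ⟨c, hc⟩ := hall z z.2
    apply Subtype.ext
    apply Units.ext
    rw [Subgroup.coe_mul, Subgroup.coe_mul, Units.val_mul, Units.val_mul, hc, Matrix.smul_mul,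
      Matrix.mul_smul, Matrix.one_mul, Matrix.mul_one]
  have h1 := P.center
  rw [htop, Subgroup.card_top, P.card] at h1
  norm_num at h1

theorem exists_noncomm (P : QData R) (x : GL (Fin 2 ⊕ Fin 2) F) (hx : x ∈ R)
    (hns : ∀ c : F, x.val ≠ c • (1 : Matrix (Fin 2 ⊕ Fin 2) (Fin 2 ⊕ Fin 2) F)) :
    ∃ y ∈ R, x.val * y.val = -(y.val * x.val) := by
  have h1 : ∃ y ∈ R, x.val * y.val ≠ y.val * x.val := by
    by_contra hall
    push Not at hall
    obtain ⟨c, hc⟩ := P.commutant x.val (fun y hy => hall y hy)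
    exact hns c hc
  obtain ⟨y, hy, hxy⟩ := h1
  exact ⟨y, hy, (P.comm x hx y hy).resolve_left hxy⟩

theorem adjust (P : QData R) (x a b : GL (Fin 2 ⊕ Fin 2) F) (hx : x ∈ R) (ha : a ∈ R) (hb : b ∈ R)
    (hab : a.val * b.val = -(b.val * a.val)) :
    ∃ e ∈ R, (e = 1 ∨ e = b) ∧ (x * e).val * a.val = a.val * (x * e).val := by
  rcases P.comm x hx a ha with h | h
  · exact ⟨1, R.one_mem, Or.inl rfl, by rw [mul_one]; exact h⟩
  · refine ⟨b, hb, Or.inr rfl, ?_⟩
    have hba : b.val * a.val = -(a.val * b.val) := by rw [hab, neg_neg]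
    rw [Units.val_mul, Matrix.mul_assoc, hba, Matrix.mul_neg, ← Matrix.mul_assoc, h,
      Matrix.neg_mul, neg_neg, Matrix.mul_assoc]

theorem comm_of_same (P : QData R) (a s x0 : GL (Fin 2 ⊕ Fin 2) F) (ha : a ∈ R) (hs : s ∈ R)
    (hx0 : x0 ∈ R)
    (hiff : (s.val * a.val = a.val * s.val) ↔ (x0.val * a.val = a.val * x0.val)) :
    (x0⁻¹ * s).val * a.val = a.val * (x0⁻¹ * s).val := by
  rw [Units.val_mul]
  by_cases h : x0.val * a.val = a.val * x0.val
  · have hs' := hiff.mpr h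
    have hi' : (x0⁻¹).val * a.val = a.val * (x0⁻¹).val := by
      calc (x0⁻¹).val * a.val = (x0⁻¹).val * a.val * (x0.val * (x0⁻¹).val) := by
            rw [Units.mul_inv, Matrix.mul_one]
        _ = (x0⁻¹).val * (a.val * x0.val) * (x0⁻¹).val := by simp only [Matrix.mul_assoc]
        _ = (x0⁻¹).val * (x0.val * a.val) * (x0⁻¹).val := by rw [h]
        _ = ((x0⁻¹).val * x0.val) * a.val * (x0⁻¹).val := by simp only [Matrix.mul_assoc]
        _ = a.val * (x0⁻¹).val := by rw [Units.inv_mul, Matrix.one_mul]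
    rw [Matrix.mul_assoc, hs', ← Matrix.mul_assoc, hi', Matrix.mul_assoc]
  · have hs' : s.val * a.val = -(a.val * s.val) :=
      (P.comm s hs a ha).resolve_left (fun h' => h (hiff.mp h'))
    have hx' : x0.val * a.val = -(a.val * x0.val) := (P.comm x0 hx0 a ha).resolve_left h
    have hi' : (x0⁻¹).val * a.val = -(a.val * (x0⁻¹).val) := by
      calc (x0⁻¹).val * a.val = (x0⁻¹).val * a.val * (x0.val * (x0⁻¹).val) := by
            rw [Units.mul_inv, Matrix.mul_one]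
        _ = (x0⁻¹).val * (a.val * x0.val) * (x0⁻¹).val := by simp only [Matrix.mul_assoc]
        _ = (x0⁻¹).val * (-(x0.val * a.val)) * (x0⁻¹).val := by rw [hx', neg_neg]
        _ = -(((x0⁻¹).val * x0.val) * a.val * (x0⁻¹).val) := by
            simp only [Matrix.mul_assoc, Matrix.mul_neg, Matrix.neg_mul]
        _ = -(a.val * (x0⁻¹).val) := by rw [Units.inv_mul, Matrix.one_mul]
    rw [Matrix.mul_assoc, hs', Matrix.mul_neg, ← Matrix.mul_assoc, hi', Matrix.neg_mul, neg_neg,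
      Matrix.mul_assoc]

theorem one_or (e b : GL (Fin 2 ⊕ Fin 2) F) (he : e = 1 ∨ e = b) (C : Matrix (Fin 2 ⊕ Fin 2) (Fin 2 ⊕ Fin 2) F)
    (hb : b.val * C = C * b.val) : e.val * C = C * e.val := by
  rcases he with rfl | rfl
  · simp
  · exact hb

theorem comm_mul (A B C : Matrix (Fin 2 ⊕ Fin 2) (Fin 2 ⊕ Fin 2) F) (h1 : A * C = C * A) (h2 : B * C = C * B) :
    (A * B) * C = C * (A * B) := by
  rw [Matrix.mul_assoc, h2, ← Matrix.mul_assoc, h1, Matrix.mul_assoc]

/-- Two commuting pairs of anticommuting elements of `R`. -/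
theorem exists_frame (P : QData R) :
    ∃ g1 h1 g2 h2 : GL (Fin 2 ⊕ Fin 2) F, g1 ∈ R ∧ h1 ∈ R ∧ g2 ∈ R ∧ h2 ∈ R ∧
      g1.val * h1.val = -(h1.val * g1.val) ∧ g2.val * h2.val = -(h2.val * g2.val) ∧
      g1.val * g2.val = g2.val * g1.val ∧ g1.val * h2.val = h2.val * g1.val ∧
      h1.val * g2.val = g2.val * h1.val ∧ h1.val * h2.val = h2.val * h1.val := by
  classical
  have hfin := P.finite
  let _ : Fintype ↥R := Fintype.ofFinite _
  obtain ⟨g1, hg1, hg1ns⟩ := exists_nonscalar P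
  obtain ⟨h1, hh1, ha1⟩ := exists_noncomm P g1 hg1 hg1ns
  -- pigeonhole
  obtain ⟨f, hf⟩ : ∃ f : ↥R → Bool × Bool, f = fun t : ↥R =>
      (decide ((t : GL (Fin 2 ⊕ Fin 2) F).val * g1.val = g1.val * (t : GL (Fin 2 ⊕ Fin 2) F).val),
       decide ((t : GL (Fin 2 ⊕ Fin 2) F).val * h1.val = h1.val * (t : GL (Fin 2 ⊕ Fin 2) F).val)) := ⟨_, rfl⟩
  have hcard : Fintype.card (Bool × Bool) * 2 < Fintype.card ↥R := by
    rw [← Nat.card_eq_fintype_card (α := ↥R), P.card]
    simp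
  obtain ⟨y0, hy0⟩ := Fintype.exists_lt_card_fiber_of_mul_lt_card f hcard
  obtain ⟨S, hS⟩ : ∃ S : Finset ↥R, S = Finset.univ.filter (fun t => f t = y0) := ⟨_, rfl⟩
  rw [← hS] at hy0
  have hSne : S.Nonempty := by
    rw [← Finset.card_pos]
    omega
  obtain ⟨x0, hx0⟩ := hSne
  have hTcard : (S.image (fun t => x0⁻¹ * t)).card = S.card :=
    Finset.card_image_of_injective _ (mul_right_injective x0⁻¹)
  have hZ : (Finset.univ.filter (fun t : ↥R => t ∈ Subgroup.center R)).card = 2 := by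
    rw [← Fintype.card_subtype, ← Nat.card_eq_fintype_card]
    exact P.center
  obtain ⟨t, htT, htZ⟩ : ∃ t ∈ S.image (fun t => x0⁻¹ * t), t ∉ Subgroup.center R := by
    by_contra hall
    push Not at hall
    have hsub : S.image (fun t => x0⁻¹ * t) ⊆
        Finset.univ.filter (fun t : ↥R => t ∈ Subgroup.center R) := by
      intro t ht
      rw [Finset.mem_filter]
      exact ⟨Finset.mem_univ _, hall t ht⟩
    have h5 := Finset.card_le_card hsub
    rw [hTcard, hZ] at h5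
    omega
  rw [Finset.mem_image] at htT
  obtain ⟨s, hsS, rfl⟩ := htT
  have hfs : f s = f x0 := by
    rw [hS, Finset.mem_filter] at hsS hx0
    rw [hsS.2, hx0.2]
  have hiff1 : ((s : GL (Fin 2 ⊕ Fin 2) F).val * g1.val = g1.val * (s : GL (Fin 2 ⊕ Fin 2) F).val) ↔
      ((x0 : GL (Fin 2 ⊕ Fin 2) F).val * g1.val = g1.val * (x0 : GL (Fin 2 ⊕ Fin 2) F).val) := by
    have h5 := congrArg Prod.fst hfs
    rw [hf] at h5
    simpa using h5
  have hiff2 : ((s : GL (Fin 2 ⊕ Fin 2) F).val * h1.val = h1.val * (s : GL (Fin 2 ⊕ Fin 2) F).val) ↔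
      ((x0 : GL (Fin 2 ⊕ Fin 2) F).val * h1.val = h1.val * (x0 : GL (Fin 2 ⊕ Fin 2) F).val) := by
    have h5 := congrArg Prod.snd hfs
    rw [hf] at h5
    simpa using h5
  have hc1 := comm_of_same P g1 s x0 hg1 s.2 x0.2 hiff1
  have hc2 := comm_of_same P h1 s x0 hh1 s.2 x0.2 hiff2
  obtain ⟨t0, ht0⟩ : ∃ t0 : GL (Fin 2 ⊕ Fin 2) F,
      t0 = (x0 : GL (Fin 2 ⊕ Fin 2) F)⁻¹ * (s : GL (Fin 2 ⊕ Fin 2) F) := ⟨_, rfl⟩
  have ht0R : t0 ∈ R := by
    rw [ht0]
    exact R.mul_mem (R.inv_mem x0.2) s.2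
  rw [← ht0] at hc1 hc2
  have ht0ns : ∀ c : F, t0.val ≠ c • (1 : Matrix (Fin 2 ⊕ Fin 2) (Fin 2 ⊕ Fin 2) F) := by
    intro c hc
    apply htZ
    rw [Subgroup.mem_center_iff]
    intro g
    apply Subtype.ext
    apply Units.ext
    have e : ((x0⁻¹ * s : ↥R) : GL (Fin 2 ⊕ Fin 2) F) = t0 := by
      rw [ht0]
      rfl
    show ((g : GL (Fin 2 ⊕ Fin 2) F) * ((x0⁻¹ * s : ↥R) : GL (Fin 2 ⊕ Fin 2) F)).val =
      (((x0⁻¹ * s : ↥R) : GL (Fin 2 ⊕ Fin 2) F) * (g : GL (Fin 2 ⊕ Fin 2) F)).val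
    rw [e, Units.val_mul, Units.val_mul, hc, Matrix.smul_mul,
      Matrix.mul_smul, Matrix.one_mul, Matrix.mul_one]
  obtain ⟨g2, hg2e⟩ : ∃ g2 : GL (Fin 2 ⊕ Fin 2) F, g2 = t0 := ⟨_, rfl⟩
  rw [← hg2e] at ht0R ht0ns hc1 hc2
  have hg2 : g2 ∈ R := ht0R
  have hg2ns := ht0ns
  have hg2g1 : g2.val * g1.val = g1.val * g2.val := hc1
  have hg2h1 : g2.val * h1.val = h1.val * g2.val := hc2
  obtain ⟨y2, hy2, hg2y2⟩ := exists_noncomm P g2 hg2 hg2ns
  have ha1' : h1.val * g1.val = -(g1.val * h1.val) := by rw [ha1, neg_neg]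
  obtain ⟨e1, he1R, he1, hd1⟩ := adjust P y2 g1 h1 hy2 hg1 hh1 ha1
  obtain ⟨e2, he2R, he2, hd2⟩ := adjust P (y2 * e1) h1 g1 (R.mul_mem hy2 he1R) hh1 hg1 ha1'
  have he1g2 : e1.val * g2.val = g2.val * e1.val := one_or e1 h1 he1 _ hg2h1.symm
  have he2g2 : e2.val * g2.val = g2.val * e2.val := one_or e2 g1 he2 _ hg2g1.symm
  have he2g1 : e2.val * g1.val = g1.val * e2.val := one_or e2 g1 he2 _ rfl
  obtain ⟨y3, hy3⟩ : ∃ y3 : GL (Fin 2 ⊕ Fin 2) F, y3 = y2 * e1 * e2 := ⟨_, rfl⟩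
  have hy3R : y3 ∈ R := by
    rw [hy3]
    exact R.mul_mem (R.mul_mem hy2 he1R) he2R
  have hy3g1 : y3.val * g1.val = g1.val * y3.val := by
    rw [hy3, Units.val_mul]
    exact comm_mul _ _ _ hd1 he2g1
  have hy3h1 : y3.val * h1.val = h1.val * y3.val := by
    rw [hy3]
    exact hd2
  have hg2y3 : g2.val * y3.val = -(y3.val * g2.val) := by
    rw [hy3, Units.val_mul, Units.val_mul]
    calc g2.val * (y2.val * e1.val * e2.val)
        = (g2.val * y2.val) * e1.val * e2.val := by simp only [Matrix.mul_assoc]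
      _ = -(y2.val * (g2.val * e1.val) * e2.val) := by
          rw [hg2y2]
          simp only [Matrix.mul_assoc, Matrix.neg_mul]
      _ = -(y2.val * e1.val * (g2.val * e2.val)) := by
          rw [← he1g2]
          simp only [Matrix.mul_assoc]
      _ = -(y2.val * e1.val * e2.val * g2.val) := by
          rw [← he2g2]
          simp only [Matrix.mul_assoc]
  exact ⟨g1, h1, g2, y3, hg1, hh1, hg2, hy3R, ha1, hg2y3, hg2g1.symm, hy3g1.symm, hg2h1.symm,
    hy3h1.symm⟩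


/-- An anticommuting pair either consists of two elements of order four, or can be replaced by a
pair of anticommuting involutions. -/
theorem pair_norm (P : QData R) (u v : GL (Fin 2 ⊕ Fin 2) F) (hu : u ∈ R) (hv : v ∈ R)
    (huv : u.val * v.val = -(v.val * u.val)) :
    (u.val * u.val = -1 ∧ v.val * v.val = -1) ∨
    ∃ s t : GL (Fin 2 ⊕ Fin 2) F, s ∈ R ∧ t ∈ R ∧ s.val * s.val = 1 ∧ t.val * t.val = 1 ∧
      s.val * t.val = -(t.val * s.val) ∧
      ∀ M : Matrix (Fin 2 ⊕ Fin 2) (Fin 2 ⊕ Fin 2) F, M * u.val = u.val * M →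
        M * v.val = v.val * M → M * s.val = s.val * M ∧ M * t.val = t.val * M := by
  have hvu : v.val * u.val = -(u.val * v.val) := by rw [huv, neg_neg]
  have hprod : ∀ M : Matrix (Fin 2 ⊕ Fin 2) (Fin 2 ⊕ Fin 2) F, M * u.val = u.val * M →
      M * v.val = v.val * M → M * (u * v).val = (u * v).val * M := by
    intro M h1 h2
    rw [Units.val_mul, ← Matrix.mul_assoc, h1, Matrix.mul_assoc, h2, Matrix.mul_assoc]
  rcases P.sqr u hu with hu1 | hu1
  · rcases P.sqr v hv with hv1 | hv1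
    · right
      exact ⟨u, v, hu, hv, hu1, hv1, huv, fun M h1 h2 => ⟨h1, h2⟩⟩
    · right
      refine ⟨u, u * v, hu, R.mul_mem hu hv, hu1, ?_, ?_, fun M h1 h2 => ⟨h1, hprod M h1 h2⟩⟩
      · rw [Units.val_mul, anti_sq _ _ huv, hu1, hv1, Matrix.one_mul, neg_neg]
      · rw [Units.val_mul, ← Matrix.mul_assoc, hu1, Matrix.one_mul, Matrix.mul_assoc, hvu,
          Matrix.mul_neg, ← Matrix.mul_assoc, hu1, Matrix.one_mul, neg_neg]
  · rcases P.sqr v hv with hv1 | hv1
    · right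
      refine ⟨u * v, v, R.mul_mem hu hv, hv, ?_, hv1, ?_, fun M h1 h2 => ⟨hprod M h1 h2, h2⟩⟩
      · rw [Units.val_mul, anti_sq _ _ huv, hu1, hv1, Matrix.mul_one, neg_neg]
      · rw [Units.val_mul, Matrix.mul_assoc, hv1, Matrix.mul_one, ← Matrix.mul_assoc, hvu,
          Matrix.neg_mul, Matrix.mul_assoc, hv1, Matrix.mul_one, neg_neg]
    · left
      exact ⟨hu1, hv1⟩

/-- A chain of four elements of order four: consecutive ones anticommute, the others commute. -/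
structure Chain (A B C D : Matrix (Fin 2 ⊕ Fin 2) (Fin 2 ⊕ Fin 2) F) : Prop where
  sA : A * A = -1
  sB : B * B = -1
  sC : C * C = -1
  sD : D * D = -1
  aAB : A * B = -(B * A)
  aBC : B * C = -(C * B)
  aCD : C * D = -(D * C)
  cAC : A * C = C * A
  cAD : A * D = D * A
  cBD : B * D = D * B

theorem chain_of_QD (x y s t : Matrix (Fin 2 ⊕ Fin 2) (Fin 2 ⊕ Fin 2) F) (hx : x * x = -1)
    (hy : y * y = -1) (hs : s * s = 1) (ht : t * t = 1) (hxy : x * y = -(y * x))
    (hst : s * t = -(t * s)) (hxs : x * s = s * x) (hxt : x * t = t * x) (hys : y * s = s * y)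
    (hyt : y * t = t * y) : Chain x y (x * s) (s * t) := by
  have hsx : s * x = x * s := hxs.symm
  have htx : t * x = x * t := hxt.symm
  have hsy : s * y = y * s := hys.symm
  have hty : t * y = y * t := hyt.symm
  have hyx : y * x = -(x * y) := by rw [hxy, neg_neg]
  have hts : t * s = -(s * t) := by rw [hst, neg_neg]
  have hsx' := fun M => swap_mul s x M hsx
  have htx' := fun M => swap_mul t x M htx
  have hsy' := fun M => swap_mul s y M hsy
  have hty' := fun M => swap_mul t y M hty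
  have hyx' := fun M => aswap_mul y x M hyx
  have hts' := fun M => aswap_mul t s M hts
  have hss' := fun M => sq_mul s M hs
  have htt' := fun M => sq_mul t M ht
  have hxx' := fun M => nsq_mul x M hx
  have hyy' := fun M => nsq_mul y M hy
  refine ⟨?_, ?_, ?_, ?_, ?_, ?_, ?_, ?_, ?_, ?_⟩ <;>
    simp only [Matrix.mul_assoc, hsx, hsx', htx, htx', hsy, hsy', hty, hty', hyx, hyx', hts, hts',
      hs, hss', ht, htt', hx, hxx', hy, hyy', Matrix.mul_neg, Matrix.neg_mul, neg_neg,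
      Matrix.mul_one, Matrix.one_mul]

theorem exists_chain (P : QData R) (hRf : R ≤ Cfsg.spGL 2 F) :
    ∃ a b c d : GL (Fin 2 ⊕ Fin 2) F, a ∈ R ∧ b ∈ R ∧ c ∈ R ∧ d ∈ R ∧
      Chain a.val b.val c.val d.val := by
  obtain ⟨x, y, s, t, hx, hy, hs, ht, hxy, hst, hxs, hxt, hys, hyt⟩ := exists_frame P
  have hsadj : ∀ g : GL (Fin 2 ⊕ Fin 2) F, g ∈ R → sadj g.val * g.val = 1 :=
    fun g hg => (mem_spGL_iff_sadj g).mp (hRf hg)
  rcases pair_norm P x y hx hy hxy with ⟨hx2, hy2⟩ | ⟨x', y', hx', hy', hx'2, hy'2, hx'y', hcl⟩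
  · rcases pair_norm P s t hs ht hst with
      ⟨hs2, ht2⟩ | ⟨s', t', hs', ht', hs'2, ht'2, hs't', hcl'⟩
    · exfalso
      have hsx : s.val * x.val = x.val * s.val := hxs.symm
      have htx : t.val * x.val = x.val * t.val := hxt.symm
      have hsy : s.val * y.val = y.val * s.val := hys.symm
      have hty : t.val * y.val = y.val * t.val := hyt.symm
      have hyx : y.val * x.val = -(x.val * y.val) := by rw [hxy, neg_neg]
      have hts : t.val * s.val = -(s.val * t.val) := by rw [hst, neg_neg]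
      have hsx' := fun M => swap_mul s.val x.val M hsx
      have htx' := fun M => swap_mul t.val x.val M htx
      have hsy' := fun M => swap_mul s.val y.val M hsy
      have hty' := fun M => swap_mul t.val y.val M hty
      have hyx' := fun M => aswap_mul y.val x.val M hyx
      have hts' := fun M => aswap_mul t.val s.val M hts
      refine no_klein P.two (x * s).val (y * t).val ?_ ?_ ?_ (hsadj _ (R.mul_mem hx hs))
        (hsadj _ (R.mul_mem hy ht)) ?_ ?_ ?_
      · rw [Units.val_mul, comm_sq _ _ hxs, hx2, hs2, Matrix.neg_mul, Matrix.mul_neg,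
          Matrix.one_mul, neg_neg]
      · rw [Units.val_mul, comm_sq _ _ hyt, hy2, ht2, Matrix.neg_mul, Matrix.mul_neg,
          Matrix.one_mul, neg_neg]
      · simp only [Units.val_mul, Matrix.mul_assoc, hsx, hsx', htx, htx', hsy, hsy', hty, hty',
          hyx, hyx', hts, hts', Matrix.mul_neg, Matrix.neg_mul, neg_neg]
      · apply trace_zero_of_anti P.two _ y
        simp only [Units.val_mul, Matrix.mul_assoc, hsx, hsx', htx, htx', hsy, hsy', hty, hty',
          hyx, hyx', hts, hts', Matrix.mul_neg, Matrix.neg_mul, neg_neg]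
      · apply trace_zero_of_anti P.two _ x
        simp only [Units.val_mul, Matrix.mul_assoc, hsx, hsx', htx, htx', hsy, hsy', hty, hty',
          hyx, hyx', hts, hts', Matrix.mul_neg, Matrix.neg_mul, neg_neg]
      · apply trace_zero_of_anti P.two _ x
        simp only [Units.val_mul, Matrix.mul_assoc, hsx, hsx', htx, htx', hsy, hsy', hty, hty',
          hyx, hyx', hts, hts', Matrix.mul_neg, Matrix.neg_mul, neg_neg]
    · have h1 := hcl' x.val hxs hxt
      have h2 := hcl' y.val hys hyt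
      refine ⟨x, y, x * s', s' * t', hx, hy, R.mul_mem hx hs', R.mul_mem hs' ht', ?_⟩
      rw [Units.val_mul, Units.val_mul]
      exact chain_of_QD x.val y.val s'.val t'.val hx2 hy2 hs'2 ht'2 hxy hs't' h1.1 h1.2 h2.1 h2.2
  · have h1 := hcl s.val hxs.symm hys.symm
    have h2 := hcl t.val hxt.symm hyt.symm
    rcases pair_norm P s t hs ht hst with
      ⟨hs2, ht2⟩ | ⟨s', t', hs', ht', hs'2, ht'2, hs't', hcl'⟩
    · refine ⟨s, t, s * x', x' * y', hs, ht, R.mul_mem hs hx', R.mul_mem hx' hy', ?_⟩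
      rw [Units.val_mul, Units.val_mul]
      exact chain_of_QD s.val t.val x'.val y'.val hs2 ht2 hx'2 hy'2 hst hx'y' h1.1 h1.2 h2.1 h2.2
    · exfalso
      have h3 := hcl' x'.val h1.1.symm h2.1.symm
      have h4 := hcl' y'.val h1.2.symm h2.2.symm
      refine no_klein P.two x'.val s'.val hx'2 hs'2 h3.1 (hsadj _ hx') (hsadj _ hs') ?_ ?_ ?_
      · exact trace_zero_of_anti P.two _ y' hx'y'
      · exact trace_zero_of_anti P.two _ t' hs't'
      · apply trace_zero_of_anti P.two _ y'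
        rw [Matrix.mul_assoc, ← h4.1, ← Matrix.mul_assoc, hx'y', Matrix.neg_mul,
          Matrix.mul_assoc]

end frame

section five

variable {R : Subgroup (GL (Fin 2 ⊕ Fin 2) F)}

/-- The product `(1+A)(1+B)(1+C)(1+D)`. -/
def N0 (A B C D : Matrix (Fin 2 ⊕ Fin 2) (Fin 2 ⊕ Fin 2) F) :
    Matrix (Fin 2 ⊕ Fin 2) (Fin 2 ⊕ Fin 2) F :=
  (1 + A) * (1 + B) * (1 + C) * (1 + D)

/-- Conjugation by `(1+A)(1+B)(1+C)(1+D)` permutes `A, B, C, D, ABCD` cyclically. -/
theorem Chain.cycle {A B C D : Matrix (Fin 2 ⊕ Fin 2) (Fin 2 ⊕ Fin 2) F} (h : Chain A B C D) :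
    N0 A B C D * A = B * N0 A B C D ∧ N0 A B C D * B = C * N0 A B C D ∧
    N0 A B C D * C = D * N0 A B C D ∧ N0 A B C D * D = (A * (B * (C * D))) * N0 A B C D ∧
    N0 A B C D * (A * (B * (C * D))) = A * N0 A B C D ∧
    (A * (B * (C * D))) * A = -(A * (A * (B * (C * D)))) := by
  have hBA : B * A = -(A * B) := by rw [h.aAB, neg_neg]
  have hCB : C * B = -(B * C) := by rw [h.aBC, neg_neg]
  have hDC : D * C = -(C * D) := by rw [h.aCD, neg_neg]
  have hCA : C * A = A * C := h.cAC.symm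
  have hDA : D * A = A * D := h.cAD.symm
  have hDB : D * B = B * D := h.cBD.symm
  have hBA' := fun M => aswap_mul B A M hBA
  have hCB' := fun M => aswap_mul C B M hCB
  have hDC' := fun M => aswap_mul D C M hDC
  have hCA' := fun M => swap_mul C A M hCA
  have hDA' := fun M => swap_mul D A M hDA
  have hDB' := fun M => swap_mul D B M hDB
  have hAA' := fun M => nsq_mul A M h.sA
  have hBB' := fun M => nsq_mul B M h.sB
  have hCC' := fun M => nsq_mul C M h.sC
  have hDD' := fun M => nsq_mul D M h.sD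
  have hA := h.sA
  have hB := h.sB
  have hC := h.sC
  have hD := h.sD
  unfold N0
  refine ⟨?_, ?_, ?_, ?_, ?_, ?_⟩ <;>
    simp only [mul_add, add_mul, Matrix.mul_one, Matrix.one_mul, Matrix.mul_assoc, hBA, hBA',
      hCB, hCB', hDC, hDC', hCA, hCA', hDA, hDA', hDB, hDB', hA, hAA', hB, hBB', hC, hCC', hD,
      hDD', Matrix.mul_neg, Matrix.neg_mul, neg_neg] <;> abel

theorem exists_u (h2 : (2 : F) ≠ 0) (G : Matrix (Fin 2 ⊕ Fin 2) (Fin 2 ⊕ Fin 2) F)
    (hG : G * G = -1) : ∃ u : GL (Fin 2 ⊕ Fin 2) F, u.val = 1 + G := by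
  have e1 : (1 + G) * (1 - G) = (2 : F) • (1 : Matrix (Fin 2 ⊕ Fin 2) (Fin 2 ⊕ Fin 2) F) := by
    rw [add_mul, Matrix.one_mul, mul_sub, Matrix.mul_one, hG, two_smul]
    abel
  have e2 : (1 - G) * (1 + G) = (2 : F) • (1 : Matrix (Fin 2 ⊕ Fin 2) (Fin 2 ⊕ Fin 2) F) := by
    rw [sub_mul, Matrix.one_mul, mul_add, Matrix.mul_one, hG, two_smul]
    abel
  refine ⟨⟨1 + G, (2 : F)⁻¹ • (1 - G), ?_, ?_⟩, rfl⟩
  · rw [Matrix.mul_smul, e1, smul_smul, inv_mul_cancel₀ h2, one_smul]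
  · rw [Matrix.smul_mul, e2, smul_smul, inv_mul_cancel₀ h2, one_smul]

theorem u_mem_normalizer (P : QData R) (g : GL (Fin 2 ⊕ Fin 2) F) (hg : g ∈ R)
    (hg2 : g.val * g.val = -1) (u : GL (Fin 2 ⊕ Fin 2) F) (hu : u.val = 1 + g.val) :
    u ∈ Cfsg.Geo.subgroupNormalizer R := by
  have hfin := P.finite
  unfold Cfsg.Geo.subgroupNormalizer
  apply mem_normalizer_of_finite R u
  intro s hs
  rcases P.comm g hg s hs with h | h
  · have e : u * s = s * u := by
      apply Units.ext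
      rw [Units.val_mul, Units.val_mul, hu, add_mul, mul_add, Matrix.one_mul, Matrix.mul_one, h]
    have e2 : u * s * u⁻¹ = s := by rw [e, mul_inv_cancel_right]
    rw [e2]
    exact hs
  · have hSG : s.val * g.val = -(g.val * s.val) := by rw [h, neg_neg]
    have e : u * s = g * s * u := by
      apply Units.ext
      rw [Units.val_mul, Units.val_mul, Units.val_mul, hu, add_mul, Matrix.one_mul,
        Matrix.mul_add, Matrix.mul_one, Matrix.mul_assoc g.val s.val g.val, hSG, Matrix.mul_neg,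
        ← Matrix.mul_assoc, hg2, Matrix.neg_mul, Matrix.one_mul, neg_neg, add_comm]
    have e2 : u * s * u⁻¹ = g * s := by rw [e, mul_inv_cancel_right]
    rw [e2]
    exact R.mul_mem hg hs

theorem sim_mul (M N : Matrix (Fin 2 ⊕ Fin 2) (Fin 2 ⊕ Fin 2) F) (c d : F)
    (hM : sadj M * M = c • (1 : Matrix (Fin 2 ⊕ Fin 2) (Fin 2 ⊕ Fin 2) F))
    (hN : sadj N * N = d • (1 : Matrix (Fin 2 ⊕ Fin 2) (Fin 2 ⊕ Fin 2) F)) :
    sadj (M * N) * (M * N) = (c * d) • (1 : Matrix (Fin 2 ⊕ Fin 2) (Fin 2 ⊕ Fin 2) F) := by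
  rw [sadj_mul]
  calc sadj N * sadj M * (M * N) = sadj N * (sadj M * M) * N := by simp only [Matrix.mul_assoc]
    _ = (c * d) • 1 := by
        rw [hM, Matrix.mul_smul, Matrix.mul_one, Matrix.smul_mul, hN, smul_smul]

theorem sim_u (G : Matrix (Fin 2 ⊕ Fin 2) (Fin 2 ⊕ Fin 2) F) (hs : sadj G * G = 1)
    (hG : G * G = -1) :
    sadj (1 + G) * (1 + G) = (2 : F) • (1 : Matrix (Fin 2 ⊕ Fin 2) (Fin 2 ⊕ Fin 2) F) := by
  have hsG : sadj G = -G := by
    calc sadj G = sadj G * (G * (-G)) := by rw [Matrix.mul_neg, hG, neg_neg, Matrix.mul_one]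
      _ = -G := by rw [← Matrix.mul_assoc, hs, Matrix.one_mul]
  rw [sadj_add, sadj_one, hsG, add_mul, Matrix.one_mul, Matrix.neg_mul, Matrix.mul_add,
    Matrix.mul_one, hG, two_smul]
  abel

theorem sim_scal (e : F) :
    sadj (e • (1 : Matrix (Fin 2 ⊕ Fin 2) (Fin 2 ⊕ Fin 2) F)) *
      (e • (1 : Matrix (Fin 2 ⊕ Fin 2) (Fin 2 ⊕ Fin 2) F)) =
      (e * e) • (1 : Matrix (Fin 2 ⊕ Fin 2) (Fin 2 ⊕ Fin 2) F) := by
  rw [sadj_smul, sadj_one, Matrix.smul_mul, Matrix.mul_smul, Matrix.one_mul, smul_smul]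

theorem conj_step {G : Type*} [Group G] (n x y z : G) (k : ℕ) (h1 : n ^ k * x = y * n ^ k)
    (h2 : n * y = z * n) : n ^ (k + 1) * x = z * n ^ (k + 1) := by
  rw [pow_succ', mul_assoc, h1, ← mul_assoc, h2, mul_assoc]

theorem ne_of_comm_anti (h2 : (2 : F) ≠ 0) (x y z : GL (Fin 2 ⊕ Fin 2) F)
    (hxz : x.val * z.val = z.val * x.val) (hyz : y.val * z.val = -(z.val * y.val)) : x ≠ y := by
  intro h
  rw [h] at hxz
  rw [hxz] at hyz
  have h0 := eq_zero_of_eq_neg h2 _ hyz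
  have h1 : (z * y).val * ((z * y)⁻¹).val = 1 := Units.mul_inv _
  rw [Units.val_mul, h0, Matrix.zero_mul] at h1
  exact zero_ne_one h1

/-- The normalizer of `R` in `Sp_4(F)` contains an element of order five. -/
theorem exists_five [Fintype F] (P : QData R) (hRf : R ≤ Cfsg.spGL 2 F) :
    ∃ n : GL (Fin 2 ⊕ Fin 2) F, n ∈ Cfsg.spGL 2 F ∧ n ∈ Cfsg.Geo.subgroupNormalizer R ∧
      n ^ 5 = 1 ∧ n ≠ 1 := by
  classical
  have h2 := P.two
  have h4 := P.four_ne
  obtain ⟨a, b, c, d, ha, hb, hc, hd, hch⟩ := exists_chain P hRf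
  obtain ⟨ua, hua⟩ := exists_u h2 a.val hch.sA
  obtain ⟨ub, hub⟩ := exists_u h2 b.val hch.sB
  obtain ⟨uc, huc⟩ := exists_u h2 c.val hch.sC
  obtain ⟨ud, hud⟩ := exists_u h2 d.val hch.sD
  obtain ⟨σ, hσ⟩ : ∃ σ : GL (Fin 2 ⊕ Fin 2) F,
      σ.val = (4 : F)⁻¹ • (1 : Matrix (Fin 2 ⊕ Fin 2) (Fin 2 ⊕ Fin 2) F) := by
    refine ⟨⟨(4 : F)⁻¹ • 1, (4 : F) • 1, ?_, ?_⟩, rfl⟩
    · rw [Matrix.smul_mul, Matrix.mul_smul, Matrix.one_mul, smul_smul, inv_mul_cancel₀ h4,
        one_smul]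
    · rw [Matrix.smul_mul, Matrix.mul_smul, Matrix.one_mul, smul_smul, mul_inv_cancel₀ h4,
        one_smul]
  have hσN : σ ∈ Cfsg.Geo.subgroupNormalizer R := by
    have hfin := P.finite
    unfold Cfsg.Geo.subgroupNormalizer
    apply mem_normalizer_of_finite R σ
    intro s hs
    have e : σ * s = s * σ := by
      apply Units.ext
      rw [Units.val_mul, Units.val_mul, hσ, Matrix.smul_mul, Matrix.mul_smul, Matrix.one_mul,
        Matrix.mul_one]
    rw [e, mul_inv_cancel_right]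
    exact hs
  obtain ⟨n, hn⟩ : ∃ n : GL (Fin 2 ⊕ Fin 2) F, n = ua * ub * uc * ud * σ := ⟨_, rfl⟩
  have hnval : n.val = (4 : F)⁻¹ • N0 a.val b.val c.val d.val := by
    rw [hn]
    simp only [Units.val_mul]
    rw [hua, hub, huc, hud, hσ, Matrix.mul_smul, Matrix.mul_one]
    rfl
  have hnN : n ∈ Cfsg.Geo.subgroupNormalizer R := by
    rw [hn]
    exact Subgroup.mul_mem _ (Subgroup.mul_mem _ (Subgroup.mul_mem _ (Subgroup.mul_mem _
      (u_mem_normalizer P a ha hch.sA ua hua) (u_mem_normalizer P b hb hch.sB ub hub))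
      (u_mem_normalizer P c hc hch.sC uc huc)) (u_mem_normalizer P d hd hch.sD ud hud)) hσN
  have hsadj : ∀ g : GL (Fin 2 ⊕ Fin 2) F, g ∈ R → sadj g.val * g.val = 1 :=
    fun g hg => (mem_spGL_iff_sadj g).mp (hRf hg)
  have hnS : n ∈ Cfsg.spGL 2 F := by
    rw [mem_spGL_iff_sadj, hn]
    simp only [Units.val_mul]
    rw [hua, hub, huc, hud, hσ]
    have s1 := sim_u a.val (hsadj a ha) hch.sA
    have s2 := sim_u b.val (hsadj b hb) hch.sB
    have s3 := sim_u c.val (hsadj c hc) hch.sC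
    have s4 := sim_u d.val (hsadj d hd) hch.sD
    have s5 := sim_scal ((4 : F)⁻¹)
    have s := sim_mul _ _ _ _ (sim_mul _ _ _ _ (sim_mul _ _ _ _ (sim_mul _ _ _ _ s1 s2) s3) s4) s5
    rw [s]
    have e : (2 : F) * 2 * 2 * 2 * ((4 : F)⁻¹ * (4 : F)⁻¹) = 1 := by
      field_simp
      norm_num
    rw [e, one_smul]
  obtain ⟨e, he⟩ : ∃ e : GL (Fin 2 ⊕ Fin 2) F, e = a * (b * (c * d)) := ⟨_, rfl⟩
  have heval : e.val = a.val * (b.val * (c.val * d.val)) := by
    rw [he]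
    simp only [Units.val_mul]
  obtain ⟨c1, c2, c3, c4, c5, c6⟩ := hch.cycle
  have lift : ∀ x y : GL (Fin 2 ⊕ Fin 2) F,
      N0 a.val b.val c.val d.val * x.val = y.val * N0 a.val b.val c.val d.val →
      n * x = y * n := by
    intro x y h
    apply Units.ext
    rw [Units.val_mul, Units.val_mul, hnval, Matrix.smul_mul, Matrix.mul_smul, h]
  have r1 : n * a = b * n := lift a b c1
  have r2 : n * b = c * n := lift b c c2
  have r3 : n * c = d * n := lift c d c3
  have r4 : n * d = e * n := lift d e (by rw [heval]; exact c4)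
  have r5 : n * e = a * n := lift e a (by rw [heval]; exact c5)
  have p1 : n ^ 1 * a = b * n ^ 1 := by
    rw [pow_one]
    exact r1
  have p2 : n ^ 2 * a = c * n ^ 2 := conj_step n a b c 1 p1 r2
  have p3 : n ^ 3 * a = d * n ^ 3 := conj_step n a c d 2 p2 r3
  have p4 : n ^ 4 * a = e * n ^ 4 := conj_step n a d e 3 p3 r4
  have p5 : n ^ 5 * a = a * n ^ 5 := conj_step n a e a 4 p4 r5
  have dab : a ≠ b := fun h => (ne_of_comm_anti h2 b a b rfl hch.aAB) h.symm
  have dac : a ≠ c := ne_of_comm_anti h2 a c d hch.cAD hch.aCD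
  have dad : a ≠ d := ne_of_comm_anti h2 a d c hch.cAC (by rw [hch.aCD, neg_neg])
  have dae : a ≠ e := ne_of_comm_anti h2 a e a rfl (by rw [heval]; exact c6)
  have ho : 0 < orderOf n := orderOf_pos n
  have hno : n ^ orderOf n = 1 := pow_orderOf_eq_one n
  have h5 : 5 ∣ orderOf n := by
    by_contra hnd
    have hcomm5 : Commute (n ^ 5) a := p5
    have hq : Commute ((n ^ 5) ^ (orderOf n / 5)) a := hcomm5.pow_left _
    have hsplit : n ^ orderOf n = (n ^ 5) ^ (orderOf n / 5) * n ^ (orderOf n % 5) := by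
      rw [← pow_mul, ← pow_add, Nat.div_add_mod]
    rw [hno] at hsplit
    have hj : n ^ (orderOf n % 5) = ((n ^ 5) ^ (orderOf n / 5))⁻¹ :=
      eq_inv_of_mul_eq_one_right hsplit.symm
    have hcj : n ^ (orderOf n % 5) * a = a * n ^ (orderOf n % 5) := by
      rw [hj]
      exact hq.inv_left.eq
    have hlt : orderOf n % 5 < 5 := Nat.mod_lt _ (by norm_num)
    have hne : orderOf n % 5 ≠ 0 := fun h => hnd (Nat.dvd_of_mod_eq_zero h)
    obtain ⟨j, hjdef⟩ : ∃ j, j = orderOf n % 5 := ⟨_, rfl⟩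
    rw [← hjdef] at hcj hlt hne
    interval_cases j
    · exact hne rfl
    · rw [p1] at hcj
      exact dab (mul_right_cancel hcj).symm
    · rw [p2] at hcj
      exact dac (mul_right_cancel hcj).symm
    · rw [p3] at hcj
      exact dad (mul_right_cancel hcj).symm
    · rw [p4] at hcj
      exact dae (mul_right_cancel hcj).symm
  refine ⟨n ^ (orderOf n / 5), Subgroup.pow_mem _ hnS _, Subgroup.pow_mem _ hnN _, ?_, ?_⟩
  · rw [← pow_mul, Nat.div_mul_cancel h5, hno]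
  · intro h1
    have hd := orderOf_dvd_of_pow_eq_one h1
    have hle := Nat.le_of_dvd (Nat.div_pos (Nat.le_of_dvd ho h5) (by norm_num)) hd
    omega

/-- `R` contains an element of order four and a non-central involution. -/
theorem exists_elts (P : QData R) (hRf : R ≤ Cfsg.spGL 2 F) :
    ∃ a w : GL (Fin 2 ⊕ Fin 2) F, a ∈ R ∧ w ∈ R ∧ a.val * a.val = -1 ∧ w.val * w.val = 1 ∧
      Matrix.trace w.val = 0 := by
  obtain ⟨a, b, c, d, ha, hb, hc, hd, hch⟩ := exists_chain P hRf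
  refine ⟨a, a * c, ha, R.mul_mem ha hc, hch.sA, ?_, ?_⟩
  · rw [Units.val_mul, comm_sq _ _ hch.cAC, hch.sA, hch.sC, Matrix.neg_mul, Matrix.mul_neg,
      Matrix.one_mul, neg_neg]
  · apply trace_zero_of_anti P.two _ d
    rw [Units.val_mul, Matrix.mul_assoc, hch.aCD, Matrix.mul_neg, ← Matrix.mul_assoc, hch.cAD,
      Matrix.mul_assoc]

end five

end Cfsg.Agent.Lib.Helper37.Pauli5C
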