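import Mathlib
import Cfsg.Prelude.Def_GeometricClasses
import Cfsg.Prelude.Def_ClassicalGeometry
import Cfsg.Agent.Lib.Helper40.SympConj
import Cfsg.Agent.Lib.Helper40.SSConj
import Cfsg.Agent.Lib.Helper37.Pauli4D
import Cfsg.Agent.Lib.Helper37.Pauli4E
import Cfsg.Agent.Lib.Helper37.Pauli4F
import Cfsg.Agent.Lib.Helper37.Pauli5A
import Cfsg.Agent.Lib.Helper37.Pauli5B
import Cfsg.Agent.Lib.Helper37.Pauli5C

/-!
# Elements of prime order of `Sp_4(p)` and the normalizer of `2^{1+4}_-`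

Conjugacy into the normalizer of `R` for elements of orders `2` and `5` (the latter when `p` has
order `4` modulo `5`), and elements of orders `3`, `5`, `p` and `r ≥ 7` that are not conjugate
into it.
-/

set_option autoImplicit false

open scoped MatrixGroups

namespace Cfsg.Agent.Lib.Helper37.Pauli5D

open Cfsg.Agent.Lib.Helper37.Pauli5A Cfsg.Agent.Lib.Helper37.Pauli5B
  Cfsg.Agent.Lib.Helper37.Pauli5C Cfsg.Agent.Lib.Helper40.SympConj

open Matrix

variable {F : Type*} [Field F]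

section poly

open Polynomial

/-- An equivalence `Fin 2 ⊕ Fin 2 ≃ Fin 4`. -/
noncomputable def e4 : Fin 2 ⊕ Fin 2 ≃ Fin 4 := Fintype.equivFinOfCardEq card_iota

/-- Reindexing of matrices to `Fin 4`. -/
noncomputable def rx :
    Matrix (Fin 2 ⊕ Fin 2) (Fin 2 ⊕ Fin 2) F ≃ₐ[F] Matrix (Fin 4) (Fin 4) F :=
  Matrix.reindexAlgEquiv F F e4

theorem rx_apply (M : Matrix (Fin 2 ⊕ Fin 2) (Fin 2 ⊕ Fin 2) F) :
    rx M = Matrix.reindex e4 e4 M := by
  unfold rx
  rw [Matrix.coe_reindexAlgEquiv]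

theorem rx_charpoly (M : Matrix (Fin 2 ⊕ Fin 2) (Fin 2 ⊕ Fin 2) F) :
    (rx M).charpoly = M.charpoly := by
  rw [rx_apply]
  exact Matrix.charpoly_reindex e4 M

theorem rx_det (M : Matrix (Fin 2 ⊕ Fin 2) (Fin 2 ⊕ Fin 2) F) : (rx M).det = M.det := by
  rw [rx_apply]
  exact Matrix.det_reindex_self e4 M

theorem rx_trace (M : Matrix (Fin 2 ⊕ Fin 2) (Fin 2 ⊕ Fin 2) F) :
    Matrix.trace (rx M) = Matrix.trace M := by
  rw [rx_apply]
  simp only [Matrix.trace, Matrix.diag_apply, Matrix.reindex_apply, Matrix.submatrix_apply]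
  exact Equiv.sum_comp e4.symm (fun j => M j j)

theorem sq_type' (y : Matrix (Fin 2 ⊕ Fin 2) (Fin 2 ⊕ Fin 2) F) (hy : y * y = 1) :
    ∃ a b : ℕ, y.charpoly = (X - C (1 : F)) ^ a * (X - C (-1 : F)) ^ b ∧ a + b = 4 ∧
      Matrix.trace y = (a : F) - (b : F) ∧ y.det = (-1 : F) ^ b := by
  have h := Cfsg.Agent.Lib.Helper37.Pauli4F.sq_type (rx y)
    (by rw [← map_pow, pow_two, hy, map_one])
  rw [rx_charpoly, rx_trace, rx_det] at h
  exact h

theorem invol_cases (h2 : (2 : F) ≠ 0) (y : Matrix (Fin 2 ⊕ Fin 2) (Fin 2 ⊕ Fin 2) F)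
    (hy : y * y = 1) (hd : y.det = 1) :
    (y.charpoly = (X - C (1 : F)) ^ 4 * (X - C (-1 : F)) ^ 0 ∧ Matrix.trace y = 4) ∨
    y.charpoly = (X - C (1 : F)) ^ 2 * (X - C (-1 : F)) ^ 2 ∨
    (y.charpoly = (X - C (1 : F)) ^ 0 * (X - C (-1 : F)) ^ 4 ∧ Matrix.trace y = -4) := by
  obtain ⟨a, b, hab, hsum, htr, hdet⟩ := sq_type' y hy
  rw [hd] at hdet
  have hb : b = 0 ∨ b = 2 ∨ b = 4 := by
    rcases Nat.even_or_odd b with he | ho
    · obtain ⟨k, hk⟩ := he
      omega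
    · exfalso
      rw [ho.neg_one_pow] at hdet
      apply h2
      linear_combination hdet
  rcases hb with rfl | rfl | rfl
  · have ha : a = 4 := by omega
    subst ha
    left
    refine ⟨hab, ?_⟩
    rw [htr]
    norm_num
  · have ha : a = 2 := by omega
    subst ha
    right
    left
    exact hab
  · have ha : a = 0 := by omega
    subst ha
    right
    right
    refine ⟨hab, ?_⟩
    rw [htr]
    norm_num

theorem four_ne_zero' (h2 : (2 : F) ≠ 0) : (4 : F) ≠ 0 := by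
  intro h
  have h' : (2 : F) * 2 = 0 := by linear_combination h
  rcases mul_eq_zero.mp h' with h'' | h'' <;> exact h2 h''

/-- A symplectic involution of trace zero has characteristic polynomial `(X-1)²(X+1)²`. -/
theorem invol_charpoly_tr (h2 : (2 : F) ≠ 0) (y : Matrix (Fin 2 ⊕ Fin 2) (Fin 2 ⊕ Fin 2) F)
    (hy : y * y = 1) (hd : y.det = 1) (ht : Matrix.trace y = 0) :
    y.charpoly = (X - C (1 : F)) ^ 2 * (X - C (-1 : F)) ^ 2 := by
  have h4 := four_ne_zero' h2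
  rcases invol_cases h2 y hy hd with ⟨-, h⟩ | h | ⟨-, h⟩
  · rw [ht] at h
    exact absurd h.symm h4
  · exact h
  · rw [ht] at h
    exfalso
    apply h4
    linear_combination h

theorem unip_two (h2 : (2 : F) ≠ 0) (x : Matrix (Fin 2 ⊕ Fin 2) (Fin 2 ⊕ Fin 2) F)
    (hx : x * x = 1) (hu : (x - 1) ^ 4 = 0) : x = 1 := by
  have e2 : (x - 1) * (x - 1) = (-2 : F) • (x - 1) := by
    simp only [sub_mul, mul_sub, Matrix.one_mul, Matrix.mul_one, hx]
    rw [neg_smul, two_smul]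
    abel
  have hpow : (x - 1) ^ 4 = ((x - 1) * (x - 1)) * ((x - 1) * (x - 1)) := by
    rw [pow_succ, pow_succ, pow_succ, pow_one]
    simp only [Matrix.mul_assoc]
  have e4 : (x - 1) ^ 4 = (-8 : F) • (x - 1) := by
    rw [hpow, e2, Matrix.smul_mul, Matrix.mul_smul, e2, smul_smul, smul_smul]
    congr 1
    norm_num
  rw [e4] at hu
  rcases smul_eq_zero.mp hu with h | h
  · exfalso
    have h8 : (2 : F) * (2 * 2) = 0 := by linear_combination -h
    rcases mul_eq_zero.mp h8 with h' | h'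
    · exact h2 h'
    · rcases mul_eq_zero.mp h' with h'' | h'' <;> exact h2 h''
  · exact sub_eq_zero.mp h

theorem aeval_pow_form (y : Matrix (Fin 2 ⊕ Fin 2) (Fin 2 ⊕ Fin 2) F) (a b : ℕ) (c d : F) :
    aeval y ((X - C c) ^ a * (X - C d) ^ b) = (y - c • 1) ^ a * (y - d • 1) ^ b := by
  rw [map_mul, map_pow, map_pow, map_sub, map_sub, aeval_X, aeval_C, aeval_C,
    Algebra.algebraMap_eq_smul_one, Algebra.algebraMap_eq_smul_one]

/-- A symplectic involution other than `±1` has characteristic polynomial `(X-1)²(X+1)²`. -/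
theorem invol_charpoly_ne (h2 : (2 : F) ≠ 0) (y : Matrix (Fin 2 ⊕ Fin 2) (Fin 2 ⊕ Fin 2) F)
    (hy : y * y = 1) (hd : y.det = 1) (h1 : y ≠ 1) (hm : y ≠ -1) :
    y.charpoly = (X - C (1 : F)) ^ 2 * (X - C (-1 : F)) ^ 2 := by
  rcases invol_cases h2 y hy hd with ⟨hab, -⟩ | h | ⟨hab, -⟩
  · exfalso
    have h0 := Matrix.aeval_self_charpoly y
    rw [hab, aeval_pow_form, pow_zero, mul_one, one_smul] at h0
    exact h1 (unip_two h2 y hy h0)
  · exact h
  · exfalso
    have h0 := Matrix.aeval_self_charpoly y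
    rw [hab, aeval_pow_form, pow_zero, one_mul, neg_smul, one_smul, sub_neg_eq_add] at h0
    have hy' : (-y) * (-y) = 1 := by rw [Matrix.neg_mul, Matrix.mul_neg, neg_neg, hy]
    have h0' : (-y - 1) ^ 4 = 0 := by
      have e : -y - 1 = -(y + 1) := by abel
      rw [e, Even.neg_pow (by decide), h0]
    have h3 := unip_two h2 (-y) hy' h0'
    apply hm
    rw [← h3, neg_neg]

theorem charpoly_of_sq_nonsquare (c : F) (hc : ∀ d : F, d * d ≠ c)
    (x : Matrix (Fin 4) (Fin 4) F) (hx : x * x = c • (1 : Matrix (Fin 4) (Fin 4) F)) :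
    x.charpoly = (X ^ 2 - C c) ^ 2 := by
  have hdeg : (X ^ 2 - C c : F[X]).natDegree = 2 := natDegree_X_pow_sub_C
  have hm : (X ^ 2 - C c : F[X]).Monic := monic_X_pow_sub_C c (by norm_num)
  have hirr : Irreducible (X ^ 2 - C c : F[X]) := by
    apply irreducible_of_degree_le_three_of_not_isRoot
    · rw [hdeg]
      decide
    · intro d hd
      apply hc d
      simp only [IsRoot, eval_sub, eval_pow, eval_X, eval_C] at hd
      linear_combination hd
  have hg : aeval x (X ^ 2 - C c : F[X]) = 0 := by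
    rw [map_sub, map_pow, aeval_X, aeval_C, Algebra.algebraMap_eq_smul_one, pow_two, hx, sub_self]
  obtain ⟨a, b, hab, hdeg', -⟩ := Cfsg.Agent.Lib.Helper37.Pauli4D.charpoly_form x (X ^ 2 - C c)
    (X ^ 2 - C c) (X ^ 2 - C c) hg hm hm
    (fun f hf hfm hfd => Or.inl (eq_of_monic_of_associated hfm hm (hf.associated_of_dvd hirr hfd)))
  rw [hab, ← pow_add]
  congr 1
  rw [hdeg] at hdeg'
  omega

theorem unip_five (h5 : (5 : F) ≠ 0) (y : Matrix (Fin 2 ⊕ Fin 2) (Fin 2 ⊕ Fin 2) F)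
    (hy : y ^ 5 = 1) (hu : (y - 1) ^ 4 = 0) : y = 1 := by
  have key : (C (125 : F) : F[X]) * (X - 1) =
      (25 - 5 * (X ^ 3 + 2 * X ^ 2 + 3 * X + 4) * (X - 1) +
        (X ^ 3 + 2 * X ^ 2 + 3 * X + 4) ^ 2 * (X - 1) ^ 2) * (X ^ 5 - 1) -
      (X ^ 3 + 2 * X ^ 2 + 3 * X + 4) ^ 3 * (X - 1) ^ 4 := by
    rw [map_ofNat C 125]
    ring
  have h := congrArg (aeval y) key
  simp only [map_mul, map_sub, map_add, map_pow, aeval_X, map_one, map_ofNat] at h
  have e125 : (125 : Matrix (Fin 2 ⊕ Fin 2) (Fin 2 ⊕ Fin 2) F) =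
      (125 : F) • (1 : Matrix (Fin 2 ⊕ Fin 2) (Fin 2 ⊕ Fin 2) F) := by
    rw [← Algebra.algebraMap_eq_smul_one, map_ofNat]
  rw [hy, hu, sub_self, mul_zero, mul_zero, sub_zero, e125, Matrix.smul_mul, Matrix.one_mul] at h
  rcases smul_eq_zero.mp h with h' | h'
  · exfalso
    have h125 : (5 : F) * (5 * 5) = 0 := by linear_combination h'
    rcases mul_eq_zero.mp h125 with h'' | h''
    · exact h5 h''
    · rcases mul_eq_zero.mp h'' with h3 | h3 <;> exact h5 h3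
  · exact sub_eq_zero.mp h'

theorem five_charpoly (h5 : (5 : F) ≠ 0) (hirr : Irreducible (cyclotomic 5 F))
    (Y : Matrix (Fin 2 ⊕ Fin 2) (Fin 2 ⊕ Fin 2) F) (hY5 : Y ^ 5 = 1) (hY1 : Y ≠ 1) :
    Y.charpoly = cyclotomic 5 F := by
  obtain ⟨a, b, hab, hsum, -⟩ := Cfsg.Agent.Lib.Helper37.Pauli4D.form_five hirr (rx Y)
    (by rw [← map_pow, hY5, map_one])
  rw [rx_charpoly] at hab
  have hb : b = 0 ∨ b = 1 := by omega
  rcases hb with rfl | rfl
  · exfalso
    have ha : a = 4 := by omega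
    subst ha
    have h0 := Matrix.aeval_self_charpoly Y
    rw [hab, pow_zero, mul_one, map_pow, map_sub, aeval_X, aeval_C, map_one] at h0
    exact hY1 (unip_five h5 Y hY5 h0)
  · have ha : a = 0 := by omega
    subst ha
    rw [hab, pow_zero, one_mul, pow_one]

end poly

section conj

open Polynomial

set_option linter.unusedSectionVars false

variable [Fintype F]

theorem det_one_of_sp (u : GL (Fin 2 ⊕ Fin 2) F) (hu : u ∈ Cfsg.spGL 2 F) : u.val.det = 1 :=
  SymplecticGroup.det_eq_one ((mem_symp_iff _).mpr ((mem_spGL_iff_sadj u).mp hu))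

theorem two_conj (h2 : (2 : F) ≠ 0) (x w : GL (Fin 2 ⊕ Fin 2) F) (hx : x ∈ Cfsg.spGL 2 F)
    (hw : w ∈ Cfsg.spGL 2 F) (hx2 : x.val * x.val = 1) (hx1 : x.val ≠ 1) (hxm : x.val ≠ -1)
    (hw2 : w.val * w.val = 1) (htw : Matrix.trace w.val = 0) :
    ∃ g ∈ Cfsg.spGL 2 F, g⁻¹ * x * g = w := by
  exact sp_conj_of_charpoly x w hx hw 2 (by exact_mod_cast h2) (by rw [pow_two]; exact hx2)
    (by rw [pow_two]; exact hw2)
    (by rw [invol_charpoly_ne h2 _ hx2 (det_one_of_sp x hx) hx1 hxm,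
      invol_charpoly_tr h2 _ hw2 (det_one_of_sp w hw) htw])

theorem tr_zero_of_sq (h2 : (2 : F) ≠ 0) (y : GL (Fin 2 ⊕ Fin 2) F) (hy : y ∈ Cfsg.spGL 2 F)
    (hy2 : y.val * y.val = -1) : Matrix.trace y.val = 0 := by
  have hinv : (y⁻¹).val = -y.val := by
    calc (y⁻¹).val = (y⁻¹).val * (y.val * (-y.val)) := by
          rw [Matrix.mul_neg, hy2, neg_neg, Matrix.mul_one]
      _ = -y.val := by rw [← Matrix.mul_assoc, Units.inv_mul, Matrix.one_mul]
  have h1 := trace_sadj y.val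
  rw [sadj_eq_inv y hy, hinv, Matrix.trace_neg] at h1
  have h3 : (2 : F) * Matrix.trace y.val = 0 := by linear_combination -h1
  exact (mul_eq_zero.mp h3).resolve_left h2

theorem four_conj (h2 : (2 : F) ≠ 0) (x a : GL (Fin 2 ⊕ Fin 2) F) (hx : x ∈ Cfsg.spGL 2 F)
    (ha : a ∈ Cfsg.spGL 2 F) (hx2 : x.val * x.val = -1) (ha2 : a.val * a.val = -1) :
    ∃ g ∈ Cfsg.spGL 2 F, g⁻¹ * x * g = a := by
  have h4 : ((4 : ℕ) : F) ≠ 0 := by
    have := four_ne_zero' h2
    exact_mod_cast this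
  have pow4 : ∀ y : Matrix (Fin 2 ⊕ Fin 2) (Fin 2 ⊕ Fin 2) F, y * y = -1 → y ^ 4 = 1 := by
    intro y hy
    have e : y ^ 4 = (y * y) * (y * y) := by
      rw [pow_succ, pow_succ, pow_succ, pow_one]
      simp only [Matrix.mul_assoc]
    rw [e, hy, Matrix.neg_mul, Matrix.mul_neg, Matrix.one_mul, neg_neg]
  by_cases hi : ∃ i : F, i * i = -1
  · obtain ⟨i, hi⟩ := hi
    have hi0 : i ≠ 0 := by
      rintro rfl
      rw [mul_zero] at hi
      have h1 : (1 : F) = 0 := by linear_combination hi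
      exact one_ne_zero h1
    have hsq : ∀ y : GL (Fin 2 ⊕ Fin 2) F, y.val * y.val = -1 →
        (i • y.val) * (i • y.val) = 1 := by
      intro y hy2
      rw [Matrix.smul_mul, Matrix.mul_smul, smul_smul, hi, hy2, neg_smul, one_smul, neg_neg]
    have key : ∀ y : GL (Fin 2 ⊕ Fin 2) F, y ∈ Cfsg.spGL 2 F → y.val * y.val = -1 →
        (i • y.val).charpoly = (X - C (1 : F)) ^ 2 * (X - C (-1 : F)) ^ 2 := by
      intro y hy hy2
      have hdet : (i • y.val).det = 1 := by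
        rw [Matrix.det_smul, card_iota, det_one_of_sp y hy, mul_one]
        have e : i ^ 4 = (i * i) * (i * i) := by ring
        rw [e, hi]
        norm_num
      have htr : Matrix.trace (i • y.val) = 0 := by
        rw [Matrix.trace_smul, tr_zero_of_sq h2 y hy hy2, smul_zero]
      exact invol_charpoly_tr h2 _ (hsq y hy2) hdet htr
    obtain ⟨Pm, Q, hPQ, -, hPA⟩ := Cfsg.Agent.Lib.Helper40.SSConj.matrix_conj (i • x.val)
      (i • a.val) 2 (by exact_mod_cast h2) (by rw [pow_two]; exact hsq x hx2)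
      (by rw [pow_two]; exact hsq a ha2) (by rw [key x hx hx2, key a ha ha2])
    have hPx : Pm * x.val = a.val * Pm := by
      rw [Matrix.mul_smul, Matrix.smul_mul] at hPA
      exact smul_right_injective _ hi0 hPA
    exact sp_conj x a hx ha 4 h4 (pow4 _ hx2) Pm (IsUnit.of_mul_eq_one Q hPQ) hPx
  · push Not at hi
    have cp : ∀ y : Matrix (Fin 2 ⊕ Fin 2) (Fin 2 ⊕ Fin 2) F, y * y = -1 →
        y.charpoly = (X ^ 2 - C (-1 : F)) ^ 2 := by
      intro y hy
      rw [← rx_charpoly]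
      apply charpoly_of_sq_nonsquare (-1) hi
      rw [← map_mul, hy, map_neg, map_one, neg_smul, one_smul]
    exact sp_conj_of_charpoly x a hx ha 4 h4 (pow4 _ hx2) (pow4 _ ha2)
      (by rw [cp _ hx2, cp _ ha2])

theorem five_conj {p : ℕ} [Fact p.Prime] [CharP F p] (hF : Fintype.card F = p)
    (h5 : orderOf (p : ZMod 5) = 4) (y n : GL (Fin 2 ⊕ Fin 2) F) (hy : y ∈ Cfsg.spGL 2 F)
    (hn : n ∈ Cfsg.spGL 2 F) (hy5 : y ^ 5 = 1) (hy1 : y ≠ 1) (hn5 : n ^ 5 = 1) (hn1 : n ≠ 1) :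
    ∃ g ∈ Cfsg.spGL 2 F, g⁻¹ * y * g = n := by
  have hpp : p.Prime := Fact.out
  have hmod := (Cfsg.Agent.Lib.Helper37.Pauli4E.order_mod_five p).1 h5
  have h5F : ((5 : ℕ) : F) ≠ 0 := by
    intro h
    rw [CharP.cast_eq_zero_iff F p] at h
    have hp5 : p = 5 := (Nat.prime_dvd_prime_iff_eq hpp (by norm_num)).mp h
    rw [hp5] at hmod
    omega
  have h5F' : (5 : F) ≠ 0 := by exact_mod_cast h5F
  have hirr := Cfsg.Agent.Lib.Helper37.Pauli4E.cyc5_irreducible hF h5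
  have val5 : ∀ u : GL (Fin 2 ⊕ Fin 2) F, u ^ 5 = 1 → u.val ^ 5 = 1 := by
    intro u hu
    rw [← Units.val_pow_eq_pow_val, hu, Units.val_one]
  have ne1 : ∀ u : GL (Fin 2 ⊕ Fin 2) F, u ≠ 1 → u.val ≠ 1 := by
    intro u hu h
    exact hu (Units.ext (by rw [h, Units.val_one]))
  exact sp_conj_of_charpoly y n hy hn 5 h5F (val5 y hy5) (val5 n hn5)
    (by rw [five_charpoly h5F' hirr _ (val5 y hy5) (ne1 y hy1),
      five_charpoly h5F' hirr _ (val5 n hn5) (ne1 n hn1)])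

end conj

end Cfsg.Agent.Lib.Helper37.Pauli5D
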