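import Mathlib
import Cfsg.Prelude.Def_GeometricClasses
import Cfsg.Prelude.Def_ClassicalGeometry
import Cfsg.Agent.Lib.Helper40.SympConj
import Cfsg.Agent.Lib.Helper37.Pauli4E
import Cfsg.Agent.Lib.Helper37.Pauli5A
import Cfsg.Agent.Lib.Helper37.Pauli5B
import Cfsg.Agent.Lib.Helper37.Pauli5C
import Cfsg.Agent.Lib.Helper37.Pauli5D

/-!
# Elements of prime order of `Sp_4(p)` and the normalizer of `2^{1+4}_-`: the final lemmas

* `good_two`, `good_five`: elements of order `2` (resp. `5`, when `p` has order `4` mod `5`)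
  modulo scalars are conjugate in `Sp_4(p)` into the normalizer of `R`;
* `bad_three`, `bad_five`, `bad_char`, `bad_ge_seven`: explicit elements of `Sp_4(p)` of prime
  order no conjugate of which normalizes `R`.
-/

set_option autoImplicit false
set_option linter.unusedSimpArgs false

open scoped MatrixGroups

namespace Cfsg.Agent.Lib.Helper37.Pauli5E

open Cfsg.Agent.Lib.Helper37.Pauli5A Cfsg.Agent.Lib.Helper37.Pauli5B
  Cfsg.Agent.Lib.Helper37.Pauli5C Cfsg.Agent.Lib.Helper37.Pauli5D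
  Cfsg.Agent.Lib.Helper40.SympConj

open Matrix

variable {F : Type*} [Field F] {R : Subgroup (GL (Fin 2 ⊕ Fin 2) F)}

/-! ### Conjugation -/

theorem conj_trace (x g : GL (Fin 2 ⊕ Fin 2) F) :
    Matrix.trace (g⁻¹ * x * g).val = Matrix.trace x.val := by
  rw [Units.val_mul, Units.val_mul, Matrix.trace_mul_cycle, Units.mul_inv, Matrix.one_mul]

theorem conj_nonscalar (x g : GL (Fin 2 ⊕ Fin 2) F)
    (hns : ∀ z : F, x.val ≠ z • (1 : Matrix (Fin 2 ⊕ Fin 2) (Fin 2 ⊕ Fin 2) F)) :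
    ∀ z : F, (g⁻¹ * x * g).val ≠ z • (1 : Matrix (Fin 2 ⊕ Fin 2) (Fin 2 ⊕ Fin 2) F) := by
  intro z hz
  apply hns z
  have e : x.val = g.val * (g⁻¹ * x * g).val * (g⁻¹).val := by
    rw [← Units.val_mul, ← Units.val_mul]
    congr 1
    group
  rw [e, hz, Matrix.mul_smul, Matrix.smul_mul, Matrix.mul_one, Units.mul_inv]

theorem conj_pow_one (x g : GL (Fin 2 ⊕ Fin 2) F) (r : ℕ) (h : x ^ r = 1) :
    (g⁻¹ * x * g) ^ r = 1 := by
  have e : g⁻¹ * x * g = g⁻¹ * x * g⁻¹⁻¹ := by rw [inv_inv]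
  rw [e, conj_pow, h]
  group

theorem R_le_normalizer (P : QData R) : R ≤ Cfsg.Geo.subgroupNormalizer R := by
  intro w hw
  have hfin := P.finite
  unfold Cfsg.Geo.subgroupNormalizer
  apply mem_normalizer_of_finite R w
  intro s hs
  exact R.mul_mem (R.mul_mem hw hs) (R.inv_mem hw)

/-! ### The good primes -/

section good

variable [Fintype F]

/-- Every element of `Sp_4(F)` of order two modulo scalars is conjugate into the normalizer. -/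
theorem good_two (P : QData R) (hRf : R ≤ Cfsg.spGL 2 F) (x : GL (Fin 2 ⊕ Fin 2) F)
    (hx : x ∈ Cfsg.spGL 2 F)
    (hx2 : ∃ z : F, ((x ^ 2 : GL (Fin 2 ⊕ Fin 2) F) : Matrix (Fin 2 ⊕ Fin 2) (Fin 2 ⊕ Fin 2) F) =
      z • (1 : Matrix (Fin 2 ⊕ Fin 2) (Fin 2 ⊕ Fin 2) F))
    (hns : ∀ z : F, (x : Matrix (Fin 2 ⊕ Fin 2) (Fin 2 ⊕ Fin 2) F) ≠
      z • (1 : Matrix (Fin 2 ⊕ Fin 2) (Fin 2 ⊕ Fin 2) F)) :
    ∃ g ∈ Cfsg.spGL 2 F, g⁻¹ * x * g ∈ Cfsg.Geo.subgroupNormalizer R := by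
  obtain ⟨z, hz⟩ := hx2
  have hxx : x.val * x.val = z • (1 : Matrix (Fin 2 ⊕ Fin 2) (Fin 2 ⊕ Fin 2) F) := by
    rw [← hz, pow_two, Units.val_mul]
  have hzpm : z = 1 ∨ z = -1 := by
    apply scalar_pm
    have h := (mem_spGL_iff_sadj (x * x)).mp ((Cfsg.spGL 2 F).mul_mem hx hx)
    rw [Units.val_mul, hxx] at h
    exact h
  obtain ⟨a, w, ha, hw, ha2, hw2, htw⟩ := exists_elts P hRf
  rcases hzpm with rfl | rfl
  · rw [one_smul] at hxx
    obtain ⟨g, hg, hgx⟩ := two_conj P.two x w hx (hRf hw) hxx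
      (fun h => hns 1 (by rw [h, one_smul])) (fun h => hns (-1) (by rw [h, neg_smul, one_smul]))
      hw2 htw
    refine ⟨g, hg, ?_⟩
    rw [hgx]
    exact R_le_normalizer P hw
  · rw [neg_smul, one_smul] at hxx
    obtain ⟨g, hg, hgx⟩ := four_conj P.two x a hx (hRf ha) hxx ha2
    refine ⟨g, hg, ?_⟩
    rw [hgx]
    exact R_le_normalizer P ha

/-- When `p` has order `4` modulo `5`, every element of `Sp_4(p)` of order five modulo scalars
is conjugate into the normalizer. -/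
theorem good_five {p : ℕ} [Fact p.Prime] [CharP F p] (hF : Fintype.card F = p)
    (h5 : orderOf (p : ZMod 5) = 4) (P : QData R) (hRf : R ≤ Cfsg.spGL 2 F)
    (x : GL (Fin 2 ⊕ Fin 2) F) (hx : x ∈ Cfsg.spGL 2 F)
    (hx5 : ∃ z : F, ((x ^ 5 : GL (Fin 2 ⊕ Fin 2) F) : Matrix (Fin 2 ⊕ Fin 2) (Fin 2 ⊕ Fin 2) F) =
      z • (1 : Matrix (Fin 2 ⊕ Fin 2) (Fin 2 ⊕ Fin 2) F))
    (hns : ∀ z : F, (x : Matrix (Fin 2 ⊕ Fin 2) (Fin 2 ⊕ Fin 2) F) ≠
      z • (1 : Matrix (Fin 2 ⊕ Fin 2) (Fin 2 ⊕ Fin 2) F)) :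
    ∃ g ∈ Cfsg.spGL 2 F, g⁻¹ * x * g ∈ Cfsg.Geo.subgroupNormalizer R := by
  obtain ⟨z, hz⟩ := hx5
  have hzpm : z = 1 ∨ z = -1 := by
    apply scalar_pm
    have h := (mem_spGL_iff_sadj (x ^ 5)).mp (Subgroup.pow_mem _ hx 5)
    rw [hz] at h
    exact h
  have hzz : z * z = 1 := by
    rcases hzpm with rfl | rfl <;> norm_num
  have hζc : ∀ h : GL (Fin 2 ⊕ Fin 2) F, x ^ 5 * h = h * x ^ 5 := by
    intro h
    apply Units.ext
    rw [Units.val_mul, Units.val_mul, hz, Matrix.smul_mul, Matrix.mul_smul, Matrix.one_mul,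
      Matrix.mul_one]
  have hζ2 : x ^ 5 * x ^ 5 = 1 := by
    apply Units.ext
    rw [Units.val_mul, hz, Matrix.smul_mul, Matrix.mul_smul, Matrix.one_mul, smul_smul, hzz,
      one_smul, Units.val_one]
  have hy5 : (x ^ 6) ^ 5 = 1 := by
    have e : (x ^ 6) ^ 5 = (x ^ 5 * x ^ 5) ^ 3 := by
      rw [← pow_add, ← pow_mul, ← pow_mul]
    rw [e, hζ2, one_pow]
  have e6 : x ^ 6 = x * x ^ 5 := pow_succ' x 5
  have hy1 : x ^ 6 ≠ 1 := by
    intro h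
    rw [e6, ← hζ2] at h
    have h' : x = x ^ 5 := mul_right_cancel h
    apply hns z
    rw [← hz, ← h']
  obtain ⟨n, hnS, hnN, hn5, hn1⟩ := exists_five P hRf
  obtain ⟨g, hg, hgy⟩ := five_conj hF h5 (x ^ 6) n (Subgroup.pow_mem _ hx 6) hnS hy5 hy1 hn5 hn1
  refine ⟨g, hg, ?_⟩
  have hζN : x ^ 5 ∈ Cfsg.Geo.subgroupNormalizer R := by
    have hfin := P.finite
    unfold Cfsg.Geo.subgroupNormalizer
    apply mem_normalizer_of_finite R (x ^ 5)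
    intro s hs
    rw [hζc s, mul_inv_cancel_right]
    exact hs
  have e : g⁻¹ * x * g = n * (x ^ 5)⁻¹ := by
    rw [← hgy]
    have hcz : Commute (x ^ 5) g := hζc g
    have hcg : (x ^ 5)⁻¹ * g = g * (x ^ 5)⁻¹ := hcz.inv_left.eq
    calc g⁻¹ * x * g = g⁻¹ * (x ^ 6 * (x ^ 5)⁻¹) * g := by rw [e6, mul_inv_cancel_right]
      _ = g⁻¹ * x ^ 6 * ((x ^ 5)⁻¹ * g) := by group
      _ = g⁻¹ * x ^ 6 * (g * (x ^ 5)⁻¹) := by rw [hcg]
      _ = g⁻¹ * x ^ 6 * g * (x ^ 5)⁻¹ := by group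
  rw [e]
  exact Subgroup.mul_mem _ hnN (Subgroup.inv_mem _ hζN)

end good

/-! ### Explicit elements of `Sp_4(F)` -/

section bad

/-- A non-scalar element of `Sp_4(F)` with `x ^ r = 1`, no conjugate of which normalizes `R`, is
a counterexample. -/
theorem bad_of_elt (r : ℕ) (x : GL (Fin 2 ⊕ Fin 2) F) (hxK : x ∈ Cfsg.spGL 2 F)
    (hxr : x ^ r = 1)
    (hns : ∀ z : F, x.val ≠ z • (1 : Matrix (Fin 2 ⊕ Fin 2) (Fin 2 ⊕ Fin 2) F))
    (hbad : ∀ g : GL (Fin 2 ⊕ Fin 2) F, g ∈ Cfsg.spGL 2 F →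
      g⁻¹ * x * g ∉ Cfsg.Geo.subgroupNormalizer R) :
    ¬ (∀ x ∈ Cfsg.spGL 2 F,
      (∃ z : F, ((x ^ r : GL (Fin 2 ⊕ Fin 2) F) : Matrix (Fin 2 ⊕ Fin 2) (Fin 2 ⊕ Fin 2) F) =
        z • (1 : Matrix (Fin 2 ⊕ Fin 2) (Fin 2 ⊕ Fin 2) F)) →
      (∀ z : F, (x : Matrix (Fin 2 ⊕ Fin 2) (Fin 2 ⊕ Fin 2) F) ≠
        z • (1 : Matrix (Fin 2 ⊕ Fin 2) (Fin 2 ⊕ Fin 2) F)) →
      ∃ g ∈ Cfsg.spGL 2 F, g⁻¹ * x * g ∈ Cfsg.Geo.subgroupNormalizer R) := by
  intro hall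
  obtain ⟨g, hgK, hg⟩ := hall x hxK ⟨1, by rw [hxr, Units.val_one, one_smul]⟩ hns
  exact hbad g hgK hg

/-- The matrix acting as `!![a, b; c, d]` on the first hyperbolic plane and trivially on the
second. -/
def Bk (a b c d : F) : Matrix (Fin 2 ⊕ Fin 2) (Fin 2 ⊕ Fin 2) F :=
  Matrix.fromBlocks !![a, 0; 0, 1] !![b, 0; 0, 0] !![c, 0; 0, 0] !![d, 0; 0, 1]

theorem Bk_mul (a b c d a' b' c' d' : F) :
    Bk a b c d * Bk a' b' c' d' =
      Bk (a * a' + b * c') (a * b' + b * d') (c * a' + d * c') (c * b' + d * d') := by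
  unfold Bk
  rw [Matrix.fromBlocks_multiply]
  congr 1 <;>
    (ext i j; fin_cases i <;> fin_cases j <;> simp [Matrix.mul_apply, Fin.sum_univ_two])

theorem Bk_one : Bk (1 : F) 0 0 1 = 1 := by
  unfold Bk
  have e0 : (!![0, 0; 0, 0] : Matrix (Fin 2) (Fin 2) F) = 0 := by
    ext i j
    fin_cases i <;> fin_cases j <;> rfl
  rw [← Matrix.one_fin_two, e0, Matrix.fromBlocks_one]

theorem Bk_trace (a b c d : F) : Matrix.trace (Bk a b c d) = a + d + 2 := by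
  unfold Bk
  simp only [Matrix.trace, Matrix.diag_apply, Fintype.sum_sum_type, Matrix.fromBlocks_apply₁₁,
    Matrix.fromBlocks_apply₂₂, Fin.sum_univ_two]
  simp
  ring

theorem Bk_congr {a b c d a' b' c' d' : F} (h1 : a = a') (h2 : b = b') (h3 : c = c')
    (h4 : d = d') : Bk a b c d = Bk a' b' c' d' := by
  rw [h1, h2, h3, h4]

theorem Bk_sadj (a b c d : F) : sadj (Bk a b c d) = Bk d (-b) (-c) a := by
  unfold sadj Bk Matrix.J
  rw [Matrix.fromBlocks_transpose, Matrix.fromBlocks_neg, Matrix.fromBlocks_multiply,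
    Matrix.fromBlocks_multiply]
  congr 1 <;>
    (ext i j; fin_cases i <;> fin_cases j <;> simp [Matrix.mul_apply, Fin.sum_univ_two])

theorem exists_Bg (a b c d : F) (h : a * d - b * c = 1) :
    ∃ x : GL (Fin 2 ⊕ Fin 2) F, x.val = Bk a b c d ∧ (x⁻¹).val = Bk d (-b) (-c) a ∧
      x ∈ Cfsg.spGL 2 F := by
  have e1 : Bk a b c d * Bk d (-b) (-c) a = 1 := by
    rw [Bk_mul, ← Bk_one]
    exact Bk_congr (by linear_combination h) (by ring) (by ring) (by linear_combination h)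
  have e2 : Bk d (-b) (-c) a * Bk a b c d = 1 := by
    rw [Bk_mul, ← Bk_one]
    exact Bk_congr (by linear_combination h) (by ring) (by ring) (by linear_combination h)
  refine ⟨⟨Bk a b c d, Bk d (-b) (-c) a, e1, e2⟩, rfl, rfl, ?_⟩
  rw [mem_spGL_iff_sadj]
  show sadj (Bk a b c d) * Bk a b c d = 1
  rw [Bk_sadj, e2]

theorem Bk3_pow : Bk (0 : F) (-1) 1 (-1) ^ 3 = 1 := by
  rw [pow_succ, pow_succ, pow_one, Bk_mul, Bk_mul, ← Bk_one]
  exact Bk_congr (by ring) (by ring) (by ring) (by ring)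

theorem Bk5_pow (t : F) (ht : t ^ 2 + t - 1 = 0) : Bk (0 : F) (-1) 1 t ^ 5 = 1 := by
  rw [pow_succ, pow_succ, pow_succ, pow_succ, pow_one, Bk_mul, Bk_mul, Bk_mul, Bk_mul, ← Bk_one]
  exact Bk_congr (by linear_combination (-(t - 1)) * ht)
    (by linear_combination (-(t ^ 2 - t - 1)) * ht)
    (by linear_combination (t ^ 2 - t - 1) * ht)
    (by linear_combination (t ^ 3 - t ^ 2 - 2 * t + 1) * ht)

theorem Bk_entry (a b c d : F) : Bk a b c d (Sum.inl 0) (Sum.inr 0) = b := by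
  simp [Bk]

theorem one_add_pow (E : Matrix (Fin 2 ⊕ Fin 2) (Fin 2 ⊕ Fin 2) F) (hE : E * E = 0) (k : ℕ) :
    (1 + E) ^ k = 1 + (k : F) • E := by
  induction k with
  | zero => rw [pow_zero, Nat.cast_zero, zero_smul, add_zero]
  | succ k ih =>
    rw [pow_succ, ih, add_mul, Matrix.one_mul, Matrix.smul_mul, mul_add, Matrix.mul_one, hE,
      add_zero, Nat.cast_succ, add_smul, one_smul]
    abel

/-- A root of `t² + t - 1` exists in characteristic `p ≡ ±1 (mod 5)`, `p` odd. -/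
theorem exists_golden_odd {p : ℕ} [Fact p.Prime] [CharP F p] (hodd : p ≠ 2) (h2 : (2 : F) ≠ 0)
    (hp5 : p % 5 = 1 ∨ p % 5 = 4) : ∃ t : F, t ^ 2 + t - 1 = 0 := by
  have : Fact (Nat.Prime 5) := ⟨by norm_num⟩
  have hsq : IsSquare ((5 : ℕ) : ZMod p) := by
    rw [← ZMod.exists_sq_eq_prime_iff_of_mod_four_eq_one (p := 5) (q := p) (by norm_num) hodd]
    have h : (p : ZMod 5) = ((p % 5 : ℕ) : ZMod 5) := by rw [ZMod.natCast_mod]
    rw [h]
    rcases hp5 with h' | h'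
    · rw [h']
      exact ⟨1, by simp⟩
    · rw [h']
      exact ⟨2, by norm_num⟩
  obtain ⟨s, hs⟩ := hsq
  have hs' : (ZMod.castHom (dvd_refl p) F) s * (ZMod.castHom (dvd_refl p) F) s = 5 := by
    have h1 := congrArg (ZMod.castHom (dvd_refl p) F) hs
    rw [map_natCast, map_mul] at h1
    rw [← h1]
    norm_num
  obtain ⟨u, hu⟩ : ∃ u : F, 2 * u = 1 := ⟨2⁻¹, mul_inv_cancel₀ h2⟩
  refine ⟨((ZMod.castHom (dvd_refl p) F) s - 1) * u, ?_⟩
  linear_combination u ^ 2 * hs' +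
    (1 + 2 * u - ((ZMod.castHom (dvd_refl p) F) s - 1) * u) * hu

/-- An element of order three of `Sp_4(F)` with eigenvalues `ω, ω⁻¹, 1, 1` is not conjugate into
the normalizer when `3 ≠ 0`. -/
theorem bad_three (P : QData R) (hRf : R ≤ Cfsg.spGL 2 F) (h3 : (3 : F) ≠ 0) :
    ¬ (∀ x ∈ Cfsg.spGL 2 F,
      (∃ z : F, ((x ^ 3 : GL (Fin 2 ⊕ Fin 2) F) : Matrix (Fin 2 ⊕ Fin 2) (Fin 2 ⊕ Fin 2) F) =
        z • (1 : Matrix (Fin 2 ⊕ Fin 2) (Fin 2 ⊕ Fin 2) F)) →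
      (∀ z : F, (x : Matrix (Fin 2 ⊕ Fin 2) (Fin 2 ⊕ Fin 2) F) ≠
        z • (1 : Matrix (Fin 2 ⊕ Fin 2) (Fin 2 ⊕ Fin 2) F)) →
      ∃ g ∈ Cfsg.spGL 2 F, g⁻¹ * x * g ∈ Cfsg.Geo.subgroupNormalizer R) := by
  have h2 := P.two
  obtain ⟨x, hxv, hxi, hxS⟩ := exists_Bg (0 : F) (-1) 1 (-1) (by ring)
  have hx3 : x ^ 3 = 1 := by
    apply Units.ext
    rw [Units.val_pow_eq_pow_val, hxv, Bk3_pow, Units.val_one]
  have htr : Matrix.trace x.val = 1 := by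
    rw [hxv, Bk_trace]
    ring
  have htri : Matrix.trace (x⁻¹).val = 1 := by
    rw [hxi, Bk_trace]
    ring
  have hns : ∀ z : F, x.val ≠ z • (1 : Matrix (Fin 2 ⊕ Fin 2) (Fin 2 ⊕ Fin 2) F) := by
    intro z hz
    rw [hxv] at hz
    have h := congrFun (congrFun hz (Sum.inl 0)) (Sum.inr 0)
    rw [Bk_entry] at h
    simp at h
  apply bad_of_elt 3 x hxS hx3 hns
  intro g hgS hg
  have hn3 := conj_pow_one x g 3 hx3
  have hnns := conj_nonscalar x g hns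
  have hnS : g⁻¹ * x * g ∈ Cfsg.spGL 2 F :=
    Subgroup.mul_mem _ (Subgroup.mul_mem _ (Subgroup.inv_mem _ hgS) hxS) hgS
  have htn : Matrix.trace (g⁻¹ * x * g).val = 1 := by rw [conj_trace, htr]
  have htni : Matrix.trace ((g⁻¹ * x * g)⁻¹).val = 1 := by
    have e : (g⁻¹ * x * g)⁻¹ = g⁻¹ * x⁻¹ * g := by group
    rw [e, conj_trace, htri]
  have hcard := card_fix_trace P (g⁻¹ * x * g) hg 3 (by norm_num) (by norm_num) hn3
  rw [htn, htni] at hcard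
  rcases card_three P (g⁻¹ * x * g) hg hn3 hnns with hc | hc
  · have ht := three_trace P hRf (g⁻¹ * x * g) hg hnS hn3 hc
    rw [htn] at ht
    apply h2
    linear_combination ht
  · rw [hc] at hcard
    push_cast at hcard
    have h6 : (2 : F) * 3 = 0 := by linear_combination hcard
    rcases mul_eq_zero.mp h6 with h | h
    · exact h2 h
    · exact h3 h

/-- An element of order five of `Sp_4(p)` with eigenvalues `ζ, ζ⁻¹, 1, 1` (`p ≡ ±1 (mod 5)`) is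
not conjugate into the normalizer. -/
theorem bad_five {p : ℕ} [Fact p.Prime] [CharP F p] (P : QData R) (hodd : p ≠ 2)
    (hp5 : p % 5 = 1 ∨ p % 5 = 4) :
    ¬ (∀ x ∈ Cfsg.spGL 2 F,
      (∃ z : F, ((x ^ 5 : GL (Fin 2 ⊕ Fin 2) F) : Matrix (Fin 2 ⊕ Fin 2) (Fin 2 ⊕ Fin 2) F) =
        z • (1 : Matrix (Fin 2 ⊕ Fin 2) (Fin 2 ⊕ Fin 2) F)) →
      (∀ z : F, (x : Matrix (Fin 2 ⊕ Fin 2) (Fin 2 ⊕ Fin 2) F) ≠
        z • (1 : Matrix (Fin 2 ⊕ Fin 2) (Fin 2 ⊕ Fin 2) F)) →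
      ∃ g ∈ Cfsg.spGL 2 F, g⁻¹ * x * g ∈ Cfsg.Geo.subgroupNormalizer R) := by
  have hpp : p.Prime := Fact.out
  have h5F : (5 : F) ≠ 0 := by
    have h5' : ((5 : ℕ) : F) ≠ 0 := by
      intro h
      rw [CharP.cast_eq_zero_iff F p] at h
      have hp5' : p = 5 := (Nat.prime_dvd_prime_iff_eq hpp (by norm_num)).mp h
      rw [hp5'] at hp5
      omega
    exact_mod_cast h5'
  obtain ⟨t, ht⟩ := exists_golden_odd (F := F) hodd P.two hp5
  obtain ⟨x, hxv, hxi, hxS⟩ := exists_Bg (0 : F) (-1) 1 t (by ring)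
  have hx5 : x ^ 5 = 1 := by
    apply Units.ext
    rw [Units.val_pow_eq_pow_val, hxv, Bk5_pow t ht, Units.val_one]
  have htr : Matrix.trace x.val = t + 2 := by
    rw [hxv, Bk_trace]
    ring
  have htri : Matrix.trace (x⁻¹).val = t + 2 := by
    rw [hxi, Bk_trace]
    ring
  have hns : ∀ z : F, x.val ≠ z • (1 : Matrix (Fin 2 ⊕ Fin 2) (Fin 2 ⊕ Fin 2) F) := by
    intro z hz
    rw [hxv] at hz
    have h := congrFun (congrFun hz (Sum.inl 0)) (Sum.inr 0)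
    rw [Bk_entry] at h
    simp at h
  apply bad_of_elt 5 x hxS hx5 hns
  intro g hgS hg
  have hn5 := conj_pow_one x g 5 hx5
  have hnns := conj_nonscalar x g hns
  obtain ⟨h1, -⟩ := trace_five P (g⁻¹ * x * g) hg hn5 hnns
  have e : (g⁻¹ * x * g)⁻¹ = g⁻¹ * x⁻¹ * g := by group
  rw [e, conj_trace, conj_trace, htr, htri] at h1
  apply h5F
  linear_combination (3 * t - 1) * h1 - (3 * t + 8) * ht

/-- In odd characteristic `r`, a symplectic transvection (of order `r`) is not conjugate into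
the normalizer. -/
theorem bad_char (P : QData R) (r : ℕ) [Fact r.Prime] (hr2 : r ≠ 2) (hr0 : ((r : ℕ) : F) = 0) :
    ¬ (∀ x ∈ Cfsg.spGL 2 F,
      (∃ z : F, ((x ^ r : GL (Fin 2 ⊕ Fin 2) F) : Matrix (Fin 2 ⊕ Fin 2) (Fin 2 ⊕ Fin 2) F) =
        z • (1 : Matrix (Fin 2 ⊕ Fin 2) (Fin 2 ⊕ Fin 2) F)) →
      (∀ z : F, (x : Matrix (Fin 2 ⊕ Fin 2) (Fin 2 ⊕ Fin 2) F) ≠
        z • (1 : Matrix (Fin 2 ⊕ Fin 2) (Fin 2 ⊕ Fin 2) F)) →
      ∃ g ∈ Cfsg.spGL 2 F, g⁻¹ * x * g ∈ Cfsg.Geo.subgroupNormalizer R) := by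
  have hrp : r.Prime := Fact.out
  obtain ⟨E, hEdef⟩ : ∃ E : Matrix (Fin 2 ⊕ Fin 2) (Fin 2 ⊕ Fin 2) F,
      E = Matrix.vecMulVec (Pi.single (Sum.inl 0) 1) (Pi.single (Sum.inr 0) 1) := ⟨_, rfl⟩
  have hdot : (Pi.single (Sum.inr 0) 1 : Fin 2 ⊕ Fin 2 → F) ⬝ᵥ Pi.single (Sum.inl 0) 1 = 0 := by
    simp
  have hE : E * E = 0 := by
    rw [hEdef, Matrix.vecMulVec_mul_vecMulVec, hdot, zero_smul, Matrix.vecMulVec_zero]
  have hrank : ∀ M : Matrix (Fin 2 ⊕ Fin 2) (Fin 2 ⊕ Fin 2) F,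
      E * M * E = Matrix.trace (M * E) • E := by
    intro M
    rw [hEdef]
    exact vmv_sandwich _ _ M
  obtain ⟨x, hxv, -, hxS⟩ := exists_Bg (1 : F) 1 0 1 (by ring)
  have hxE : x.val = 1 + E := by
    rw [hxv, hEdef]
    ext i j
    rcases i with i | i <;> rcases j with j | j <;> fin_cases i <;> fin_cases j <;>
      simp [Bk, Matrix.vecMulVec_apply, Matrix.one_apply]
  have hxr : x ^ r = 1 := by
    apply Units.ext
    rw [Units.val_pow_eq_pow_val, hxE, one_add_pow E hE, hr0, zero_smul, add_zero, Units.val_one]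
  have hns : ∀ z : F, x.val ≠ z • (1 : Matrix (Fin 2 ⊕ Fin 2) (Fin 2 ⊕ Fin 2) F) := by
    intro z hz
    rw [hxv] at hz
    have h := congrFun (congrFun hz (Sum.inl 0)) (Sum.inr 0)
    rw [Bk_entry] at h
    simp at h
  apply bad_of_elt r x hxS hxr hns
  intro g _ hg
  have hE' : (g⁻¹).val * E * g.val * ((g⁻¹).val * E * g.val) = 0 := by
    have e : (g⁻¹).val * E * g.val * ((g⁻¹).val * E * g.val) =
        (g⁻¹).val * (E * (g.val * (g⁻¹).val) * E) * g.val := by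
      simp only [Matrix.mul_assoc]
    rw [e, Units.mul_inv, Matrix.mul_one, hE, Matrix.mul_zero, Matrix.zero_mul]
  have hnE : (g⁻¹ * x * g).val = 1 + (g⁻¹).val * E * g.val := by
    rw [Units.val_mul, Units.val_mul, hxE, Matrix.mul_add, Matrix.add_mul, Matrix.mul_one,
      Units.inv_mul]
  obtain ⟨s, hs⟩ := transv_scalar P (g⁻¹ * x * g) hg r hrp hr2 (conj_pow_one x g r hxr) _ hE'
    (conj_rank E hrank g) hnE
  exact conj_nonscalar x g hns s hs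

/-- For a prime `r ≥ 7` dividing the index, some element of `Sp_4(F)` of order `r` is not
conjugate into the normalizer. -/
theorem bad_ge_seven [Fintype F] (P : QData R) (r : ℕ) [Fact r.Prime] (hr7 : 7 ≤ r)
    (hΩ : r ∣ (Cfsg.Geo.subgroupNormalizer R).relIndex (Cfsg.spGL 2 F)) :
    ¬ (∀ x ∈ Cfsg.spGL 2 F,
      (∃ z : F, ((x ^ r : GL (Fin 2 ⊕ Fin 2) F) : Matrix (Fin 2 ⊕ Fin 2) (Fin 2 ⊕ Fin 2) F) =
        z • (1 : Matrix (Fin 2 ⊕ Fin 2) (Fin 2 ⊕ Fin 2) F)) →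
      (∀ z : F, (x : Matrix (Fin 2 ⊕ Fin 2) (Fin 2 ⊕ Fin 2) F) ≠
        z • (1 : Matrix (Fin 2 ⊕ Fin 2) (Fin 2 ⊕ Fin 2) F)) →
      ∃ g ∈ Cfsg.spGL 2 F, g⁻¹ * x * g ∈ Cfsg.Geo.subgroupNormalizer R) := by
  classical
  intro hall
  have hrp : r.Prime := Fact.out
  have hdvd : r ∣ Nat.card ↥(Cfsg.spGL 2 F) := dvd_trans hΩ (Subgroup.relIndex_dvd_card _ _)
  obtain ⟨x, hx⟩ := exists_prime_orderOf_dvd_card' r hdvd
  have hxr : (x : GL (Fin 2 ⊕ Fin 2) F) ^ r = 1 := by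
    have h1 : x ^ r = 1 := by rw [← hx]; exact pow_orderOf_eq_one x
    have h2 := congrArg Subtype.val h1
    rw [Subgroup.coe_pow, Subgroup.coe_one] at h2
    exact h2
  have hx1 : (x : GL (Fin 2 ⊕ Fin 2) F) ≠ 1 := by
    intro h1
    have h4 : x = 1 := Subtype.ext h1
    rw [h4, orderOf_one] at hx
    have := hrp.one_lt
    omega
  have hns : ∀ z : F, ((x : GL (Fin 2 ⊕ Fin 2) F) : Matrix (Fin 2 ⊕ Fin 2) (Fin 2 ⊕ Fin 2) F) ≠
      z • (1 : Matrix (Fin 2 ⊕ Fin 2) (Fin 2 ⊕ Fin 2) F) := by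
    intro z hz
    have hsp := (mem_spGL_iff_sadj (x : GL (Fin 2 ⊕ Fin 2) F)).mp x.2
    rw [hz] at hsp
    rcases scalar_pm z hsp with h | h
    · apply hx1
      apply Units.ext
      rw [hz, h, one_smul, Units.val_one]
    · have h1 := congrArg
        (fun u : GL (Fin 2 ⊕ Fin 2) F => (u : Matrix (Fin 2 ⊕ Fin 2) (Fin 2 ⊕ Fin 2) F)) hxr
      simp only [Units.val_pow_eq_pow_val, Units.val_one] at h1
      have hodd : Odd r := hrp.odd_of_ne_two (by omega)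
      rw [hz, h, smul_pow, one_pow, hodd.neg_one_pow] at h1
      have h2' := congrFun (congrFun h1 (Sum.inl 0)) (Sum.inl 0)
      simp only [Matrix.smul_apply, Matrix.one_apply_eq, smul_eq_mul, mul_one] at h2'
      apply P.two
      linear_combination -h2'
  obtain ⟨g', -, hconj⟩ := hall x x.2 ⟨1, by rw [hxr, Units.val_one, one_smul]⟩ hns
  have hy := conj_pow_one (x : GL (Fin 2 ⊕ Fin 2) F) g' r hxr
  obtain ⟨ξ, hξ⟩ := scalar_of_ge_seven P (g'⁻¹ * (x : GL (Fin 2 ⊕ Fin 2) F) * g') hconj r hr7 hy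
  exact conj_nonscalar (x : GL (Fin 2 ⊕ Fin 2) F) g' hns ξ hξ

end bad

end Cfsg.Agent.Lib.Helper37.Pauli5E
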