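import Mathlib
import Cfsg.Agent.Lib.Helper46.PsuStmt
import Cfsg.Agent.Lib.Helper46.PsuROOTS
import Cfsg.Agent.H84.PslP3

set_option autoImplicit false

/-!
# Auxiliary lemmas for the torus pieces TCE / TCO of S5172 (helper37)

Transposes of elements of `GJ`, identity-plus-block matrices `E2` (2×2 block) and `emb`
(3×3 block) with their multiplication rules.
-/

namespace Cfsg.Agent.Lib.Helper37.PsuTorAux

open Matrix Cfsg.Agent.Lib.Helper43.SUBase Cfsg.Agent.H84.PslDefs
  Cfsg.Agent.Lib.Helper46.PsuDefs Cfsg.Agent.Lib.Helper46.PsuStmt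

universe u

variable {K : Type u} [Field K] {q : ℕ} (D : QD K q) {n : ℕ}

theorem adjJ_transpose (M : Matrix (Fin n) (Fin n) K) : adjJ D n Mᵀ = (adjJ D n M)ᵀ := by
  ext i j
  simp only [adjJ_apply, Matrix.transpose_apply]

/-- transpose in `SL_n` -/
def tr (g : SpecialLinearGroup (Fin n) K) : SpecialLinearGroup (Fin n) K :=
  ⟨(g : Matrix (Fin n) (Fin n) K)ᵀ, by rw [Matrix.det_transpose]; exact g.2⟩

theorem tr_coe (g : SpecialLinearGroup (Fin n) K) :
    ((tr g : SpecialLinearGroup (Fin n) K) : Matrix (Fin n) (Fin n) K) =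
      (g : Matrix (Fin n) (Fin n) K)ᵀ := rfl

theorem tr_apply (g : SpecialLinearGroup (Fin n) K) (i j : Fin n) : tr g i j = g j i := rfl

theorem tr_mem_GJ {g : SpecialLinearGroup (Fin n) K} (hg : g ∈ GJ D n) : tr g ∈ GJ D n := by
  rw [mem_GJ, tr_coe, adjJ_transpose, ← Matrix.transpose_mul, mul_adjJ_of_mem D n hg,
    Matrix.transpose_one]

theorem tr_pow_eq_one {g : SpecialLinearGroup (Fin n) K} {m : ℕ} (h : g ^ m = 1) :
    tr g ^ m = 1 := by
  have e : ((tr g ^ m : SpecialLinearGroup (Fin n) K) : Matrix (Fin n) (Fin n) K) =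
      ((1 : SpecialLinearGroup (Fin n) K) : Matrix (Fin n) (Fin n) K) := by
    rw [Matrix.SpecialLinearGroup.coe_pow, tr_coe, ← Matrix.transpose_pow,
      ← Matrix.SpecialLinearGroup.coe_pow, h, Matrix.SpecialLinearGroup.coe_one,
      Matrix.transpose_one]
  exact Subtype.ext e

theorem gen_of_UJ (p : ℕ) [Fact p.Prime] [CharP K p] {g : SpecialLinearGroup (Fin n) K}
    (hg : g ∈ UJ D n) :
    g ∈ GJ D n ∧ (∀ i j : Fin n, lamC n i < lamC n j → g i j = 0) ∧ ∃ e : ℕ, g ^ (p ^ e) = 1 := by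
  have h := (mem_UJ D n g).1 hg
  refine ⟨h.1, fun i j hij => h.2.1 i j ?_, Cfsg.Agent.H84.PslP3.uni_pow n K p g ?_⟩
  · by_contra hc
    exact absurd (lamC_antitone n i j (not_lt.1 hc)) (not_le.2 hij)
  · exact (Subgroup.mem_inf.1 hg).2

theorem gen_of_tr (p : ℕ) [Fact p.Prime] [CharP K p] {g : SpecialLinearGroup (Fin n) K}
    (hg : g ∈ UJ D n)
    (hsupp : ∀ i j : Fin n, i < j → lamC n j < lamC n i → g i j = 0) :
    tr g ∈ GJ D n ∧ (∀ i j : Fin n, lamC n i < lamC n j → tr g i j = 0) ∧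
      ∃ e : ℕ, tr g ^ (p ^ e) = 1 := by
  have h := (mem_UJ D n g).1 hg
  obtain ⟨e, he⟩ := Cfsg.Agent.H84.PslP3.uni_pow n K p g (Subgroup.mem_inf.1 hg).2
  refine ⟨tr_mem_GJ D h.1, fun i j hij => ?_, e, tr_pow_eq_one he⟩
  rw [tr_apply]
  apply hsupp j i _ hij
  by_contra hc
  exact absurd (lamC_antitone n i j (not_lt.1 hc)) (not_le.2 hij)

/-! ### 2×2 blocks -/

/-- identity plus a 2×2 block at the positions `k, k'` -/
def E2 (k k' : Fin n) (a b c d : K) : Matrix (Fin n) (Fin n) K :=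
  1 + Matrix.single k k a + Matrix.single k k' b + Matrix.single k' k c + Matrix.single k' k' d

theorem E2_mul {k k' : Fin n} (h : k ≠ k') (a b c d a' b' c' d' : K) :
    E2 k k' a b c d * E2 k k' a' b' c' d' =
      E2 k k' (a + a' + a * a' + b * c') (b + b' + a * b' + b * d')
        (c + c' + c * a' + d * c') (d + d' + c * b' + d * d') := by
  unfold E2
  simp only [Matrix.add_mul, Matrix.mul_add, Matrix.one_mul, Matrix.mul_one,
    Matrix.single_mul_single_same, Matrix.single_mul_single_of_ne _ _ _ _ h,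
    Matrix.single_mul_single_of_ne _ _ _ _ h.symm, Matrix.single_add, add_zero]
  abel

theorem E2_congr {k k' : Fin n} {a b c d a' b' c' d' : K} (ha : a = a') (hb : b = b')
    (hc : c = c') (hd : d = d') : E2 k k' a b c d = E2 k k' a' b' c' d' := by
  rw [ha, hb, hc, hd]

theorem E2_transpose (k k' : Fin n) (a b c d : K) :
    (E2 k k' a b c d)ᵀ = E2 k k' a c b d := by
  unfold E2
  simp only [Matrix.transpose_add, Matrix.transpose_one, Matrix.transpose_single]
  abel

theorem longM_eq (k : Fin n) (c : K) : longM n k c = E2 k (Fin.rev k) 0 c 0 0 := by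
  unfold longM E2
  simp only [Matrix.single_zero, add_zero]

theorem diag_eq_E2 {k k' : Fin n} (h : k ≠ k') (M : Matrix (Fin n) (Fin n) K)
    (hd : ∀ i j, i ≠ j → M i j = 0) (h1 : ∀ i, i ≠ k → i ≠ k' → M i i = 1) :
    M = E2 k k' (M k k - 1) 0 0 (M k' k' - 1) := by
  unfold E2
  rw [Matrix.single_zero, Matrix.single_zero, add_zero, add_zero]
  ext i j
  rw [Matrix.add_apply, Matrix.add_apply, Matrix.single_apply, Matrix.single_apply]
  by_cases hij : i = j
  · rw [← hij, Matrix.one_apply_eq]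
    by_cases hi0 : i = k
    · rw [hi0, if_pos ⟨rfl, rfl⟩, if_neg (fun hh => h hh.1.symm)]; ring
    · by_cases hi1 : i = k'
      · rw [hi1, if_neg (fun hh => h hh.1), if_pos ⟨rfl, rfl⟩]; ring
      · rw [if_neg (fun hh => hi0 hh.1.symm), if_neg (fun hh => hi1 hh.1.symm), h1 i hi0 hi1]
        ring
  · rw [Matrix.one_apply_ne hij, hd i j hij, if_neg (fun hh => hij (hh.1.symm.trans hh.2)),
      if_neg (fun hh => hij (hh.1.symm.trans hh.2))]
    ring

/-! ### 3×3 blocks -/

/-- the matrix with a 3×3 block at positions `k0, k1, k2`, zero elsewhere -/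
def iota (k0 k1 k2 : Fin n) (A : Matrix (Fin 3) (Fin 3) K) : Matrix (Fin n) (Fin n) K :=
  Matrix.single k0 k0 (A 0 0) + Matrix.single k0 k1 (A 0 1) + Matrix.single k0 k2 (A 0 2) +
  Matrix.single k1 k0 (A 1 0) + Matrix.single k1 k1 (A 1 1) + Matrix.single k1 k2 (A 1 2) +
  Matrix.single k2 k0 (A 2 0) + Matrix.single k2 k1 (A 2 1) + Matrix.single k2 k2 (A 2 2)

theorem iota_mul {k0 k1 k2 : Fin n} (h01 : k0 ≠ k1) (h02 : k0 ≠ k2) (h12 : k1 ≠ k2)
    (A B : Matrix (Fin 3) (Fin 3) K) :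
    iota k0 k1 k2 A * iota k0 k1 k2 B = iota k0 k1 k2 (A * B) := by
  unfold iota
  simp only [Matrix.add_mul, Matrix.mul_add, Matrix.single_mul_single_same,
    Matrix.single_mul_single_of_ne _ _ _ _ h01, Matrix.single_mul_single_of_ne _ _ _ _ h01.symm,
    Matrix.single_mul_single_of_ne _ _ _ _ h02, Matrix.single_mul_single_of_ne _ _ _ _ h02.symm,
    Matrix.single_mul_single_of_ne _ _ _ _ h12, Matrix.single_mul_single_of_ne _ _ _ _ h12.symm,
    Matrix.mul_apply, Fin.sum_univ_three, Matrix.single_add, add_zero, zero_add]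
  abel

theorem iota_add (k0 k1 k2 : Fin n) (A B : Matrix (Fin 3) (Fin 3) K) :
    iota k0 k1 k2 (A + B) = iota k0 k1 k2 A + iota k0 k1 k2 B := by
  unfold iota
  simp only [Matrix.add_apply, Matrix.single_add]
  abel

theorem iota_transpose (k0 k1 k2 : Fin n) (A : Matrix (Fin 3) (Fin 3) K) :
    (iota k0 k1 k2 A)ᵀ = iota k0 k1 k2 Aᵀ := by
  unfold iota
  simp only [Matrix.transpose_add, Matrix.transpose_single, Matrix.transpose_apply]
  abel

/-- identity plus a 3×3 block (given by the 3×3 matrix `M`) at positions `k0, k1, k2` -/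
def emb (k0 k1 k2 : Fin n) (M : Matrix (Fin 3) (Fin 3) K) : Matrix (Fin n) (Fin n) K :=
  1 + iota k0 k1 k2 (M - 1)

theorem emb_mul {k0 k1 k2 : Fin n} (h01 : k0 ≠ k1) (h02 : k0 ≠ k2) (h12 : k1 ≠ k2)
    (M N : Matrix (Fin 3) (Fin 3) K) :
    emb k0 k1 k2 M * emb k0 k1 k2 N = emb k0 k1 k2 (M * N) := by
  unfold emb
  have e : M * N - 1 = (M - 1) + (N - 1) + (M - 1) * (N - 1) := by noncomm_ring
  rw [e, iota_add, iota_add, ← iota_mul h01 h02 h12]
  simp only [Matrix.add_mul, Matrix.mul_add, Matrix.one_mul, Matrix.mul_one]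
  abel

theorem emb_transpose (k0 k1 k2 : Fin n) (M : Matrix (Fin 3) (Fin 3) K) :
    (emb k0 k1 k2 M)ᵀ = emb k0 k1 k2 Mᵀ := by
  unfold emb
  rw [Matrix.transpose_add, Matrix.transpose_one, iota_transpose, Matrix.transpose_sub,
    Matrix.transpose_one]

theorem diag_eq_singles {k0 k1 k2 : Fin n} (h01 : k0 ≠ k1) (h02 : k0 ≠ k2) (h12 : k1 ≠ k2)
    (M : Matrix (Fin n) (Fin n) K) (hd : ∀ i j, i ≠ j → M i j = 0)
    (h1 : ∀ i, i ≠ k0 → i ≠ k1 → i ≠ k2 → M i i = 1) :
    M = 1 + Matrix.single k0 k0 (M k0 k0 - 1) + Matrix.single k1 k1 (M k1 k1 - 1) +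
      Matrix.single k2 k2 (M k2 k2 - 1) := by
  ext i j
  rw [Matrix.add_apply, Matrix.add_apply, Matrix.add_apply, Matrix.single_apply,
    Matrix.single_apply, Matrix.single_apply]
  by_cases hij : i = j
  · rw [← hij, Matrix.one_apply_eq]
    by_cases hi0 : i = k0
    · rw [hi0, if_pos ⟨rfl, rfl⟩, if_neg (fun hh => h01 hh.1.symm),
        if_neg (fun hh => h02 hh.1.symm)]
      ring
    · by_cases hi1 : i = k1
      · rw [hi1, if_neg (fun hh => h01 hh.1), if_pos ⟨rfl, rfl⟩,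
          if_neg (fun hh => h12 hh.1.symm)]
        ring
      · by_cases hi2 : i = k2
        · rw [hi2, if_neg (fun hh => h02 hh.1), if_neg (fun hh => h12 hh.1),
            if_pos ⟨rfl, rfl⟩]
          ring
        · rw [if_neg (fun hh => hi0 hh.1.symm), if_neg (fun hh => hi1 hh.1.symm),
            if_neg (fun hh => hi2 hh.1.symm), h1 i hi0 hi1 hi2]
          ring
  · rw [Matrix.one_apply_ne hij, hd i j hij, if_neg (fun hh => hij (hh.1.symm.trans hh.2)),
      if_neg (fun hh => hij (hh.1.symm.trans hh.2)),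
      if_neg (fun hh => hij (hh.1.symm.trans hh.2))]
    ring

/-- the 3×3 diagonal matrix -/
def d3 (x y z : K) : Matrix (Fin 3) (Fin 3) K := !![x, 0, 0; 0, y, 0; 0, 0, z]

theorem d3_congr {x y z x' y' z' : K} (hx : x = x') (hy : y = y') (hz : z = z') :
    d3 x y z = d3 x' y' z' := by rw [hx, hy, hz]

theorem diag_eq_emb {k0 k1 k2 : Fin n} (h01 : k0 ≠ k1) (h02 : k0 ≠ k2) (h12 : k1 ≠ k2)
    (M : Matrix (Fin n) (Fin n) K) (hd : ∀ i j, i ≠ j → M i j = 0)
    (h1 : ∀ i, i ≠ k0 → i ≠ k1 → i ≠ k2 → M i i = 1) :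
    M = emb k0 k1 k2 (d3 (M k0 k0) (M k1 k1) (M k2 k2)) := by
  refine (diag_eq_singles h01 h02 h12 M hd h1).trans ?_
  unfold emb iota d3
  simp only [Matrix.sub_apply, Matrix.of_apply, Matrix.cons_val', Matrix.cons_val_zero,
    Matrix.cons_val_one, Matrix.cons_val_two, Matrix.cons_val_fin_one, Matrix.one_apply_eq,
    Matrix.one_apply_ne, ne_eq, Fin.reduceEq, not_false_eq_true, sub_zero, sub_self,
    Matrix.single_zero, add_zero, zero_add, Matrix.head_cons, Matrix.tail_cons, Matrix.empty_val',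
    Matrix.head_fin_const]
  abel

/-- the 3×3 upper unitriangular unitary matrix -/
def X3 (a b : K) : Matrix (Fin 3) (Fin 3) K := !![1, a, b; 0, 1, -D.φ a; 0, 0, 1]

/-- the 3×3 antidiagonal matrix -/
def N3 (b : K) : Matrix (Fin 3) (Fin 3) K := !![0, 0, b; 0, -D.φ b / b, 0; 1 / D.φ b, 0, 0]

theorem midM_eq (k k1 : Fin n) (a b : K) :
    midM D n k k1 a b = emb k k1 (Fin.rev k) (X3 D a b) := by
  unfold midM emb iota X3
  simp only [Matrix.sub_apply, Matrix.of_apply, Matrix.cons_val', Matrix.cons_val_zero,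
    Matrix.cons_val_one, Matrix.cons_val_two, Matrix.cons_val_fin_one, Matrix.one_apply_eq,
    Matrix.one_apply_ne, ne_eq, Fin.reduceEq, not_false_eq_true, sub_zero, sub_self,
    Matrix.single_zero, add_zero, zero_add, Matrix.head_cons, Matrix.tail_cons, Matrix.empty_val',
    Matrix.head_fin_const, ← Matrix.single_neg]
  abel

theorem midM_supp {k k1 : Fin n} (hl1 : lamC n k = lamC n k1)
    (hl2 : lamC n k = lamC n (Fin.rev k)) {g : SpecialLinearGroup (Fin n) K} {a b : K}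
    (hg : (g : Matrix (Fin n) (Fin n) K) = midM D n k k1 a b) :
    ∀ i j : Fin n, i < j → lamC n j < lamC n i → g i j = 0 := by
  intro i j hij hl
  have e : g i j = (g : Matrix (Fin n) (Fin n) K) i j := rfl
  rw [e, hg, midM, Matrix.add_apply, Matrix.sub_apply, Matrix.add_apply,
    Matrix.one_apply_ne (ne_of_lt hij), Matrix.single_apply, Matrix.single_apply,
    Matrix.single_apply, if_neg, if_neg, if_neg]
  · ring
  all_goals
    rintro ⟨h1, h2⟩
    rw [← h1, ← h2] at hl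
    omega

/-- the 3×3 lower unitriangular unitary matrix -/
def Y3 (c d : K) : Matrix (Fin 3) (Fin 3) K := !![1, 0, 0; c, 1, 0; d, -D.φ c, 1]

theorem X3_transpose (c d : K) : (X3 D c d)ᵀ = Y3 D c d := by
  ext i j
  fin_cases i <;> fin_cases j <;> rfl

theorem lemA (a b : K) (hb : b ≠ 0) (h : b + D.φ b + a * D.φ a = 0) :
    X3 D a b * (X3 D (D.φ a / D.φ b) (1 / D.φ b))ᵀ * X3 D (a * D.φ b / b) b = N3 D b := by
  have hφb : D.φ b = -b - a * D.φ a := by linear_combination h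
  have hb' : -b - a * D.φ a ≠ 0 := by
    rw [← hφb]
    intro h0
    apply hb
    have := congrArg D.φ h0
    rwa [D.inv, map_zero] at this
  have hb'' : -b - D.φ a * a ≠ 0 := by rw [mul_comm]; exact hb'
  rw [X3_transpose]
  unfold X3 Y3 N3
  rw [Matrix.mul_fin_three, Matrix.mul_fin_three]
  ext i j
  fin_cases i <;> fin_cases j <;> simp [map_div₀, D.inv] <;> (try simp only [hφb]) <;>
    (try field_simp) <;> ring

theorem N3_mul (b c : K) :
    N3 D b * N3 D c = d3 (b * (1 / D.φ c)) (-D.φ b / b * (-D.φ c / c)) (1 / D.φ b * c) := by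
  ext i j
  fin_cases i <;> fin_cases j <;>
    simp [N3, d3, Matrix.mul_apply, Fin.sum_univ_three]

/-- the Weyl-type element `n(a, b)` of the central `SU_3` as a product of three generators -/
theorem exists_n (p : ℕ) [Fact p.Prime] [CharP K p] {k k1 : Fin n} (hkk1 : k < k1)
    (hk1 : k1 = Fin.rev k1) (hl1 : lamC n k = lamC n k1) (hl2 : lamC n k = lamC n (Fin.rev k))
    (a b : K) (hb : b ≠ 0) (h : b + D.φ b + a * D.φ a = 0) :
    ∃ g : SpecialLinearGroup (Fin n) K,
      g ∈ Subgroup.closure {x : SpecialLinearGroup (Fin n) K | x ∈ GJ D n ∧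
        (∀ i j : Fin n, lamC n i < lamC n j → x i j = 0) ∧ ∃ e : ℕ, x ^ (p ^ e) = 1} ∧
      (g : Matrix (Fin n) (Fin n) K) = emb k k1 (Fin.rev k) (N3 D b) := by
  have hφb : D.φ b ≠ 0 := by
    intro h0
    apply hb
    have := congrArg D.φ h0
    rwa [D.inv, map_zero] at this
  have h01 : k ≠ k1 := ne_of_lt hkk1
  have h12 : k1 ≠ Fin.rev k := by
    intro h'
    have h2 : Fin.rev k1 = k := by rw [h', Fin.rev_rev]
    rw [← hk1] at h2
    exact h01 h2.symm
  have h02 : k ≠ Fin.rev k := by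
    intro h'
    have h3 : Fin.rev k < Fin.rev k := by
      have : Fin.rev k1 < Fin.rev k := Fin.rev_lt_rev.2 hkk1
      rw [← hk1] at this
      exact lt_trans (by rw [← h']; exact hkk1) this
    exact lt_irrefl _ h3
  obtain ⟨x1, hx1, e1⟩ := Cfsg.Agent.Lib.Helper46.PsuROOTS.mid_exists D k k1 a b hkk1 hk1 h
  obtain ⟨x2, hx2, e2⟩ := Cfsg.Agent.Lib.Helper46.PsuROOTS.mid_exists D k k1
    (D.φ a / D.φ b) (1 / D.φ b) hkk1 hk1 (by
      simp only [map_div₀, D.inv, map_one]
      field_simp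
      linear_combination h)
  obtain ⟨x3, hx3, e3⟩ := Cfsg.Agent.Lib.Helper46.PsuROOTS.mid_exists D k k1
    (a * D.φ b / b) b hkk1 hk1 (by
      simp only [map_div₀, map_mul, D.inv]
      field_simp
      linear_combination h)
  refine ⟨x1 * tr x2 * x3, ?_, ?_⟩
  · exact Subgroup.mul_mem _ (Subgroup.mul_mem _ (Subgroup.subset_closure (gen_of_UJ D p hx1))
      (Subgroup.subset_closure (gen_of_tr D p hx2 (midM_supp D hl1 hl2 e2))))
      (Subgroup.subset_closure (gen_of_UJ D p hx3))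
  · rw [Matrix.SpecialLinearGroup.coe_mul, Matrix.SpecialLinearGroup.coe_mul, tr_coe, e1, e2, e3,
      midM_eq,
      midM_eq, midM_eq, emb_transpose, emb_mul h01 h02 h12, emb_mul h01 h02 h12, lemA D a b hb h]

end Cfsg.Agent.Lib.Helper37.PsuTorAux
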