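import Mathlib
import Cfsg.Agent.Lib.Helper46.PsuStmt
import Cfsg.Agent.Lib.Helper46.PsuROOTS
import Cfsg.Agent.Lib.Helper37.PsuTorAux

set_option autoImplicit false

/-!
# Piece TCE of S5172: the central torus, `n` even (helper37)
-/

namespace Cfsg.Agent.Lib.Helper37.PsuTCE

open Matrix Cfsg.Agent.Lib.Helper43.SUBase Cfsg.Agent.H84.PslDefs
  Cfsg.Agent.Lib.Helper46.PsuDefs Cfsg.Agent.Lib.Helper46.PsuStmt
  Cfsg.Agent.Lib.Helper37.PsuTorAux

universe u

theorem main : TorCEven.{u} := by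
  intro n K _ _ p _ _ q D hn hev a ha hdiag htor
  obtain ⟨k, hkv⟩ : ∃ k : Fin n, k.val = n / 2 - 1 := ⟨⟨n / 2 - 1, by omega⟩, rfl⟩
  have hrv : (Fin.rev k).val = n / 2 := by rw [Fin.val_rev]; omega
  have hlt : k < Fin.rev k := by rw [Fin.lt_def]; omega
  have hne : k ≠ Fin.rev k := ne_of_lt hlt
  have hlam : lamC n k = lamC n (Fin.rev k) := by
    simp only [lamC]
    split_ifs <;> omega
  -- the entries of `a`
  have hone : ∀ i : Fin n, i ≠ k → i ≠ Fin.rev k → a i i = 1 := by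
    intro i h1 h2
    apply htor
    have h1' : i.val ≠ n / 2 - 1 := fun h => h1 (Fin.ext (h.trans hkv.symm))
    have h2' : i.val ≠ n / 2 := fun h => h2 (Fin.ext (h.trans hrv.symm))
    omega
  have hdet : a k k * a (Fin.rev k) (Fin.rev k) = 1 := by
    have h1 : (a : Matrix (Fin n) (Fin n) K) = Matrix.diagonal (fun i => a i i) := by
      ext i j
      by_cases hij : i = j
      · rw [hij, Matrix.diagonal_apply_eq]
      · rw [Matrix.diagonal_apply_ne _ hij]; exact hdiag i j hij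
    have h2 : (a : Matrix (Fin n) (Fin n) K).det = 1 := a.2
    rw [h1, Matrix.det_diagonal] at h2
    exact ((Finset.prod_eq_mul k (Fin.rev k) hne (fun c _ hc => hone c hc.1 hc.2)
      (fun h => absurd (Finset.mem_univ _) h) (fun h => absurd (Finset.mem_univ _) h)).symm).trans
      h2
  have hun : D.φ (a (Fin.rev k) (Fin.rev k)) * a k k = 1 := by
    have h := (mem_GJ_iff_entries D n a).1 ha k k
    rw [if_pos rfl, Finset.sum_eq_single k] at h
    · exact h
    · intro l _ hl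
      rw [hdiag l k hl, mul_zero]
    · intro h'; exact absurd (Finset.mem_univ _) h'
  have hlam0 : a k k ≠ 0 := left_ne_zero_of_mul_eq_one hdet
  have hnu0 : a (Fin.rev k) (Fin.rev k) ≠ 0 := right_ne_zero_of_mul_eq_one hdet
  have hφnu : D.φ (a (Fin.rev k) (Fin.rev k)) = a (Fin.rev k) (Fin.rev k) :=
    mul_right_cancel₀ hlam0 (hun.trans (by rw [mul_comm]; exact hdet.symm))
  have hφlam : D.φ (a k k) = a k k := by
    have h1 : D.φ (a k k) * a (Fin.rev k) (Fin.rev k) = 1 := by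
      rw [← hφnu, ← map_mul, hdet, map_one]
    exact mul_right_cancel₀ hnu0 (h1.trans hdet.symm)
  have hnu : a (Fin.rev k) (Fin.rev k) = (a k k)⁻¹ := eq_inv_of_mul_eq_one_right hdet
  obtain ⟨ζ, hζ0, hζ⟩ := D.exists_skew
  -- the root elements
  have hX : ∀ c : K, D.φ c = -c → ∃ g : SpecialLinearGroup (Fin n) K, g ∈ UJ D n ∧
      (g : Matrix (Fin n) (Fin n) K) = E2 k (Fin.rev k) 0 c 0 0 := by
    intro c hc
    obtain ⟨g, hg, hgc⟩ := Cfsg.Agent.Lib.Helper46.PsuROOTS.long_exists D k c hlt hc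
    exact ⟨g, hg, by rw [hgc, longM_eq]⟩
  have hsupp : ∀ (g : SpecialLinearGroup (Fin n) K) (c : K),
      (g : Matrix (Fin n) (Fin n) K) = E2 k (Fin.rev k) 0 c 0 0 →
      ∀ i j : Fin n, i < j → lamC n j < lamC n i → g i j = 0 := by
    intro g c hg i j hij hl
    have e : g i j = (g : Matrix (Fin n) (Fin n) K) i j := rfl
    rw [e, hg]
    unfold E2
    rw [Matrix.single_zero, Matrix.single_zero, Matrix.single_zero, add_zero, add_zero, add_zero,
      Matrix.add_apply, Matrix.one_apply_ne (ne_of_lt hij), Matrix.single_apply, if_neg, add_zero]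
    rintro ⟨h1, h2⟩
    rw [← h1, ← h2] at hl
    omega
  obtain ⟨x1, hx1, ex1⟩ := hX (a k k * ζ) (by rw [map_mul, hφlam, hζ]; ring)
  obtain ⟨x2, hx2, ex2⟩ := hX (-(a k k * ζ)⁻¹) (by
    rw [map_neg, map_inv₀, map_mul, hφlam, hζ, mul_neg, inv_neg])
  obtain ⟨x3, hx3, ex3⟩ := hX (-ζ) (by rw [map_neg, hζ])
  obtain ⟨x4, hx4, ex4⟩ := hX ζ⁻¹ (by rw [map_inv₀, hζ, inv_neg])
  have key : a = x1 * tr x2 * x1 * x3 * tr x4 * x3 := by
    apply Subtype.ext
    have e : ((x1 * tr x2 * x1 * x3 * tr x4 * x3 : SpecialLinearGroup (Fin n) K) :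
        Matrix (Fin n) (Fin n) K) =
        E2 k (Fin.rev k) 0 (a k k * ζ) 0 0 * (E2 k (Fin.rev k) 0 (-(a k k * ζ)⁻¹) 0 0)ᵀ *
          E2 k (Fin.rev k) 0 (a k k * ζ) 0 0 * E2 k (Fin.rev k) 0 (-ζ) 0 0 *
          (E2 k (Fin.rev k) 0 ζ⁻¹ 0 0)ᵀ * E2 k (Fin.rev k) 0 (-ζ) 0 0 := by
      rw [Matrix.SpecialLinearGroup.coe_mul, Matrix.SpecialLinearGroup.coe_mul,
        Matrix.SpecialLinearGroup.coe_mul, Matrix.SpecialLinearGroup.coe_mul,
        Matrix.SpecialLinearGroup.coe_mul, tr_coe, tr_coe, ex1, ex2, ex3, ex4]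
    refine Eq.trans ?_ e.symm
    simp only [E2_transpose, E2_mul hne]
    refine (diag_eq_E2 hne (a : Matrix (Fin n) (Fin n) K) hdiag hone).trans ?_
    have e1 : ((a : Matrix (Fin n) (Fin n) K) (Fin.rev k) (Fin.rev k)) = (a k k)⁻¹ := hnu
    rw [e1]
    apply E2_congr
    · field_simp
      ring
    · field_simp
      ring
    · field_simp
      ring
    · field_simp
      ring
  rw [key]
  refine Subgroup.mul_mem _ (Subgroup.mul_mem _ (Subgroup.mul_mem _ (Subgroup.mul_mem _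
    (Subgroup.mul_mem _ ?_ ?_) ?_) ?_) ?_) ?_
  · exact Subgroup.subset_closure (gen_of_UJ D p hx1)
  · exact Subgroup.subset_closure (gen_of_tr D p hx2 (hsupp x2 _ ex2))
  · exact Subgroup.subset_closure (gen_of_UJ D p hx1)
  · exact Subgroup.subset_closure (gen_of_UJ D p hx3)
  · exact Subgroup.subset_closure (gen_of_tr D p hx4 (hsupp x4 _ ex4))
  · exact Subgroup.subset_closure (gen_of_UJ D p hx3)

end Cfsg.Agent.Lib.Helper37.PsuTCE
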