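import Mathlib
import Cfsg.Agent.Lib.Helper46.PsuStmt
import Cfsg.Agent.Lib.Helper46.PsuROOTS
import Cfsg.Agent.Lib.Helper37.PsuTorAux

set_option autoImplicit false

/-!
# Piece TCO of S5172: the central torus, `n` odd (helper37)
-/

namespace Cfsg.Agent.Lib.Helper37.PsuTCO

open Matrix Cfsg.Agent.Lib.Helper43.SUBase Cfsg.Agent.H84.PslDefs
  Cfsg.Agent.Lib.Helper46.PsuDefs Cfsg.Agent.Lib.Helper46.PsuStmt
  Cfsg.Agent.Lib.Helper37.PsuTorAux

universe u

theorem main : TorCOdd.{u} := by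
  intro n K _ _ p _ _ q D hn hodd a ha hdiag htor
  obtain ⟨k, hkv⟩ : ∃ k : Fin n, k.val = n / 2 - 1 := ⟨⟨n / 2 - 1, by omega⟩, rfl⟩
  obtain ⟨k1, hk1v⟩ : ∃ k1 : Fin n, k1.val = n / 2 := ⟨⟨n / 2, by omega⟩, rfl⟩
  have hrv : (Fin.rev k).val = n / 2 + 1 := by rw [Fin.val_rev]; omega
  have hr1 : k1 = Fin.rev k1 := by apply Fin.ext; rw [Fin.val_rev]; omega
  have hkk1 : k < k1 := by rw [Fin.lt_def]; omega
  have h01 : k ≠ k1 := ne_of_lt hkk1
  have h02 : k ≠ Fin.rev k := by intro h; have := congrArg Fin.val h; omega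
  have h12 : k1 ≠ Fin.rev k := by intro h; have := congrArg Fin.val h; omega
  have hl1 : lamC n k = lamC n k1 := by
    simp only [lamC]
    split_ifs <;> omega
  have hl2 : lamC n k = lamC n (Fin.rev k) := by
    simp only [lamC]
    split_ifs <;> omega
  -- the entries of `a`
  have hone : ∀ i : Fin n, i ≠ k → i ≠ k1 → i ≠ Fin.rev k → a i i = 1 := by
    intro i h1 h2 h3
    apply htor
    have h1' : i.val ≠ n / 2 - 1 := fun h => h1 (Fin.ext (h.trans hkv.symm))
    have h2' : i.val ≠ n / 2 := fun h => h2 (Fin.ext (h.trans hk1v.symm))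
    have h3' : i.val ≠ n / 2 + 1 := fun h => h3 (Fin.ext (h.trans hrv.symm))
    omega
  have hdet : a k k * a k1 k1 * a (Fin.rev k) (Fin.rev k) = 1 := by
    have h1 : (a : Matrix (Fin n) (Fin n) K) = Matrix.diagonal (fun i => a i i) := by
      ext i j
      by_cases hij : i = j
      · rw [hij, Matrix.diagonal_apply_eq]
      · rw [Matrix.diagonal_apply_ne _ hij]; exact hdiag i j hij
    have h2 : (a : Matrix (Fin n) (Fin n) K).det = 1 := a.2
    rw [h1, Matrix.det_diagonal] at h2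
    have h3 : ∀ i : Fin n, a i i = (if i = k then a k k else 1) *
        (if i = k1 then a k1 k1 else 1) *
        (if i = Fin.rev k then a (Fin.rev k) (Fin.rev k) else 1) := by
      intro i
      by_cases e1 : i = k
      · rw [e1, if_pos rfl, if_neg h01, if_neg h02, mul_one, mul_one]
      · by_cases e2 : i = k1
        · rw [e2, if_neg h01.symm, if_pos rfl, if_neg h12, one_mul, mul_one]
        · by_cases e3 : i = Fin.rev k
          · rw [e3, if_neg h02.symm, if_neg h12.symm, if_pos rfl, one_mul, one_mul]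
          · rw [if_neg e1, if_neg e2, if_neg e3, hone i e1 e2 e3, one_mul, one_mul]
    have h4 : ∏ i : Fin n, a i i = a k k * a k1 k1 * a (Fin.rev k) (Fin.rev k) := by
      rw [Finset.prod_congr rfl (fun i _ => h3 i), Finset.prod_mul_distrib,
        Finset.prod_mul_distrib, Finset.prod_ite_eq', Finset.prod_ite_eq', Finset.prod_ite_eq',
        if_pos (Finset.mem_univ _), if_pos (Finset.mem_univ _), if_pos (Finset.mem_univ _)]
    exact h4.symm.trans h2
  have hun : D.φ (a (Fin.rev k) (Fin.rev k)) * a k k = 1 := by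
    have h := (mem_GJ_iff_entries D n a).1 ha k k
    rw [if_pos rfl, Finset.sum_eq_single k] at h
    · exact h
    · intro l _ hl
      rw [hdiag l k hl, mul_zero]
    · intro h'; exact absurd (Finset.mem_univ _) h'
  have hlam0 : a k k ≠ 0 := right_ne_zero_of_mul_eq_one hun
  have hφlam0 : D.φ (a k k) ≠ 0 := by
    intro h0
    apply hlam0
    have := congrArg D.φ h0
    rwa [D.inv, map_zero] at this
  have hnu : a (Fin.rev k) (Fin.rev k) = (D.φ (a k k))⁻¹ := by
    have h1 : a (Fin.rev k) (Fin.rev k) * D.φ (a k k) = 1 := by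
      have := congrArg D.φ hun
      rwa [map_mul, D.inv, map_one] at this
    exact eq_inv_of_mul_eq_one_left h1
  have hmu : a k1 k1 = D.φ (a k k) / a k k := by
    rw [hnu] at hdet
    field_simp
    field_simp at hdet
    linear_combination hdet
  obtain ⟨ζ, hζ0, hζ⟩ := D.exists_skew
  -- `b = λ ζ` and `α` with `α φ α = -(b + φ b)`
  have hb0 : a k k * ζ ≠ 0 := mul_ne_zero hlam0 hζ0
  obtain ⟨α, hα⟩ := D.nm (-(a k k * ζ + D.φ (a k k * ζ))) (by
    rw [map_neg, map_add, D.inv]; ring)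
  obtain ⟨g1, hg1, eg1⟩ := exists_n D p hkk1 hr1 hl1 hl2 α (a k k * ζ) hb0 (by
    rw [hα]; ring)
  obtain ⟨g2, hg2, eg2⟩ := exists_n D p hkk1 hr1 hl1 hl2 0 (-ζ) (neg_ne_zero.2 hζ0) (by
    rw [map_neg, hζ, map_zero]; ring)
  have key : a = g1 * g2 := by
    apply Subtype.ext
    have e : ((g1 * g2 : SpecialLinearGroup (Fin n) K) : Matrix (Fin n) (Fin n) K) =
        emb k k1 (Fin.rev k) (N3 D (a k k * ζ) * N3 D (-ζ)) := by
      rw [Matrix.SpecialLinearGroup.coe_mul, eg1, eg2, emb_mul h01 h02 h12]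
    refine Eq.trans ?_ e.symm
    refine (diag_eq_emb h01 h02 h12 (a : Matrix (Fin n) (Fin n) K) hdiag hone).trans ?_
    rw [N3_mul]
    have e1 : ((a : Matrix (Fin n) (Fin n) K) (Fin.rev k) (Fin.rev k)) = (D.φ (a k k))⁻¹ := hnu
    have e2 : ((a : Matrix (Fin n) (Fin n) K) k1 k1) = D.φ (a k k) / a k k := hmu
    rw [e1, e2]
    congr 1
    apply d3_congr
    · rw [map_neg, hζ]
      field_simp
    · rw [map_neg, hζ, map_mul, hζ]
      field_simp
    · rw [map_mul, hζ]
      field_simp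
  rw [key]
  exact Subgroup.mul_mem _ hg1 hg2

end Cfsg.Agent.Lib.Helper37.PsuTCO
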