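import Mathlib

set_option autoImplicit false

namespace Cfsg.Agent.Lib.Helper37.QuadConj

open Module

variable {F V : Type*} [Field F] [AddCommGroup V] [Module F V]

/-- An invariant subspace of a root of a quadratic without roots is spanned by pairs
`c k, x (c k)`, in number half its dimension. -/
theorem exists_pairs_aux [FiniteDimensional F V] (x : V →ₗ[F] V) {a b : F}
    (hxx : ∀ v, x (x v) = a • x v + b • v) (hirr : ∀ t : F, t * t ≠ a * t + b) :
    ∀ (n : ℕ) (Y : Submodule F V), finrank F Y = n → (∀ y ∈ Y, x y ∈ Y) →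
      ∃ (m : ℕ) (c : Fin m → V), finrank F Y = 2 * m ∧
        Submodule.span F (Set.range c ∪ x '' Set.range c) = Y := by
  intro n
  induction n using Nat.strong_induction_on with
  | _ n ih =>
    intro Y hn hY
    by_cases h0 : n = 0
    · subst h0
      refine ⟨0, Fin.elim0, by omega, ?_⟩
      have hbot : Y = ⊥ := Submodule.finrank_eq_zero.mp hn
      have hr : Set.range (Fin.elim0 : Fin 0 → V) = ∅ := Set.range_eq_empty _
      rw [hbot, hr, Set.image_empty, Set.union_empty, Submodule.span_empty]
    · have hpos : 0 < finrank F Y := by omega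
      obtain ⟨⟨v, hvY⟩, hv0⟩ := Module.finrank_pos_iff_exists_ne_zero.mp hpos
      have hv : v ≠ 0 := fun h => hv0 (Subtype.ext h)
      have hnot : x v ∉ Submodule.span F {v} := by
        intro h
        obtain ⟨c, hc⟩ := Submodule.mem_span_singleton.mp h
        have h1 := hxx v
        rw [← hc, map_smul, ← hc, smul_smul, smul_smul] at h1
        have h2 : (c * c - (a * c + b)) • v = 0 := by rw [sub_smul, add_smul, h1, sub_self]
        rcases smul_eq_zero.mp h2 with h3 | h3
        · exact hirr c (sub_eq_zero.mp h3)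
        · exact hv h3
      obtain ⟨f₀, hf₀, hf₀'⟩ := Submodule.exists_dual_map_eq_bot_of_notMem hnot inferInstance
      have hf₀v : f₀ v = 0 := by
        have : f₀ v ∈ Submodule.map f₀ (Submodule.span F {v}) :=
          Submodule.mem_map_of_mem (Submodule.mem_span_singleton_self v)
        rw [hf₀'] at this
        exact (Submodule.mem_bot F).mp this
      obtain ⟨φ, hφv, hφx⟩ : ∃ φ : V →ₗ[F] F, φ v = 0 ∧ φ (x v) = 1 := by
        refine ⟨(f₀ (x v))⁻¹ • f₀, ?_, ?_⟩
        · rw [LinearMap.smul_apply, hf₀v, smul_zero]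
        · rw [LinearMap.smul_apply, smul_eq_mul, inv_mul_cancel₀ hf₀]
      obtain ⟨Y', hY'⟩ : ∃ Y' : Submodule F V,
          Y' = Y ⊓ (LinearMap.ker φ ⊓ LinearMap.ker (φ ∘ₗ x)) := ⟨_, rfl⟩
      have hmem : ∀ w, w ∈ Y' ↔ w ∈ Y ∧ φ w = 0 ∧ φ (x w) = 0 := by
        intro w
        rw [hY', Submodule.mem_inf, Submodule.mem_inf, LinearMap.mem_ker, LinearMap.mem_ker,
          LinearMap.comp_apply]
      have hxvY : x v ∈ Y := hY v hvY
      have hY'inv : ∀ y ∈ Y', x y ∈ Y' := by
        intro y hy
        obtain ⟨h1, h2, h3⟩ := (hmem y).mp hy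
        rw [hmem]
        refine ⟨hY y h1, h3, ?_⟩
        rw [hxx, map_add, map_smul, map_smul, h2, h3, smul_zero, smul_zero, add_zero]
      have hlt : finrank F Y' < finrank F Y := by
        apply Submodule.finrank_lt_finrank_of_lt
        rw [SetLike.lt_iff_le_and_exists]
        refine ⟨fun w hw => ((hmem w).mp hw).1, v, hvY, fun h => ?_⟩
        have := ((hmem v).mp h).2.2
        rw [hφx] at this
        exact one_ne_zero this
      obtain ⟨m', c', hfr', hspan'⟩ := ih _ (by rw [← hn]; exact hlt) Y' rfl hY'inv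
      have hpair : LinearIndependent F ![v, x v] := by
        rw [LinearIndependent.pair_iff]
        intro s t hst
        have e1 := congrArg φ hst
        have e2 := congrArg (fun w => φ (x w)) hst
        simp only [map_add, map_smul, hφv, hφx, hxx, smul_eq_mul, mul_zero, mul_one, zero_add,
          add_zero, map_zero] at e1 e2
        rw [e1] at e2
        simp only [zero_mul, add_zero, mul_zero] at e2
        exact ⟨e2, e1⟩
      have hdisj : Disjoint Y' (Submodule.span F {v, x v}) := by
        rw [Submodule.disjoint_def]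
        intro w hw1 hw2
        obtain ⟨s, t, rfl⟩ := Submodule.mem_span_pair.mp hw2
        obtain ⟨-, h2, h3⟩ := (hmem _).mp hw1
        simp only [map_add, map_smul, hφv, hφx, hxx, smul_eq_mul, mul_zero, mul_one, zero_add,
          add_zero] at h2 h3
        rw [h2] at h3
        simp only [zero_mul, add_zero, mul_zero] at h3
        rw [h2, h3, zero_smul, zero_smul, add_zero]
      have hsup : Y' ⊔ Submodule.span F {v, x v} = Y := by
        apply le_antisymm
        · refine sup_le (fun w hw => ((hmem w).mp hw).1) ?_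
          rw [Submodule.span_le]
          intro w hw
          rcases hw with rfl | rfl
          · exact hvY
          · exact hxvY
        · intro w hw
          have hw' : w - ((φ (x w) - a * φ w) • v + φ w • x v) ∈ Y' := by
            rw [hmem]
            refine ⟨Y.sub_mem hw (Y.add_mem (Y.smul_mem _ hvY) (Y.smul_mem _ hxvY)), ?_, ?_⟩
            · simp only [map_sub, map_add, map_smul, hφv, hφx, smul_eq_mul, mul_zero, mul_one,
                zero_add, sub_self]
            · simp only [map_sub, map_add, map_smul, hφv, hφx, hxx, smul_eq_mul, mul_zero,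
                mul_one, add_zero]
              ring
          have e : w = (w - ((φ (x w) - a * φ w) • v + φ w • x v)) +
              ((φ (x w) - a * φ w) • v + φ w • x v) := by abel
          rw [e]
          exact Submodule.add_mem _ (Submodule.mem_sup_left hw')
            (Submodule.mem_sup_right (Submodule.mem_span_pair.mpr ⟨_, _, rfl⟩))
      refine ⟨m' + 1, Fin.cons v c', ?_, ?_⟩
      · have h1 := Submodule.finrank_sup_add_finrank_inf_eq Y' (Submodule.span F {v, x v})
        rw [hsup, disjoint_iff.mp hdisj, finrank_bot, add_zero] at h1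
        have h2 : finrank F (Submodule.span F {v, x v}) = 2 := by
          rw [← Matrix.range_cons_cons_empty, finrank_span_eq_card hpair, Fintype.card_fin]
        omega
      · rw [Fin.range_cons, Set.image_insert_eq, ← hsup, ← hspan', ← Submodule.span_union]
        congr 1
        ext w
        simp only [Set.mem_union, Set.mem_insert_iff, Set.mem_singleton_iff]
        tauto

/-- A root of a quadratic without roots has a basis of pairs `B (inl k), x (B (inl k))`. -/
theorem exists_pair_basis [FiniteDimensional F V] (x : V →ₗ[F] V) {a b : F}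
    (hxx : ∀ v, x (x v) = a • x v + b • v) (hirr : ∀ t : F, t * t ≠ a * t + b) :
    ∃ (m : ℕ) (B : Basis (Fin m ⊕ Fin m) F V), finrank F V = 2 * m ∧
      ∀ k, B (Sum.inr k) = x (B (Sum.inl k)) := by
  obtain ⟨m, c, hfr, hspan⟩ := exists_pairs_aux x hxx hirr _ ⊤ rfl (fun _ _ => trivial)
  rw [finrank_top] at hfr
  have hle : ⊤ ≤ Submodule.span F (Set.range (Sum.elim c (fun k => x (c k)))) := by
    have hr : Set.range (fun k => x (c k)) = x '' Set.range c := by
      rw [← Set.range_comp]
      rfl
    rw [Set.Sum.elim_range, hr, hspan]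
  have hcard : Fintype.card (Fin m ⊕ Fin m) = finrank F V := by
    rw [Fintype.card_sum, Fintype.card_fin, hfr]
    ring
  refine ⟨m, basisOfTopLeSpanOfCardEqFinrank _ hle hcard, hfr, fun k => ?_⟩
  rw [coe_basisOfTopLeSpanOfCardEqFinrank]
  rfl

/-- Two matrix roots of the same quadratic without roots in the field are conjugate. -/
theorem exists_conj {n : ℕ} (J J' : Matrix (Fin n) (Fin n) F) (a b : F)
    (hJ : J * J = a • J + b • 1) (hJ' : J' * J' = a • J' + b • 1)
    (hirr : ∀ t : F, t * t ≠ a * t + b) :
    ∃ T : GL (Fin n) F,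
      (T : Matrix (Fin n) (Fin n) F) * J' = J * (T : Matrix (Fin n) (Fin n) F) := by
  have hx : ∀ (M : Matrix (Fin n) (Fin n) F), M * M = a • M + b • 1 → ∀ v,
      Matrix.toLin' M (Matrix.toLin' M v) = a • Matrix.toLin' M v + b • v := by
    intro M hM v
    rw [Matrix.toLin'_apply, Matrix.toLin'_apply, Matrix.mulVec_mulVec, hM, Matrix.add_mulVec,
      Matrix.smul_mulVec, Matrix.smul_mulVec, Matrix.one_mulVec]
  obtain ⟨m, B, hfr, hB⟩ := exists_pair_basis (Matrix.toLin' J) (hx J hJ) hirr
  obtain ⟨m', B', hfr', hB'⟩ := exists_pair_basis (Matrix.toLin' J') (hx J' hJ') hirr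
  have hmm : m' = m := by omega
  subst hmm
  obtain ⟨c, hc⟩ : ∃ c : (Fin n → F) ≃ₗ[F] (Fin n → F), ∀ i, c (B' i) = B i :=
    ⟨B'.equiv B (Equiv.refl _), fun i => by rw [Basis.equiv_apply]; rfl⟩
  have hcomm : ∀ u, c (Matrix.toLin' J' u) = Matrix.toLin' J (c u) := by
    have h1 : (c : (Fin n → F) →ₗ[F] (Fin n → F)) ∘ₗ Matrix.toLin' J' =
        Matrix.toLin' J ∘ₗ (c : (Fin n → F) →ₗ[F] (Fin n → F)) := by
      apply B'.ext
      rintro (k | k)
      · simp only [LinearMap.comp_apply, LinearEquiv.coe_coe]
        rw [← hB', hc, hc, ← hB]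
      · simp only [LinearMap.comp_apply, LinearEquiv.coe_coe]
        have e1 : c (B' (Sum.inr k)) = B (Sum.inr k) := hc _
        have e2 : c (B' (Sum.inl k)) = B (Sum.inl k) := hc _
        rw [e1, hB k, hx J hJ, ← hB k, hB' k, hx J' hJ', map_add, map_smul, map_smul, ← hB' k,
          e1, e2]
    intro u
    exact LinearMap.congr_fun h1 u
  obtain ⟨Q, hQ1⟩ : ∃ Q : GL (Fin n) F,
      ∀ u, (Q : Matrix (Fin n) (Fin n) F).mulVec u = c u := by
    refine ⟨⟨LinearMap.toMatrix' (c : (Fin n → F) →ₗ[F] (Fin n → F)),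
      LinearMap.toMatrix' (c.symm : (Fin n → F) →ₗ[F] (Fin n → F)), ?_, ?_⟩, ?_⟩
    · rw [← LinearMap.toMatrix'_comp]
      simp
    · rw [← LinearMap.toMatrix'_comp]
      simp
    · intro u
      show (LinearMap.toMatrix' (c : (Fin n → F) →ₗ[F] (Fin n → F))).mulVec u = c u
      rw [← Matrix.toLin'_apply, Matrix.toLin'_toMatrix']
      rfl
  refine ⟨Q, ?_⟩
  apply Matrix.toLin'.injective
  apply LinearMap.ext
  intro u
  rw [Matrix.toLin'_apply, Matrix.toLin'_apply, ← Matrix.mulVec_mulVec, ← Matrix.mulVec_mulVec,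
    hQ1, hQ1, ← Matrix.toLin'_apply, ← Matrix.toLin'_apply J, hcomm]

end Cfsg.Agent.Lib.Helper37.QuadConj
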