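import Mathlib
import Cfsg.Prelude.Def_GeometricClasses

set_option autoImplicit false

namespace Cfsg.Agent.Lib.Helper37.QuadGen

open Module

variable {F : Type*} [Field F] {n : ℕ}

/-- A field subalgebra of degree 2 is generated by a root `J` of a quadratic without roots in
the base field. -/
theorem exists_gen (hn : 0 < n) (K : Subalgebra F (Matrix (Fin n) (Fin n) F))
    (hK : Cfsg.Geo.IsFieldSubalgebra 2 K) :
    ∃ (J : Matrix (Fin n) (Fin n) F) (a b : F), J ∈ K ∧ J * J = a • J + b • 1 ∧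
      (∀ k, k ∈ K ↔ ∃ α β : F, k = α • 1 + β • J) ∧ (∀ t : F, t * t ≠ a * t + b) ∧
      (∀ t : F, J ≠ t • 1) := by
  classical
  have : Nonempty (Fin n) := ⟨⟨0, hn⟩⟩
  have h1ne : (1 : Matrix (Fin n) (Fin n) F) ≠ 0 := one_ne_zero
  have hfr : finrank F (Subalgebra.toSubmodule K) = 2 := by
    rw [Subalgebra.finrank_toSubmodule]
    exact hK.finrank_eq
  obtain ⟨J, hJK, hJ⟩ : ∃ J ∈ K, J ∉ Submodule.span F {(1 : Matrix (Fin n) (Fin n) F)} := by
    by_contra hcon
    push Not at hcon
    have hle : Subalgebra.toSubmodule K ≤ Submodule.span F {(1 : Matrix (Fin n) (Fin n) F)} :=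
      fun J hJ => hcon J hJ
    have h1 := Submodule.finrank_mono hle
    have h2 := finrank_span_singleton (K := F) h1ne
    omega
  have hpair : LinearIndependent F ![(1 : Matrix (Fin n) (Fin n) F), J] := by
    rw [LinearIndependent.pair_iff]
    intro s t hst
    have ht : t = 0 := by
      by_contra ht
      apply hJ
      rw [Submodule.mem_span_singleton]
      refine ⟨-(t⁻¹ * s), ?_⟩
      have h3 : t • J = -(s • (1 : Matrix (Fin n) (Fin n) F)) := by
        rw [eq_neg_iff_add_eq_zero, add_comm]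
        exact hst
      calc (-(t⁻¹ * s)) • (1 : Matrix (Fin n) (Fin n) F)
          = t⁻¹ • (-(s • (1 : Matrix (Fin n) (Fin n) F))) := by
            rw [neg_smul, mul_smul, smul_neg]
        _ = t⁻¹ • (t • J) := by rw [h3]
        _ = J := by rw [smul_smul, inv_mul_cancel₀ ht, one_smul]
    subst ht
    rw [zero_smul, add_zero] at hst
    rcases smul_eq_zero.mp hst with h | h
    · exact ⟨h, rfl⟩
    · exact absurd h h1ne
  have hspan : Submodule.span F {(1 : Matrix (Fin n) (Fin n) F), J} =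
      Subalgebra.toSubmodule K := by
    apply Submodule.eq_of_le_of_finrank_eq
    · rw [Submodule.span_le]
      rintro x (rfl | rfl)
      · exact K.one_mem
      · exact hJK
    · rw [hfr, ← Matrix.range_cons_cons_empty, finrank_span_eq_card hpair, Fintype.card_fin]
  have hmem : ∀ k, k ∈ K ↔ ∃ α β : F, k = α • 1 + β • J := by
    intro k
    rw [← Subalgebra.mem_toSubmodule, ← hspan, Submodule.mem_span_pair]
    constructor
    · rintro ⟨α, β, h⟩
      exact ⟨α, β, h.symm⟩
    · rintro ⟨α, β, h⟩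
      exact ⟨α, β, h.symm⟩
  obtain ⟨b, a, hab⟩ := (hmem (J * J)).mp (K.mul_mem hJK hJK)
  have hns : ∀ t : F, J ≠ t • 1 := by
    intro t ht
    apply hJ
    rw [Submodule.mem_span_singleton]
    exact ⟨t, ht.symm⟩
  refine ⟨J, a, b, hJK, by rw [hab, add_comm], hmem, ?_, hns⟩
  intro t ht
  have hprod : (J - t • 1) * (J - (a - t) • 1) = 0 := by
    have e : (J - t • 1) * (J - (a - t) • 1) = J * J - a • J + (t * (a - t)) • 1 := by
      simp only [sub_mul, mul_sub, Matrix.smul_mul, Matrix.mul_smul, Matrix.one_mul,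
        Matrix.mul_one]
      module
    have h3 : b + t * (a - t) = 0 := by linear_combination -ht
    rw [e, hab]
    calc b • (1 : Matrix (Fin n) (Fin n) F) + a • J - a • J + (t * (a - t)) • 1
        = (b + t * (a - t)) • (1 : Matrix (Fin n) (Fin n) F) := by module
      _ = 0 := by rw [h3, zero_smul]
  have hne : J - t • 1 ≠ 0 := fun h => hns t (sub_eq_zero.mp h)
  have hJt : J - t • 1 ∈ K := K.sub_mem hJK (K.smul_mem K.one_mem t)
  obtain ⟨y, hyK, hy⟩ := hK.inv (J - t • 1) hJt hne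
  have hy' : y * (J - t • 1) = 1 := by
    rw [hK.comm y hyK _ hJt]
    exact hy
  have h0 : J - (a - t) • 1 = 0 := by
    calc J - (a - t) • 1 = (y * (J - t • 1)) * (J - (a - t) • 1) := by rw [hy', one_mul]
      _ = 0 := by rw [mul_assoc, hprod, mul_zero]
  exact hns (a - t) (sub_eq_zero.mp h0)

/-- Non-zero elements of a field subalgebra are left-cancellable on vectors. -/
theorem mulVec_eq_zero {r : ℕ} (K : Subalgebra F (Matrix (Fin n) (Fin n) F))
    (hK : Cfsg.Geo.IsFieldSubalgebra r K) (X : Matrix (Fin n) (Fin n) F) (hX : X ∈ K)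
    (hX0 : X ≠ 0) (v : Fin n → F) (hv : X.mulVec v = 0) : v = 0 := by
  obtain ⟨y, hyK, hy⟩ := hK.inv X hX hX0
  have hy' : y * X = 1 := by
    rw [hK.comm y hyK _ hX]
    exact hy
  have := congrArg y.mulVec hv
  rw [Matrix.mulVec_mulVec, hy', Matrix.one_mulVec, Matrix.mulVec_zero] at this
  exact this

/-- Non-zero elements of a field subalgebra are left-cancellable on matrices. -/
theorem mul_eq_zero {r : ℕ} (K : Subalgebra F (Matrix (Fin n) (Fin n) F))
    (hK : Cfsg.Geo.IsFieldSubalgebra r K) (X : Matrix (Fin n) (Fin n) F) (hX : X ∈ K)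
    (hX0 : X ≠ 0) (M : Matrix (Fin n) (Fin n) F) (hM : X * M = 0) : M = 0 := by
  obtain ⟨y, hyK, hy⟩ := hK.inv X hX hX0
  have hy' : y * X = 1 := by
    rw [hK.comm y hyK _ hX]
    exact hy
  calc M = (y * X) * M := by rw [hy', one_mul]
    _ = 0 := by rw [mul_assoc, hM, mul_zero]

/-- An invertible matrix commuting with the generator, or swapping it with its conjugate,
normalizes the subalgebra. -/
theorem mem_normalizer (K : Subalgebra F (Matrix (Fin n) (Fin n) F))
    (J : Matrix (Fin n) (Fin n) F) (a : F) (hJK : J ∈ K)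
    (hmem : ∀ k, k ∈ K ↔ ∃ α β : F, k = α • 1 + β • J) (g : GL (Fin n) F)
    (h : (g : Matrix (Fin n) (Fin n) F) * J = J * (g : Matrix (Fin n) (Fin n) F) ∨
      (g : Matrix (Fin n) (Fin n) F) * J = (a • 1 - J) * (g : Matrix (Fin n) (Fin n) F)) :
    g ∈ Cfsg.Geo.subalgebraNormalizer K := by
  obtain ⟨G, hG⟩ : ∃ G : Matrix (Fin n) (Fin n) F, G = (g : Matrix (Fin n) (Fin n) F) :=
    ⟨_, rfl⟩
  obtain ⟨Gi, hGi⟩ : ∃ Gi : Matrix (Fin n) (Fin n) F,
      Gi = ((g⁻¹ : GL (Fin n) F) : Matrix (Fin n) (Fin n) F) := ⟨_, rfl⟩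
  have hgg : G * Gi = 1 := by
    rw [hG, hGi, ← Units.val_mul, mul_inv_cancel]
    rfl
  have hgg' : Gi * G = 1 := by
    rw [hG, hGi, ← Units.val_mul, inv_mul_cancel]
    rfl
  rw [← hG] at h
  have hJ' : a • 1 - J ∈ K := K.sub_mem (K.smul_mem K.one_mem a) hJK
  have hconj : G * J * Gi = J ∨ G * J * Gi = a • 1 - J := by
    rcases h with h | h
    · left
      rw [h, Matrix.mul_assoc, hgg, Matrix.mul_one]
    · right
      rw [h, Matrix.mul_assoc, hgg, Matrix.mul_one]
  have hconj' : Gi * J * G = J ∨ Gi * J * G = a • 1 - J := by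
    rcases h with h | h
    · left
      rw [Matrix.mul_assoc, ← h, ← Matrix.mul_assoc, hgg', Matrix.one_mul]
    · right
      have h1 : G * J = a • G - J * G := by
        rw [h, Matrix.sub_mul, Matrix.smul_mul, Matrix.one_mul]
      have h2 : J * G = a • G - G * J := by rw [h1]; abel
      rw [Matrix.mul_assoc, h2, Matrix.mul_sub, Matrix.mul_smul, ← Matrix.mul_assoc, hgg',
        Matrix.one_mul]
  show ∀ k : Matrix (Fin n) (Fin n) F, k ∈ K ↔
    (g : Matrix (Fin n) (Fin n) F) * k * ((g⁻¹ : GL (Fin n) F) : Matrix (Fin n) (Fin n) F) ∈ K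
  rw [← hG, ← hGi]
  intro k
  constructor
  · intro hk
    obtain ⟨α, β, rfl⟩ := (hmem k).mp hk
    have e : G * (α • 1 + β • J) * Gi = α • 1 + β • (G * J * Gi) := by
      rw [Matrix.mul_add, Matrix.add_mul, Matrix.mul_smul, Matrix.mul_smul, Matrix.smul_mul,
        Matrix.smul_mul, Matrix.mul_one, hgg]
    rw [e]
    rcases hconj with h | h <;> rw [h]
    · exact K.add_mem (K.smul_mem K.one_mem α) (K.smul_mem hJK β)
    · exact K.add_mem (K.smul_mem K.one_mem α) (K.smul_mem hJ' β)
  · intro hk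
    obtain ⟨α, β, hαβ⟩ := (hmem _).mp hk
    have hk' : k = Gi * (α • 1 + β • J) * G := by
      rw [← hαβ, ← Matrix.mul_assoc, ← Matrix.mul_assoc, hgg', Matrix.one_mul, Matrix.mul_assoc,
        hgg', Matrix.mul_one]
    have e : Gi * (α • 1 + β • J) * G = α • 1 + β • (Gi * J * G) := by
      rw [Matrix.mul_add, Matrix.add_mul, Matrix.mul_smul, Matrix.mul_smul, Matrix.smul_mul,
        Matrix.smul_mul, Matrix.mul_one, hgg']
    rw [hk', e]
    rcases hconj' with h | h <;> rw [h]
    · exact K.add_mem (K.smul_mem K.one_mem α) (K.smul_mem hJK β)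
    · exact K.add_mem (K.smul_mem K.one_mem α) (K.smul_mem hJ' β)

/-- In dimension at least 3 over a finite field, a scalar multiple of `1 + N` with `N` of rank
one does not normalize a field subalgebra of degree 2. -/
theorem not_mem_normalizer [Fintype F] (hn : 3 ≤ n) (K : Subalgebra F (Matrix (Fin n) (Fin n) F))
    (hK : Cfsg.Geo.IsFieldSubalgebra 2 K) (g : GL (Fin n) F) (s : F) (u w : Fin n → F)
    (hN : Matrix.vecMulVec u w ≠ 0)
    (hg : (g : Matrix (Fin n) (Fin n) F) = s • (1 + Matrix.vecMulVec u w)) :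
    g ∉ Cfsg.Geo.subalgebraNormalizer K := by
  classical
  intro hmemg
  obtain ⟨J, a, b, hJK, hJJ, hmem, hirr, hns⟩ := exists_gen (by omega) K hK
  obtain ⟨G, hG⟩ : ∃ G : Matrix (Fin n) (Fin n) F, G = (g : Matrix (Fin n) (Fin n) F) :=
    ⟨_, rfl⟩
  obtain ⟨Gi, hGi⟩ : ∃ Gi : Matrix (Fin n) (Fin n) F,
      Gi = ((g⁻¹ : GL (Fin n) F) : Matrix (Fin n) (Fin n) F) := ⟨_, rfl⟩
  have hgg : G * Gi = 1 := by
    rw [hG, hGi, ← Units.val_mul, mul_inv_cancel]
    rfl
  have hgg' : Gi * G = 1 := by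
    rw [hG, hGi, ← Units.val_mul, inv_mul_cancel]
    rfl
  have hgK : ∀ k : Matrix (Fin n) (Fin n) F, k ∈ K ↔ G * k * Gi ∈ K := by
    rw [hG, hGi]
    exact hmemg
  rw [← hG] at hg
  have : Nonempty (Fin n) := ⟨⟨0, by omega⟩⟩
  have hs0 : s ≠ 0 := by
    rintro rfl
    rw [zero_smul] at hg
    rw [hg, Matrix.zero_mul] at hgg
    exact zero_ne_one hgg
  obtain ⟨N, hNdef⟩ : ∃ N : Matrix (Fin n) (Fin n) F, N = Matrix.vecMulVec u w := ⟨_, rfl⟩
  rw [← hNdef] at hg hN
  have hu0 : u ≠ 0 := by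
    rintro rfl
    apply hN
    rw [hNdef]
    ext i j
    simp [Matrix.vecMulVec_apply]
  have hw0 : w ≠ 0 := by
    rintro rfl
    apply hN
    rw [hNdef]
    ext i j
    simp [Matrix.vecMulVec_apply]
  obtain ⟨J2, hJ2⟩ : ∃ J2 : Matrix (Fin n) (Fin n) F, J2 = G * J * Gi := ⟨_, rfl⟩
  have hJ2K : J2 ∈ K := by
    rw [hJ2]
    exact (hgK J).mp hJK
  have hJ2J2 : J2 * J2 = a • J2 + b • 1 := by
    have e : J2 * J2 = G * (J * J) * Gi := by
      rw [hJ2]
      calc G * J * Gi * (G * J * Gi) = G * J * (Gi * G) * J * Gi := by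
            simp only [Matrix.mul_assoc]
        _ = G * (J * J) * Gi := by rw [hgg', Matrix.mul_one, Matrix.mul_assoc G J J]
    rw [e, hJJ, hJ2, Matrix.mul_add, Matrix.add_mul, Matrix.mul_smul, Matrix.mul_smul,
      Matrix.smul_mul, Matrix.smul_mul, Matrix.mul_one, hgg]
  have hGJ : G * J = J2 * G := by
    rw [hJ2, Matrix.mul_assoc, hgg', Matrix.mul_one]
  have hprod : (J2 - J) * (J2 - (a • 1 - J)) = 0 := by
    have hc := hK.comm J2 hJ2K J hJK
    have e : (J2 - J) * (J2 - (a • 1 - J)) =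
        J2 * J2 - a • J2 + (J2 * J - J * J2) + a • J - J * J := by
      simp only [sub_mul, mul_sub, Matrix.smul_mul, Matrix.mul_smul, Matrix.one_mul,
        Matrix.mul_one]
      abel
    rw [e, hJ2J2, hJJ, hc]
    abel
  have hcases : J2 = J ∨ J2 = a • 1 - J := by
    by_cases h : J2 - J = 0
    · left
      exact sub_eq_zero.mp h
    · right
      exact sub_eq_zero.mp (mul_eq_zero K hK _ (K.sub_mem hJ2K hJK) h _ hprod)
  -- cancel the scalar
  have hGJ' : (1 + N) * J = J2 * (1 + N) := by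
    rw [hg, Matrix.smul_mul, Matrix.mul_smul] at hGJ
    exact smul_right_injective _ hs0 hGJ
  rcases hcases with hc | hc
  · -- commuting case: `J` has an eigenvector
    rw [hc] at hGJ'
    have hNJ : N * J = J * N := by
      rw [Matrix.add_mul, Matrix.mul_add, Matrix.one_mul, Matrix.mul_one] at hGJ'
      exact add_left_cancel hGJ'
    rw [hNdef, Matrix.vecMulVec_mul, Matrix.mul_vecMulVec] at hNJ
    obtain ⟨j, hj⟩ : ∃ j, w j ≠ 0 := by
      by_contra hcon
      push Not at hcon
      exact hw0 (funext hcon)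
    obtain ⟨l, hl⟩ : ∃ l : F, l = (Matrix.vecMul w J) j * (w j)⁻¹ := ⟨_, rfl⟩
    have hJu : J.mulVec u = l • u := by
      funext i
      have h1 := congrFun (congrFun hNJ i) j
      rw [Matrix.vecMulVec_apply, Matrix.vecMulVec_apply] at h1
      rw [Pi.smul_apply, smul_eq_mul, hl]
      field_simp
      linear_combination -h1
    have hJl : J - l • 1 ∈ K := K.sub_mem hJK (K.smul_mem K.one_mem l)
    have hne : J - l • 1 ≠ 0 := fun h => hns l (sub_eq_zero.mp h)
    apply hu0
    apply mulVec_eq_zero K hK _ hJl hne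
    rw [Matrix.sub_mulVec, hJu, Matrix.smul_mulVec, Matrix.one_mulVec, sub_self]
  · -- swapping case: `2J - a` has rank at most 2
    rw [hc] at hGJ'
    obtain ⟨R, hR⟩ : ∃ R : Matrix (Fin n) (Fin n) F, R = J + J - a • 1 := ⟨_, rfl⟩
    have hRK : R ∈ K := by
      rw [hR]
      exact K.sub_mem (K.add_mem hJK hJK) (K.smul_mem K.one_mem a)
    have hR0 : R ≠ 0 := by
      intro h0
      rw [hR] at h0
      by_cases h2 : (2 : F) = 0
      · have hJJ0 : J + J = 0 := by
          rw [← two_smul F J, h2, zero_smul]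
        rw [hJJ0, zero_sub, neg_eq_zero] at h0
        have ha : a = 0 := by
          have := congrFun (congrFun h0 ⟨0, by omega⟩) ⟨0, by omega⟩
          simpa using this
        have hchar : ringChar F = 2 := by
          have : CharP F 2 := by
            apply CharTwo.of_one_ne_zero_of_two_eq_zero one_ne_zero
            exact_mod_cast h2
          exact ringChar.eq F 2
        obtain ⟨t, ht⟩ := FiniteField.isSquare_of_char_two hchar b
        apply hirr t
        rw [ha, zero_mul, zero_add, ht]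
      · apply hns (a / 2)
        have h3 : (2 : F) • J = a • 1 := by
          rw [two_smul]
          exact sub_eq_zero.mp h0
        calc J = (2 : F)⁻¹ • ((2 : F) • J) := by rw [smul_smul, inv_mul_cancel₀ h2, one_smul]
          _ = (a / 2) • 1 := by rw [h3, smul_smul]; congr 1; field_simp
    obtain ⟨u1, hu1⟩ : ∃ u1 : Fin n → F, u1 = (a • 1 - J).mulVec u := ⟨_, rfl⟩
    have hReq : R = Matrix.vecMulVec u1 w - Matrix.vecMulVec u (Matrix.vecMul w J) := by
      rw [hu1, ← Matrix.mul_vecMulVec, ← Matrix.vecMulVec_mul, ← hNdef, hR]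
      rw [Matrix.add_mul, Matrix.mul_add, Matrix.one_mul, Matrix.mul_one] at hGJ'
      have h4 : N * J = a • 1 - J + (a • 1 - J) * N - J := by
        rw [← hGJ']
        abel
      rw [h4]
      abel
    obtain ⟨y, hyK, hy⟩ := hK.inv R hRK hR0
    have hsurj : ∀ v : Fin n → F, v ∈ Submodule.span F (Set.range ![u1, u]) := by
      intro v
      have h5 : v = R.mulVec (y.mulVec v) := by
        rw [Matrix.mulVec_mulVec, hy, Matrix.one_mulVec]
      rw [h5, hReq, Matrix.sub_mulVec, Matrix.vecMulVec_mulVec, Matrix.vecMulVec_mulVec,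
        Matrix.range_cons_cons_empty, Submodule.mem_span_pair]
      refine ⟨w ⬝ᵥ y.mulVec v, -(Matrix.vecMul w J ⬝ᵥ y.mulVec v), ?_⟩
      simp only [op_smul_eq_smul]
      rw [neg_smul, sub_eq_add_neg]
    have htop : Submodule.span F (Set.range ![u1, u]) = ⊤ :=
      eq_top_iff.mpr (fun v _ => hsurj v)
    have h6 := finrank_range_le_card (R := F) ![u1, u]
    rw [Set.finrank, htop, finrank_top, Module.finrank_fintype_fun_eq_card, Fintype.card_fin,
      Fintype.card_fin] at h6
    omega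

end Cfsg.Agent.Lib.Helper37.QuadGen
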