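import Mathlib
import Cfsg.Agent.Lib.Helper37.InvolDiag
import Cfsg.Agent.Lib.Helper37.PairForm
import Cfsg.Agent.Lib.Helper37.InvPairs
import Cfsg.Agent.Lib.Helper37.NonsqPow
import Cfsg.Agent.Lib.Helper37.NegOnePow

set_option autoImplicit false

namespace Cfsg.Agent.Lib.Helper37.QuadRoot

open Module

variable {F : Type*} [Field F]

/-- Transfer from linear maps to matrices. -/
theorem of_lin {n : ℕ} (A : Matrix (Fin n) (Fin n) F) (L : (Fin n → F) →ₗ[F] (Fin n → F))
    (a b : F) (hLL : L ∘ₗ L = a • L + b • LinearMap.id)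
    (h : Matrix.toLin' A ∘ₗ L = L ∘ₗ Matrix.toLin' A ∨
      Matrix.toLin' A ∘ₗ L = (a • LinearMap.id - L) ∘ₗ Matrix.toLin' A) :
    ∃ J' : Matrix (Fin n) (Fin n) F, J' * J' = a • J' + b • 1 ∧
      (A * J' = J' * A ∨ A * J' = (a • 1 - J') * A) := by
  obtain ⟨X, hX⟩ : ∃ X : (Fin n → F) →ₗ[F] (Fin n → F), LinearMap.toMatrix' X = A :=
    ⟨Matrix.toLin' A, LinearMap.toMatrix'_toLin' A⟩
  subst hX
  rw [Matrix.toLin'_toMatrix'] at h
  refine ⟨LinearMap.toMatrix' L, ?_, ?_⟩
  · rw [← LinearMap.toMatrix'_comp, hLL, map_add, map_smul, map_smul, LinearMap.toMatrix'_id]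
  · rcases h with h | h
    · left
      rw [← LinearMap.toMatrix'_comp, ← LinearMap.toMatrix'_comp, h]
    · right
      have e : a • (1 : Matrix (Fin n) (Fin n) F) - LinearMap.toMatrix' L =
          LinearMap.toMatrix' (a • LinearMap.id - L) := by
        rw [map_sub, map_smul, LinearMap.toMatrix'_id]
      rw [e, ← LinearMap.toMatrix'_comp, ← LinearMap.toMatrix'_comp, h]

/-- In characteristic 2, equal things differ by a multiple of 2. -/
theorem eq_of_two {V : Type*} [AddCommGroup V] [Module F V] (h2 : (2 : F) = 0) {p q : V} (w : V)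
    (h : p - q = (2 : F) • w) : p = q := by
  rw [h2, zero_smul] at h
  exact sub_eq_zero.mp h

/-- The quotient of two non-squares of a finite field of odd characteristic is a square. -/
theorem exists_ratio [Fintype F] (h2 : (2 : F) ≠ 0) (z D : F) (hz : ∀ c : F, c * c ≠ z)
    (hD : ∀ c : F, c * c ≠ D) : ∃ β : F, β * β * z = D := by
  have hchar := Cfsg.Agent.Lib.Helper37.NonsqPow.ringChar_ne_two h2
  have hz0 : z ≠ 0 := by
    rintro rfl
    exact hz 0 (mul_zero 0)
  have hD0 : D ≠ 0 := by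
    rintro rfl
    exact hD 0 (mul_zero 0)
  have hzE : z ^ (Fintype.card F / 2) = -1 := by
    rcases FiniteField.pow_dichotomy hchar hz0 with h | h
    · obtain ⟨c, hc⟩ := (FiniteField.isSquare_iff hchar hz0).mpr h
      exact absurd hc.symm (hz c)
    · exact h
  have hDE : D ^ (Fintype.card F / 2) = -1 := by
    rcases FiniteField.pow_dichotomy hchar hD0 with h | h
    · obtain ⟨c, hc⟩ := (FiniteField.isSquare_iff hchar hD0).mpr h
      exact absurd hc.symm (hD c)
    · exact h
  have hsq : IsSquare (D / z) := by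
    rw [FiniteField.isSquare_iff hchar (div_ne_zero hD0 hz0), div_pow, hzE, hDE]
    exact div_self (neg_ne_zero.mpr one_ne_zero)
  obtain ⟨β, hβ⟩ := hsq
  refine ⟨β, ?_⟩
  rw [← hβ]
  field_simp

/-- Characteristic 2, dimension 2. -/
theorem root_char_two [Fintype F] (h2 : (2 : F) = 0) (A : Matrix (Fin 2) (Fin 2) F) (z : F)
    (hAA : A * A = z • 1) (hz0 : z ≠ 0) (hns : ∀ c : F, A ≠ c • 1) (a b : F)
    (hirr : ∀ t : F, t * t ≠ a * t + b) :
    ∃ J' : Matrix (Fin 2) (Fin 2) F, J' * J' = a • J' + b • 1 ∧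
      (A * J' = J' * A ∨ A * J' = (a • 1 - J') * A) := by
  classical
  have hchar : ringChar F = 2 := by
    have : CharP F 2 := by
      apply CharTwo.of_one_ne_zero_of_two_eq_zero one_ne_zero
      exact_mod_cast h2
    exact ringChar.eq F 2
  obtain ⟨c, hc⟩ := FiniteField.isSquare_of_char_two hchar z
  have hc0 : c ≠ 0 := by
    rintro rfl
    rw [mul_zero] at hc
    exact hz0 hc
  have ha0 : a ≠ 0 := by
    rintro rfl
    obtain ⟨t, ht⟩ := FiniteField.isSquare_of_char_two hchar b
    exact hirr t (by rw [zero_mul, zero_add, ht])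
  obtain ⟨κ, hκ⟩ : ∃ κ : F, a * κ = b := ⟨b / a, mul_div_cancel₀ b ha0⟩
  obtain ⟨X, hX⟩ : ∃ X : (Fin 2 → F) →ₗ[F] (Fin 2 → F), X = Matrix.toLin' A := ⟨_, rfl⟩
  have hXX : ∀ v, X (X v) = (c * c) • v := by
    intro v
    rw [hX, Matrix.toLin'_apply, Matrix.toLin'_apply, Matrix.mulVec_mulVec, hAA, hc,
      Matrix.smul_mulVec, Matrix.one_mulVec]
  obtain ⟨N, hN⟩ : ∃ N : (Fin 2 → F) →ₗ[F] (Fin 2 → F), N = c⁻¹ • X - LinearMap.id :=
    ⟨_, rfl⟩
  have hNN : ∀ v, N (N v) = 0 := by
    intro v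
    rw [hN]
    simp only [LinearMap.sub_apply, LinearMap.smul_apply, LinearMap.id_apply, map_sub, map_smul,
      hXX]
    have h1 : c⁻¹ * c⁻¹ * (c * c) = 1 := by field_simp
    have h3 : c⁻¹ • (c⁻¹ • (c * c) • v - X v) - (c⁻¹ • X v - v) =
        (2 : F) • (v - c⁻¹ • X v) := by
      rw [smul_sub, smul_smul, smul_smul, h1]
      module
    rw [h3, h2, zero_smul]
  have hX_N : ∀ v, X v = c • (v + N v) := by
    intro v
    rw [hN]
    simp only [LinearMap.sub_apply, LinearMap.smul_apply, LinearMap.id_apply]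
    rw [add_sub_cancel, smul_smul, mul_inv_cancel₀ hc0, one_smul]
  obtain ⟨u₀, hu₀⟩ : ∃ u₀, N u₀ ≠ 0 := by
    by_contra hcon
    push Not at hcon
    apply hns c
    apply Matrix.toLin'.injective
    apply LinearMap.ext
    intro v
    rw [← hX, hX_N, hcon, add_zero, Matrix.toLin'_apply, Matrix.smul_mulVec, Matrix.one_mulVec]
  obtain ⟨e, he⟩ : ∃ e, e = N u₀ := ⟨_, rfl⟩
  have he0 : e ≠ 0 := by rw [he]; exact hu₀
  have hNe : N e = 0 := by rw [he]; exact hNN u₀
  have hpair : LinearIndependent F ![e, u₀] := by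
    rw [LinearIndependent.pair_iff]
    intro s t hst
    have h1 := congrArg N hst
    rw [map_add, map_smul, map_smul, hNe, smul_zero, zero_add, map_zero, ← he] at h1
    have ht : t = 0 := by
      rcases smul_eq_zero.mp h1 with h | h
      · exact h
      · exact absurd h he0
    subst ht
    rw [zero_smul, add_zero] at hst
    rcases smul_eq_zero.mp hst with h | h
    · exact ⟨h, rfl⟩
    · exact absurd h he0
  obtain ⟨B, hB⟩ : ∃ B : Basis (Fin 2) F (Fin 2 → F), ∀ i, B i = ![e, u₀] i :=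
    ⟨basisOfLinearIndependentOfCardEqFinrank hpair (by simp), fun i => by
      rw [coe_basisOfLinearIndependentOfCardEqFinrank]⟩
  have hB0 : B 0 = e := hB 0
  have hB1 : B 1 = u₀ := hB 1
  obtain ⟨L, hL⟩ : ∃ L : (Fin 2 → F) →ₗ[F] (Fin 2 → F),
      L = B.constr F ![a • u₀, a • u₀ + κ • e] := ⟨_, rfl⟩
  have hLe : L e = a • u₀ := by
    rw [hL, ← hB0, Basis.constr_basis]
    rfl
  have hLu : L u₀ = a • u₀ + κ • e := by
    rw [hL, ← hB1, Basis.constr_basis]
    rfl
  apply of_lin A L a b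
  · apply B.ext
    refine Fin.forall_fin_two.mpr ⟨?_, ?_⟩
    · rw [hB0]
      simp only [LinearMap.comp_apply, LinearMap.add_apply, LinearMap.smul_apply,
        LinearMap.id_apply]
      rw [hLe, map_smul, hLu, smul_add, smul_smul a κ, hκ]
    · rw [hB1]
      simp only [LinearMap.comp_apply, LinearMap.add_apply, LinearMap.smul_apply,
        LinearMap.id_apply]
      rw [hLu, map_add, map_smul, map_smul, hLu, hLe, smul_smul κ a, mul_comm κ a, hκ]
  · right
    rw [← hX]
    apply B.ext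
    refine Fin.forall_fin_two.mpr ⟨?_, ?_⟩
    · rw [hB0]
      simp only [LinearMap.comp_apply, LinearMap.sub_apply, LinearMap.smul_apply,
        LinearMap.id_apply]
      rw [hLe, hX_N e, hNe, add_zero, map_smul, hX_N u₀, ← he, map_smul, hLe]
      apply eq_of_two h2 ((a * c) • u₀)
      module
    · rw [hB1]
      simp only [LinearMap.comp_apply, LinearMap.sub_apply, LinearMap.smul_apply,
        LinearMap.id_apply]
      rw [hLu, map_add, map_smul, map_smul, hX_N e, hNe, add_zero, hX_N u₀, ← he, map_smul,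
        map_add, hLe, hLu]
      apply eq_of_two h2 ((a * c) • u₀ + (κ * c) • e)
      module

/-- Odd characteristic, `x² = z` with `z` a non-square. -/
theorem root_nonsq [Fintype F] (h2 : (2 : F) ≠ 0) {n : ℕ} (A : Matrix (Fin n) (Fin n) F) (z : F)
    (hAA : A * A = z • 1) (hz : ∀ c : F, c * c ≠ z) (a b : F)
    (hirr : ∀ t : F, t * t ≠ a * t + b) :
    ∃ J' : Matrix (Fin n) (Fin n) F, J' * J' = a • J' + b • 1 ∧
      (A * J' = J' * A ∨ A * J' = (a • 1 - J') * A) := by
  obtain ⟨σ, hσ⟩ : ∃ σ : F, 2 * σ = a := ⟨a / 2, mul_div_cancel₀ a h2⟩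
  obtain ⟨D, hD⟩ : ∃ D : F, D = σ * σ + b := ⟨_, rfl⟩
  have hDns : ∀ d : F, d * d ≠ D := by
    intro d hd
    apply hirr (σ + d)
    rw [hD] at hd
    rw [← hσ]
    linear_combination hd
  obtain ⟨β, hβ⟩ := exists_ratio h2 z D hz hDns
  refine ⟨σ • 1 + β • A, ?_, Or.inl ?_⟩
  · have e : (σ • (1 : Matrix (Fin n) (Fin n) F) + β • A) * (σ • 1 + β • A) =
        (σ * σ + β * β * z) • 1 + (2 * σ * β) • A := by
      simp only [add_mul, mul_add, Matrix.smul_mul, Matrix.mul_smul, Matrix.one_mul,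
        Matrix.mul_one, hAA, smul_smul]
      module
    have h1 : σ * σ + β * β * z = a * σ + b := by
      rw [hβ, hD]
      linear_combination σ * hσ
    rw [e, h1, hσ]
    module
  · simp only [add_mul, mul_add, Matrix.smul_mul, Matrix.mul_smul, Matrix.one_mul,
      Matrix.mul_one]

/-- Odd characteristic, dimension 2, `x² = c²`. -/
theorem root_split_two (h2 : (2 : F) ≠ 0) (A : Matrix (Fin 2) (Fin 2) F) (c : F) (hc0 : c ≠ 0)
    (hAA : A * A = (c * c) • 1) (hns : ∀ t : F, A ≠ t • 1) (a b : F) :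
    ∃ J' : Matrix (Fin 2) (Fin 2) F, J' * J' = a • J' + b • 1 ∧
      (A * J' = J' * A ∨ A * J' = (a • 1 - J') * A) := by
  classical
  have hyy : (c⁻¹ • A) * (c⁻¹ • A) = 1 := by
    rw [Matrix.smul_mul, Matrix.mul_smul, hAA, smul_smul, smul_smul]
    have : c⁻¹ * c⁻¹ * (c * c) = 1 := by field_simp
    rw [this, one_smul]
  obtain ⟨bs, ε, hb⟩ := Cfsg.Agent.Lib.Helper37.InvolDiag.exists_eigenbasis_matrix h2
    (fun _ : Unit => c⁻¹ • A) (fun _ _ => rfl) (fun _ => hyy)
  have hε : ∀ i, ε i () = 1 ∨ ε i () = -1 := fun i =>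
    Cfsg.Agent.Lib.Helper37.InvolDiag.eps_eq_one_or (c⁻¹ • A) hyy (bs i) (bs.ne_zero i) _
      (hb i ())
  have hAb : ∀ i, A.mulVec (bs i) = (c * ε i ()) • bs i := by
    intro i
    have h1 := hb i ()
    rw [Matrix.smul_mulVec] at h1
    have h3 := congrArg (fun w => c • w) h1
    simp only [smul_smul, mul_inv_cancel₀ hc0, one_smul] at h3
    exact h3
  have hne : ε 1 () = -ε 0 () := by
    by_contra hcon
    have heq : ε 1 () = ε 0 () := by
      rcases hε 0 with h0 | h0 <;> rcases hε 1 with h1 | h1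
      · rw [h0, h1]
      · rw [h0, h1] at hcon
        exact absurd rfl hcon
      · rw [h0, h1] at hcon
        exact absurd (neg_neg (1 : F)).symm hcon
      · rw [h0, h1]
    apply hns (c * ε 0 ())
    apply Matrix.toLin'.injective
    apply bs.ext
    intro i
    rw [Matrix.toLin'_apply, Matrix.toLin'_apply, Matrix.smul_mulVec, Matrix.one_mulVec, hAb]
    fin_cases i
    · rfl
    · show (c * ε 1 ()) • bs 1 = (c * ε 0 ()) • bs 1
      rw [heq]
  obtain ⟨e0, he0⟩ : ∃ e0 : F, e0 = c * ε 0 () := ⟨_, rfl⟩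
  have hA0 : Matrix.toLin' A (bs 0) = e0 • bs 0 := by
    rw [Matrix.toLin'_apply, hAb, he0]
  have hA1 : Matrix.toLin' A (bs 1) = (-e0) • bs 1 := by
    rw [Matrix.toLin'_apply, hAb, he0, hne, mul_neg]
  obtain ⟨σ, hσ⟩ : ∃ σ : F, 2 * σ = a := ⟨a / 2, mul_div_cancel₀ a h2⟩
  obtain ⟨L, hL⟩ : ∃ L : (Fin 2 → F) →ₗ[F] (Fin 2 → F),
      L = bs.constr F ![σ • bs 0 + bs 1, (σ * σ + b) • bs 0 + σ • bs 1] := ⟨_, rfl⟩
  have hL0 : L (bs 0) = σ • bs 0 + bs 1 := by
    rw [hL, Basis.constr_basis]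
    rfl
  have hL1 : L (bs 1) = (σ * σ + b) • bs 0 + σ • bs 1 := by
    rw [hL, Basis.constr_basis]
    rfl
  subst hσ
  apply of_lin A L (2 * σ) b
  · apply bs.ext
    refine Fin.forall_fin_two.mpr ⟨?_, ?_⟩
    · simp only [LinearMap.comp_apply, LinearMap.add_apply, LinearMap.smul_apply,
        LinearMap.id_apply]
      rw [hL0, map_add, map_smul, hL0, hL1]
      module
    · simp only [LinearMap.comp_apply, LinearMap.add_apply, LinearMap.smul_apply,
        LinearMap.id_apply]
      rw [hL1, map_add, map_smul, map_smul, hL0, hL1]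
      module
  · right
    apply bs.ext
    refine Fin.forall_fin_two.mpr ⟨?_, ?_⟩
    · simp only [LinearMap.comp_apply, LinearMap.sub_apply, LinearMap.smul_apply,
        LinearMap.id_apply]
      rw [hL0, map_add, map_smul, hA0, hA1, map_smul, hL0]
      module
    · simp only [LinearMap.comp_apply, LinearMap.sub_apply, LinearMap.smul_apply,
        LinearMap.id_apply]
      rw [hL1, map_add, map_smul, map_smul, hA0, hA1, map_smul, hL1]
      module

/-- A matrix with `x² = c²` in odd characteristic, with an even number of eigenvalues `-c`, has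
an eigenbasis of pairs with a common eigenvalue. -/
theorem eigen_pairs_same (h2 : (2 : F) ≠ 0) {n : ℕ} (hn : Even n) (A : Matrix (Fin n) (Fin n) F)
    (c : F) (hc : c ≠ 0) (hAA : A * A = (c * c) • (1 : Matrix (Fin n) (Fin n) F))
    (hdet : A.det = 1) (hno : c ^ n ≠ -1) :
    ∃ (K : Type) (_ : Fintype K) (B : Basis (K ⊕ K) F (Fin n → F)), ∀ k, ∃ γ : F,
      Matrix.toLin' A (B (Sum.inl k)) = γ • B (Sum.inl k) ∧
      Matrix.toLin' A (B (Sum.inr k)) = γ • B (Sum.inr k) := by
  classical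
  have hyy : (c⁻¹ • A) * (c⁻¹ • A) = 1 := by
    rw [Matrix.smul_mul, Matrix.mul_smul, hAA, smul_smul, smul_smul]
    have : c⁻¹ * c⁻¹ * (c * c) = 1 := by field_simp
    rw [this, one_smul]
  obtain ⟨b, ε, hb⟩ := Cfsg.Agent.Lib.Helper37.InvolDiag.exists_eigenbasis_matrix h2
    (fun _ : Unit => c⁻¹ • A) (fun _ _ => rfl) (fun _ => hyy)
  have hε : ∀ i, ε i () = 1 ∨ ε i () = -1 := fun i =>
    Cfsg.Agent.Lib.Helper37.InvolDiag.eps_eq_one_or (c⁻¹ • A) hyy (b i) (b.ne_zero i) _ (hb i ())
  have hAb : ∀ i, A.mulVec (b i) = (c * ε i ()) • b i := by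
    intro i
    have h1 := hb i ()
    rw [Matrix.smul_mulVec] at h1
    have h3 := congrArg (fun w => c • w) h1
    simp only [smul_smul, mul_inv_cancel₀ hc, one_smul] at h3
    exact h3
  have hdet' := Cfsg.Agent.Lib.Helper37.InvolDiag.det_eq_prod_eps b A (fun i => c * ε i ()) hAb
  rw [hdet, Finset.prod_mul_distrib, Finset.prod_const, Finset.card_univ, Fintype.card_fin,
    Cfsg.Agent.Lib.Helper37.InvPairs.prod_signs (fun i => ε i ()) hε] at hdet'
  have hodd : Even (Fintype.card {i // ¬ ε i () = 1}) := by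
    by_contra hcon
    rw [Nat.not_even_iff_odd] at hcon
    rw [hcon.neg_one_pow] at hdet'
    apply hno
    linear_combination hdet'
  obtain ⟨t, ht⟩ : ∃ t : Fin n → Bool, t = fun i => decide (ε i () = 1) := ⟨_, rfl⟩
  have hevenfib : ∀ τ, Even (Fintype.card {i // t i = τ}) := by
    have hfalse : Fintype.card {i // t i = false} = Fintype.card {i // ¬ ε i () = 1} :=
      Fintype.card_congr (Equiv.subtypeEquivRight (fun i => by rw [ht]; simp))
    have htrue : Fintype.card {i // t i = true} = Fintype.card {i // ε i () = 1} :=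
      Fintype.card_congr (Equiv.subtypeEquivRight (fun i => by rw [ht]; simp))
    have hsum := Fintype.card_subtype_compl (fun i : Fin n => ε i () = 1)
    rw [Fintype.card_fin] at hsum
    have hle := Fintype.card_subtype_le (fun i : Fin n => ε i () = 1)
    rw [Fintype.card_fin] at hle
    intro τ
    cases τ with
    | false => rw [hfalse]; exact hodd
    | true =>
      rw [htrue]
      obtain ⟨r, hr⟩ := hodd
      obtain ⟨s, hs⟩ := hn
      rw [Nat.even_iff]
      omega
  obtain ⟨K, hK, e, he⟩ := Cfsg.Agent.Lib.Helper37.PairForm.exists_pairing t hevenfib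
  refine ⟨K, hK, b.reindex e.symm, ?_⟩
  intro k
  rw [Basis.reindex_apply, Basis.reindex_apply, Equiv.symm_symm]
  have h1 := he k
  rw [ht] at h1
  simp only [decide_eq_decide] at h1
  have h3 : ε (e (Sum.inr k)) () = ε (e (Sum.inl k)) () := by
    rcases hε (e (Sum.inl k)) with h4 | h4
    · rw [h4, h1.mp h4]
    · rcases hε (e (Sum.inr k)) with h5 | h5
      · rw [h1.mpr h5] at h4
        exact absurd h4 (fun h => h2 (by linear_combination h))
      · rw [h4, h5]
  refine ⟨c * ε (e (Sum.inl k)) (), ?_, ?_⟩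
  · rw [Matrix.toLin'_apply, hAb]
  · rw [Matrix.toLin'_apply, hAb, h3]

/-- Odd characteristic, `x² = c²` with `cⁿ ≠ -1`. -/
theorem root_split_pairs (h2 : (2 : F) ≠ 0) {n : ℕ} (hn : Even n) (A : Matrix (Fin n) (Fin n) F)
    (c : F) (hc : c ≠ 0) (hAA : A * A = (c * c) • (1 : Matrix (Fin n) (Fin n) F))
    (hdet : A.det = 1) (hno : c ^ n ≠ -1) (a b : F) :
    ∃ J' : Matrix (Fin n) (Fin n) F, J' * J' = a • J' + b • 1 ∧
      (A * J' = J' * A ∨ A * J' = (a • 1 - J') * A) := by
  classical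
  obtain ⟨K, hK, B, hB⟩ := eigen_pairs_same h2 hn A c hc hAA hdet hno
  obtain ⟨L, hL⟩ : ∃ L : (Fin n → F) →ₗ[F] (Fin n → F),
      L = B.constr F (Sum.elim (fun k => B (Sum.inr k))
        (fun k => a • B (Sum.inr k) + b • B (Sum.inl k))) := ⟨_, rfl⟩
  have hL0 : ∀ k, L (B (Sum.inl k)) = B (Sum.inr k) := by
    intro k
    rw [hL, Basis.constr_basis]
    rfl
  have hL1 : ∀ k, L (B (Sum.inr k)) = a • B (Sum.inr k) + b • B (Sum.inl k) := by
    intro k
    rw [hL, Basis.constr_basis]
    rfl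
  apply of_lin A L a b
  · apply B.ext
    rintro (k | k)
    · simp only [LinearMap.comp_apply, LinearMap.add_apply, LinearMap.smul_apply,
        LinearMap.id_apply]
      rw [hL0, hL1]
    · simp only [LinearMap.comp_apply, LinearMap.add_apply, LinearMap.smul_apply,
        LinearMap.id_apply]
      rw [hL1, map_add, map_smul, map_smul, hL1, hL0]
  · left
    apply B.ext
    rintro (k | k)
    · obtain ⟨γ, h1, h3⟩ := hB k
      simp only [LinearMap.comp_apply]
      rw [hL0, h3, h1, map_smul, hL0]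
    · obtain ⟨γ, h1, h3⟩ := hB k
      simp only [LinearMap.comp_apply]
      rw [hL1, map_add, map_smul, map_smul, h3, h1, map_smul, hL1]
      module

/-- A root of the quadratic commuting with, or inverted by, a given involution modulo
scalars. -/
theorem exists_root [Fintype F] {n : ℕ} (hn : 2 ≤ n) (heven : Even n)
    (A : Matrix (Fin n) (Fin n) F) (z : F) (hAA : A * A = z • 1) (hdet : A.det = 1)
    (hns : ∀ c : F, A ≠ c • 1) (a b : F) (hirr : ∀ t : F, t * t ≠ a * t + b)
    (hcond : n = 2 ∨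
      ((2 : F) ≠ 0 ∧ padicValNat 2 (Fintype.card F - 1) ≤ padicValNat 2 n)) :
    ∃ J' : Matrix (Fin n) (Fin n) F, J' * J' = a • J' + b • 1 ∧
      (A * J' = J' * A ∨ A * J' = (a • 1 - J') * A) := by
  classical
  have hz0 : z ≠ 0 := by
    intro h0
    rw [h0, zero_smul] at hAA
    have h1 := congrArg Matrix.det hAA
    have : Nonempty (Fin n) := ⟨⟨0, by omega⟩⟩
    rw [Matrix.det_mul, hdet, Matrix.det_zero] at h1
    simp at h1
  by_cases h2 : (2 : F) = 0
  · have hn2 : n = 2 := by
      rcases hcond with h | ⟨h, -⟩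
      · exact h
      · exact absurd h2 h
    subst hn2
    exact root_char_two h2 A z hAA hz0 hns a b hirr
  · by_cases hsq : ∃ c : F, z = c * c
    · obtain ⟨c, hc⟩ := hsq
      have hc0 : c ≠ 0 := by
        rintro rfl
        rw [mul_zero] at hc
        exact hz0 hc
      rw [hc] at hAA
      by_cases hn2 : n = 2
      · subst hn2
        exact root_split_two h2 A c hc0 hAA hns a b
      · have hle : padicValNat 2 (Fintype.card F - 1) ≤ padicValNat 2 n := by
          rcases hcond with h | ⟨-, h⟩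
          · exact absurd h hn2
          · exact h
        have hno : c ^ n ≠ -1 := by
          intro h3
          have := Cfsg.Agent.Lib.Helper37.NegOnePow.padic_lt_of_pow_eq_neg_one h2 n (by omega) c
            h3
          omega
        exact root_split_pairs h2 heven A c hc0 hAA hdet hno a b
    · exact root_nonsq h2 A z hAA (fun c hc => hsq ⟨c, hc.symm⟩) a b hirr

end Cfsg.Agent.Lib.Helper37.QuadRoot
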