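import Mathlib
import Cfsg.Prelude.Def_GeometricClasses
import Cfsg.Agent.Lib.Helper37.QuadGen

set_option autoImplicit false

open scoped MatrixGroups Matrix

namespace Cfsg.Agent.Lib.Helper37.SingerA

open Module Cfsg.Agent.Lib.Helper37.QuadGen

variable {F : Type*} [Field F] {n : ℕ}

/-- A list of elements of a field subalgebra with zero product contains zero. -/
theorem list_prod_eq_zero {r : ℕ} (hn : 0 < n) (K : Subalgebra F (Matrix (Fin n) (Fin n) F))
    (hK : Cfsg.Geo.IsFieldSubalgebra r K) :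
    ∀ l : List (Matrix (Fin n) (Fin n) F), (∀ M ∈ l, M ∈ K) → l.prod = 0 → ∃ M ∈ l, M = 0
  | [], _, h => by
      exfalso
      have : Nonempty (Fin n) := ⟨⟨0, hn⟩⟩
      rw [List.prod_nil] at h
      exact one_ne_zero h
  | a :: l, hl, h => by
      rw [List.prod_cons] at h
      by_cases ha : a = 0
      · exact ⟨a, List.mem_cons_self, ha⟩
      · have h1 := mul_eq_zero K hK a (hl a List.mem_cons_self) ha l.prod h
        obtain ⟨M, hM, hM0⟩ := list_prod_eq_zero hn K hK l
          (fun M hM => hl M (List.mem_cons_of_mem _ hM)) h1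
        exact ⟨M, List.mem_cons_of_mem _ hM, hM0⟩

/-- Elements of a field subalgebra fixed by the Frobenius map are scalar. -/
theorem frob_fixed [Fintype F] {r : ℕ} (hn : 0 < n) (K : Subalgebra F (Matrix (Fin n) (Fin n) F))
    (hK : Cfsg.Geo.IsFieldSubalgebra r K) (b : Matrix (Fin n) (Fin n) F) (hb : b ∈ K)
    (hfix : b ^ Fintype.card F = b) : ∃ c : F, b = c • (1 : Matrix (Fin n) (Fin n) F) := by
  classical
  have hprod : ((Finset.univ : Finset F).val.toList.map
      (fun a : F => (Polynomial.X - Polynomial.C a : Polynomial F))).prod =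
      Polynomial.X ^ Fintype.card F - Polynomial.X := by
    rw [Multiset.prod_map_toList, ← FiniteField.roots_X_pow_card_sub_X F]
    apply Polynomial.prod_multiset_X_sub_C_of_monic_of_roots_card_eq
    · apply Polynomial.monic_X_pow_sub
      rw [Polynomial.degree_X]
      exact_mod_cast Fintype.one_lt_card
    · rw [FiniteField.roots_X_pow_card_sub_X, ← Finset.card_def, Finset.card_univ,
        FiniteField.X_pow_card_sub_X_natDegree_eq F Fintype.one_lt_card]
  have h2 := congrArg (Polynomial.aeval b) hprod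
  rw [map_list_prod, List.map_map] at h2
  simp only [map_sub, map_pow, Polynomial.aeval_X] at h2
  rw [hfix, sub_self] at h2
  obtain ⟨M, hM, hM0⟩ := list_prod_eq_zero hn K hK _ (by
    intro M hM
    rw [List.mem_map] at hM
    obtain ⟨a, -, rfl⟩ := hM
    simp only [Function.comp_apply, map_sub, Polynomial.aeval_X, Polynomial.aeval_C]
    exact K.sub_mem hb (K.algebraMap_mem a)) h2
  rw [List.mem_map] at hM
  obtain ⟨a, -, rfl⟩ := hM
  refine ⟨a, ?_⟩
  simp only [Function.comp_apply, map_sub, Polynomial.aeval_X, Polynomial.aeval_C] at hM0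
  rw [sub_eq_zero] at hM0
  rw [hM0, Algebra.algebraMap_eq_smul_one]

/-- The group of units of a field subalgebra. -/
theorem exists_units [Fintype F] {r : ℕ} (hn : 0 < n) (K : Subalgebra F (Matrix (Fin n) (Fin n) F))
    (hK : Cfsg.Geo.IsFieldSubalgebra r K) :
    ∃ S : Subgroup (GL (Fin n) F), (∀ g : GL (Fin n) F, g ∈ S ↔
      (g : Matrix (Fin n) (Fin n) F) ∈ K) ∧ Nat.card S = Fintype.card F ^ r - 1 := by
  classical
  have : Nonempty (Fin n) := ⟨⟨0, hn⟩⟩
  have hval0 : ∀ g : GL (Fin n) F, (g : Matrix (Fin n) (Fin n) F) ≠ 0 := by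
    intro g h0
    have h1 : (g : Matrix (Fin n) (Fin n) F) * ((g⁻¹ : GL (Fin n) F) : Matrix (Fin n) (Fin n) F)
        = 1 := by rw [← Units.val_mul, mul_inv_cancel, Units.val_one]
    rw [h0, Matrix.zero_mul] at h1
    exact zero_ne_one h1
  obtain ⟨S, hS⟩ : ∃ S : Subgroup (GL (Fin n) F), ∀ g : GL (Fin n) F, g ∈ S ↔
      (g : Matrix (Fin n) (Fin n) F) ∈ K := by
    refine ⟨{ carrier := {g | (g : Matrix (Fin n) (Fin n) F) ∈ K}
              mul_mem' := fun {a b} ha hb => K.mul_mem ha hb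
              one_mem' := K.one_mem
              inv_mem' := ?_ }, fun g => Iff.rfl⟩
    intro g hg
    obtain ⟨y, hyK, hy⟩ := hK.inv _ hg (hval0 g)
    have hyg : y = ((g⁻¹ : GL (Fin n) F) : Matrix (Fin n) (Fin n) F) := by
      calc y = ((g⁻¹ : GL (Fin n) F) : Matrix (Fin n) (Fin n) F) *
            ((g : Matrix (Fin n) (Fin n) F) * y) := by
            rw [← Matrix.mul_assoc, ← Units.val_mul, inv_mul_cancel, Units.val_one,
              Matrix.one_mul]
        _ = ((g⁻¹ : GL (Fin n) F) : Matrix (Fin n) (Fin n) F) := by rw [hy, Matrix.mul_one]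
    show ((g⁻¹ : GL (Fin n) F) : Matrix (Fin n) (Fin n) F) ∈ K
    rw [← hyg]
    exact hyK
  refine ⟨S, hS, ?_⟩
  let _ : Fintype ↥K := Fintype.ofFinite _
  have hcardK : Fintype.card ↥K = Fintype.card F ^ r := by
    rw [Module.card_eq_pow_finrank (K := F) (V := ↥K), hK.finrank_eq]
  let φ : ↥S → {a : ↥K // a ≠ 0} := fun g =>
    ⟨⟨(g.1 : Matrix (Fin n) (Fin n) F), (hS g.1).mp g.2⟩, fun h =>
      hval0 g.1 (congrArg Subtype.val h)⟩
  have hφ : Function.Bijective φ := by
    constructor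
    · intro g g' h
      apply Subtype.ext
      apply Units.ext
      exact congrArg (fun t : {a : ↥K // a ≠ 0} => (t.1 : Matrix (Fin n) (Fin n) F)) h
    · rintro ⟨⟨a, haK⟩, ha0⟩
      have ha0' : a ≠ 0 := fun h => ha0 (Subtype.ext h)
      obtain ⟨y, hyK, hy⟩ := hK.inv a haK ha0'
      have hy' : y * a = 1 := by rw [hK.comm y hyK a haK, hy]
      refine ⟨⟨⟨a, y, hy, hy'⟩, (hS _).mpr haK⟩, rfl⟩
  rw [Nat.card_congr (Equiv.ofBijective φ hφ), Nat.card_eq_fintype_card,
    Fintype.card_subtype_compl, Fintype.card_subtype_eq, hcardK]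

/-- Every element of a field subalgebra of degree `r` is fixed by the `r`-th power of the
Frobenius map. -/
theorem pow_card [Fintype F] {r : ℕ} (hn : 0 < n) (K : Subalgebra F (Matrix (Fin n) (Fin n) F))
    (hK : Cfsg.Geo.IsFieldSubalgebra r K) (a : Matrix (Fin n) (Fin n) F) (ha : a ∈ K) :
    a ^ (Fintype.card F ^ r) = a := by
  have hq : 0 < Fintype.card F ^ r := pow_pos Fintype.card_pos r
  by_cases ha0 : a = 0
  · rw [ha0, zero_pow hq.ne']
  obtain ⟨S, hS, hcard⟩ := exists_units hn K hK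
  obtain ⟨y, hyK, hy⟩ := hK.inv a ha ha0
  have hy' : y * a = 1 := by rw [hK.comm y hyK a ha, hy]
  obtain ⟨u, hu⟩ : ∃ u : GL (Fin n) F, (u : Matrix (Fin n) (Fin n) F) = a :=
    ⟨⟨a, y, hy, hy'⟩, rfl⟩
  have huS : u ∈ S := (hS u).mpr (by rw [hu]; exact ha)
  have h1 : (⟨u, huS⟩ : ↥S) ^ Nat.card ↥S = 1 := pow_card_eq_one'
  have h2 : u ^ (Fintype.card F ^ r - 1) = 1 := by
    have := congrArg Subtype.val h1
    rw [hcard] at this
    simpa using this
  have h3 : a ^ (Fintype.card F ^ r - 1) = 1 := by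
    have := congrArg Units.val h2
    rw [Units.val_pow_eq_pow_val, hu] at this
    exact this
  calc a ^ (Fintype.card F ^ r) = a ^ (Fintype.card F ^ r - 1 + 1) := by
        congr 1
        omega
    _ = a := by rw [pow_succ, h3, one_mul]

/-- A field subalgebra of degree at least two contains an element moved by Frobenius. -/
theorem exists_not_fixed [Fintype F] {r : ℕ} (hr : 2 ≤ r) (hn : 0 < n)
    (K : Subalgebra F (Matrix (Fin n) (Fin n) F)) (hK : Cfsg.Geo.IsFieldSubalgebra r K) :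
    ∃ b ∈ K, b ^ Fintype.card F ≠ b := by
  by_contra hcon
  push Not at hcon
  have : Nonempty (Fin n) := ⟨⟨0, hn⟩⟩
  have h1ne : (1 : Matrix (Fin n) (Fin n) F) ≠ 0 := one_ne_zero
  have hfr : finrank F (Subalgebra.toSubmodule K) = r := by
    rw [Subalgebra.finrank_toSubmodule]
    exact hK.finrank_eq
  have hle : Subalgebra.toSubmodule K ≤ Submodule.span F {(1 : Matrix (Fin n) (Fin n) F)} := by
    intro b hb
    obtain ⟨c, hc⟩ := frob_fixed hn K hK b hb (hcon b hb)
    rw [hc]
    exact Submodule.smul_mem _ _ (Submodule.mem_span_singleton_self _)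
  have h1 := Submodule.finrank_mono hle
  have h2 := finrank_span_singleton (K := F) h1ne
  omega

/-- Every vector is a `K`-multiple of a fixed non-zero vector when the degree is `n`. -/
theorem exists_mulVec_eq (K : Subalgebra F (Matrix (Fin n) (Fin n) F))
    (hK : Cfsg.Geo.IsFieldSubalgebra n K) (v₀ : Fin n → F) (hv₀ : v₀ ≠ 0) (w : Fin n → F) :
    ∃ a ∈ K, a *ᵥ v₀ = w := by
  let ev : ↥K →ₗ[F] (Fin n → F) :=
    { toFun := fun a => (a : Matrix (Fin n) (Fin n) F) *ᵥ v₀
      map_add' := fun a b => by simp [Matrix.add_mulVec]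
      map_smul' := fun c a => by simp [Matrix.smul_mulVec] }
  have hevinj : Function.Injective ev := by
    rw [← LinearMap.ker_eq_bot, LinearMap.ker_eq_bot']
    intro a ha
    by_contra ha0
    exact hv₀ (mulVec_eq_zero K hK a.1 a.2 (fun h => ha0 (Subtype.ext h)) v₀ ha)
  have hdim : finrank F ↥K = finrank F (Fin n → F) := by
    rw [hK.finrank_eq, Module.finrank_fintype_fun_eq_card, Fintype.card_fin]
  have hsurj : Function.Surjective ev :=
    (LinearMap.injective_iff_surjective_of_finrank_eq_finrank hdim).mp hevinj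
  obtain ⟨a, ha⟩ := hsurj w
  exact ⟨a.1, a.2, ha⟩

/-- A matrix commuting with a field subalgebra of degree `n` lies in it. -/
theorem centralizer_mem (hn : 0 < n) (K : Subalgebra F (Matrix (Fin n) (Fin n) F))
    (hK : Cfsg.Geo.IsFieldSubalgebra n K) (M : Matrix (Fin n) (Fin n) F)
    (hM : ∀ b ∈ K, M * b = b * M) : M ∈ K := by
  classical
  obtain ⟨v₀, hv₀⟩ : ∃ v₀ : Fin n → F, v₀ ≠ 0 := ⟨Pi.single ⟨0, hn⟩ 1, by
    intro h
    have := congrFun h ⟨0, hn⟩
    simp at this⟩
  obtain ⟨b, hbK, hb⟩ := exists_mulVec_eq K hK v₀ hv₀ (M *ᵥ v₀)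
  have hMb : M = b := by
    apply Matrix.toLin'.injective
    apply LinearMap.ext
    intro w
    obtain ⟨a, haK, rfl⟩ := exists_mulVec_eq K hK v₀ hv₀ w
    rw [Matrix.toLin'_apply, Matrix.toLin'_apply, Matrix.mulVec_mulVec, Matrix.mulVec_mulVec,
      hM a haK, hK.comm b hbK a haK, ← Matrix.mulVec_mulVec, ← Matrix.mulVec_mulVec, hb]
  rw [hMb]
  exact hbK

end Cfsg.Agent.Lib.Helper37.SingerA
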