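import Mathlib
import Cfsg.Prelude.Def_GeometricClasses
import Cfsg.Agent.Lib.Helper37.QuadGen
import Cfsg.Agent.Lib.Helper37.SingerA

set_option autoImplicit false

open scoped MatrixGroups Matrix

namespace Cfsg.Agent.Lib.Helper37.SingerB

open Module Cfsg.Agent.Lib.Helper37.QuadGen Cfsg.Agent.Lib.Helper37.SingerA

variable {F : Type*} [Field F] {n : ℕ}

/-- The Frobenius map of a field subalgebra of degree `n` is induced by conjugation with a
matrix of order `n`. -/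
theorem exists_frob [Fintype F] {p : ℕ} [Fact p.Prime] [CharP F p] (hn : 2 ≤ n)
    (K : Subalgebra F (Matrix (Fin n) (Fin n) F)) (hK : Cfsg.Geo.IsFieldSubalgebra n K) :
    ∃ G : Matrix (Fin n) (Fin n) F, G ^ n = 1 ∧
      (∀ b ∈ K, G * b = b ^ Fintype.card F * G) ∧ G ≠ 1 := by
  classical
  have : Nonempty (Fin n) := ⟨⟨0, by omega⟩⟩
  obtain ⟨f, -, hqf⟩ := FiniteField.card F p
  obtain ⟨q, hq⟩ : ∃ q, q = Fintype.card F := ⟨_, rfl⟩
  rw [← hq]
  have hadd : ∀ a b : Matrix (Fin n) (Fin n) F, Commute a b → (a + b) ^ q = a ^ q + b ^ q := by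
    intro a b hab
    rw [hq, hqf]
    exact add_pow_char_pow_of_commute p (f : ℕ) hab
  have hsmul : ∀ (c : F) (a : Matrix (Fin n) (Fin n) F), (c • a) ^ q = c • a ^ q := by
    intro c a
    rw [smul_pow, hq, FiniteField.pow_card]
  obtain ⟨v₀, hv₀⟩ : ∃ v₀ : Fin n → F, v₀ ≠ 0 := ⟨Pi.single ⟨0, by omega⟩ 1, by
    intro h
    have := congrFun h ⟨0, by omega⟩
    simp at this⟩
  choose a ha using exists_mulVec_eq K hK v₀ hv₀
  have huniq : ∀ b ∈ K, ∀ b' ∈ K, b *ᵥ v₀ = b' *ᵥ v₀ → b = b' := by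
    intro b hb b' hb' h
    by_contra hne
    apply hv₀
    apply mulVec_eq_zero K hK (b - b') (K.sub_mem hb hb') (sub_ne_zero.mpr hne) v₀
    rw [Matrix.sub_mulVec, h, sub_self]
  have ha_eq : ∀ b ∈ K, a (b *ᵥ v₀) = b := fun b hb => huniq _ (ha _).1 _ hb (ha _).2
  have ha_add : ∀ w w', a (w + w') = a w + a w' := by
    intro w w'
    apply huniq _ (ha _).1 _ (K.add_mem (ha w).1 (ha w').1)
    rw [(ha _).2, Matrix.add_mulVec, (ha w).2, (ha w').2]
  have ha_smul : ∀ (c : F) w, a (c • w) = c • a w := by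
    intro c w
    apply huniq _ (ha _).1 _ (K.smul_mem (ha w).1 c)
    rw [(ha _).2, Matrix.smul_mulVec, (ha w).2]
  let g : (Fin n → F) →ₗ[F] (Fin n → F) :=
    { toFun := fun w => (a w ^ q) *ᵥ v₀
      map_add' := fun w w' => by
        rw [ha_add, hadd _ _ (hK.comm _ (ha w).1 _ (ha w').1), Matrix.add_mulVec]
      map_smul' := fun c w => by
        rw [ha_smul, hsmul, Matrix.smul_mulVec, RingHom.id_apply] }
  have hg : ∀ b ∈ K, g (b *ᵥ v₀) = (b ^ q) *ᵥ v₀ := by
    intro b hb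
    show (a (b *ᵥ v₀) ^ q) *ᵥ v₀ = _
    rw [ha_eq b hb]
  have hpow : ∀ (j : ℕ), ∀ b ∈ K, (g ^ j) (b *ᵥ v₀) = (b ^ (q ^ j)) *ᵥ v₀ := by
    intro j
    induction j with
    | zero =>
      intro b _
      simp
    | succ j ih =>
      intro b hb
      rw [pow_succ', Module.End.mul_apply, ih b hb, hg _ (K.pow_mem hb _), ← pow_mul,
        ← pow_succ]
  have hgn : g ^ n = 1 := by
    apply LinearMap.ext
    intro w
    rw [← (ha w).2, hpow n _ (ha w).1, hq, pow_card (by omega) K hK _ (ha w).1]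
    rfl
  have hcomm : ∀ b ∈ K, g ∘ₗ Matrix.toLin' b = Matrix.toLin' (b ^ q) ∘ₗ g := by
    intro b hb
    apply LinearMap.ext
    intro w
    rw [LinearMap.comp_apply, LinearMap.comp_apply, Matrix.toLin'_apply, Matrix.toLin'_apply,
      ← (ha w).2, Matrix.mulVec_mulVec, hg _ (K.mul_mem hb (ha w).1), hg _ (ha w).1,
      Matrix.mulVec_mulVec, (show Commute b (a w) from hK.comm b hb _ (ha w).1).mul_pow]
  refine ⟨LinearMap.toMatrix' g, ?_, ?_, ?_⟩
  · apply Matrix.toLin'.injective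
    rw [Matrix.toLin'_pow, Matrix.toLin'_toMatrix', hgn, Matrix.toLin'_one]
    rfl
  · intro b hb
    have h2 := congrArg LinearMap.toMatrix' (hcomm b hb)
    rw [LinearMap.toMatrix'_comp, LinearMap.toMatrix'_comp, LinearMap.toMatrix'_toLin',
      LinearMap.toMatrix'_toLin'] at h2
    exact h2
  · intro h1
    obtain ⟨b, hb, hbq⟩ := exists_not_fixed hn (by omega) K hK
    apply hbq
    have h2 := congrArg LinearMap.toMatrix' (hcomm b hb)
    rw [LinearMap.toMatrix'_comp, LinearMap.toMatrix'_comp, LinearMap.toMatrix'_toLin',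
      LinearMap.toMatrix'_toLin', h1, Matrix.one_mul, Matrix.mul_one] at h2
    rw [← hq]
    exact h2.symm

/-- A matrix inducing the Frobenius map on a field subalgebra normalizes it. -/
theorem frob_mem_normalizer [Fintype F] {r : ℕ} (hn : 0 < n) (hr : 0 < r)
    (K : Subalgebra F (Matrix (Fin n) (Fin n) F)) (hK : Cfsg.Geo.IsFieldSubalgebra r K)
    (g : GL (Fin n) F)
    (hg : ∀ b ∈ K, (g : Matrix (Fin n) (Fin n) F) * b =
      b ^ Fintype.card F * (g : Matrix (Fin n) (Fin n) F)) :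
    g ∈ Cfsg.Geo.subalgebraNormalizer K := by
  obtain ⟨G, hG⟩ : ∃ G : Matrix (Fin n) (Fin n) F, G = (g : Matrix (Fin n) (Fin n) F) :=
    ⟨_, rfl⟩
  obtain ⟨Gi, hGi⟩ : ∃ Gi : Matrix (Fin n) (Fin n) F,
      Gi = ((g⁻¹ : GL (Fin n) F) : Matrix (Fin n) (Fin n) F) := ⟨_, rfl⟩
  have hgg : G * Gi = 1 := by
    rw [hG, hGi, ← Units.val_mul, mul_inv_cancel]
    rfl
  have hgg' : Gi * G = 1 := by
    rw [hG, hGi, ← Units.val_mul, inv_mul_cancel]
    rfl
  rw [← hG] at hg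
  have hcancel : ∀ M : Matrix (Fin n) (Fin n) F, Gi * (G * M * Gi) * G = M := by
    intro M
    calc Gi * (G * M * Gi) * G = (Gi * G) * M * (Gi * G) := by simp only [Matrix.mul_assoc]
      _ = M := by rw [hgg', Matrix.one_mul, Matrix.mul_one]
  show ∀ k : Matrix (Fin n) (Fin n) F, k ∈ K ↔
    (g : Matrix (Fin n) (Fin n) F) * k * ((g⁻¹ : GL (Fin n) F) : Matrix (Fin n) (Fin n) F) ∈ K
  rw [← hG, ← hGi]
  intro k
  constructor
  · intro hk
    rw [hg k hk, Matrix.mul_assoc, hgg, Matrix.mul_one]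
    exact K.pow_mem hk _
  · intro hc
    obtain ⟨d, hd⟩ : ∃ d : Matrix (Fin n) (Fin n) F,
        d = (G * k * Gi) ^ (Fintype.card F ^ (r - 1)) := ⟨_, rfl⟩
    have hdK : d ∈ K := by
      rw [hd]
      exact K.pow_mem hc _
    have hdq : d ^ Fintype.card F = G * k * Gi := by
      rw [hd, ← pow_mul, ← pow_succ]
      have : r - 1 + 1 = r := by omega
      rw [this, pow_card hn K hK _ hc]
    have h1 : G * d * Gi = G * k * Gi := by
      rw [hg d hdK, Matrix.mul_assoc, hgg, Matrix.mul_one, hdq]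
    have h2 : d = k := by
      rw [← hcancel d, h1, hcancel k]
    rw [← h2]
    exact hdK

/-- Scalar multiples of elements of the normalizer lie in the normalizer. -/
theorem smul_mem_normalizer (K : Subalgebra F (Matrix (Fin n) (Fin n) F)) (g h : GL (Fin n) F)
    (hg : g ∈ Cfsg.Geo.subalgebraNormalizer K) (c : F) (hc : c ≠ 0)
    (hh : (h : Matrix (Fin n) (Fin n) F) = c • (g : Matrix (Fin n) (Fin n) F)) :
    h ∈ Cfsg.Geo.subalgebraNormalizer K := by
  obtain ⟨s, hs, hsi⟩ : ∃ s : GL (Fin n) F, (s : Matrix (Fin n) (Fin n) F) =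
      c • (1 : Matrix (Fin n) (Fin n) F) ∧
      ((s⁻¹ : GL (Fin n) F) : Matrix (Fin n) (Fin n) F) = c⁻¹ • (1 : Matrix (Fin n) (Fin n) F) := by
    refine ⟨⟨c • 1, c⁻¹ • 1, ?_, ?_⟩, rfl, rfl⟩
    · rw [Matrix.smul_mul, Matrix.mul_smul, Matrix.one_mul, smul_smul, mul_inv_cancel₀ hc,
        one_smul]
    · rw [Matrix.smul_mul, Matrix.mul_smul, Matrix.one_mul, smul_smul, inv_mul_cancel₀ hc,
        one_smul]
  have hsmem : s ∈ Cfsg.Geo.subalgebraNormalizer K := by
    show ∀ k : Matrix (Fin n) (Fin n) F, k ∈ K ↔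
      (s : Matrix (Fin n) (Fin n) F) * k * ((s⁻¹ : GL (Fin n) F) : Matrix (Fin n) (Fin n) F) ∈ K
    intro k
    rw [hs, hsi, Matrix.smul_mul, Matrix.one_mul, Matrix.smul_mul, Matrix.mul_smul,
      Matrix.mul_one, smul_smul, mul_inv_cancel₀ hc, one_smul]
  have hhs : h = s * g := by
    apply Units.ext
    rw [Units.val_mul, hs, hh, Matrix.smul_mul, Matrix.one_mul]
  rw [hhs]
  exact mul_mem hsmem hg

/-- An element of the normalizer of a field subalgebra of degree `n` with an eigenspace of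
dimension more than `n / 2` is scalar. -/
theorem eq_smul_one_of_mem_normalizer (hn : 0 < n) (K : Subalgebra F (Matrix (Fin n) (Fin n) F))
    (hK : Cfsg.Geo.IsFieldSubalgebra n K) (h : GL (Fin n) F)
    (hh : h ∈ Cfsg.Geo.subalgebraNormalizer K) (c : F) (U : Submodule F (Fin n → F))
    (hU : ∀ u ∈ U, (h : Matrix (Fin n) (Fin n) F) *ᵥ u = c • u) (hdim : n < 2 * finrank F U) :
    (h : Matrix (Fin n) (Fin n) F) = c • (1 : Matrix (Fin n) (Fin n) F) := by
  classical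
  obtain ⟨G, hG⟩ : ∃ G : Matrix (Fin n) (Fin n) F, G = (h : Matrix (Fin n) (Fin n) F) :=
    ⟨_, rfl⟩
  obtain ⟨Gi, hGi⟩ : ∃ Gi : Matrix (Fin n) (Fin n) F,
      Gi = ((h⁻¹ : GL (Fin n) F) : Matrix (Fin n) (Fin n) F) := ⟨_, rfl⟩
  have hgg : G * Gi = 1 := by
    rw [hG, hGi, ← Units.val_mul, mul_inv_cancel]
    rfl
  have hgg' : Gi * G = 1 := by
    rw [hG, hGi, ← Units.val_mul, inv_mul_cancel]
    rfl
  have hgK : ∀ k : Matrix (Fin n) (Fin n) F, k ∈ K ↔ G * k * Gi ∈ K := by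
    rw [hG, hGi]
    exact hh
  rw [← hG] at hU ⊢
  have hfrV : finrank F (Fin n → F) = n := by
    rw [Module.finrank_fintype_fun_eq_card, Fintype.card_fin]
  have hUne : U ≠ ⊥ := by
    rintro rfl
    rw [finrank_bot] at hdim
    omega
  obtain ⟨u₀, hu₀U, hu₀⟩ := Submodule.exists_mem_ne_zero_of_ne_bot hUne
  have hc0 : c ≠ 0 := by
    rintro rfl
    have h1 := hU u₀ hu₀U
    rw [zero_smul] at h1
    have h2 := congrArg (fun w => Gi *ᵥ w) h1
    simp only [Matrix.mulVec_mulVec, hgg', Matrix.one_mulVec, Matrix.mulVec_zero] at h2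
    exact hu₀ h2
  -- `G` centralizes `K`
  have hcent : ∀ a ∈ K, G * a = a * G := by
    intro a ha
    by_cases ha0 : a = 0
    · rw [ha0, Matrix.mul_zero, Matrix.zero_mul]
    obtain ⟨y, hyK, hy⟩ := hK.inv a ha ha0
    have hy' : y * a = 1 := by rw [hK.comm y hyK a ha, hy]
    obtain ⟨yL, hyL⟩ : ∃ yL : (Fin n → F) ≃ₗ[F] (Fin n → F), ∀ w, yL w = y *ᵥ w :=
      ⟨LinearEquiv.ofLinearMap (Matrix.toLin' y) (Matrix.toLin' a)
        (by rw [← Matrix.toLin'_mul, hy', Matrix.toLin'_one])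
        (by rw [← Matrix.toLin'_mul, hy, Matrix.toLin'_one]), fun w => rfl⟩
    have hfrU' : finrank F (U.map (yL : (Fin n → F) →ₗ[F] (Fin n → F))) = finrank F U :=
      LinearEquiv.finrank_map_eq yL U
    have hsum := Submodule.finrank_sup_add_finrank_inf_eq U
      (U.map (yL : (Fin n → F) →ₗ[F] (Fin n → F)))
    have hle : finrank F ↥(U ⊔ U.map (yL : (Fin n → F) →ₗ[F] (Fin n → F))) ≤ n := by
      have h5 := Submodule.finrank_le (U ⊔ U.map (yL : (Fin n → F) →ₗ[F] (Fin n → F)))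
      rw [hfrV] at h5
      exact h5
    have hne : U ⊓ U.map (yL : (Fin n → F) →ₗ[F] (Fin n → F)) ≠ ⊥ := by
      intro hbot
      rw [hbot, finrank_bot] at hsum
      omega
    obtain ⟨x, hx, hx0⟩ := Submodule.exists_mem_ne_zero_of_ne_bot hne
    obtain ⟨hxU, hxU'⟩ := Submodule.mem_inf.mp hx
    obtain ⟨u, huU, hux⟩ := Submodule.mem_map.mp hxU'
    have hax : a *ᵥ x = u := by
      rw [← hux]
      show a *ᵥ (yL u) = u
      rw [hyL, Matrix.mulVec_mulVec, hy, Matrix.one_mulVec]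
    obtain ⟨a', ha'⟩ : ∃ a' : Matrix (Fin n) (Fin n) F, a' = G * a * Gi := ⟨_, rfl⟩
    have ha'K : a' ∈ K := by
      rw [ha']
      exact (hgK a).mp ha
    have hGa : G * a = a' * G := by
      rw [ha', Matrix.mul_assoc, hgg', Matrix.mul_one]
    have h1 : (G * a) *ᵥ x = c • (a *ᵥ x) := by
      rw [← Matrix.mulVec_mulVec, hax, hU u huU]
    have h2 : (a' * G) *ᵥ x = c • (a' *ᵥ x) := by
      rw [← Matrix.mulVec_mulVec, hU x hxU, Matrix.mulVec_smul]
    rw [hGa, h2] at h1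
    have h3 : (a' - a) *ᵥ x = 0 := by
      rw [Matrix.sub_mulVec]
      have := smul_right_injective (Fin n → F) hc0 h1
      rw [this, sub_self]
    have haa : a' = a := by
      by_contra hne'
      exact hx0 (mulVec_eq_zero K hK (a' - a) (K.sub_mem ha'K ha) (sub_ne_zero.mpr hne') x h3)
    rw [hGa, haa]
  have hGK : G ∈ K := centralizer_mem hn K hK G hcent
  by_contra hne
  apply hu₀
  apply mulVec_eq_zero K hK (G - c • 1) (K.sub_mem hGK (K.smul_mem K.one_mem c))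
    (sub_ne_zero.mpr hne) u₀
  rw [Matrix.sub_mulVec, hU u₀ hu₀U, Matrix.smul_mulVec, Matrix.one_mulVec, sub_self]

end Cfsg.Agent.Lib.Helper37.SingerB
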