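import Mathlib
import Cfsg.Agent.Lib.Helper37.CubeUnip

set_option autoImplicit false

namespace Cfsg.Agent.Lib.Helper37.SingerC

open Module

variable {F : Type*} [Field F]

/-- Counting: an invariant subspace of a map of prime order `m` without non-zero fixed vectors
has `q ^ dim ≡ 1 (mod m)`. -/
theorem card_modEq_of_no_fixed [Fintype F] {d : ℕ} (y : (Fin d → F) →ₗ[F] (Fin d → F))
    (U : Submodule F (Fin d → F)) (hinv : ∀ u ∈ U, y u ∈ U) (m : ℕ) [Fact m.Prime]
    (hym : y ^ m = 1) (hfix : ∀ u ∈ U, y u = u → u = 0) :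
    Fintype.card F ^ finrank F U ≡ 1 [MOD m] := by
  classical
  let _ : Fintype ↥U := Fintype.ofFinite _
  let f : Function.End ↥U := fun u => ⟨y u, hinv u u.2⟩
  have hfpow : ∀ (j : ℕ) (u : ↥U), (((f ^ j) u : ↥U) : Fin d → F) = (y ^ j) u := by
    intro j
    induction j with
    | zero =>
      intro u
      rfl
    | succ j ih =>
      intro u
      have e1 : (f ^ (j + 1)) u = (f ^ j) (f u) := by
        rw [pow_succ]
        rfl
      have e2 : (y ^ (j + 1)) (u : Fin d → F) = (y ^ j) (y u) := by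
        rw [pow_succ]
        rfl
      rw [e1, e2, ih]
  have hf : f ^ m ^ 1 = 1 := by
    rw [pow_one]
    funext u
    apply Subtype.ext
    rw [hfpow, hym]
    rfl
  have h1 := Equiv.Perm.card_fixedPoints_modEq (f := f) (p := m) (n := 1) hf
  have h2 : Fintype.card ↥U = Fintype.card F ^ finrank F U :=
    Module.card_eq_pow_finrank (K := F) (V := ↥U)
  have h3 : ∀ (inst : Fintype ↥(Function.fixedPoints f)), @Fintype.card _ inst = 1 := by
    intro inst
    rw [Fintype.card_eq_one_iff]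
    refine ⟨⟨0, ?_⟩, ?_⟩
    · show f 0 = 0
      apply Subtype.ext
      show y 0 = 0
      exact map_zero y
    · rintro ⟨u, hu⟩
      apply Subtype.ext
      apply Subtype.ext
      apply hfix u u.2
      exact congrArg Subtype.val hu
  rw [h2, h3] at h1
  exact h1

/-- Structure of a linear map of prime order `n` on an `n`-dimensional space over a field
with `q` elements, when `q` has order `n - 1` modulo `n`: a fixed vector and a cyclic vector
for the complement. -/
theorem exists_cyclic_data [Fintype F] {n : ℕ} [Fact n.Prime] (hn3 : 3 ≤ n)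
    (hnF : (n : F) ≠ 0) (hord : orderOf (Fintype.card F : ZMod n) = n - 1)
    (y : (Fin n → F) →ₗ[F] (Fin n → F)) (hy : y ^ n = 1) (hy1 : y ≠ 1) :
    ∃ v₁ w : Fin n → F, y v₁ = v₁ ∧ (∑ j ∈ Finset.range n, (y ^ j) w) = 0 ∧
      LinearIndependent F
        (Sum.elim (fun _ : Fin 1 => v₁) (fun j : Fin (n - 1) => (y ^ (j : ℕ)) w)) := by
  classical
  obtain ⟨q, hq⟩ : ∃ q, q = Fintype.card F := ⟨_, rfl⟩
  rw [← hq] at hord
  have hdvd : ∀ d : ℕ, q ^ d ≡ 1 [MOD n] → (n - 1) ∣ d := by
    intro d hd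
    rw [← hord, orderOf_dvd_iff_pow_eq_one]
    have := (ZMod.natCast_eq_natCast_iff _ _ _).mpr hd
    push_cast at this
    exact this
  have hfrV : finrank F (Fin n → F) = n := by
    rw [Module.finrank_fintype_fun_eq_card, Fintype.card_fin]
  -- a fixed vector
  obtain ⟨v₁, hv₁0, hv₁⟩ : ∃ v₁ : Fin n → F, v₁ ≠ 0 ∧ y v₁ = v₁ := by
    by_contra hcon
    push Not at hcon
    have h1 := card_modEq_of_no_fixed y ⊤ (fun u _ => Submodule.mem_top) n hy (fun u _ hu => by
      by_contra hu0
      exact hcon u hu0 hu)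
    rw [finrank_top, hfrV, ← hq] at h1
    have h2 := hdvd n h1
    have h3 : (n - 1) ∣ 1 := by
      have h4 := Nat.dvd_sub h2 (dvd_refl (n - 1))
      have e : n - (n - 1) = 1 := by omega
      rwa [e] at h4
    have := Nat.le_of_dvd one_pos h3
    omega
  -- a vector killed by the norm
  obtain ⟨v, hv⟩ : ∃ v, y v ≠ v := by
    by_contra hcon
    push Not at hcon
    exact hy1 (LinearMap.ext hcon)
  obtain ⟨w, hw⟩ : ∃ w, w = y v - v := ⟨_, rfl⟩
  have hw0 : w ≠ 0 := by
    rw [hw]
    exact sub_ne_zero.mpr hv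
  have hSw : (∑ j ∈ Finset.range n, (y ^ j) w) = 0 := by
    have e : ∀ j, (y ^ j) w = (y ^ (j + 1)) v - (y ^ j) v := by
      intro j
      rw [hw, map_sub, pow_succ, Module.End.mul_apply]
    rw [Finset.sum_congr rfl (fun j _ => e j), Finset.sum_range_sub (fun j => (y ^ j) v), hy]
    simp
  have hSpow : ∀ j : ℕ, (∑ i ∈ Finset.range n, (y ^ i) ((y ^ j) w)) = 0 := by
    intro j
    have e : ∀ i, (y ^ i) ((y ^ j) w) = (y ^ j) ((y ^ i) w) := by
      intro i
      rw [← Module.End.mul_apply, ← Module.End.mul_apply, pow_mul_comm]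
    rw [Finset.sum_congr rfl (fun i _ => e i), ← map_sum, hSw, map_zero]
  obtain ⟨fw, hfw⟩ : ∃ fw : Fin (n - 1) → (Fin n → F),
      fw = fun j : Fin (n - 1) => (y ^ (j : ℕ)) w :=
    ⟨_, rfl⟩
  obtain ⟨U, hUdef⟩ : ∃ U : Submodule F (Fin n → F), U = Submodule.span F (Set.range fw) :=
    ⟨_, rfl⟩
  have hlast : (y ^ (n - 1)) w = -∑ j : Fin (n - 1), fw j := by
    have h1 := hSw
    have e : Finset.range n = Finset.range (n - 1 + 1) := by
      congr 1
      omega
    rw [e, Finset.sum_range_succ, Finset.sum_range (fun j => (y ^ j) w)] at h1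
    rw [hfw]
    exact eq_neg_of_add_eq_zero_right h1
  have hfwU : ∀ j, fw j ∈ U := fun j => by
    rw [hUdef]
    exact Submodule.subset_span ⟨j, rfl⟩
  have hinv : ∀ u ∈ U, y u ∈ U := by
    intro u hu
    have hle : Submodule.span F (Set.range fw) ≤ U.comap y := by
      rw [Submodule.span_le]
      rintro _ ⟨j, rfl⟩
      show y (fw j) ∈ U
      have e : y (fw j) = (y ^ ((j : ℕ) + 1)) w := by
        rw [hfw, pow_succ']
        rfl
      rw [e]
      by_cases hj : (j : ℕ) + 1 < n - 1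
      · have := hfwU ⟨(j : ℕ) + 1, hj⟩
        rw [hfw] at this
        exact this
      · have e2 : (j : ℕ) + 1 = n - 1 := by
          have := j.2
          omega
        rw [e2, hlast]
        exact U.neg_mem (U.sum_mem (fun i _ => hfwU i))
    rw [hUdef] at hu
    exact hle hu
  have hSU : ∀ u ∈ U, (∑ i ∈ Finset.range n, (y ^ i) u) = 0 := by
    intro u hu
    rw [hUdef] at hu
    refine Submodule.span_induction ?_ ?_ ?_ ?_ hu
    · rintro _ ⟨j, rfl⟩
      rw [hfw]
      exact hSpow j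
    · simp
    · intro a b _ _ ha hb
      simp only [map_add, Finset.sum_add_distrib, ha, hb, add_zero]
    · intro c a _ ha
      simp only [map_smul, ← Finset.smul_sum, ha, smul_zero]
  have hfixpow : ∀ u : Fin n → F, y u = u → (∑ i ∈ Finset.range n, (y ^ i) u) = (n : F) • u := by
    intro u hyu
    have h2 : ∀ i : ℕ, (y ^ i) u = u := by
      intro i
      induction i with
      | zero => rfl
      | succ i ih => rw [pow_succ, Module.End.mul_apply, hyu, ih]
    rw [Finset.sum_congr rfl (fun i _ => h2 i), Finset.sum_const, Finset.card_range,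
      Nat.cast_smul_eq_nsmul]
  have hfixU : ∀ u ∈ U, y u = u → u = 0 := by
    intro u hu hyu
    have h1 := hSU u hu
    rw [hfixpow u hyu] at h1
    exact (smul_eq_zero.mp h1).resolve_left hnF
  have hcount := card_modEq_of_no_fixed y U hinv n hy hfixU
  rw [← hq] at hcount
  have hdU := hdvd _ hcount
  have hUpos : 0 < finrank F U := by
    have hwU : w ∈ U := by
      have := hfwU ⟨0, by omega⟩
      rw [hfw] at this
      simpa using this
    exact Module.finrank_pos_iff_exists_ne_zero.mpr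
      ⟨⟨w, hwU⟩, fun h => hw0 (congrArg Subtype.val h)⟩
  have hUle : finrank F U ≤ n - 1 := by
    rw [hUdef]
    have := finrank_range_le_card (R := F) fw
    rw [Fintype.card_fin] at this
    exact this
  have hUeq : finrank F U = n - 1 := le_antisymm hUle (Nat.le_of_dvd hUpos hdU)
  have hfwli : LinearIndependent F fw := by
    rw [linearIndependent_iff_card_eq_finrank_span, Fintype.card_fin]
    have e : Set.finrank F (Set.range fw) = finrank F U := by
      rw [hUdef]
      rfl
    rw [e, hUeq]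
  have hgoal : LinearIndependent F (Sum.elim (fun _ : Fin 1 => v₁) fw) := by
    rw [Fintype.linearIndependent_iff]
    intro g hg
    rw [Fintype.sum_sum_type] at hg
    simp only [Sum.elim_inl, Sum.elim_inr] at hg
    have hcomb : (∑ j : Fin (n - 1), g (Sum.inr j) • fw j) ∈ U :=
      U.sum_mem (fun j _ => U.smul_mem _ (hfwU j))
    have h4 : (∑ x : Fin 1, g (Sum.inl x) • v₁) = g (Sum.inl 0) • v₁ := Fin.sum_univ_one _
    rw [h4] at hg
    have h3 := congrArg (fun u => ∑ i ∈ Finset.range n, (y ^ i) u) hg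
    simp only [map_add, Finset.sum_add_distrib, map_zero, Finset.sum_const_zero] at h3
    rw [hSU _ hcomb, add_zero] at h3
    simp only [map_smul] at h3
    rw [← Finset.smul_sum, hfixpow v₁ hv₁] at h3
    have hg0 : g (Sum.inl 0) = 0 := by
      rcases smul_eq_zero.mp h3 with h | h
      · exact h
      · exact absurd ((smul_eq_zero.mp h).resolve_left hnF) hv₁0
    rw [hg0, zero_smul, zero_add] at hg
    have hr := Fintype.linearIndependent_iff.mp hfwli (fun j => g (Sum.inr j)) hg
    rintro (x | j)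
    · have hx : x = 0 := Subsingleton.elim _ _
      rw [hx]
      exact hg0
    · exact hr j
  subst hfw
  exact ⟨v₁, w, hv₁, hSw, hgoal⟩

/-- Two maps with the same cyclic data are conjugate. -/
theorem exists_conj_of_data {n : ℕ} (hn : 1 ≤ n)
    (y y' : (Fin n → F) →ₗ[F] (Fin n → F)) (v₁ w v₁' w' : Fin n → F)
    (hv : y v₁ = v₁) (hS : (∑ j ∈ Finset.range n, (y ^ j) w) = 0)
    (hli : LinearIndependent F
      (Sum.elim (fun _ : Fin 1 => v₁) (fun j : Fin (n - 1) => (y ^ (j : ℕ)) w)))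
    (hv' : y' v₁' = v₁') (hS' : (∑ j ∈ Finset.range n, (y' ^ j) w') = 0)
    (hli' : LinearIndependent F
      (Sum.elim (fun _ : Fin 1 => v₁') (fun j : Fin (n - 1) => (y' ^ (j : ℕ)) w'))) :
    ∃ Q : (Fin n → F) ≃ₗ[F] (Fin n → F), ∀ u, Q (y u) = y' (Q u) := by
  classical
  have hcard : Fintype.card (Fin 1 ⊕ Fin (n - 1)) = finrank F (Fin n → F) := by
    rw [Module.finrank_fintype_fun_eq_card, Fintype.card_sum, Fintype.card_fin, Fintype.card_fin,
      Fintype.card_fin]
    omega
  obtain ⟨B, hB⟩ : ∃ B : Basis (Fin 1 ⊕ Fin (n - 1)) F (Fin n → F), ∀ i, B i =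
      Sum.elim (fun _ : Fin 1 => v₁) (fun j : Fin (n - 1) => (y ^ (j : ℕ)) w) i :=
    ⟨Basis.mk hli (hli.span_eq_top_of_card_eq_finrank' hcard).ge, fun i => by
      rw [Basis.mk_apply]⟩
  obtain ⟨B', hB'⟩ : ∃ B' : Basis (Fin 1 ⊕ Fin (n - 1)) F (Fin n → F), ∀ i, B' i =
      Sum.elim (fun _ : Fin 1 => v₁') (fun j : Fin (n - 1) => (y' ^ (j : ℕ)) w') i :=
    ⟨Basis.mk hli' (hli'.span_eq_top_of_card_eq_finrank' hcard).ge, fun i => by
      rw [Basis.mk_apply]⟩
  have hlast : ∀ (z : (Fin n → F) →ₗ[F] (Fin n → F)) (u : Fin n → F),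
      (∑ j ∈ Finset.range n, (z ^ j) u) = 0 →
      (z ^ (n - 1)) u = -∑ j : Fin (n - 1), (z ^ (j : ℕ)) u := by
    intro z u h1
    have e : Finset.range n = Finset.range (n - 1 + 1) := by
      congr 1
      omega
    rw [e, Finset.sum_range_succ, Finset.sum_range (fun j => (z ^ j) u)] at h1
    exact eq_neg_of_add_eq_zero_right h1
  obtain ⟨Q, hQ⟩ : ∃ Q : (Fin n → F) ≃ₗ[F] (Fin n → F), ∀ i, Q (B i) = B' i :=
    ⟨B.equiv B' (Equiv.refl _), fun i => by rw [Basis.equiv_apply, Equiv.refl_apply]⟩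
  refine ⟨Q, ?_⟩
  have hcomp : (Q : (Fin n → F) →ₗ[F] (Fin n → F)) ∘ₗ y =
      y' ∘ₗ (Q : (Fin n → F) →ₗ[F] (Fin n → F)) := by
    apply B.ext
    rintro (x | j)
    · rw [LinearMap.comp_apply, LinearMap.comp_apply, LinearEquiv.coe_coe, hQ, hB, hB',
        Sum.elim_inl, Sum.elim_inl, hv, hv']
      have := hQ (Sum.inl x)
      rw [hB, hB', Sum.elim_inl, Sum.elim_inl] at this
      exact this
    · rw [LinearMap.comp_apply, LinearMap.comp_apply, LinearEquiv.coe_coe, hQ, hB, hB',
        Sum.elim_inr, Sum.elim_inr]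
      have e1 : y ((y ^ (j : ℕ)) w) = (y ^ ((j : ℕ) + 1)) w := by
        rw [pow_succ']
        rfl
      have e2 : y' ((y' ^ (j : ℕ)) w') = (y' ^ ((j : ℕ) + 1)) w' := by
        rw [pow_succ']
        rfl
      rw [e1, e2]
      by_cases hj : (j : ℕ) + 1 < n - 1
      · have := hQ (Sum.inr ⟨(j : ℕ) + 1, hj⟩)
        rw [hB, hB', Sum.elim_inr, Sum.elim_inr] at this
        exact this
      · have e3 : (j : ℕ) + 1 = n - 1 := by
          have := j.2
          omega
        rw [e3, hlast y w hS, hlast y' w' hS', map_neg, map_sum]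
        congr 1
        apply Finset.sum_congr rfl
        intro i _
        have := hQ (Sum.inr i)
        rw [hB, hB', Sum.elim_inr, Sum.elim_inr] at this
        exact this
  intro u
  exact LinearMap.congr_fun hcomp u

/-- A map commuting with `y` with prescribed determinant. -/
theorem exists_comm_det_of_data {n : ℕ} (hn : 1 ≤ n) (hnF : (n : F) ≠ 0)
    (y : (Fin n → F) →ₗ[F] (Fin n → F)) (v₁ w : Fin n → F)
    (hv : y v₁ = v₁) (hS : (∑ j ∈ Finset.range n, (y ^ j) w) = 0)
    (hli : LinearIndependent F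
      (Sum.elim (fun _ : Fin 1 => v₁) (fun j : Fin (n - 1) => (y ^ (j : ℕ)) w)))
    (a : F) :
    ∃ C : (Fin n → F) →ₗ[F] (Fin n → F), C ∘ₗ y = y ∘ₗ C ∧ LinearMap.det C = a := by
  classical
  have hcard : Fintype.card (Fin 1 ⊕ Fin (n - 1)) = finrank F (Fin n → F) := by
    rw [Module.finrank_fintype_fun_eq_card, Fintype.card_sum, Fintype.card_fin, Fintype.card_fin,
      Fintype.card_fin]
    omega
  obtain ⟨B, hB⟩ : ∃ B : Basis (Fin 1 ⊕ Fin (n - 1)) F (Fin n → F), ∀ i, B i =
      Sum.elim (fun _ : Fin 1 => v₁) (fun j : Fin (n - 1) => (y ^ (j : ℕ)) w) i :=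
    ⟨Basis.mk hli (hli.span_eq_top_of_card_eq_finrank' hcard).ge, fun i => by
      rw [Basis.mk_apply]⟩
  obtain ⟨S, hSdef⟩ : ∃ S : (Fin n → F) →ₗ[F] (Fin n → F), S = ∑ j ∈ Finset.range n, y ^ j :=
    ⟨_, rfl⟩
  obtain ⟨t, ht⟩ : ∃ t : F, t = (a - 1) / (n : F) := ⟨_, rfl⟩
  have hSy : S * y = y * S := by
    rw [hSdef, Finset.sum_mul, Finset.mul_sum]
    apply Finset.sum_congr rfl
    intro j _
    rw [← pow_succ, ← pow_succ']
  have hSv : S v₁ = (n : F) • v₁ := by
    rw [hSdef, LinearMap.sum_apply]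
    have h2 : ∀ i : ℕ, (y ^ i) v₁ = v₁ := by
      intro i
      induction i with
      | zero => rfl
      | succ i ih => rw [pow_succ, Module.End.mul_apply, hv, ih]
    rw [Finset.sum_congr rfl (fun i _ => h2 i), Finset.sum_const, Finset.card_range,
      Nat.cast_smul_eq_nsmul]
  have hSw : ∀ j : ℕ, S ((y ^ j) w) = 0 := by
    intro j
    rw [hSdef, LinearMap.sum_apply]
    have e : ∀ i, (y ^ i) ((y ^ j) w) = (y ^ j) ((y ^ i) w) := by
      intro i
      rw [← Module.End.mul_apply, ← Module.End.mul_apply, pow_mul_comm]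
    rw [Finset.sum_congr rfl (fun i _ => e i), ← map_sum, hS, map_zero]
  refine ⟨1 + t • S, ?_, ?_⟩
  · show (1 + t • S) * y = y * (1 + t • S)
    rw [add_mul, mul_add, one_mul, mul_one, smul_mul_assoc, mul_smul_comm, hSy]
  · rw [Cfsg.Agent.Lib.Helper37.CubeUnip.det_of_diag B
      (Sum.elim (fun _ : Fin 1 => a) (fun _ : Fin (n - 1) => (1 : F))) (1 + t • S) (by
        rintro (x | j)
        · rw [hB, Sum.elim_inl, Sum.elim_inl, LinearMap.add_apply, LinearMap.smul_apply,
            Module.End.one_apply, hSv, smul_smul, ht, div_mul_cancel₀ _ hnF]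
          rw [sub_smul, one_smul]
          abel
        · rw [hB, Sum.elim_inr, Sum.elim_inr, LinearMap.add_apply, LinearMap.smul_apply,
            Module.End.one_apply, hSw, smul_zero, add_zero, one_smul]),
      Fintype.prod_sum_type]
    simp

end Cfsg.Agent.Lib.Helper37.SingerC
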