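import Mathlib
import Cfsg.Prelude.Def_GeometricClasses
import Cfsg.Agent.Lib.Helper37.CubeUnip
import Cfsg.Agent.Lib.Helper37.SingerA
import Cfsg.Agent.Lib.Helper37.SingerB
import Cfsg.Agent.Lib.Helper37.SingerC

set_option autoImplicit false

open scoped MatrixGroups Matrix

namespace Cfsg.Agent.Lib.Helper37.SingerD

open Module Cfsg.Agent.Lib.Helper37.SingerA Cfsg.Agent.Lib.Helper37.SingerB
  Cfsg.Agent.Lib.Helper37.SingerC

variable {F : Type*} [Field F] {n : ℕ}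

/-- Two matrices of prime order `n` (with `q` of order `n - 1` modulo `n`) are conjugate, and
the first one commutes with a matrix of any prescribed determinant. -/
theorem exists_conj_mat [Fintype F] [Fact n.Prime] (hn3 : 3 ≤ n) (hnF : (n : F) ≠ 0)
    (hord : orderOf (Fintype.card F : ZMod n) = n - 1)
    (Y G : Matrix (Fin n) (Fin n) F) (hY : Y ^ n = 1) (hY1 : Y ≠ 1) (hG : G ^ n = 1)
    (hG1 : G ≠ 1) :
    ∃ Q : GL (Fin n) F,
      (Q : Matrix (Fin n) (Fin n) F) * Y = G * (Q : Matrix (Fin n) (Fin n) F) ∧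
      ∀ a : F, ∃ C : Matrix (Fin n) (Fin n) F, C * Y = Y * C ∧ C.det = a := by
  have hpow : ∀ M : Matrix (Fin n) (Fin n) F, M ^ n = 1 → (Matrix.toLin' M) ^ n = 1 := by
    intro M hM
    rw [← Matrix.toLin'_pow, hM, Matrix.toLin'_one]
    rfl
  have hne : ∀ M : Matrix (Fin n) (Fin n) F, M ≠ 1 → Matrix.toLin' M ≠ 1 := by
    intro M hM h1
    apply hM
    apply Matrix.toLin'.injective
    rw [h1, Matrix.toLin'_one]
    rfl
  obtain ⟨v₁, w, hv, hS, hli⟩ := exists_cyclic_data hn3 hnF hord (Matrix.toLin' Y) (hpow Y hY)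
    (hne Y hY1)
  obtain ⟨v₁', w', hv', hS', hli'⟩ := exists_cyclic_data hn3 hnF hord (Matrix.toLin' G)
    (hpow G hG) (hne G hG1)
  obtain ⟨Q, hQ⟩ := exists_conj_of_data (by omega) (Matrix.toLin' Y) (Matrix.toLin' G) v₁ w v₁' w'
    hv hS hli hv' hS' hli'
  refine ⟨⟨LinearMap.toMatrix' (Q : (Fin n → F) →ₗ[F] (Fin n → F)),
      LinearMap.toMatrix' (Q.symm : (Fin n → F) →ₗ[F] (Fin n → F)),
      by rw [← LinearMap.toMatrix'_comp]; simp, by rw [← LinearMap.toMatrix'_comp]; simp⟩,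
    ?_, ?_⟩
  · show LinearMap.toMatrix' (Q : (Fin n → F) →ₗ[F] (Fin n → F)) * Y =
      G * LinearMap.toMatrix' (Q : (Fin n → F) →ₗ[F] (Fin n → F))
    have h1 : (Q : (Fin n → F) →ₗ[F] (Fin n → F)) ∘ₗ Matrix.toLin' Y =
        Matrix.toLin' G ∘ₗ (Q : (Fin n → F) →ₗ[F] (Fin n → F)) := by
      apply LinearMap.ext
      intro u
      exact hQ u
    have h2 := congrArg LinearMap.toMatrix' h1
    rw [LinearMap.toMatrix'_comp, LinearMap.toMatrix'_comp, LinearMap.toMatrix'_toLin',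
      LinearMap.toMatrix'_toLin'] at h2
    exact h2
  · intro a
    obtain ⟨C, hC, hCdet⟩ := exists_comm_det_of_data (by omega) hnF (Matrix.toLin' Y) v₁ w hv hS
      hli a
    refine ⟨LinearMap.toMatrix' C, ?_, ?_⟩
    · have h2 := congrArg LinearMap.toMatrix' hC
      rw [LinearMap.toMatrix'_comp, LinearMap.toMatrix'_comp, LinearMap.toMatrix'_toLin'] at h2
      exact h2
    · rw [LinearMap.det_toMatrix', hCdet]

/-- When `q` has order `n - 1` modulo the prime `n`, every element of order `n` of `PSL_n(q)`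
is conjugate into the normalizer of a field subalgebra of degree `n`. -/
theorem conj_into_normalizer [Fintype F] {p : ℕ} [Fact p.Prime] [CharP F p] [Fact n.Prime]
    (hn3 : 3 ≤ n) (hnp : n ≠ p) (hord : orderOf (Fintype.card F : ZMod n) = n - 1)
    (K : Subalgebra F (Matrix (Fin n) (Fin n) F)) (hK : Cfsg.Geo.IsFieldSubalgebra n K)
    (x : Matrix.SpecialLinearGroup (Fin n) F) (z : F)
    (hz : ((x ^ n : Matrix.SpecialLinearGroup (Fin n) F) : Matrix (Fin n) (Fin n) F) =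
      z • (1 : Matrix (Fin n) (Fin n) F))
    (hns : ∀ z : F, (x : Matrix (Fin n) (Fin n) F) ≠ z • (1 : Matrix (Fin n) (Fin n) F)) :
    ∃ P : Matrix.SpecialLinearGroup (Fin n) F, P⁻¹ * x * P ∈
      (Cfsg.Geo.subalgebraNormalizer K).comap (Matrix.SpecialLinearGroup.toGL :
        Matrix.SpecialLinearGroup (Fin n) F →* GL (Fin n) F) := by
  classical
  have hnprime : n.Prime := Fact.out
  have hpprime : p.Prime := Fact.out
  have : Nonempty (Fin n) := ⟨⟨0, by omega⟩⟩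
  have hnF : (n : F) ≠ 0 := by
    intro h0
    rw [CharP.cast_eq_zero_iff F p n] at h0
    exact hnp ((Nat.prime_dvd_prime_iff_eq hpprime hnprime).mp h0).symm
  obtain ⟨q, hq⟩ : ∃ q, q = Fintype.card F := ⟨_, rfl⟩
  have hq2 : 2 ≤ q := by
    rw [hq]
    exact Fintype.one_lt_card
  have hq1 : ¬ n ∣ q - 1 := by
    intro hdvd
    have h1 : ((q - 1 : ℕ) : ZMod n) = 0 := (ZMod.natCast_eq_zero_iff _ _).mpr hdvd
    have h2 : (q : ZMod n) = 1 := by
      have e : q = q - 1 + 1 := by omega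
      rw [e, Nat.cast_add, h1, zero_add, Nat.cast_one]
    rw [← hq, h2, orderOf_one] at hord
    omega
  obtain ⟨A, hA⟩ : ∃ A : Matrix (Fin n) (Fin n) F, A = (x : Matrix (Fin n) (Fin n) F) :=
    ⟨_, rfl⟩
  have hAn : A ^ n = z • (1 : Matrix (Fin n) (Fin n) F) := by
    rw [← hz, hA, Matrix.SpecialLinearGroup.coe_pow]
  have hdet : A.det = 1 := by
    rw [hA]
    exact x.2
  have hz0 : z ≠ 0 := by
    rintro rfl
    rw [zero_smul] at hAn
    have h1 := congrArg Matrix.det hAn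
    rw [Matrix.det_pow, hdet, Matrix.det_zero] at h1
    simp at h1
  have hcop : Nat.Coprime (Nat.card Fˣ) n := by
    rw [Nat.card_units, Nat.card_eq_fintype_card, ← hq]
    exact ((Nat.Prime.coprime_iff_not_dvd hnprime).mpr hq1).symm
  obtain ⟨u, hu⟩ := (powCoprime hcop).surjective (Units.mk0 z hz0)
  obtain ⟨μ, hμ⟩ : ∃ μ : F, μ = (u : F) := ⟨_, rfl⟩
  have hμn : μ ^ n = z := by
    have h1 := congrArg Units.val hu
    rw [powCoprime_apply] at h1
    rw [hμ]
    simpa using h1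
  have hμ0 : μ ≠ 0 := by
    rw [hμ]
    exact u.ne_zero
  obtain ⟨Y, hY⟩ : ∃ Y : Matrix (Fin n) (Fin n) F, Y = μ⁻¹ • A := ⟨_, rfl⟩
  have hAY : A = μ • Y := by
    rw [hY, smul_smul, mul_inv_cancel₀ hμ0, one_smul]
  have hYn : Y ^ n = 1 := by
    rw [hY, smul_pow, hAn, smul_smul, ← hμn, inv_pow, inv_mul_cancel₀ (pow_ne_zero n hμ0),
      one_smul]
  have hY1 : Y ≠ 1 := by
    intro h1
    apply hns μ
    rw [← hA, hAY, h1]
  obtain ⟨G, hGn, hGK, hG1⟩ := exists_frob (by omega) K hK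
  obtain ⟨Q, hQY, hQC⟩ := exists_conj_mat hn3 hnF hord Y G hYn hY1 hGn hG1
  obtain ⟨C, hCY, hCdet⟩ := hQC ((Q : Matrix (Fin n) (Fin n) F).det)⁻¹
  have hQdet : (Q : Matrix (Fin n) (Fin n) F).det ≠ 0 :=
    (Matrix.GeneralLinearGroup.det Q).ne_zero
  obtain ⟨Gu, hGu⟩ : ∃ Gu : GL (Fin n) F, (Gu : Matrix (Fin n) (Fin n) F) = G := by
    have e : n = n - 1 + 1 := by omega
    refine ⟨⟨G, G ^ (n - 1), ?_, ?_⟩, rfl⟩
    · rw [← pow_succ', ← e, hGn]
    · rw [← pow_succ, ← e, hGn]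
  have hGumem : Gu ∈ Cfsg.Geo.subalgebraNormalizer K := by
    apply frob_mem_normalizer (by omega) (by omega) K hK Gu
    rw [hGu]
    exact hGK
  apply Cfsg.Agent.Lib.Helper37.CubeUnip.sl_conj_of_comm x (Cfsg.Geo.subalgebraNormalizer K) Q
    ?_ C ?_ ?_
  · apply smul_mem_normalizer K Gu _ hGumem μ hμ0
    rw [hGu, Units.val_mul, Units.val_mul]
    show (Q : Matrix (Fin n) (Fin n) F) * (x : Matrix (Fin n) (Fin n) F) *
      ((Q⁻¹ : GL (Fin n) F) : Matrix (Fin n) (Fin n) F) = μ • G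
    rw [← hA, hAY, Matrix.mul_smul, hQY, Matrix.smul_mul, Matrix.mul_assoc, ← Units.val_mul,
      mul_inv_cancel, Units.val_one, Matrix.mul_one]
  · rw [← hA, hAY, Matrix.mul_smul, Matrix.smul_mul, hCY]
  · rw [hCdet, mul_inv_cancel₀ hQdet]

/-- An element with an eigenspace of dimension more than `n / 2` is not conjugate into the
normalizer of a field subalgebra of degree `n`, unless it is scalar. -/
theorem not_conj_of_eigenspace (hn : 0 < n) (K : Subalgebra F (Matrix (Fin n) (Fin n) F))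
    (hK : Cfsg.Geo.IsFieldSubalgebra n K) (x : Matrix.SpecialLinearGroup (Fin n) F) (c : F)
    (U : Submodule F (Fin n → F))
    (hU : ∀ u ∈ U, (x : Matrix (Fin n) (Fin n) F) *ᵥ u = c • u) (hdim : n < 2 * finrank F U)
    (hns : ∀ z : F, (x : Matrix (Fin n) (Fin n) F) ≠ z • (1 : Matrix (Fin n) (Fin n) F)) :
    ¬ ∃ P : Matrix.SpecialLinearGroup (Fin n) F, P⁻¹ * x * P ∈
      (Cfsg.Geo.subalgebraNormalizer K).comap (Matrix.SpecialLinearGroup.toGL :
        Matrix.SpecialLinearGroup (Fin n) F →* GL (Fin n) F) := by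
  classical
  rintro ⟨P, hP⟩
  rw [Subgroup.mem_comap] at hP
  obtain ⟨Pv, hPv⟩ : ∃ Pv : Matrix (Fin n) (Fin n) F,
      Pv = ((P⁻¹ : Matrix.SpecialLinearGroup (Fin n) F) : Matrix (Fin n) (Fin n) F) := ⟨_, rfl⟩
  obtain ⟨Pm, hPm⟩ : ∃ Pm : Matrix (Fin n) (Fin n) F,
      Pm = (P : Matrix (Fin n) (Fin n) F) := ⟨_, rfl⟩
  have hPvPm : Pv * Pm = 1 := by
    rw [hPv, hPm, ← Matrix.SpecialLinearGroup.coe_mul, inv_mul_cancel,
      Matrix.SpecialLinearGroup.coe_one]
  have hPmPv : Pm * Pv = 1 := by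
    rw [hPv, hPm, ← Matrix.SpecialLinearGroup.coe_mul, mul_inv_cancel,
      Matrix.SpecialLinearGroup.coe_one]
  obtain ⟨A, hA⟩ : ∃ A : Matrix (Fin n) (Fin n) F, A = (x : Matrix (Fin n) (Fin n) F) :=
    ⟨_, rfl⟩
  rw [← hA] at hU hns
  have hval : ((Matrix.SpecialLinearGroup.toGL (P⁻¹ * x * P) : GL (Fin n) F) :
      Matrix (Fin n) (Fin n) F) = Pv * A * Pm := by
    rw [hPv, hPm, hA]
    rfl
  obtain ⟨PL, hPL⟩ : ∃ PL : (Fin n → F) ≃ₗ[F] (Fin n → F), ∀ w, PL w = Pv *ᵥ w :=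
    ⟨LinearEquiv.ofLinearMap (Matrix.toLin' Pv) (Matrix.toLin' Pm)
      (by rw [← Matrix.toLin'_mul, hPvPm, Matrix.toLin'_one])
      (by rw [← Matrix.toLin'_mul, hPmPv, Matrix.toLin'_one]), fun w => rfl⟩
  have h1 := eq_smul_one_of_mem_normalizer hn K hK _ hP c
    (U.map (PL : (Fin n → F) →ₗ[F] (Fin n → F))) (by
      intro u' hu'
      obtain ⟨u, hu, rfl⟩ := Submodule.mem_map.mp hu'
      rw [hval]
      show (Pv * A * Pm) *ᵥ (PL u) = c • PL u
      rw [hPL, Matrix.mulVec_mulVec, Matrix.mul_assoc, Matrix.mul_assoc, hPmPv, Matrix.mul_one,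
        ← Matrix.mulVec_mulVec, hU u hu, Matrix.mulVec_smul])
    (by rw [LinearEquiv.finrank_map_eq PL U]; exact hdim)
  rw [hval] at h1
  apply hns c
  calc A = Pm * (Pv * A * Pm) * Pv := by
        rw [← Matrix.mul_assoc, ← Matrix.mul_assoc, hPmPv, Matrix.one_mul, Matrix.mul_assoc,
          hPmPv, Matrix.mul_one]
    _ = c • 1 := by
        rw [h1, Matrix.mul_smul, Matrix.mul_one, Matrix.smul_mul, hPmPv]

theorem fromBlocks_pow {m l : ℕ} (A : Matrix (Fin m) (Fin m) F) (j : ℕ) :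
    (Matrix.fromBlocks A (0 : Matrix (Fin m) (Fin l) F) (0 : Matrix (Fin l) (Fin m) F) 1) ^ j =
      Matrix.fromBlocks (A ^ j) 0 0 1 := by
  induction j with
  | zero => rw [pow_zero, pow_zero, Matrix.fromBlocks_one]
  | succ j ih =>
    rw [pow_succ, ih, Matrix.fromBlocks_multiply, pow_succ]
    simp

/-- A non-trivial block of size `m < n / 2` with `A ^ N = 1` and determinant one gives an
element of `SL_n` with `x ^ N = 1` that is not conjugate into the normalizer of a field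
subalgebra of degree `n`. -/
theorem exists_bad_of_small (K : Subalgebra F (Matrix (Fin n) (Fin n) F))
    (hK : Cfsg.Geo.IsFieldSubalgebra n K) (m : ℕ) (h2m : 2 * m < n)
    (A : Matrix (Fin m) (Fin m) F) (N : ℕ) (hA : A ^ N = 1) (hA1 : A ≠ 1) (hdet : A.det = 1) :
    ∃ x : Matrix.SpecialLinearGroup (Fin n) F,
      ((x ^ N : Matrix.SpecialLinearGroup (Fin n) F) : Matrix (Fin n) (Fin n) F) =
        (1 : F) • (1 : Matrix (Fin n) (Fin n) F) ∧
      (∀ z : F, (x : Matrix (Fin n) (Fin n) F) ≠ z • (1 : Matrix (Fin n) (Fin n) F)) ∧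
      ¬ ∃ P : Matrix.SpecialLinearGroup (Fin n) F, P⁻¹ * x * P ∈
        (Cfsg.Geo.subalgebraNormalizer K).comap (Matrix.SpecialLinearGroup.toGL :
          Matrix.SpecialLinearGroup (Fin n) F →* GL (Fin n) F) := by
  classical
  obtain ⟨e, he⟩ : ∃ e : Fin m ⊕ Fin (n - m) ≃ Fin n,
      e = finSumFinEquiv.trans (finCongr (by omega)) := ⟨_, rfl⟩
  obtain ⟨B, hB⟩ : ∃ B : Matrix (Fin m ⊕ Fin (n - m)) (Fin m ⊕ Fin (n - m)) F,
      B = Matrix.fromBlocks A 0 0 1 := ⟨_, rfl⟩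
  obtain ⟨X, hX⟩ : ∃ X : Matrix (Fin n) (Fin n) F, X = Matrix.reindexAlgEquiv F F e B :=
    ⟨_, rfl⟩
  have hXdet : X.det = 1 := by
    rw [hX, Matrix.det_reindexAlgEquiv, hB, Matrix.det_fromBlocks_zero₁₂, hdet, Matrix.det_one,
      one_mul]
  have hXN : X ^ N = 1 := by
    rw [hX, ← map_pow, hB, fromBlocks_pow, hA, Matrix.fromBlocks_one, map_one]
  obtain ⟨t₀⟩ : Nonempty (Fin (n - m)) := ⟨⟨0, by omega⟩⟩
  have hXns : ∀ z : F, X ≠ z • (1 : Matrix (Fin n) (Fin n) F) := by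
    intro z hz
    have h1 : B = z • (1 : Matrix (Fin m ⊕ Fin (n - m)) (Fin m ⊕ Fin (n - m)) F) := by
      apply (Matrix.reindexAlgEquiv F F e).injective
      rw [← hX, hz, map_smul, map_one]
    rw [hB, ← Matrix.fromBlocks_one, Matrix.fromBlocks_smul, Matrix.fromBlocks_inj] at h1
    obtain ⟨h2, -, -, h3⟩ := h1
    have h4 := congrFun (congrFun h3 t₀) t₀
    simp only [Matrix.one_apply_eq, Matrix.smul_apply, smul_eq_mul, mul_one] at h4
    apply hA1
    rw [h2, ← h4, one_smul]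
  obtain ⟨x, hx⟩ : ∃ x : Matrix.SpecialLinearGroup (Fin n) F,
      (x : Matrix (Fin n) (Fin n) F) = X := ⟨⟨X, hXdet⟩, rfl⟩
  refine ⟨x, ?_, ?_, ?_⟩
  · rw [Matrix.SpecialLinearGroup.coe_pow, hx, hXN, one_smul]
  · rw [hx]
    exact hXns
  · obtain ⟨fU, hfU⟩ : ∃ fU : Fin (n - m) → (Fin n → F),
        fU = fun t => Pi.single (e (Sum.inr t)) 1 := ⟨_, rfl⟩
    have hli : LinearIndependent F fU := by
      have h1 := (Pi.basisFun F (Fin n)).linearIndependent.comp (fun t : Fin (n - m) =>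
        e (Sum.inr t)) (fun t t' h => Sum.inr_injective (e.injective h))
      have e2 : fU = (Pi.basisFun F (Fin n)) ∘ (fun t : Fin (n - m) => e (Sum.inr t)) := by
        rw [hfU]
        funext t
        rw [Function.comp_apply, Pi.basisFun_apply]
      rw [e2]
      exact h1
    have hfr : finrank F (Submodule.span F (Set.range fU)) = n - m := by
      rw [finrank_span_eq_card hli, Fintype.card_fin]
    have hcol : ∀ t : Fin (n - m), X *ᵥ fU t = fU t := by
      intro t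
      rw [hfU]
      show X *ᵥ Pi.single (e (Sum.inr t)) 1 = Pi.single (e (Sum.inr t)) 1
      rw [Matrix.mulVec_single_one]
      funext i
      obtain ⟨s, rfl⟩ := e.surjective i
      rw [hX, hB]
      rcases s with s | s
      · simp [Matrix.coe_reindexAlgEquiv, Matrix.reindex_apply]
      · simp [Matrix.coe_reindexAlgEquiv, Matrix.reindex_apply, Pi.single_apply,
          Matrix.one_apply]
    apply not_conj_of_eigenspace (by omega) K hK x 1 (Submodule.span F (Set.range fU)) ?_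
      (by rw [hfr]; omega) (by rw [hx]; exact hXns)
    intro u hu
    rw [hx, one_smul]
    refine Submodule.span_induction ?_ ?_ ?_ ?_ hu
    · rintro _ ⟨t, rfl⟩
      exact hcol t
    · rw [Matrix.mulVec_zero]
    · intro a b _ _ ha hb
      rw [Matrix.mulVec_add, ha, hb]
    · intro c a _ ha
      rw [Matrix.mulVec_smul, ha]

end Cfsg.Agent.Lib.Helper37.SingerD
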