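import Mathlib
import Cfsg.Prelude.Def_GeometricClasses
import Cfsg.Agent.Lib.Helper37.CubeUnip
import Cfsg.Agent.Lib.Helper37.QuadGen
import Cfsg.Agent.Lib.Helper37.SingerA
import Cfsg.Agent.Lib.Helper37.SingerB
import Cfsg.Agent.Lib.Helper37.SingerD

set_option autoImplicit false

open scoped MatrixGroups Matrix

namespace Cfsg.Agent.Lib.Helper37.SingerE

open Module Cfsg.Agent.Lib.Helper37.SingerA Cfsg.Agent.Lib.Helper37.SingerB

variable {F : Type*} [Field F]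

/-- Cayley–Hamilton for `3 × 3` matrices, with the determinant and the eigenvectors. -/
theorem ch3 (M : Matrix (Fin 3) (Fin 3) F) :
    ∃ c₀ c₁ c₂ : F, M ^ 3 + c₂ • M ^ 2 + c₁ • M + c₀ • (1 : Matrix (Fin 3) (Fin 3) F) = 0 ∧
      M.det = -c₀ ∧
      ∀ ρ : F, ρ ^ 3 + c₂ * ρ ^ 2 + c₁ * ρ + c₀ = 0 →
        ∃ v : Fin 3 → F, v ≠ 0 ∧ M *ᵥ v = ρ • v := by
  classical
  obtain ⟨P, hP⟩ : ∃ P : Polynomial F, P = M.charpoly := ⟨_, rfl⟩
  have hmonic : P.Monic := by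
    rw [hP]
    exact Matrix.charpoly_monic M
  have hdeg : P.natDegree = 3 := by
    rw [hP, Matrix.charpoly_natDegree_eq_dim, Fintype.card_fin]
  obtain ⟨c₀, hc₀⟩ : ∃ c₀ : F, c₀ = P.coeff 0 := ⟨_, rfl⟩
  obtain ⟨c₁, hc₁⟩ : ∃ c₁ : F, c₁ = P.coeff 1 := ⟨_, rfl⟩
  obtain ⟨c₂, hc₂⟩ : ∃ c₂ : F, c₂ = P.coeff 2 := ⟨_, rfl⟩
  have hsum : P = Polynomial.X ^ 3 + (Polynomial.C c₀ * Polynomial.X ^ 0 +
      Polynomial.C c₁ * Polynomial.X ^ 1 + Polynomial.C c₂ * Polynomial.X ^ 2) := by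
    have h := hmonic.as_sum
    rw [hdeg, Finset.sum_range_succ, Finset.sum_range_succ, Finset.sum_range_one, ← hc₀, ← hc₁,
      ← hc₂] at h
    exact h
  have hae : Polynomial.aeval M P = 0 := by
    rw [hP]
    exact Matrix.aeval_self_charpoly M
  refine ⟨c₀, c₁, c₂, ?_, ?_, ?_⟩
  · rw [hsum] at hae
    simp only [map_add, map_mul, map_pow, Polynomial.aeval_X, Polynomial.aeval_C, pow_zero,
      pow_one, mul_one, Algebra.algebraMap_eq_smul_one, Matrix.smul_mul, Matrix.one_mul] at hae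
    rw [← hae]
    abel
  · rw [Matrix.det_eq_sign_charpoly_coeff, Fintype.card_fin, ← hP, ← hc₀]
    ring
  · intro ρ hρ
    have hev : P.eval ρ = 0 := by
      rw [hsum]
      simp only [Polynomial.eval_add, Polynomial.eval_mul, Polynomial.eval_pow,
        Polynomial.eval_X, Polynomial.eval_C, pow_zero, pow_one, mul_one]
      linear_combination hρ
    rw [hP, Matrix.eval_charpoly] at hev
    obtain ⟨v, hv0, hv⟩ := Matrix.exists_mulVec_eq_zero_iff.mpr hev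
    refine ⟨v, hv0, ?_⟩
    rw [Matrix.sub_mulVec, Matrix.scalar_apply, ← Matrix.smul_one_eq_diagonal,
      Matrix.smul_mulVec, Matrix.one_mulVec] at hv
    exact (sub_eq_zero.mp hv).symm

/-- Dedekind independence of the powers of the Frobenius matrix of a cubic field subalgebra. -/
theorem frob_indep [Fintype F] {n : ℕ} (hn : 0 < n)
    (K : Subalgebra F (Matrix (Fin n) (Fin n) F)) (hK : Cfsg.Geo.IsFieldSubalgebra 3 K)
    (G : Matrix (Fin n) (Fin n) F) (hG3 : G ^ 3 = 1)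
    (hGK : ∀ b ∈ K, G * b = b ^ Fintype.card F * G) (α β γ : F)
    (h : α • (1 : Matrix (Fin n) (Fin n) F) + β • G + γ • G ^ 2 = 0) :
    α = 0 ∧ β = 0 ∧ γ = 0 := by
  classical
  have : Nonempty (Fin n) := ⟨⟨0, hn⟩⟩
  obtain ⟨q, hq⟩ : ∃ q, q = Fintype.card F := ⟨_, rfl⟩
  rw [← hq] at hGK
  obtain ⟨b, hbK, hbq⟩ := exists_not_fixed (by norm_num) hn K hK
  rw [← hq] at hbq
  obtain ⟨b₁, hb₁⟩ : ∃ b₁ : Matrix (Fin n) (Fin n) F, b₁ = b ^ q := ⟨_, rfl⟩
  obtain ⟨b₂, hb₂⟩ : ∃ b₂ : Matrix (Fin n) (Fin n) F, b₂ = b₁ ^ q := ⟨_, rfl⟩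
  have hb₁K : b₁ ∈ K := by
    rw [hb₁]
    exact K.pow_mem hbK _
  have hb₂K : b₂ ∈ K := by
    rw [hb₂]
    exact K.pow_mem hb₁K _
  have hb₃ : b₂ ^ q = b := by
    have e : q ^ 3 = q * (q * q) := by ring
    rw [hb₂, hb₁, ← pow_mul, ← pow_mul, ← e, hq]
    exact pow_card hn K hK b hbK
  have h1 : G * b = b₁ * G := by
    rw [hb₁]
    exact hGK b hbK
  have h2 : G ^ 2 * b = b₂ * G ^ 2 := by
    rw [pow_two, Matrix.mul_assoc, h1, ← Matrix.mul_assoc, hGK b₁ hb₁K, ← hb₂, Matrix.mul_assoc]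
  have hb₁b : b₁ ≠ b := by
    rw [hb₁]
    exact hbq
  have hb₂b : b₂ ≠ b := by
    intro h'
    rw [h'] at hb₃
    exact hbq hb₃
  have hb₂b₁ : b₂ ≠ b₁ := by
    intro h'
    rw [h'] at hb₃
    rw [← hb₂, h'] at hb₃
    exact hb₁b hb₃
  have hG0 : G ≠ 0 := by
    rintro rfl
    rw [zero_pow (by norm_num)] at hG3
    exact zero_ne_one hG3
  have hG20 : G ^ 2 ≠ 0 := by
    intro h0
    have e : G ^ 3 = G ^ 2 * G := pow_succ G 2
    rw [e, h0, Matrix.zero_mul] at hG3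
    exact zero_ne_one hG3
  have e1 : β • ((b₁ - b) * G) + γ • ((b₂ - b) * G ^ 2) = 0 := by
    calc β • ((b₁ - b) * G) + γ • ((b₂ - b) * G ^ 2)
        = (α • (1 : Matrix (Fin n) (Fin n) F) + β • G + γ • G ^ 2) * b -
            b * (α • (1 : Matrix (Fin n) (Fin n) F) + β • G + γ • G ^ 2) := by
          rw [add_mul, add_mul, mul_add, mul_add, Matrix.smul_mul, Matrix.smul_mul,
            Matrix.smul_mul, Matrix.mul_smul, Matrix.mul_smul, Matrix.mul_smul, Matrix.one_mul,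
            Matrix.mul_one, h1, h2, Matrix.sub_mul, Matrix.sub_mul, smul_sub, smul_sub]
          abel
      _ = 0 := by rw [h, Matrix.zero_mul, Matrix.mul_zero, sub_zero]
  have e2 : γ • ((b₂ - b) * ((b₂ - b₁) * G ^ 2)) = 0 := by
    have hc1 : b₁ * (b₁ - b) = (b₁ - b) * b₁ := hK.comm _ hb₁K _ (K.sub_mem hb₁K hbK)
    have hc2 : b₁ * (b₂ - b) = (b₂ - b) * b₁ := hK.comm _ hb₁K _ (K.sub_mem hb₂K hbK)
    have t1 : (b₁ - b) * G * b = (b₁ - b) * b₁ * G := by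
      rw [Matrix.mul_assoc, h1, ← Matrix.mul_assoc]
    have t2 : b₁ * ((b₁ - b) * G) = (b₁ - b) * b₁ * G := by
      rw [← Matrix.mul_assoc, hc1]
    have t3 : (b₂ - b) * G ^ 2 * b = (b₂ - b) * (b₂ * G ^ 2) := by
      rw [Matrix.mul_assoc, h2]
    have t4 : b₁ * ((b₂ - b) * G ^ 2) = (b₂ - b) * (b₁ * G ^ 2) := by
      rw [← Matrix.mul_assoc, hc2, Matrix.mul_assoc]
    calc γ • ((b₂ - b) * ((b₂ - b₁) * G ^ 2))
        = (β • ((b₁ - b) * G) + γ • ((b₂ - b) * G ^ 2)) * b -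
            b₁ * (β • ((b₁ - b) * G) + γ • ((b₂ - b) * G ^ 2)) := by
          rw [add_mul, mul_add, Matrix.smul_mul, Matrix.smul_mul, Matrix.mul_smul,
            Matrix.mul_smul, t1, t2, t3, t4, Matrix.sub_mul b₂ b₁, Matrix.mul_sub, smul_sub]
          abel
      _ = 0 := by rw [e1, Matrix.zero_mul, Matrix.mul_zero, sub_zero]
  have hγ : γ = 0 := by
    by_contra hγ
    rcases smul_eq_zero.mp e2 with h' | h'
    · exact hγ h'
    · have h3 := Cfsg.Agent.Lib.Helper37.QuadGen.mul_eq_zero K hK (b₂ - b) (K.sub_mem hb₂K hbK)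
        (sub_ne_zero.mpr hb₂b) _ h'
      have h4 := Cfsg.Agent.Lib.Helper37.QuadGen.mul_eq_zero K hK (b₂ - b₁)
        (K.sub_mem hb₂K hb₁K) (sub_ne_zero.mpr hb₂b₁) _ h3
      exact hG20 h4
  have hβ : β = 0 := by
    by_contra hβ
    rw [hγ, zero_smul, add_zero] at e1
    rcases smul_eq_zero.mp e1 with h' | h'
    · exact hβ h'
    · have h3 := Cfsg.Agent.Lib.Helper37.QuadGen.mul_eq_zero K hK (b₁ - b) (K.sub_mem hb₁K hbK)
        (sub_ne_zero.mpr hb₁b) _ h'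
      exact hG0 h3
  refine ⟨?_, hβ, hγ⟩
  rw [hβ, hγ, zero_smul, zero_smul, add_zero, add_zero] at h
  rcases smul_eq_zero.mp h with h' | h'
  · exact h'
  · exact absurd h' one_ne_zero

/-- A `3 × 3` matrix with three distinct eigenvalues has a basis of eigenvectors. -/
theorem exists_eigenbasis (M : Matrix (Fin 3) (Fin 3) F) (ρ : Fin 3 → F)
    (hρ : Function.Injective ρ) (hev : ∀ i, ∃ v : Fin 3 → F, v ≠ 0 ∧ M *ᵥ v = ρ i • v) :
    ∃ B : Basis (Fin 3) F (Fin 3 → F), ∀ i, M *ᵥ B i = ρ i • B i := by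
  classical
  choose v hv0 hv using hev
  have hli : LinearIndependent F v := by
    apply Module.End.eigenvectors_linearIndependent' (Matrix.toLin' M) ρ hρ v
    intro i
    refine ⟨Module.End.mem_eigenspace_iff.mpr ?_, hv0 i⟩
    rw [Matrix.toLin'_apply]
    exact hv i
  have hspan : Submodule.span F (Set.range v) = ⊤ :=
    hli.span_eq_top_of_card_eq_finrank' (by rw [Module.finrank_fintype_fun_eq_card])
  refine ⟨Basis.mk hli hspan.ge, fun i => ?_⟩
  rw [Basis.mk_apply]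
  exact hv i

/-- Two `3 × 3` matrices with the same three distinct eigenvalues are conjugate, and the first
one commutes with a matrix of any prescribed determinant. -/
theorem exists_conj_of_eigen (A G : Matrix (Fin 3) (Fin 3) F) (ρ : Fin 3 → F)
    (hρ : Function.Injective ρ)
    (hA : ∀ i, ∃ v : Fin 3 → F, v ≠ 0 ∧ A *ᵥ v = ρ i • v)
    (hG : ∀ i, ∃ v : Fin 3 → F, v ≠ 0 ∧ G *ᵥ v = ρ i • v) :
    ∃ Q : GL (Fin 3) F,
      (Q : Matrix (Fin 3) (Fin 3) F) * A = G * (Q : Matrix (Fin 3) (Fin 3) F) ∧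
      ∀ a : F, ∃ C : Matrix (Fin 3) (Fin 3) F, C * A = A * C ∧ C.det = a := by
  classical
  obtain ⟨B, hB⟩ := exists_eigenbasis A ρ hρ hA
  obtain ⟨B', hB'⟩ := exists_eigenbasis G ρ hρ hG
  obtain ⟨Q, hQ⟩ : ∃ Q : (Fin 3 → F) ≃ₗ[F] (Fin 3 → F), ∀ i, Q (B i) = B' i :=
    ⟨B.equiv B' (Equiv.refl _), fun i => by rw [Basis.equiv_apply]; rfl⟩
  refine ⟨⟨LinearMap.toMatrix' (Q : (Fin 3 → F) →ₗ[F] (Fin 3 → F)),
      LinearMap.toMatrix' (Q.symm : (Fin 3 → F) →ₗ[F] (Fin 3 → F)),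
      by rw [← LinearMap.toMatrix'_comp]; simp, by rw [← LinearMap.toMatrix'_comp]; simp⟩,
    ?_, ?_⟩
  · show LinearMap.toMatrix' (Q : (Fin 3 → F) →ₗ[F] (Fin 3 → F)) * A =
      G * LinearMap.toMatrix' (Q : (Fin 3 → F) →ₗ[F] (Fin 3 → F))
    have h1 : (Q : (Fin 3 → F) →ₗ[F] (Fin 3 → F)) ∘ₗ Matrix.toLin' A =
        Matrix.toLin' G ∘ₗ (Q : (Fin 3 → F) →ₗ[F] (Fin 3 → F)) := by
      apply B.ext
      intro i
      rw [LinearMap.comp_apply, LinearMap.comp_apply, Matrix.toLin'_apply, Matrix.toLin'_apply,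
        hB i]
      show Q (ρ i • B i) = G *ᵥ (Q (B i))
      rw [map_smul, hQ, hB']
    have h2 := congrArg LinearMap.toMatrix' h1
    rw [LinearMap.toMatrix'_comp, LinearMap.toMatrix'_comp, LinearMap.toMatrix'_toLin',
      LinearMap.toMatrix'_toLin'] at h2
    exact h2
  · intro a
    obtain ⟨c, hc⟩ : ∃ c : Fin 3 → F, c = ![a, 1, 1] := ⟨_, rfl⟩
    obtain ⟨C, hC⟩ : ∃ C : (Fin 3 → F) →ₗ[F] (Fin 3 → F), ∀ i, C (B i) = c i • B i :=
      ⟨B.constr F (fun i => c i • B i), fun i => by rw [Basis.constr_basis]⟩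
    refine ⟨LinearMap.toMatrix' C, ?_, ?_⟩
    · have h1 : C ∘ₗ Matrix.toLin' A = Matrix.toLin' A ∘ₗ C := by
        apply B.ext
        intro i
        rw [LinearMap.comp_apply, LinearMap.comp_apply, Matrix.toLin'_apply,
          Matrix.toLin'_apply, hB i, map_smul, hC, Matrix.mulVec_smul, hB i, smul_comm]
      have h2 := congrArg LinearMap.toMatrix' h1
      rw [LinearMap.toMatrix'_comp, LinearMap.toMatrix'_comp, LinearMap.toMatrix'_toLin'] at h2
      exact h2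
    · rw [LinearMap.det_toMatrix', Cfsg.Agent.Lib.Helper37.CubeUnip.det_of_diag B c C hC,
        Fin.prod_univ_three, hc]
      simp

/-- An element of `SL_3` with two standard basis vectors in one eigenspace is not conjugate
into the normalizer of a cubic field subalgebra, unless it is scalar. -/
theorem not_conj_of_cols (K : Subalgebra F (Matrix (Fin 3) (Fin 3) F))
    (hK : Cfsg.Geo.IsFieldSubalgebra 3 K) (x : Matrix.SpecialLinearGroup (Fin 3) F) (c : F)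
    (j₁ j₂ : Fin 3) (hj : j₁ ≠ j₂)
    (h₁ : (x : Matrix (Fin 3) (Fin 3) F) *ᵥ Pi.single j₁ 1 = c • Pi.single j₁ 1)
    (h₂ : (x : Matrix (Fin 3) (Fin 3) F) *ᵥ Pi.single j₂ 1 = c • Pi.single j₂ 1)
    (hns : ∀ z : F, (x : Matrix (Fin 3) (Fin 3) F) ≠ z • (1 : Matrix (Fin 3) (Fin 3) F)) :
    ¬ ∃ P : Matrix.SpecialLinearGroup (Fin 3) F, P⁻¹ * x * P ∈
      (Cfsg.Geo.subalgebraNormalizer K).comap (Matrix.SpecialLinearGroup.toGL :
        Matrix.SpecialLinearGroup (Fin 3) F →* GL (Fin 3) F) := by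
  classical
  obtain ⟨fU, hfU⟩ : ∃ fU : Fin 2 → (Fin 3 → F),
      fU = fun t => Pi.single (![j₁, j₂] t) 1 := ⟨_, rfl⟩
  have hinj : Function.Injective ![j₁, j₂] := by
    intro s t hst
    fin_cases s <;> fin_cases t
    · rfl
    · exact absurd hst hj
    · exact absurd hst.symm hj
    · rfl
  have hli : LinearIndependent F fU := by
    have h1 := (Pi.basisFun F (Fin 3)).linearIndependent.comp ![j₁, j₂] hinj
    have e2 : fU = (Pi.basisFun F (Fin 3)) ∘ ![j₁, j₂] := by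
      rw [hfU]
      funext t
      rw [Function.comp_apply, Pi.basisFun_apply]
    rw [e2]
    exact h1
  have hfr : finrank F (Submodule.span F (Set.range fU)) = 2 := by
    rw [finrank_span_eq_card hli, Fintype.card_fin]
  have hcol : ∀ t : Fin 2, (x : Matrix (Fin 3) (Fin 3) F) *ᵥ fU t = c • fU t := by
    intro t
    rw [hfU]
    fin_cases t
    · exact h₁
    · exact h₂
  apply Cfsg.Agent.Lib.Helper37.SingerD.not_conj_of_eigenspace (by norm_num) K hK x c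
    (Submodule.span F (Set.range fU)) ?_ (by rw [hfr]; norm_num) hns
  intro u hu
  refine Submodule.span_induction ?_ ?_ ?_ ?_ hu
  · rintro _ ⟨t, rfl⟩
    exact hcol t
  · rw [Matrix.mulVec_zero, smul_zero]
  · intro a b _ _ ha hb
    rw [Matrix.mulVec_add, ha, hb, smul_add]
  · intro d a _ ha
    rw [Matrix.mulVec_smul, ha, smul_comm]

/-- `9` does not divide the order of `GL_3(q)` when `q ≡ 2, 5 (mod 9)`. -/
theorem nine_not_dvd (q : ℕ) (hq : q % 9 = 2 ∨ q % 9 = 5) :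
    ¬ 9 ∣ ∏ i : Fin 3, (q ^ 3 - q ^ (i : ℕ)) := by
  obtain ⟨s, rfl⟩ : ∃ s, q = s + 1 := ⟨q - 1, by omega⟩
  rw [Fin.prod_univ_three]
  have e0 : (s + 1) ^ 3 - (s + 1) ^ ((0 : Fin 3) : ℕ) = s * (s ^ 2 + 3 * s + 3) := by
    apply Nat.sub_eq_of_eq_add
    show (s + 1) ^ 3 = s * (s ^ 2 + 3 * s + 3) + (s + 1) ^ 0
    ring
  have e1 : (s + 1) ^ 3 - (s + 1) ^ ((1 : Fin 3) : ℕ) = s * (s + 1) * (s + 2) := by
    apply Nat.sub_eq_of_eq_add
    show (s + 1) ^ 3 = s * (s + 1) * (s + 2) + (s + 1) ^ 1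
    ring
  have e2 : (s + 1) ^ 3 - (s + 1) ^ ((2 : Fin 3) : ℕ) = s * (s + 1) ^ 2 := by
    apply Nat.sub_eq_of_eq_add
    show (s + 1) ^ 3 = s * (s + 1) ^ 2 + (s + 1) ^ 2
    ring
  rw [e0, e1, e2]
  intro hdvd
  have h := (ZMod.natCast_eq_zero_iff _ 9).mpr hdvd
  push_cast at h
  have hs : (s : ZMod 9) = 1 ∨ (s : ZMod 9) = 4 := by
    rcases hq with h' | h'
    · left
      have h1 : s % 9 = 1 := by omega
      rw [← ZMod.natCast_mod, h1]
      decide
    · right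
      have h1 : s % 9 = 4 := by omega
      rw [← ZMod.natCast_mod, h1]
      decide
  rcases hs with hs | hs
  · rw [hs] at h
    revert h
    decide
  · rw [hs] at h
    revert h
    decide

/-- An element of order `9` in a finite field with `9 ∣ q - 1`. -/
theorem exists_ninth_root [Fintype F] (h9 : 9 ∣ Fintype.card F - 1) :
    ∃ μ : F, μ ^ 9 = 1 ∧ μ ^ 3 ≠ 1 := by
  classical
  obtain ⟨g, hg⟩ := IsCyclic.exists_generator (α := Fˣ)
  have hord : orderOf g = Fintype.card F - 1 := by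
    rw [orderOf_eq_card_of_forall_mem_zpowers hg, Nat.card_units, Nat.card_eq_fintype_card]
  obtain ⟨m, hm⟩ := h9
  have hq1 : 0 < Fintype.card F - 1 := by
    have := Fintype.one_lt_card (α := F)
    omega
  refine ⟨((g ^ m : Fˣ) : F), ?_, ?_⟩
  · rw [← Units.val_pow_eq_pow_val, ← pow_mul, mul_comm, ← hm, ← hord, pow_orderOf_eq_one,
      Units.val_one]
  · intro h
    have h2 : g ^ (m * 3) = 1 := by
      apply Units.ext
      rw [pow_mul, Units.val_pow_eq_pow_val, h, Units.val_one]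
    have h3 := orderOf_dvd_of_pow_eq_one h2
    rw [hord, hm] at h3
    have h4 := Nat.le_of_dvd (by omega) h3
    omega

end Cfsg.Agent.Lib.Helper37.SingerE
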