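import Mathlib
import Cfsg.Prelude.Def_GeometricClasses

set_option autoImplicit false
open scoped MatrixGroups

namespace Cfsg.Agent.Lib.Helper37.SubfieldIndex

/-- The relative index in a kernel divides the index. -/
theorem relIndex_ker_dvd_index {G A : Type*} [Group G] [Finite G] [Group A] (f : G →* A)
    (B : Subgroup G) : B.relIndex f.ker ∣ B.index := by
  have h1 : (⊥ : Subgroup G).relIndex (B ⊓ f.ker) * (B ⊓ f.ker).relIndex f.ker =
      (⊥ : Subgroup G).relIndex f.ker :=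
    Subgroup.relIndex_mul_relIndex _ _ _ bot_le inf_le_right
  have h2 : (⊥ : Subgroup G).relIndex (B ⊓ f.ker) * (B ⊓ f.ker).relIndex B =
      (⊥ : Subgroup G).relIndex B :=
    Subgroup.relIndex_mul_relIndex _ _ _ bot_le inf_le_left
  rw [Subgroup.relIndex_bot_left, Subgroup.inf_relIndex_right, Subgroup.relIndex_bot_left] at h1
  rw [Subgroup.relIndex_bot_left, Subgroup.inf_relIndex_left, Subgroup.relIndex_bot_left,
    Subgroup.relIndex_ker] at h2
  have h3 : Nat.card f.ker * Nat.card f.range = Nat.card G := by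
    rw [← Subgroup.index_ker]
    exact Subgroup.card_mul_index _
  have h4 := Subgroup.card_mul_index B
  obtain ⟨t, ht⟩ : Nat.card (B.map f) ∣ Nat.card f.range :=
    Subgroup.card_dvd_of_le (by
      rintro _ ⟨b, -, rfl⟩
      exact ⟨b, rfl⟩)
  have ha : 0 < Nat.card (B ⊓ f.ker : Subgroup G) := Nat.card_pos
  have hm : 0 < Nat.card (B.map f) := by
    apply Nat.pos_of_ne_zero
    intro h0
    rw [h0, mul_zero] at h2
    exact (Nat.card_pos (α := B)).ne' h2.symm
  refine ⟨t, ?_⟩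
  have h5 : Nat.card (B ⊓ f.ker : Subgroup G) * Nat.card (B.map f) * B.index =
      Nat.card (B ⊓ f.ker : Subgroup G) * Nat.card (B.map f) * (B.relIndex f.ker * t) := by
    calc Nat.card (B ⊓ f.ker : Subgroup G) * Nat.card (B.map f) * B.index
        = Nat.card B * B.index := by rw [h2]
      _ = Nat.card f.ker * Nat.card f.range := by rw [h4, h3]
      _ = (Nat.card (B ⊓ f.ker : Subgroup G) * B.relIndex f.ker) * (Nat.card (B.map f) * t) := by
          rw [h1, ht]
      _ = Nat.card (B ⊓ f.ker : Subgroup G) * Nat.card (B.map f) * (B.relIndex f.ker * t) := by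
          ring
  exact Nat.eq_of_mul_eq_mul_left (Nat.mul_pos ha hm) h5

theorem geom (u k : ℕ) : u * ∑ t ∈ Finset.range k, (u + 1) ^ t + 1 = (u + 1) ^ k := by
  induction k with
  | zero => simp
  | succ k ih =>
    rw [Finset.sum_range_succ, pow_succ]
    linear_combination ih

/-- The order of `GL_n(q₀^k)` is an odd multiple of the order of `GL_n(q₀)` when `q₀` and `k` are
odd. -/
theorem prod_odd (n q₀ k : ℕ) (hq₀ : Odd q₀) (hk : Odd k) :
    ∃ C : ℕ, Odd C ∧ ∏ i : Fin n, ((q₀ ^ k) ^ n - (q₀ ^ k) ^ (i : ℕ)) =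
      (∏ i : Fin n, (q₀ ^ n - q₀ ^ (i : ℕ))) * C := by
  have hq₀pos : 0 < q₀ := hq₀.pos
  have hk1 : 1 ≤ k := hk.pos
  have key : ∀ i : Fin n, ∃ c : ℕ, Odd c ∧
      (q₀ ^ k) ^ n - (q₀ ^ k) ^ (i : ℕ) = (q₀ ^ n - q₀ ^ (i : ℕ)) * c := by
    intro i
    obtain ⟨u, hu⟩ : ∃ u, q₀ ^ (n - (i : ℕ)) = u + 1 :=
      ⟨q₀ ^ (n - (i : ℕ)) - 1, by have := pow_pos hq₀pos (n - (i : ℕ)); omega⟩
    have hn : q₀ ^ n = q₀ ^ (i : ℕ) * (u + 1) := by
      rw [← hu, ← pow_add]
      congr 1
      have := i.2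
      omega
    refine ⟨(q₀ ^ (i : ℕ)) ^ (k - 1) * ∑ t ∈ Finset.range k, (u + 1) ^ t, ?_, ?_⟩
    · apply Odd.mul
      · exact (hq₀.pow).pow
      · rw [Finset.odd_sum_iff_odd_card_odd]
        have : (Finset.range k).filter (fun t => Odd ((u + 1) ^ t)) = Finset.range k := by
          apply Finset.filter_true_of_mem
          intro t _
          rw [← hu]
          exact (hq₀.pow).pow
        rw [this, Finset.card_range]
        exact hk
    · have h1 : (q₀ ^ k) ^ n = (q₀ ^ (i : ℕ)) ^ k * (u + 1) ^ k := by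
        rw [← pow_mul, mul_comm k n, pow_mul, hn, mul_pow]
      have h2 : (q₀ ^ k) ^ (i : ℕ) = (q₀ ^ (i : ℕ)) ^ k := by
        rw [← pow_mul, mul_comm, pow_mul]
      have h3 := geom u k
      have h4 : (q₀ ^ (i : ℕ)) ^ k = q₀ ^ (i : ℕ) * (q₀ ^ (i : ℕ)) ^ (k - 1) := by
        rw [← pow_succ']
        congr 1
        omega
      rw [h1, h2, hn, ← h3]
      have h5 : q₀ ^ (i : ℕ) * (u + 1) - q₀ ^ (i : ℕ) = q₀ ^ (i : ℕ) * u := by
        rw [mul_add, mul_one, Nat.add_sub_cancel]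
      rw [h5, mul_add, mul_one, Nat.add_sub_cancel, h4]
      ring
  choose c hc1 hc2 using key
  refine ⟨∏ i, c i, ?_, ?_⟩
  · apply Finset.prod_induction _ Odd (fun a b ha hb => ha.mul hb) odd_one
    intro i _
    exact hc1 i
  · rw [← Finset.prod_mul_distrib]
    exact Finset.prod_congr rfl (fun i _ => hc2 i)

variable {F : Type*} [Field F] [Fintype F]

theorem range_toGL (n : ℕ) :
    (Matrix.SpecialLinearGroup.toGL : Matrix.SpecialLinearGroup (Fin n) F →* GL (Fin n) F).range =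
      (Matrix.GeneralLinearGroup.det : GL (Fin n) F →* Fˣ).ker := by
  ext g
  rw [MonoidHom.mem_range, MonoidHom.mem_ker]
  constructor
  · rintro ⟨s, rfl⟩
    apply Units.ext
    show (s : Matrix (Fin n) (Fin n) F).det = 1
    exact s.2
  · intro h
    have h1 : (g : Matrix (Fin n) (Fin n) F).det = 1 := congrArg Units.val h
    exact ⟨⟨(g : Matrix (Fin n) (Fin n) F), h1⟩, Units.ext rfl⟩

/-- The subfield subgroup of type `GL_n(q₀)` has odd index in `SL_n(q₀^k)` for `q₀`, `k` odd. -/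
theorem index_odd (n : ℕ) (F₀ : Subfield F) (k q₀ : ℕ) (hk : Odd k)
    (hF₀ : Nat.card ↥F₀ = q₀) (hqk : Fintype.card F = q₀ ^ k) (hodd : Odd q₀) :
    ¬ 2 ∣ ((Cfsg.Geo.subfieldSubgroup F₀ 1).comap (Matrix.SpecialLinearGroup.toGL :
      Matrix.SpecialLinearGroup (Fin n) F →* GL (Fin n) F)).index := by
  classical
  letI : Fintype ↥F₀ := Fintype.ofFinite _
  obtain ⟨R, hR⟩ : ∃ R : Subgroup (GL (Fin n) F),
      R = (Matrix.GeneralLinearGroup.map (F₀.subtype : F₀ →+* F)).range := ⟨_, rfl⟩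
  have hRB : R ≤ Cfsg.Geo.subfieldSubgroup F₀ (1 : GL (Fin n) F) := by
    intro g hg
    refine ⟨g, Subgroup.mem_sup_left (hR ▸ hg), ?_⟩
    simp
  have hinj : Function.Injective (Matrix.GeneralLinearGroup.map (n := Fin n)
      (F₀.subtype : F₀ →+* F)) := by
    intro a b hab
    apply Units.ext
    apply Matrix.map_injective (F₀.subtype : F₀ →+* F).injective
    exact congrArg Units.val hab
  have hcardR : Nat.card R = Nat.card (GL (Fin n) F₀) := by
    rw [hR]
    exact (Nat.card_congr (MonoidHom.ofInjective hinj).toEquiv).symm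
  have hq₀ : Fintype.card ↥F₀ = q₀ := by rw [← Nat.card_eq_fintype_card, hF₀]
  have hG := Matrix.card_GL_field (𝔽 := F) (n := n)
  have hG₀ := Matrix.card_GL_field (𝔽 := ↥F₀) (n := n)
  rw [hqk] at hG
  rw [hq₀] at hG₀
  obtain ⟨C, hC, hprod⟩ := prod_odd n q₀ k hodd hk
  have hidx : R.index = C := by
    have h1 := R.index_mul_card
    rw [hcardR, hG₀, hG, hprod, mul_comm] at h1
    have hpos : 0 < ∏ i : Fin n, (q₀ ^ n - q₀ ^ (i : ℕ)) := by
      rw [← hG₀]
      exact Nat.card_pos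
    exact Nat.eq_of_mul_eq_mul_left hpos h1
  intro h2
  have h3 : ((Cfsg.Geo.subfieldSubgroup F₀ (1 : GL (Fin n) F)).comap
      (Matrix.SpecialLinearGroup.toGL :
        Matrix.SpecialLinearGroup (Fin n) F →* GL (Fin n) F)).index ∣ R.index := by
    rw [Subgroup.index_comap, range_toGL]
    exact dvd_trans (relIndex_ker_dvd_index _ _) (Subgroup.index_dvd_of_le hRB)
  rw [hidx] at h3
  exact (Nat.not_even_iff_odd.mpr hC) (even_iff_two_dvd.mpr (dvd_trans h2 h3))

end Cfsg.Agent.Lib.Helper37.SubfieldIndex
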