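import Mathlib

set_option autoImplicit false

namespace Cfsg.Agent.Lib.Helper37.SympInv

open Module

variable {F V : Type*} [Field F] [AddCommGroup V] [Module F V]

/-- The subspace of `Y` orthogonal to `e` and `e'`. -/
def perp (f : LinearMap.BilinForm F V) (Y : Submodule F V) (e e' : V) : Submodule F V :=
  Y ⊓ (LinearMap.ker (f.flip e) ⊓ LinearMap.ker (f.flip e'))

theorem mem_perp (f : LinearMap.BilinForm F V) (Y : Submodule F V) (e e' y : V) :
    y ∈ perp f Y e e' ↔ y ∈ Y ∧ f y e = 0 ∧ f y e' = 0 := by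
  unfold perp
  rw [Submodule.mem_inf, Submodule.mem_inf, LinearMap.mem_ker, LinearMap.mem_ker]
  exact Iff.rfl

theorem perp_le (f : LinearMap.BilinForm F V) (Y : Submodule F V) (e e' : V) :
    perp f Y e e' ≤ Y := inf_le_left

/-- Splitting off a hyperbolic plane. -/
theorem perp_split (f : LinearMap.BilinForm F V) (hf : f.IsAlt) (Y : Submodule F V) {e e' : V}
    (he : e ∈ Y) (he' : e' ∈ Y) (hee : f e e' ≠ 0) (y : V) (hy : y ∈ Y) :
    ∃ a b : F, y - a • e - b • e' ∈ perp f Y e e' := by
  have h1 : f e' e = - f e e' := (hf.neg_eq e e').symm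
  refine ⟨f y e' / f e e', - (f y e / f e e'), ?_⟩
  rw [mem_perp]
  refine ⟨Y.sub_mem (Y.sub_mem hy (Y.smul_mem _ he)) (Y.smul_mem _ he'), ?_, ?_⟩
  · simp only [map_sub, map_smul, LinearMap.sub_apply, LinearMap.smul_apply, smul_eq_mul,
      hf.self_eq_zero, h1]
    field_simp
    ring
  · simp only [map_sub, map_smul, LinearMap.sub_apply, LinearMap.smul_apply, smul_eq_mul,
      hf.self_eq_zero]
    field_simp
    ring

theorem perp_nd (f : LinearMap.BilinForm F V) (hf : f.IsAlt) (Y : Submodule F V) {e e' : V}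
    (he : e ∈ Y) (he' : e' ∈ Y) (hee : f e e' ≠ 0)
    (hnd : ∀ v ∈ Y, v ≠ 0 → ∃ w ∈ Y, f w v ≠ 0) :
    ∀ v ∈ perp f Y e e', v ≠ 0 → ∃ w ∈ perp f Y e e', f w v ≠ 0 := by
  intro v hv hv0
  obtain ⟨hvY, hve, hve'⟩ := (mem_perp f Y e e' v).mp hv
  obtain ⟨w, hwY, hwv⟩ := hnd v hvY hv0
  obtain ⟨a, b, hab⟩ := perp_split f hf Y he he' hee w hwY
  refine ⟨_, hab, ?_⟩
  have h1 : f e v = 0 := by rw [← hf.neg_eq, hve, neg_zero]
  have h2 : f e' v = 0 := by rw [← hf.neg_eq, hve', neg_zero]
  simp only [map_sub, map_smul, LinearMap.sub_apply, LinearMap.smul_apply, smul_eq_mul, h1, h2,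
    mul_zero, sub_zero]
  exact hwv

theorem perp_lt [FiniteDimensional F V] (f : LinearMap.BilinForm F V) (Y : Submodule F V)
    {e e' : V} (he : e ∈ Y) (hee : f e e' ≠ 0) :
    finrank F (perp f Y e e') < finrank F Y := by
  apply Submodule.finrank_lt_finrank_of_lt
  rw [SetLike.lt_iff_le_and_exists]
  refine ⟨perp_le f Y e e', e, he, fun h => hee ?_⟩
  exact ((mem_perp f Y e e' e).mp h).2.2

/-- Invariance of the orthogonal complement of an invariant plane. -/
theorem perp_inv (f : LinearMap.BilinForm F V) (Y : Submodule F V) {e e' : V}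
    (x : V →ₗ[F] V) (hx : ∀ u v, f (x u) (x v) = f u v) {z : F} (hz : z ≠ 0)
    (hxx : ∀ v, x (x v) = z • v) (hY : ∀ y ∈ Y, x y ∈ Y)
    {a b c d : F} (h1 : x e = a • e + b • e') (h2 : x e' = c • e + d • e') :
    ∀ y ∈ perp f Y e e', x y ∈ perp f Y e e' := by
  intro y hy
  obtain ⟨hyY, hye, hye'⟩ := (mem_perp f Y e e' y).mp hy
  rw [mem_perp]
  have key : ∀ w : V, f (x y) w = z⁻¹ * f y (x w) := by
    intro w
    have e1 : w = x (z⁻¹ • x w) := by
      rw [map_smul, hxx, smul_smul, inv_mul_cancel₀ hz, one_smul]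
    conv_lhs => rw [e1]
    rw [hx, map_smul, smul_eq_mul]
  refine ⟨hY y hyY, ?_, ?_⟩
  · rw [key, h1, map_add, map_smul, map_smul, hye, hye']
    simp
  · rw [key, h2, map_add, map_smul, map_smul, hye, hye']
    simp

/-- Extending a pair of totally isotropic complements by a hyperbolic pair. -/
theorem extend (f : LinearMap.BilinForm F V) (hf : f.IsAlt) (Y : Submodule F V) {e e' : V}
    (he : e ∈ Y) (he' : e' ∈ Y) (hee : f e e' ≠ 0) (U' W' : Submodule F V)
    (hinf : U' ⊓ W' = ⊥) (hsup : U' ⊔ W' = perp f Y e e')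
    (hU : ∀ u ∈ U', ∀ v ∈ U', f u v = 0) (hW : ∀ u ∈ W', ∀ v ∈ W', f u v = 0) :
    (U' ⊔ Submodule.span F {e}) ⊓ (W' ⊔ Submodule.span F {e'}) = ⊥ ∧
    (U' ⊔ Submodule.span F {e}) ⊔ (W' ⊔ Submodule.span F {e'}) = Y ∧
    (∀ u ∈ U' ⊔ Submodule.span F {e}, ∀ v ∈ U' ⊔ Submodule.span F {e}, f u v = 0) ∧
    (∀ u ∈ W' ⊔ Submodule.span F {e'}, ∀ v ∈ W' ⊔ Submodule.span F {e'}, f u v = 0) := by
  have hU'le : U' ≤ perp f Y e e' := by rw [← hsup]; exact le_sup_left
  have hW'le : W' ≤ perp f Y e e' := by rw [← hsup]; exact le_sup_right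
  have hUp : ∀ u ∈ U', f u e = 0 ∧ f u e' = 0 ∧ f e u = 0 ∧ f e' u = 0 := by
    intro u hu
    have h := (mem_perp f Y e e' u).mp (hU'le hu)
    refine ⟨h.2.1, h.2.2, ?_, ?_⟩
    · rw [← hf.neg_eq, h.2.1, neg_zero]
    · rw [← hf.neg_eq, h.2.2, neg_zero]
  have hWp : ∀ u ∈ W', f u e = 0 ∧ f u e' = 0 ∧ f e u = 0 ∧ f e' u = 0 := by
    intro u hu
    have h := (mem_perp f Y e e' u).mp (hW'le hu)
    refine ⟨h.2.1, h.2.2, ?_, ?_⟩
    · rw [← hf.neg_eq, h.2.1, neg_zero]
    · rw [← hf.neg_eq, h.2.2, neg_zero]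
  have hee' : f e' e = - f e e' := (hf.neg_eq e e').symm
  refine ⟨?_, ?_, ?_, ?_⟩
  · rw [eq_bot_iff]
    intro v hv
    obtain ⟨hv1, hv2⟩ := Submodule.mem_inf.mp hv
    obtain ⟨u', hu', s, hs, rfl⟩ := Submodule.mem_sup.mp hv1
    obtain ⟨a, rfl⟩ := Submodule.mem_span_singleton.mp hs
    obtain ⟨w', hw', s', hs', hEq⟩ := Submodule.mem_sup.mp hv2
    obtain ⟨b, rfl⟩ := Submodule.mem_span_singleton.mp hs'
    have e1 := congrArg (fun v => f v e') hEq
    have e2 := congrArg (fun v => f v e) hEq
    simp only [map_add, map_smul, LinearMap.add_apply, LinearMap.smul_apply, smul_eq_mul,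
      (hUp u' hu').1, (hUp u' hu').2.1, (hWp w' hw').1, (hWp w' hw').2.1, hf.self_eq_zero,
      zero_add, mul_zero, hee'] at e1 e2
    have ha : a = 0 := by
      rcases mul_eq_zero.mp e1.symm with h | h
      · exact h
      · exact absurd h hee
    have hb : b = 0 := by
      have : b * f e e' = 0 := by linear_combination -e2
      rcases mul_eq_zero.mp this with h | h
      · exact h
      · exact absurd h hee
    rw [ha, zero_smul, add_zero, hb, zero_smul, add_zero] at hEq
    have hmem : u' ∈ U' ⊓ W' := ⟨hu', by rw [← hEq]; exact hw'⟩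
    rw [hinf, Submodule.mem_bot] at hmem
    rw [Submodule.mem_bot, ha, zero_smul, add_zero]
    exact hmem
  · apply le_antisymm
    · refine sup_le (sup_le (hU'le.trans (perp_le f Y e e')) ?_)
        (sup_le (hW'le.trans (perp_le f Y e e')) ?_)
      · rw [Submodule.span_singleton_le_iff_mem]; exact he
      · rw [Submodule.span_singleton_le_iff_mem]; exact he'
    · intro y hy
      obtain ⟨a, b, hab⟩ := perp_split f hf Y he he' hee y hy
      rw [← hsup] at hab
      obtain ⟨u', hu', w', hw', hEq⟩ := Submodule.mem_sup.mp hab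
      have e1 : y = (u' + a • e) + (w' + b • e') := by
        have : y = (y - a • e - b • e') + a • e + b • e' := by abel
        rw [this, ← hEq]
        abel
      rw [e1]
      exact Submodule.add_mem _
        (Submodule.mem_sup_left (Submodule.add_mem _ (Submodule.mem_sup_left hu')
          (Submodule.mem_sup_right (Submodule.smul_mem _ _ (Submodule.mem_span_singleton_self e)))))
        (Submodule.mem_sup_right (Submodule.add_mem _ (Submodule.mem_sup_left hw')
          (Submodule.mem_sup_right (Submodule.smul_mem _ _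
            (Submodule.mem_span_singleton_self e')))))
  · intro u hu v hv
    obtain ⟨u', hu', s, hs, rfl⟩ := Submodule.mem_sup.mp hu
    obtain ⟨a, rfl⟩ := Submodule.mem_span_singleton.mp hs
    obtain ⟨v', hv', s', hs', rfl⟩ := Submodule.mem_sup.mp hv
    obtain ⟨b, rfl⟩ := Submodule.mem_span_singleton.mp hs'
    simp only [map_add, map_smul, LinearMap.add_apply, LinearMap.smul_apply, smul_eq_mul,
      hU u' hu' v' hv', (hUp u' hu').1, (hUp v' hv').2.2.1, hf.self_eq_zero, mul_zero, add_zero]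
  · intro u hu v hv
    obtain ⟨u', hu', s, hs, rfl⟩ := Submodule.mem_sup.mp hu
    obtain ⟨a, rfl⟩ := Submodule.mem_span_singleton.mp hs
    obtain ⟨v', hv', s', hs', rfl⟩ := Submodule.mem_sup.mp hv
    obtain ⟨b, rfl⟩ := Submodule.mem_span_singleton.mp hs'
    simp only [map_add, map_smul, LinearMap.add_apply, LinearMap.smul_apply, smul_eq_mul,
      hW u' hu' v' hv', (hWp u' hu').2.1, (hWp v' hv').2.2.2, hf.self_eq_zero, mul_zero,
      add_zero]

/-- An isometric involution of a symplectic space (characteristic not two) preserves each member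
of some pair of complementary totally isotropic subspaces. -/
theorem exists_pair_one [FiniteDimensional F V] (h2 : (2 : F) ≠ 0) (f : LinearMap.BilinForm F V)
    (hf : f.IsAlt) (x : V →ₗ[F] V) (hx : ∀ u v, f (x u) (x v) = f u v)
    (hxx : ∀ v, x (x v) = v) :
    ∀ (n : ℕ) (Y : Submodule F V), finrank F Y = n → (∀ y ∈ Y, x y ∈ Y) →
      (∀ v ∈ Y, v ≠ 0 → ∃ w ∈ Y, f w v ≠ 0) →
      ∃ U W : Submodule F V, U ⊓ W = ⊥ ∧ U ⊔ W = Y ∧ (∀ u ∈ U, ∀ v ∈ U, f u v = 0) ∧
        (∀ u ∈ W, ∀ v ∈ W, f u v = 0) ∧ (∀ u ∈ U, x u ∈ U) ∧ (∀ w ∈ W, x w ∈ W) := by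
  intro n
  induction n using Nat.strong_induction_on with
  | _ n ih =>
    intro Y hn hY hnd
    by_cases hbot : Y = ⊥
    · refine ⟨⊥, ⊥, by simp, by simp [hbot], ?_, ?_, ?_, ?_⟩
      · intro u hu v _
        rw [(Submodule.mem_bot F).mp hu, map_zero, LinearMap.zero_apply]
      · intro u hu v _
        rw [(Submodule.mem_bot F).mp hu, map_zero, LinearMap.zero_apply]
      · intro u hu
        rw [(Submodule.mem_bot F).mp hu, map_zero]
        exact Submodule.zero_mem _
      · intro u hu
        rw [(Submodule.mem_bot F).mp hu, map_zero]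
        exact Submodule.zero_mem _
    · obtain ⟨y, hyY, hy0⟩ := (Submodule.ne_bot_iff Y).mp hbot
      -- an eigenvector
      obtain ⟨e, ε, heY, he0, hε, hxe⟩ : ∃ e ε, e ∈ Y ∧ e ≠ 0 ∧ (ε = 1 ∨ ε = -1) ∧
          x e = (ε : F) • e := by
        by_cases h : y + x y = 0
        · refine ⟨y - x y, -1, Y.sub_mem hyY (hY y hyY), ?_, Or.inr rfl, ?_⟩
          · intro h'
            have : (2 : F) • y = 0 := by
              have e1 : (2 : F) • y = (y + x y) + (y - x y) := by rw [two_smul]; abel
              rw [e1, h, h', add_zero]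
            rcases smul_eq_zero.mp this with h3 | h3
            · exact h2 h3
            · exact hy0 h3
          · rw [map_sub, hxx, neg_one_smul]
            abel
        · refine ⟨y + x y, 1, Y.add_mem hyY (hY y hyY), h, Or.inl rfl, ?_⟩
          rw [map_add, hxx, one_smul]
          abel
      have hεε : ε * ε = 1 := by
        rcases hε with rfl | rfl <;> ring
      obtain ⟨w, hwY, hwe⟩ := hnd e heY he0
      obtain ⟨e', he'Y, hxe', hee⟩ : ∃ e', e' ∈ Y ∧ x e' = ε • e' ∧ f e e' ≠ 0 := by
        refine ⟨w + ε • x w, Y.add_mem hwY (Y.smul_mem _ (hY w hwY)), ?_, ?_⟩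
        · rw [map_add, map_smul, hxx, smul_add, smul_smul, hεε, one_smul]
          abel
        · have e1 : f e (x w) = ε * f e w := by
            have : f (x e) (x w) = f e w := hx e w
            rw [hxe, map_smul, LinearMap.smul_apply, smul_eq_mul] at this
            calc f e (x w) = (ε * ε) * f e (x w) := by rw [hεε, one_mul]
              _ = ε * (ε * f e (x w)) := by ring
              _ = ε * f e w := by rw [this]
          rw [map_add, map_smul, e1, smul_eq_mul, ← mul_assoc, hεε, one_mul, ← two_mul]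
          refine mul_ne_zero h2 ?_
          rw [← hf.neg_eq]
          exact neg_ne_zero.mpr hwe
      have hlt := perp_lt f Y (e' := e') heY hee
      have hinv := perp_inv f Y x hx (one_ne_zero) (fun v => by rw [hxx, one_smul]) hY
        (a := ε) (b := 0) (c := 0) (d := ε) (e := e) (e' := e')
        (by rw [hxe, zero_smul, add_zero]) (by rw [hxe', zero_smul, zero_add])
      have hnd' := perp_nd f hf Y heY he'Y hee hnd
      obtain ⟨U', W', hinf, hsup, hU, hW, hxU, hxW⟩ := ih _ (by rw [← hn]; exact hlt)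
        (perp f Y e e') rfl hinv hnd'
      obtain ⟨r1, r2, r3, r4⟩ := extend f hf Y heY he'Y hee U' W' hinf hsup hU hW
      refine ⟨_, _, r1, r2, r3, r4, ?_, ?_⟩
      · intro u hu
        obtain ⟨u', hu', s, hs, rfl⟩ := Submodule.mem_sup.mp hu
        obtain ⟨a, rfl⟩ := Submodule.mem_span_singleton.mp hs
        rw [map_add, map_smul, hxe, smul_smul]
        exact Submodule.add_mem _ (Submodule.mem_sup_left (hxU u' hu'))
          (Submodule.mem_sup_right (Submodule.smul_mem _ _ (Submodule.mem_span_singleton_self e)))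
      · intro u hu
        obtain ⟨u', hu', s, hs, rfl⟩ := Submodule.mem_sup.mp hu
        obtain ⟨a, rfl⟩ := Submodule.mem_span_singleton.mp hs
        rw [map_add, map_smul, hxe', smul_smul]
        exact Submodule.add_mem _ (Submodule.mem_sup_left (hxW u' hu'))
          (Submodule.mem_sup_right (Submodule.smul_mem _ _
            (Submodule.mem_span_singleton_self e')))

/-- An isometry with square `-1` of a symplectic space (characteristic not two) interchanges the
members of some pair of complementary totally isotropic subspaces. -/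
theorem exists_pair_neg [FiniteDimensional F V] (h2 : (2 : F) ≠ 0) (f : LinearMap.BilinForm F V)
    (hf : f.IsAlt) (x : V →ₗ[F] V) (hx : ∀ u v, f (x u) (x v) = f u v)
    (hxx : ∀ v, x (x v) = -v) :
    ∀ (n : ℕ) (Y : Submodule F V), finrank F Y = n → (∀ y ∈ Y, x y ∈ Y) →
      (∀ v ∈ Y, v ≠ 0 → ∃ w ∈ Y, f w v ≠ 0) →
      ∃ U W : Submodule F V, U ⊓ W = ⊥ ∧ U ⊔ W = Y ∧ (∀ u ∈ U, ∀ v ∈ U, f u v = 0) ∧
        (∀ u ∈ W, ∀ v ∈ W, f u v = 0) ∧ (∀ u ∈ U, x u ∈ W) ∧ (∀ w ∈ W, x w ∈ U) := by
  have hsymm : ∀ u v, f u (x v) = f v (x u) := by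
    intro u v
    have h1 : f (x u) (x (x v)) = f u (x v) := hx u (x v)
    rw [hxx, map_neg] at h1
    rw [← h1, ← hf.neg_eq]
    simp
  intro n
  induction n using Nat.strong_induction_on with
  | _ n ih =>
    intro Y hn hY hnd
    by_cases hbot : Y = ⊥
    · refine ⟨⊥, ⊥, by simp, by simp [hbot], ?_, ?_, ?_, ?_⟩
      · intro u hu v _
        rw [(Submodule.mem_bot F).mp hu, map_zero, LinearMap.zero_apply]
      · intro u hu v _
        rw [(Submodule.mem_bot F).mp hu, map_zero, LinearMap.zero_apply]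
      · intro u hu
        rw [(Submodule.mem_bot F).mp hu, map_zero]
        exact Submodule.zero_mem _
      · intro u hu
        rw [(Submodule.mem_bot F).mp hu, map_zero]
        exact Submodule.zero_mem _
    · obtain ⟨y, hyY, hy0⟩ := (Submodule.ne_bot_iff Y).mp hbot
      obtain ⟨e, heY, hee⟩ : ∃ e ∈ Y, f e (x e) ≠ 0 := by
        by_contra hcon
        push Not at hcon
        obtain ⟨w, hwY, hwy⟩ := hnd y hyY hy0
        -- `f u (x v) = 0` for all `u, v ∈ Y`
        have hall : ∀ u ∈ Y, ∀ v ∈ Y, f u (x v) = 0 := by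
          intro u hu v hv
          have h1 := hcon (u + v) (Y.add_mem hu hv)
          simp only [map_add, LinearMap.add_apply, hcon u hu, hcon v hv, hsymm v u, zero_add,
            add_zero] at h1
          have h1' : 2 * f u (x v) = 0 := by linear_combination h1
          rcases mul_eq_zero.mp h1' with h | h
          · exact absurd h h2
          · exact h
        have h3 := hall w hwY (-(x y)) (Y.neg_mem (hY y hyY))
        rw [map_neg, hxx, neg_neg] at h3
        exact hwy h3
      have he'Y : x e ∈ Y := hY e heY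
      have hlt := perp_lt f Y (e' := x e) heY hee
      have hinv := perp_inv f Y x hx (z := -1) (by simp)
        (fun v => by rw [hxx, neg_one_smul]) hY
        (a := 0) (b := 1) (c := -1) (d := 0) (e := e) (e' := x e)
        (by rw [zero_smul, one_smul, zero_add]) (by rw [hxx, neg_one_smul, zero_smul, add_zero])
      have hnd' := perp_nd f hf Y heY he'Y hee hnd
      obtain ⟨U', W', hinf, hsup, hU, hW, hxU, hxW⟩ := ih _ (by rw [← hn]; exact hlt)
        (perp f Y e (x e)) rfl hinv hnd'
      obtain ⟨r1, r2, r3, r4⟩ := extend f hf Y heY he'Y hee U' W' hinf hsup hU hW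
      refine ⟨_, _, r1, r2, r3, r4, ?_, ?_⟩
      · intro u hu
        obtain ⟨u', hu', s, hs, rfl⟩ := Submodule.mem_sup.mp hu
        obtain ⟨a, rfl⟩ := Submodule.mem_span_singleton.mp hs
        rw [map_add, map_smul]
        exact Submodule.add_mem _ (Submodule.mem_sup_left (hxU u' hu'))
          (Submodule.mem_sup_right (Submodule.smul_mem _ _
            (Submodule.mem_span_singleton_self (x e))))
      · intro u hu
        obtain ⟨u', hu', s, hs, rfl⟩ := Submodule.mem_sup.mp hu
        obtain ⟨a, rfl⟩ := Submodule.mem_span_singleton.mp hs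
        rw [map_add, map_smul, hxx, smul_neg, ← neg_smul]
        exact Submodule.add_mem _ (Submodule.mem_sup_left (hxW u' hu'))
          (Submodule.mem_sup_right (Submodule.smul_mem _ _ (Submodule.mem_span_singleton_self e)))

end Cfsg.Agent.Lib.Helper37.SympInv
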