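import Mathlib
import Cfsg.Agent.Lib.Helper37.SympInv
import Cfsg.Agent.Lib.Helper37.EquiPart

set_option autoImplicit false

namespace Cfsg.Agent.Lib.Helper37.SympPlanes

open Module
open Cfsg.Agent.Lib.Helper37.SympInv

variable {F V : Type*} [Field F] [AddCommGroup V] [Module F V]

/-- A system of mutually orthogonal hyperbolic planes spanning `Y`, permuted by `x`. -/
structure PlaneSys (f : LinearMap.BilinForm F V) (x : V →ₗ[F] V) (Y : Submodule F V) {I : Type}
    (u v : I → V) (π : I → I) : Prop where
  mem : ∀ k, u k ∈ Y ∧ v k ∈ Y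
  span : Y ≤ Submodule.span F (Set.range u ∪ Set.range v)
  g1 : ∀ k, f (u k) (v k) ≠ 0
  g2 : ∀ k l, k ≠ l → f (u k) (u l) = 0 ∧ f (u k) (v l) = 0 ∧ f (v k) (u l) = 0 ∧
    f (v k) (v l) = 0
  inv : ∀ k, π (π k) = k
  act : ∀ k, x (u k) ∈ Submodule.span F {u (π k), v (π k)} ∧
    x (v k) ∈ Submodule.span F {u (π k), v (π k)}

/-- The orthogonal sum of two plane systems. -/
theorem PlaneSys.sum {f : LinearMap.BilinForm F V} (hf : f.IsAlt) {x : V →ₗ[F] V}
    {Y₁ Y₂ : Submodule F V} {I₁ I₂ : Type} {u₁ v₁ : I₁ → V} {π₁ : I₁ → I₁} {u₂ v₂ : I₂ → V}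
    {π₂ : I₂ → I₂} (h₁ : PlaneSys f x Y₁ u₁ v₁ π₁) (h₂ : PlaneSys f x Y₂ u₂ v₂ π₂)
    (horth : ∀ a ∈ Y₁, ∀ b ∈ Y₂, f a b = 0) :
    PlaneSys f x (Y₁ ⊔ Y₂) (Sum.elim u₁ u₂) (Sum.elim v₁ v₂) (Sum.map π₁ π₂) := by
  have horth' : ∀ a ∈ Y₁, ∀ b ∈ Y₂, f b a = 0 := by
    intro a ha b hb
    rw [← hf.neg_eq, horth a ha b hb, neg_zero]
  refine ⟨?_, ?_, ?_, ?_, ?_, ?_⟩
  · rintro (k | k)
    · exact ⟨Submodule.mem_sup_left (h₁.mem k).1, Submodule.mem_sup_left (h₁.mem k).2⟩
    · exact ⟨Submodule.mem_sup_right (h₂.mem k).1, Submodule.mem_sup_right (h₂.mem k).2⟩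
  · refine sup_le (h₁.span.trans (Submodule.span_mono ?_)) (h₂.span.trans (Submodule.span_mono ?_))
    · rintro w (⟨k, rfl⟩ | ⟨k, rfl⟩)
      · exact Or.inl ⟨Sum.inl k, rfl⟩
      · exact Or.inr ⟨Sum.inl k, rfl⟩
    · rintro w (⟨k, rfl⟩ | ⟨k, rfl⟩)
      · exact Or.inl ⟨Sum.inr k, rfl⟩
      · exact Or.inr ⟨Sum.inr k, rfl⟩
  · rintro (k | k)
    · exact h₁.g1 k
    · exact h₂.g1 k
  · rintro (k | k) (l | l) hkl
    · exact h₁.g2 k l (fun h => hkl (by rw [h]))
    · exact ⟨horth _ (h₁.mem k).1 _ (h₂.mem l).1, horth _ (h₁.mem k).1 _ (h₂.mem l).2,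
        horth _ (h₁.mem k).2 _ (h₂.mem l).1, horth _ (h₁.mem k).2 _ (h₂.mem l).2⟩
    · exact ⟨horth' _ (h₁.mem l).1 _ (h₂.mem k).1, horth' _ (h₁.mem l).2 _ (h₂.mem k).1,
        horth' _ (h₁.mem l).1 _ (h₂.mem k).2, horth' _ (h₁.mem l).2 _ (h₂.mem k).2⟩
    · exact h₂.g2 k l (fun h => hkl (by rw [h]))
  · rintro (k | k)
    · simp [h₁.inv k]
    · simp [h₂.inv k]
  · rintro (k | k)
    · exact h₁.act k
    · exact h₂.act k

/-- The plane system of a single invariant hyperbolic plane. -/
theorem PlaneSys.one {f : LinearMap.BilinForm F V} {x : V →ₗ[F] V} {e e' : V}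
    (hee : f e e' ≠ 0) (h1 : x e ∈ Submodule.span F {e, e'})
    (h2 : x e' ∈ Submodule.span F {e, e'}) :
    PlaneSys f x (Submodule.span F {e, e'}) (fun _ : Unit => e) (fun _ : Unit => e') id := by
  refine ⟨fun _ => ⟨Submodule.subset_span (by simp), Submodule.subset_span (by simp)⟩, ?_,
    fun _ => hee, fun k l hkl => absurd rfl hkl, fun _ => rfl, fun _ => ⟨h1, h2⟩⟩
  apply Submodule.span_mono
  rintro w (rfl | rfl)
  · exact Or.inl ⟨(), rfl⟩
  · exact Or.inr ⟨(), rfl⟩

/-- The plane system of a hyperbolic plane and its orthogonal image. -/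
theorem PlaneSys.two {f : LinearMap.BilinForm F V} (hf : f.IsAlt) {x : V →ₗ[F] V} {e e' : V}
    {z : F} (hxx : ∀ v, x (x v) = z • v) (hx : ∀ u v, f (x u) (x v) = f u v)
    (hee : f e e' ≠ 0) (o1 : f e (x e) = 0) (o2 : f e (x e') = 0) (o3 : f e' (x e) = 0)
    (o4 : f e' (x e') = 0) :
    PlaneSys f x (Submodule.span F {e, e'} ⊔ Submodule.span F {x e, x e'}) ![e, x e]
      ![e', x e'] (Equiv.swap (0 : Fin 2) 1) := by
  have n1 : f (x e) e = 0 := by rw [← hf.neg_eq, o1, neg_zero]
  have n2 : f (x e') e = 0 := by rw [← hf.neg_eq, o2, neg_zero]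
  have n3 : f (x e) e' = 0 := by rw [← hf.neg_eq, o3, neg_zero]
  have n4 : f (x e') e' = 0 := by rw [← hf.neg_eq, o4, neg_zero]
  refine ⟨?_, ?_, ?_, ?_, ?_, ?_⟩
  · intro k
    fin_cases k
    · exact ⟨Submodule.mem_sup_left (Submodule.subset_span (by simp)),
        Submodule.mem_sup_left (Submodule.subset_span (by simp))⟩
    · exact ⟨Submodule.mem_sup_right (Submodule.subset_span (by simp)),
        Submodule.mem_sup_right (Submodule.subset_span (by simp))⟩
  · refine sup_le (Submodule.span_mono ?_) (Submodule.span_mono ?_)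
    · rintro w (rfl | rfl)
      · exact Or.inl ⟨0, rfl⟩
      · exact Or.inr ⟨0, rfl⟩
    · rintro w (rfl | rfl)
      · exact Or.inl ⟨1, rfl⟩
      · exact Or.inr ⟨1, rfl⟩
  · intro k
    fin_cases k
    · exact hee
    · show f (x e) (x e') ≠ 0
      rw [hx]
      exact hee
  · intro k l hkl
    fin_cases k <;> fin_cases l
    · exact absurd rfl hkl
    · exact ⟨o1, o2, o3, o4⟩
    · exact ⟨n1, n3, n2, n4⟩
    · exact absurd rfl hkl
  · intro k
    fin_cases k <;> simp
  · intro k
    fin_cases k
    · refine ⟨Submodule.subset_span ?_, Submodule.subset_span ?_⟩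
      · show x e ∈ ({x e, x e'} : Set V)
        simp
      · show x e' ∈ ({x e, x e'} : Set V)
        simp
    · refine ⟨?_, ?_⟩
      · show x (x e) ∈ Submodule.span F ({e, e'} : Set V)
        rw [hxx]
        exact Submodule.smul_mem _ _ (Submodule.subset_span (by simp))
      · show x (x e') ∈ Submodule.span F ({e, e'} : Set V)
        rw [hxx]
        exact Submodule.smul_mem _ _ (Submodule.subset_span (by simp))

/-- Every invariant nondegenerate subspace carries a plane system. -/
theorem exists_planes [FiniteDimensional F V] (f : LinearMap.BilinForm F V) (hf : f.IsAlt)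
    (x : V →ₗ[F] V) (hx : ∀ u v, f (x u) (x v) = f u v) {z : F} (hz : z ≠ 0)
    (hxx : ∀ v, x (x v) = z • v) :
    ∀ (n : ℕ) (Y : Submodule F V), finrank F Y = n → (∀ y ∈ Y, x y ∈ Y) →
      (∀ v ∈ Y, v ≠ 0 → ∃ w ∈ Y, f w v ≠ 0) →
      ∃ (I : Type) (_ : Fintype I) (u v : I → V) (π : I → I), PlaneSys f x Y u v π := by
  intro n
  induction n using Nat.strong_induction_on with
  | _ n ih =>
    intro Y hn hY hnd
    by_cases hbot : Y = ⊥
    · refine ⟨PEmpty, inferInstance, PEmpty.elim, PEmpty.elim, id, fun k => k.elim, ?_,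
        fun k => k.elim, fun k => k.elim, fun k => k.elim, fun k => k.elim⟩
      rw [hbot]
      exact bot_le
    · obtain ⟨y₀, hy₀Y, hy₀⟩ := (Submodule.ne_bot_iff Y).mp hbot
      -- the invariant plane step
      have step1 : ∀ e e' : V, e ∈ Y → e' ∈ Y → f e e' ≠ 0 →
          ∀ a b c d : F, x e = a • e + b • e' → x e' = c • e + d • e' →
          ∃ (I : Type) (_ : Fintype I) (u v : I → V) (π : I → I), PlaneSys f x Y u v π := by
        intro e e' heY he'Y hee a b c d h1 h2
        have hlt := perp_lt f Y (e' := e') heY hee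
        have hinv := perp_inv f Y x hx hz hxx hY h1 h2
        have hnd' := perp_nd f hf Y heY he'Y hee hnd
        obtain ⟨I', hI', u', v', π', hsys⟩ := ih _ (by rw [← hn]; exact hlt) (perp f Y e e') rfl
          hinv hnd'
        have hone := PlaneSys.one (f := f) (x := x) hee
          (by rw [h1]; exact Submodule.mem_span_pair.mpr ⟨a, b, rfl⟩)
          (by rw [h2]; exact Submodule.mem_span_pair.mpr ⟨c, d, rfl⟩)
        have horth : ∀ p ∈ perp f Y e e', ∀ w ∈ Submodule.span F {e, e'}, f p w = 0 := by
          intro p hp w hw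
          obtain ⟨α, β, rfl⟩ := Submodule.mem_span_pair.mp hw
          obtain ⟨-, hp1, hp2⟩ := (mem_perp f Y e e' p).mp hp
          rw [map_add, map_smul, map_smul, hp1, hp2, smul_zero, smul_zero, add_zero]
        have hsum := hsys.sum hf hone horth
        have hY' : perp f Y e e' ⊔ Submodule.span F {e, e'} = Y := by
          apply le_antisymm
          · refine sup_le (perp_le f Y e e') ?_
            rw [Submodule.span_le]
            rintro w (rfl | rfl)
            · exact heY
            · exact he'Y
          · intro y hy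
            obtain ⟨α, β, hαβ⟩ := perp_split f hf Y heY he'Y hee y hy
            have e1 : y = (y - α • e - β • e') + (α • e + β • e') := by abel
            rw [e1]
            exact Submodule.add_mem _ (Submodule.mem_sup_left hαβ)
              (Submodule.mem_sup_right (Submodule.mem_span_pair.mpr ⟨α, β, rfl⟩))
        rw [hY'] at hsum
        exact ⟨_, inferInstance, _, _, _, hsum⟩
      by_cases hA : ∃ e ∈ Y, f e (x e) ≠ 0
      · obtain ⟨e, heY, hee⟩ := hA
        exact step1 e (x e) heY (hY e heY) hee 0 1 z 0 (by rw [zero_smul, one_smul, zero_add])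
          (by rw [hxx, zero_smul, add_zero])
      · push Not at hA
        have hpol : ∀ a ∈ Y, ∀ b ∈ Y, f a (x b) = - f b (x a) := by
          intro a ha b hb
          have h1 := hA (a + b) (Y.add_mem ha hb)
          simp only [map_add, LinearMap.add_apply, hA a ha, hA b hb, zero_add, add_zero] at h1
          linear_combination h1
        by_cases hB : ∀ e ∈ Y, ∃ c : F, x e = c • e
        · obtain ⟨w, hwY, hw⟩ := hnd y₀ hy₀Y hy₀
          obtain ⟨c, hc⟩ := hB w hwY
          obtain ⟨c', hc'⟩ := hB y₀ hy₀Y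
          exact step1 w y₀ hwY hy₀Y hw c 0 0 c' (by rw [hc, zero_smul, add_zero])
            (by rw [hc', zero_smul, zero_add])
        · push Not at hB
          obtain ⟨e, heY, he⟩ := hB
          have he0 : e ≠ 0 := by
            intro h
            exact he 0 (by rw [h, map_zero, smul_zero])
          have hxe0 : x e ≠ 0 := by
            intro h
            exact he 0 (by rw [h, zero_smul])
          have hxeY : x e ∈ Y := hY e heY
          -- a vector `e'` with `f e e' ≠ 0` and `f (x e) e' = 0`
          obtain ⟨e', he'Y, hee, hxee⟩ : ∃ e' ∈ Y, f e e' ≠ 0 ∧ f (x e) e' = 0 := by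
            obtain ⟨w₁, hw₁Y, hw₁⟩ := hnd (x e) hxeY hxe0
            have hw₁' : f (x e) w₁ ≠ 0 := by
              rw [← hf.neg_eq]
              exact neg_ne_zero.mpr hw₁
            obtain ⟨c, hc⟩ : ∃ c : F, c = f e w₁ / f (x e) w₁ := ⟨_, rfl⟩
            have hne : e - c • x e ≠ 0 := by
              intro h
              have h1 : e = c • x e := sub_eq_zero.mp h
              by_cases hc0 : c = 0
              · rw [hc0, zero_smul] at h1
                exact he0 h1
              · have h2 : c⁻¹ • e = x e := by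
                  conv_lhs => rw [h1]
                  rw [smul_smul, inv_mul_cancel₀ hc0, one_smul]
                exact he c⁻¹ h2.symm
            obtain ⟨w, hwY, hw⟩ := hnd _ (Y.sub_mem heY (Y.smul_mem c hxeY)) hne
            have hw' : f (e - c • x e) w ≠ 0 := by
              rw [← hf.neg_eq]
              exact neg_ne_zero.mpr hw
            refine ⟨w - (f (x e) w / f (x e) w₁) • w₁, Y.sub_mem hwY (Y.smul_mem _ hw₁Y), ?_, ?_⟩
            · intro h
              apply hw'
              rw [map_sub, map_smul, smul_eq_mul] at h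
              rw [map_sub, map_smul, LinearMap.sub_apply, LinearMap.smul_apply, smul_eq_mul, hc]
              field_simp
              field_simp at h
              linear_combination h
            · rw [map_sub, map_smul, smul_eq_mul]
              field_simp
              ring
          have hxe'Y : x e' ∈ Y := hY e' he'Y
          have o1 : f e (x e) = 0 := hA e heY
          have o4 : f e' (x e') = 0 := hA e' he'Y
          have o3 : f e' (x e) = 0 := by rw [← hf.neg_eq, hxee, neg_zero]
          have o2 : f e (x e') = 0 := by rw [hpol e heY e' he'Y, o3, neg_zero]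
          have n1 : f (x e) e = 0 := by rw [← hf.neg_eq, o1, neg_zero]
          have n2 : f (x e') e = 0 := by rw [← hf.neg_eq, o2, neg_zero]
          have n4 : f (x e') e' = 0 := by rw [← hf.neg_eq, o4, neg_zero]
          have hee2 : f (x e) (x e') ≠ 0 := by rw [hx]; exact hee
          obtain ⟨Y', hY'def⟩ : ∃ Y', Y' = perp f Y e e' := ⟨_, rfl⟩
          obtain ⟨Y'', hY''def⟩ : ∃ Y'', Y'' = perp f Y' (x e) (x e') := ⟨_, rfl⟩
          have hxeY' : x e ∈ Y' := by
            rw [hY'def, mem_perp]
            exact ⟨hxeY, n1, hxee⟩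
          have hxe'Y' : x e' ∈ Y' := by
            rw [hY'def, mem_perp]
            exact ⟨hxe'Y, n2, n4⟩
          have hndY' : ∀ v ∈ Y', v ≠ 0 → ∃ w ∈ Y', f w v ≠ 0 := by
            rw [hY'def]
            exact perp_nd f hf Y heY he'Y hee hnd
          have hndY'' : ∀ v ∈ Y'', v ≠ 0 → ∃ w ∈ Y'', f w v ≠ 0 := by
            rw [hY''def]
            exact perp_nd f hf Y' hxeY' hxe'Y' hee2 hndY'
          have hmem'' : ∀ y, y ∈ Y'' ↔ y ∈ Y ∧ f y e = 0 ∧ f y e' = 0 ∧ f y (x e) = 0 ∧
              f y (x e') = 0 := by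
            intro y
            rw [hY''def, mem_perp, hY'def, mem_perp]
            tauto
          have key : ∀ y w : V, f (x y) w = z⁻¹ * f y (x w) := by
            intro y w
            have e1 : w = x (z⁻¹ • x w) := by
              rw [map_smul, hxx, smul_smul, inv_mul_cancel₀ hz, one_smul]
            conv_lhs => rw [e1]
            rw [hx, map_smul, smul_eq_mul]
          have hinv'' : ∀ y ∈ Y'', x y ∈ Y'' := by
            intro y hy
            obtain ⟨h1, h2, h3, h4, h5⟩ := (hmem'' y).mp hy
            rw [hmem'']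
            refine ⟨hY y h1, ?_, ?_, ?_, ?_⟩
            · rw [key, h4, mul_zero]
            · rw [key, h5, mul_zero]
            · rw [hx, h2]
            · rw [hx, h3]
          have hlt'' : finrank F Y'' < finrank F Y := by
            have h1 : finrank F Y' < finrank F Y := by
              rw [hY'def]
              exact perp_lt f Y (e' := e') heY hee
            have h2 : finrank F Y'' ≤ finrank F Y' := by
              rw [hY''def]
              exact Submodule.finrank_mono (perp_le f Y' (x e) (x e'))
            omega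
          obtain ⟨I', hI', u', v', π', hsys⟩ := ih _ (by rw [← hn]; exact hlt'') Y'' rfl
            hinv'' hndY''
          have htwo := PlaneSys.two hf hxx hx hee o1 o2 o3 o4
          have horth : ∀ p ∈ Y'', ∀ w ∈ Submodule.span F {e, e'} ⊔ Submodule.span F {x e, x e'},
              f p w = 0 := by
            intro p hp w hw
            obtain ⟨-, h2, h3, h4, h5⟩ := (hmem'' p).mp hp
            obtain ⟨w₁, hw₁, w₂, hw₂, rfl⟩ := Submodule.mem_sup.mp hw
            obtain ⟨α, β, rfl⟩ := Submodule.mem_span_pair.mp hw₁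
            obtain ⟨γ, δ, rfl⟩ := Submodule.mem_span_pair.mp hw₂
            simp only [map_add, map_smul, h2, h3, h4, h5, smul_zero, add_zero]
          have hsum := hsys.sum hf htwo horth
          have hYeq : Y'' ⊔ (Submodule.span F {e, e'} ⊔ Submodule.span F {x e, x e'}) = Y := by
            apply le_antisymm
            · refine sup_le (fun y hy => ((hmem'' y).mp hy).1) (sup_le ?_ ?_)
              · rw [Submodule.span_le]
                rintro w (rfl | rfl)
                · exact heY
                · exact he'Y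
              · rw [Submodule.span_le]
                rintro w (rfl | rfl)
                · exact hxeY
                · exact hxe'Y
            · intro y hy
              obtain ⟨α, β, hαβ⟩ := perp_split f hf Y heY he'Y hee y hy
              rw [← hY'def] at hαβ
              obtain ⟨γ, δ, hγδ⟩ := perp_split f hf Y' hxeY' hxe'Y' hee2 _ hαβ
              rw [← hY''def] at hγδ
              have e1 : y = (y - α • e - β • e' - γ • x e - δ • x e') +
                  ((α • e + β • e') + (γ • x e + δ • x e')) := by abel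
              rw [e1]
              exact Submodule.add_mem _ (Submodule.mem_sup_left hγδ)
                (Submodule.mem_sup_right (Submodule.add_mem _
                  (Submodule.mem_sup_left (Submodule.mem_span_pair.mpr ⟨α, β, rfl⟩))
                  (Submodule.mem_sup_right (Submodule.mem_span_pair.mpr ⟨γ, δ, rfl⟩))))
          rw [hYeq] at hsum
          exact ⟨_, inferInstance, _, _, _, hsum⟩

end Cfsg.Agent.Lib.Helper37.SympPlanes
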