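import Mathlib
import Cfsg.Agent.Lib.Helper37.SympPlanes

set_option autoImplicit false

namespace Cfsg.Agent.Lib.Helper37.SympDecomp

open Module
open Cfsg.Agent.Lib.Helper37.SympPlanes

variable {F V : Type*} [Field F] [AddCommGroup V] [Module F V]

/-- A family with a dual family with respect to a bilinear form is linearly independent. -/
theorem li_of_dual {ι : Type*} [Fintype ι] [DecidableEq ι] (f : LinearMap.BilinForm F V)
    (W p : ι → V) (h1 : ∀ i, f (W i) (p i) ≠ 0) (h2 : ∀ i j, j ≠ i → f (W j) (p i) = 0) :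
    LinearIndependent F W := by
  rw [Fintype.linearIndependent_iff]
  intro g hg i
  have h3 := congrArg (fun w => f w (p i)) hg
  simp only [map_sum, map_smul, LinearMap.sum_apply, LinearMap.smul_apply, map_zero,
    LinearMap.zero_apply, smul_eq_mul] at h3
  rw [Finset.sum_eq_single i (fun j _ hj => by rw [h2 i j hj, mul_zero])
    (fun h => absurd (Finset.mem_univ i) h)] at h3
  rcases mul_eq_zero.mp h3 with h | h
  · exact h
  · exact absurd h (h1 i)

/-- Orthogonality of spans from orthogonality of generators. -/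
theorem span_orth (f : LinearMap.BilinForm F V) (S T : Set V)
    (h : ∀ s ∈ S, ∀ t ∈ T, f s t = 0) :
    ∀ u ∈ Submodule.span F S, ∀ v ∈ Submodule.span F T, f u v = 0 := by
  intro u hu v hv
  induction hu using Submodule.span_induction with
  | mem s hs =>
    induction hv using Submodule.span_induction with
    | mem t ht => exact h s hs t ht
    | zero => rw [map_zero]
    | add a b _ _ ha hb => rw [map_add, ha, hb, add_zero]
    | smul c a _ ha => rw [map_smul, ha, smul_zero]
  | zero => rw [map_zero, LinearMap.zero_apply]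
  | add a b _ _ ha hb => rw [map_add, LinearMap.add_apply, ha, hb, add_zero]
  | smul c a _ ha => rw [map_smul, LinearMap.smul_apply, ha, smul_zero]

/-- An isometry of a nondegenerate alternating form whose square is a non-zero scalar permutes
the members of an orthogonal decomposition of the space into `t` nondegenerate subspaces of
dimension `2 * a'`, whenever the dimension is `2 * a' * t`. -/
theorem exists_orth_decomp [FiniteDimensional F V] (f : LinearMap.BilinForm F V) (hf : f.IsAlt)
    (hnd : ∀ v : V, v ≠ 0 → ∃ w, f w v ≠ 0)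
    (x : V →ₗ[F] V) (hx : ∀ u v, f (x u) (x v) = f u v) {z : F} (hz : z ≠ 0)
    (hxx : ∀ v, x (x v) = z • v) (a' t : ℕ) (ha : 1 ≤ a') (hn : finrank F V = 2 * a' * t) :
    ∃ D : Fin t → Submodule F V, (∀ k, finrank F (D k) = 2 * a') ∧ iSupIndep D ∧ iSup D = ⊤ ∧
      (∀ j, ∀ u ∈ D j, u ≠ 0 → ∃ v ∈ D j, f u v ≠ 0) ∧
      (∀ j j', j ≠ j' → ∀ u ∈ D j, ∀ v ∈ D j', f u v = 0) ∧
      ∃ σ : Equiv.Perm (Fin t), ∀ k, (D k).map x = D (σ k) := by
  classical
  obtain ⟨I, hI, u, v, π, hsys⟩ := exists_planes f hf x hx hz hxx _ ⊤ rfl (fun _ _ => trivial)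
    (fun w _ hw => by
      obtain ⟨w', hw'⟩ := hnd w hw
      exact ⟨w', trivial, hw'⟩)
  have hπ := hsys.inv
  have hflip : ∀ a b : V, f a b = 0 → f b a = 0 := by
    intro a b h
    rw [← hf.neg_eq, h, neg_zero]
  obtain ⟨W, hW⟩ : ∃ W : I ⊕ I → V, W = Sum.elim u v := ⟨_, rfl⟩
  have hWl : ∀ k, W (Sum.inl k) = u k := fun k => by rw [hW]; rfl
  have hWr : ∀ k, W (Sum.inr k) = v k := fun k => by rw [hW]; rfl
  have hli : LinearIndependent F W := by
    apply li_of_dual f W (Sum.elim v u)
    · rintro (k | k)
      · rw [hWl]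
        exact hsys.g1 k
      · rw [hWr]
        intro h
        exact hsys.g1 k (hflip _ _ h)
    · rintro (k | k) (l | l) hne
      · rw [hWl]
        exact (hsys.g2 l k (fun h => hne (by rw [h]))).2.1
      · rw [hWr]
        by_cases hkl : l = k
        · rw [hkl]
          exact hf (v k)
        · exact (hsys.g2 l k hkl).2.2.2
      · rw [hWl]
        by_cases hkl : l = k
        · rw [hkl]
          exact hf (u k)
        · exact (hsys.g2 l k hkl).1
      · rw [hWr]
        exact (hsys.g2 l k (fun h => hne (by rw [h]))).2.2.1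
  have hspan : Submodule.span F (Set.range W) = ⊤ := by
    rw [eq_top_iff, hW, Set.Sum.elim_range]
    exact hsys.span
  have hcard : Fintype.card I = a' * t := by
    have h1 := finrank_span_eq_card hli
    rw [hspan, finrank_top, hn, Fintype.card_sum] at h1
    have h2 : 2 * (a' * t) = 2 * Fintype.card I := by rw [← mul_assoc, h1]; ring
    omega
  let _ : LinearOrder I := LinearOrder.lift' (Fintype.equivFin I) (Fintype.equivFin I).injective
  obtain ⟨B, hBcard, -, hBdisj, hBcover, hBimg⟩ :=
    Cfsg.Agent.Lib.Helper37.EquiPart.exists_blocks π hπ a' t Finset.univ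
      (by rw [Finset.card_univ, hcard]) (fun i _ => Finset.mem_univ _)
  have hxinj : Function.Injective x := by
    intro u v h
    have h1 := congrArg x h
    rw [hxx, hxx] at h1
    exact smul_right_injective V hz h1
  obtain ⟨C, hC⟩ : ∃ C : Fin t → Finset (I ⊕ I), C = fun k => (B k).disjSum (B k) := ⟨_, rfl⟩
  have hCl : ∀ k i, Sum.inl i ∈ C k ↔ i ∈ B k := by
    intro k i
    rw [hC]
    exact Finset.inl_mem_disjSum
  have hCr : ∀ k i, Sum.inr i ∈ C k ↔ i ∈ B k := by
    intro k i
    rw [hC]
    exact Finset.inr_mem_disjSum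
  have hCcard : ∀ k, (C k).card = 2 * a' := by
    intro k
    rw [hC]
    show ((B k).disjSum (B k)).card = 2 * a'
    rw [Finset.card_disjSum, hBcard]
    ring
  have hCdisj : ∀ k l, k ≠ l → Disjoint (C k) (C l) := by
    intro k l hkl
    rw [Finset.disjoint_left]
    rintro (i | i) h1 h2
    · rw [hCl] at h1 h2
      exact Finset.disjoint_left.mp (hBdisj k l hkl) h1 h2
    · rw [hCr] at h1 h2
      exact Finset.disjoint_left.mp (hBdisj k l hkl) h1 h2
  obtain ⟨D, hD⟩ : ∃ D : Fin t → Submodule F V,
      D = fun k => Submodule.span F (W '' (C k : Set (I ⊕ I))) := ⟨_, rfl⟩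
  have hDk : ∀ k, D k = Submodule.span F (W '' (C k : Set (I ⊕ I))) := fun k => by rw [hD]
  have hfin : ∀ k, finrank F (D k) = 2 * a' := by
    intro k
    have h1 := finrank_span_eq_card
      (hli.comp (Subtype.val : {i // i ∈ C k} → I ⊕ I) Subtype.val_injective)
    have h2 : Set.range (W ∘ (Subtype.val : {i // i ∈ C k} → I ⊕ I)) =
        W '' (C k : Set (I ⊕ I)) := by
      rw [Set.range_comp, Subtype.range_coe_subtype]
      rfl
    rw [h2] at h1
    rw [hDk, h1, Fintype.card_coe]
    exact hCcard k
  choose g hg using hBimg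
  have hginj : Function.Injective g := by
    intro k l hkl
    by_contra hne
    have h1 : (B k).image π = (B l).image π := by rw [hg, hg, hkl]
    have hπinj : Function.Injective π := fun i j h => by
      have := congrArg π h
      rwa [hπ, hπ] at this
    have h2 : B k = B l := Finset.image_injective hπinj h1
    have h3 := hBdisj k l hne
    rw [h2, Finset.disjoint_self_iff_empty] at h3
    have h4 := hBcard l
    rw [h3, Finset.card_empty] at h4
    omega
  have hsup : iSup D = ⊤ := by
    rw [eq_top_iff, ← hspan, Submodule.span_le]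
    rintro _ ⟨i, rfl⟩
    rcases i with i | i
    · obtain ⟨k, hk⟩ := hBcover i (Finset.mem_univ i)
      apply Submodule.mem_iSup_of_mem k
      rw [hDk]
      exact Submodule.subset_span ⟨Sum.inl i, (hCl k i).mpr hk, rfl⟩
    · obtain ⟨k, hk⟩ := hBcover i (Finset.mem_univ i)
      apply Submodule.mem_iSup_of_mem k
      rw [hDk]
      exact Submodule.subset_span ⟨Sum.inr i, (hCr k i).mpr hk, rfl⟩
  have horth : ∀ j j', j ≠ j' → ∀ a ∈ D j, ∀ b ∈ D j', f a b = 0 := by
    intro j j' hjj'
    rw [hDk, hDk]
    apply span_orth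
    rintro _ ⟨i, hi, rfl⟩ _ ⟨i', hi', rfl⟩
    have hi : i ∈ C j := hi
    have hi' : i' ∈ C j' := hi'
    have hne : ∀ k l, k ∈ B j → l ∈ B j' → k ≠ l := by
      intro k l hk hl h
      rw [h] at hk
      exact Finset.disjoint_left.mp (hBdisj j j' hjj') hk hl
    rcases i with k | k <;> rcases i' with l | l
    · rw [hWl, hWl]
      exact (hsys.g2 k l (hne k l ((hCl j k).mp hi) ((hCl j' l).mp hi'))).1
    · rw [hWl, hWr]
      exact (hsys.g2 k l (hne k l ((hCl j k).mp hi) ((hCr j' l).mp hi'))).2.1
    · rw [hWr, hWl]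
      exact (hsys.g2 k l (hne k l ((hCr j k).mp hi) ((hCl j' l).mp hi'))).2.2.1
    · rw [hWr, hWr]
      exact (hsys.g2 k l (hne k l ((hCr j k).mp hi) ((hCr j' l).mp hi'))).2.2.2
  refine ⟨D, hfin, ?_, hsup, ?_, horth,
    Equiv.ofBijective g (Finite.injective_iff_bijective.mp hginj), ?_⟩
  · intro k
    have h1 : (⨆ (j) (_ : j ≠ k), D j) ≤
        Submodule.span F (W '' (⋃ (j) (_ : j ≠ k), (C j : Set (I ⊕ I)))) := by
      refine iSup₂_le fun j hj => ?_
      rw [hDk]
      apply Submodule.span_mono
      apply Set.image_mono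
      intro i hi
      exact Set.mem_iUnion₂.mpr ⟨j, hj, hi⟩
    have h2 : Disjoint (C k : Set (I ⊕ I)) (⋃ (j) (_ : j ≠ k), (C j : Set (I ⊕ I))) := by
      rw [Set.disjoint_left]
      intro i hi hi'
      obtain ⟨j, hj, hij⟩ := Set.mem_iUnion₂.mp hi'
      exact Finset.disjoint_left.mp (hCdisj k j (Ne.symm hj)) hi hij
    rw [hDk]
    exact (hli.disjoint_span_image h2).mono_right h1
  · intro j a haj ha0
    by_contra hcon
    push Not at hcon
    have hall : ∀ w : V, f a w = 0 := by
      intro w
      have hw : w ∈ ⨆ k, D k := by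
        rw [hsup]
        trivial
      refine Submodule.iSup_induction D (motive := fun w => f a w = 0) hw ?_ ?_ ?_
      · intro k y hy
        by_cases hkj : k = j
        · rw [hkj] at hy
          exact hcon y hy
        · exact horth j k (fun h => hkj h.symm) a haj y hy
      · rw [map_zero]
      · intro y y' hy hy'
        rw [map_add, hy, hy', add_zero]
    obtain ⟨w, hw⟩ := hnd a ha0
    exact hw (hflip _ _ (hall w))
  · intro k
    have hle : (D k).map x ≤ D (g k) := by
      rw [hDk, Submodule.map_span, Submodule.span_le]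
      have hpair : ∀ i, i ∈ B k →
          Submodule.span F {u (π i), v (π i)} ≤ D (g k) := by
        intro i hi
        have h1 : π i ∈ B (g k) := by
          have : π i ∈ (B k).image π := Finset.mem_image_of_mem π hi
          rw [hg] at this
          exact this
        rw [Submodule.span_le, hDk]
        rintro w (rfl | rfl)
        · exact Submodule.subset_span ⟨Sum.inl (π i), (hCl _ _).mpr h1, hWl _⟩
        · exact Submodule.subset_span ⟨Sum.inr (π i), (hCr _ _).mpr h1, hWr _⟩
      rintro _ ⟨_, ⟨i, hi, rfl⟩, rfl⟩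
      have hi : i ∈ C k := hi
      rcases i with i | i
      · rw [hWl]
        exact hpair i ((hCl k i).mp hi) (hsys.act i).1
      · rw [hWr]
        exact hpair i ((hCr k i).mp hi) (hsys.act i).2
    have hfr : finrank F ((D k).map x) = finrank F (D k) :=
      (Submodule.equivMapOfInjective x hxinj (D k)).finrank_eq.symm
    exact Submodule.eq_of_le_of_finrank_le hle (by rw [hfr, hfin, hfin])

end Cfsg.Agent.Lib.Helper37.SympDecomp
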