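import Mathlib
import Cfsg.Agent.Lib.Helper44.TPStmt
import Cfsg.Agent.Lib.Helper37.PlusCnt

/-!
# S5973 / SINGCNT: the singular vectors orthogonal to a totally singular frame of length `j`
in the standard plus-type space of dimension `2 d` number `q^(d-1) (q^(d-j) + q - 1)`
(all characteristics).  Wrapper of `Helper37.PlusCnt.card_perp_sing_plusQ`.
-/

set_option autoImplicit false

universe u

namespace Cfsg.Agent.Lib.Helper37.TPSINGCNT

theorem main : Cfsg.Agent.Lib.Helper44.TPStmt.SingCnt.{u} := by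
  intro F _ _ d j hd hj v
  have h := Cfsg.Agent.Lib.Helper37.PlusCnt.card_perp_sing_plusQ d j hj v.1 v.2.1 v.2.2.1 v.2.2.2
  have hq1 : 1 ≤ Fintype.card F := Fintype.card_pos
  apply Nat.eq_of_mul_eq_mul_left hq1
  obtain ⟨d', rfl⟩ : ∃ d', d = d' + 1 := ⟨d - 1, by omega⟩
  rw [Nat.add_sub_cancel]
  have hA : Fintype.card F ^ j * Fintype.card F ^ (d' + 1 - j) = Fintype.card F ^ (d' + 1) := by
    rw [← pow_add]
    congr 1
    omega
  have h1 : 1 ≤ Fintype.card F ^ (d' + 1 - j) + Fintype.card F := by omega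
  zify [h1] at h hA ⊢
  linear_combination h + ((Fintype.card F : ℤ) + (Fintype.card F : ℤ) ^ (d' + 1 - j) - 1) * hA

end Cfsg.Agent.Lib.Helper37.TPSINGCNT
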