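import Mathlib
import Cfsg.Agent.Lib.Helper44.TSStmt
import Cfsg.Agent.Lib.Helper38.HypHYPCNT
import Cfsg.Agent.Lib.Helper44.NegPairs

/-!
# S5972 / SINGCNT: the singular vectors orthogonal to a totally singular frame of length `j`
in a nondegenerate quadratic space of dimension `2 k + 1` number `q ^ (2 k - j)`.
Induction on `j`, peeling off one hyperbolic pair (`perp2`).
-/

set_option autoImplicit false

universe u

namespace Cfsg.Agent.Lib.Helper37.TSSINGCNT

open Module QuadraticMap
open Cfsg.Agent.Lib.Helper44.Split Cfsg.Agent.Lib.Helper44.QSpace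

section abstract

variable {F : Type u} [Field F]

theorem card_perp_sing [Fintype F] (j : ℕ) : ∀ (k : ℕ) (V : Type u) [AddCommGroup V]
    [Module F V] [FiniteDimensional F V] (Q : QuadraticForm F V), finrank F V = 2 * k + 1 →
    Sep Q → j ≤ k → ∀ e : Fin j → V, LinearIndependent F e → (∀ a, Q (e a) = 0) →
    (∀ a b, polar Q (e a) (e b) = 0) →
    Nat.card {u : V // Q u = 0 ∧ ∀ a, polar Q (e a) u = 0} = Fintype.card F ^ (2 * k - j) := by
  induction j with
  | zero =>
    intro k V _ _ _ Q hV hS _ e _ _ _
    rw [Nat.sub_zero, ← Cfsg.Agent.Lib.Helper38.HypHYPCNT.card_sing Q k hV hS]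
    exact Nat.card_congr (Equiv.subtypeEquivRight
      (fun u => ⟨fun h => h.1, fun h => ⟨h, fun a => a.elim0⟩⟩))
  | succ j ih =>
    intro k V _ _ _ Q hV hS hjk e hli he hee
    classical
    have he0 : e 0 ≠ 0 := hli.ne_zero 0
    obtain ⟨f₀, hf₀, hef₀⟩ := exists_hyp_pair hS he0 (he 0)
    have hfe₀ : polar Q f₀ (e 0) = 1 := by rw [polar_comm]; exact hef₀
    have h00 : polar Q (e 0) (e 0) = 0 := hee 0 0
    have hdP0 := finrank_perp2' (he 0) hf₀ hef₀
    have hSP0 := sep_perp2 hS (he 0) hf₀ hef₀
    obtain ⟨P, hP⟩ : ∃ P : Submodule F V, P = perp2 (polarBilin Q) (e 0) f₀ := ⟨_, rfl⟩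
    rw [← hP] at hdP0 hSP0
    have hmemP : ∀ w : V, w ∈ P ↔ polar Q (e 0) w = 0 ∧ polar Q f₀ w = 0 := by
      intro w
      rw [hP, mem_perp2, pB_apply, pB_apply]
    have hdP : finrank F P = 2 * (k - 1) + 1 := by omega
    have hmem' : ∀ a : Fin j, e a.succ - polar Q (e a.succ) f₀ • e 0 ∈ P := by
      intro a
      rw [hmemP]
      constructor
      · rw [polar_sub_right, polar_smul_r, h00, mul_zero, sub_zero]
        exact hee 0 a.succ
      · rw [polar_sub_right, polar_smul_r, hfe₀, mul_one, polar_comm Q f₀ (e a.succ), sub_self]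
    obtain ⟨e', he'⟩ : ∃ e' : Fin j → P,
        ∀ a, (e' a : V) = e a.succ - polar Q (e a.succ) f₀ • e 0 :=
      ⟨fun a => ⟨_, hmem' a⟩, fun a => rfl⟩
    have hli' : LinearIndependent F e' := by
      rw [Fintype.linearIndependent_iff]
      intro g hg a
      have hg' : ∑ b, g b • (e' b : V) = 0 := by
        have := congrArg (fun w : P => (w : V)) hg
        simpa using this
      have h1 : ∑ b, g b • (e' b : V) =
          (-(∑ b, g b * polar Q (e b.succ) f₀)) • e 0 + ∑ b, g b • e b.succ := by
        simp only [he', smul_sub, smul_smul, Finset.sum_sub_distrib, ← Finset.sum_smul, neg_smul]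
        abel
      rw [Fintype.linearIndependent_iff] at hli
      have hG := hli (Fin.cons (-(∑ b, g b * polar Q (e b.succ) f₀)) g) (by
        rw [Fin.sum_univ_succ]
        simp only [Fin.cons_zero, Fin.cons_succ]
        rw [← h1]
        exact hg')
      have := hG a.succ
      simpa using this
    have hQ' : ∀ a, res Q P (e' a) = 0 := by
      intro a
      rw [res_apply, he']
      have : e a.succ - polar Q (e a.succ) f₀ • e 0 =
          e a.succ + (-polar Q (e a.succ) f₀) • e 0 := by
        rw [neg_smul, sub_eq_add_neg]
      rw [this, q_add, q_smul, he 0, he a.succ, polar_smul_r, hee a.succ 0]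
      ring
    have hpol' : ∀ a b, polar (res Q P) (e' a) (e' b) = 0 := by
      intro a b
      rw [polar_res, he', he']
      simp [polar_sub_left, polar_sub_right, polar_smul_l, polar_smul_r, hee]
    have hIH := ih (k - 1) P (res Q P) hdP hSP0 (by omega) e' hli' hQ' hpol'
    have hmain : Nat.card {u : V // Q u = 0 ∧ ∀ a, polar Q (e a) u = 0} =
        Nat.card (F × {w : P // res Q P w = 0 ∧ ∀ a, polar (res Q P) (e' a) w = 0}) := by
      apply Nat.card_congr
      exact
      { toFun := fun u => (polar Q f₀ (u : V), ⟨⟨(u : V) - polar Q f₀ (u : V) • e 0, by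
            rw [hmemP]
            constructor
            · rw [polar_sub_right, polar_smul_r, h00, mul_zero, sub_zero]
              exact u.2.2 0
            · rw [polar_sub_right, polar_smul_r, hfe₀, mul_one, sub_self]⟩, by
            constructor
            · show Q ((u : V) - polar Q f₀ (u : V) • e 0) = 0
              have : (u : V) - polar Q f₀ (u : V) • e 0 =
                  (u : V) + (-polar Q f₀ (u : V)) • e 0 := by
                rw [neg_smul, sub_eq_add_neg]
              rw [this, q_add, q_smul, he 0, u.2.1, polar_smul_r, polar_comm Q (u : V) (e 0),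
                u.2.2 0]
              ring
            · intro a
              rw [polar_res, he']
              show polar Q (e a.succ - polar Q (e a.succ) f₀ • e 0)
                ((u : V) - polar Q f₀ (u : V) • e 0) = 0
              simp [polar_sub_left, polar_sub_right, polar_smul_l, polar_smul_r, h00,
                u.2.2 a.succ, u.2.2 0, hee a.succ 0]⟩)
        invFun := fun p => ⟨p.1 • e 0 + (p.2.1 : V), by
            have hw := (hmemP (p.2.1 : V)).mp p.2.1.2
            have h5 : Q (p.2.1 : V) = 0 := p.2.2.1
            constructor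
            · rw [q_add, q_smul, he 0, polar_smul_l, hw.1, h5]
              ring
            · intro a
              rw [polar_add_right, polar_smul_r]
              refine Fin.cases ?_ (fun a => ?_) a
              · rw [h00, hw.1]
                ring
              · have h3 := p.2.2.2 a
                rw [polar_res, he', polar_sub_left, polar_smul_l, hw.1, mul_zero, sub_zero] at h3
                rw [hee a.succ 0, h3]
                ring⟩
        left_inv := fun u => by
          apply Subtype.ext
          show polar Q f₀ (u : V) • e 0 + ((u : V) - polar Q f₀ (u : V) • e 0) = (u : V)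
          abel
        right_inv := fun p => by
          obtain ⟨α, ⟨⟨w, hw⟩, hw2⟩⟩ := p
          have hwP := (hmemP w).mp hw
          have h1 : polar Q f₀ (α • e 0 + w) = α := by
            rw [polar_add_right, polar_smul_r, hfe₀, hwP.2]
            ring
          apply Prod.ext
          · exact h1
          · apply Subtype.ext
            apply Subtype.ext
            show α • e 0 + w - polar Q f₀ (α • e 0 + w) • e 0 = w
            rw [h1]
            abel }
    rw [hmain, Nat.card_prod, hIH, Nat.card_eq_fintype_card, ← pow_succ']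
    congr 1
    omega

end abstract

theorem main : Cfsg.Agent.Lib.Helper44.TSStmt.SingCnt.{u} := by
  intro F _ _ hodd d j hj v
  have h2 : (2 : F) ≠ 0 := by
    intro h
    have hch : ringChar F = 2 :=
      CharP.ringChar_of_prime_eq_zero Nat.prime_two (by exact_mod_cast h)
    have := FiniteField.even_card_of_char_two hch
    rcases hodd with ⟨m, hm⟩
    omega
  have hV : finrank F (Cfsg.Agent.Lib.Helper37.HypStmt.I d → F) = 2 * d + 1 := by
    rw [Module.finrank_fintype_fun_eq_card]
    simp
    ring
  have hS := Cfsg.Agent.Lib.Helper44.NegPairs.sep_oddQ (F := F) h2 d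
  exact card_perp_sing j d (Cfsg.Agent.Lib.Helper37.HypStmt.I d → F)
    (Cfsg.Agent.Lib.Helper44.NegPairs.oddQ d F) hV hS hj v.1 v.2.1 v.2.2.1 v.2.2.2

end Cfsg.Agent.Lib.Helper37.TSSINGCNT
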