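import Mathlib
import Cfsg.Prelude.Def_GeometricClasses
import Cfsg.Agent.Lib.Helper37.TenStmt
import Cfsg.Agent.Lib.Helper40.PrimeFix
import Cfsg.Agent.Lib.Helper40.SSConj
import Cfsg.Agent.Lib.Helper40.InvDims

/-!
# S5979, piece BNSQ (helper37): a matrix whose square is a non-square scalar `z` is a conjugate
of `!![0, z; 1, 0] ⊗ₖ 1`.
-/

set_option autoImplicit false

namespace Cfsg.Agent.Lib.Helper37.TenBNSQ

open scoped Kronecker MatrixGroups
open Cfsg Cfsg.Agent.Lib.Helper37.TenStmt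

universe u

theorem main : BNSq.{u} := by
  intro F _ _ p _ _ hp2 n b e x z hz hx
  classical
  have h2 : ((2 : ℕ) : F) ≠ 0 := by
    intro h
    rw [CharP.cast_eq_zero_iff F p] at h
    exact hp2 ((Nat.prime_dvd_prime_iff_eq Fact.out Nat.prime_two).mp h)
  haveI : Fact (Nat.Prime 2) := ⟨Nat.prime_two⟩
  have hz0 : z ≠ 0 := by
    rintro rfl
    exact hz 0 (by norm_num)
  obtain ⟨J, hJ⟩ : ∃ J : Matrix (Fin 2) (Fin 2) F, J = !![0, z; 1, 0] := ⟨_, rfl⟩
  have hJJ : J * J = z • (1 : Matrix (Fin 2) (Fin 2) F) := by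
    rw [hJ]
    ext i j
    fin_cases i <;> fin_cases j <;> simp [Matrix.mul_apply, Fin.sum_univ_two, Matrix.one_apply]
  have hJdet : J.det ≠ 0 := by
    rw [hJ, Matrix.det_fin_two]
    simp [hz0]
  obtain ⟨x0, hx0⟩ : ∃ x0 : Matrix (Fin n) (Fin n) F,
      x0 = Matrix.reindexAlgEquiv F F e.symm (J ⊗ₖ (1 : Matrix (Fin b) (Fin b) F)) := ⟨_, rfl⟩
  have hx0sq : x0 ^ 2 = z • (1 : Matrix (Fin n) (Fin n) F) := by
    rw [hx0, ← map_pow, pow_two, ← Matrix.mul_kronecker_mul, hJJ, mul_one, Matrix.smul_kronecker,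
      Matrix.one_kronecker_one, map_smul, map_one]
  obtain ⟨A, hA, hcp, -⟩ :=
    Cfsg.Agent.Lib.Helper40.PrimeFix.structure_of_nonpower 2 h2 x z hz hx
  obtain ⟨A0, hA0, hcp0, -⟩ :=
    Cfsg.Agent.Lib.Helper40.PrimeFix.structure_of_nonpower 2 h2 x0 z hz hx0sq
  have hAA : A = A0 := by omega
  have hs := Cfsg.Agent.Lib.Helper40.InvDims.isSemisimple_of_pow_eq_smul x 2 z hz0 h2 hx
  have hs0 := Cfsg.Agent.Lib.Helper40.InvDims.isSemisimple_of_pow_eq_smul x0 2 z hz0 h2 hx0sq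
  obtain ⟨ε, hε⟩ := Cfsg.Agent.Lib.Helper40.SSConj.conj_of_charpoly_eq n
    (Matrix.toLin' x) (Matrix.toLin' x0) (Module.finrank_fin_fun F) hs hs0
    (by rw [Matrix.charpoly_toLin', Matrix.charpoly_toLin', hcp, hcp0, hAA])
  obtain ⟨T, hT⟩ : ∃ T : Matrix (Fin n) (Fin n) F,
      T = LinearMap.toMatrix' (ε.symm : (Fin n → F) →ₗ[F] (Fin n → F)) := ⟨_, rfl⟩
  obtain ⟨T', hT'⟩ : ∃ T' : Matrix (Fin n) (Fin n) F,
      T' = LinearMap.toMatrix' (ε : (Fin n → F) →ₗ[F] (Fin n → F)) := ⟨_, rfl⟩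
  have hTT' : T * T' = 1 := by
    rw [hT, hT', ← LinearMap.toMatrix'_comp]
    have : (ε.symm : (Fin n → F) →ₗ[F] (Fin n → F)) ∘ₗ (ε : (Fin n → F) →ₗ[F] (Fin n → F)) =
        LinearMap.id := by
      apply LinearMap.ext
      intro v
      simp
    rw [this, LinearMap.toMatrix'_id]
  have hT'T : T' * T = 1 := by
    rw [hT, hT', ← LinearMap.toMatrix'_comp]
    have : (ε : (Fin n → F) →ₗ[F] (Fin n → F)) ∘ₗ (ε.symm : (Fin n → F) →ₗ[F] (Fin n → F)) =
        LinearMap.id := by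
      apply LinearMap.ext
      intro v
      simp
    rw [this, LinearMap.toMatrix'_id]
  have hxT : x = T * x0 * T' := by
    apply (Matrix.toLin' (R := F) (m := Fin n) (n := Fin n)).injective
    rw [Matrix.toLin'_mul, Matrix.toLin'_mul, hT, hT', Matrix.toLin'_toMatrix',
      Matrix.toLin'_toMatrix']
    apply LinearMap.ext
    intro v
    rw [LinearMap.comp_apply, LinearMap.comp_apply]
    show Matrix.toLin' x v = ε.symm (Matrix.toLin' x0 (ε v))
    rw [← hε, LinearEquiv.symm_apply_apply]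
  refine ⟨⟨T, T', hTT', hT'T⟩, Matrix.GeneralLinearGroup.mkOfDetNeZero J hJdet, 1, ?_⟩
  rw [hxT, hx0]
  rfl

end Cfsg.Agent.Lib.Helper37.TenBNSQ
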