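import Mathlib
import Cfsg.Prelude.Def_GeometricClasses
import Cfsg.Agent.Lib.Helper37.TenStmt
import Cfsg.Agent.Lib.Helper37.InvolDiag

/-!
# S5979, piece BSQ (helper37): an involution of determinant `1` (odd characteristic) is a
conjugate of `1 ⊗ₖ diag(±1)`.
-/

set_option autoImplicit false

namespace Cfsg.Agent.Lib.Helper37.TenBSQ

open scoped Kronecker MatrixGroups
open Cfsg Cfsg.Agent.Lib.Helper37.TenStmt

universe u

theorem main : BSq.{u} := by
  intro F _ h2 n b e y hyy hdet
  classical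
  have h1ne : (1 : F) ≠ -1 := by
    intro h
    apply h2
    linear_combination h
  have hne1 : (-1 : F) ≠ 1 := fun h => h1ne h.symm
  obtain ⟨bb, ε', hε'⟩ := Cfsg.Agent.Lib.Helper37.InvolDiag.exists_eigenbasis_matrix h2
    (fun _ : Unit => y) (fun _ _ => rfl) (fun _ => hyy)
  obtain ⟨ε, hε⟩ : ∃ ε : Fin n → F, ε = fun i => ε' i () := ⟨_, rfl⟩
  have hev : ∀ i, y.mulVec (bb i) = ε i • bb i := fun i => by rw [hε]; exact hε' i ()
  have hpm : ∀ i, ε i = 1 ∨ ε i = -1 := fun i =>
    Cfsg.Agent.Lib.Helper37.InvolDiag.eps_eq_one_or y hyy (bb i) (bb.ne_zero i) (ε i) (hev i)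
  have hprod : ∏ i, ε i = 1 := by
    rw [← Cfsg.Agent.Lib.Helper37.InvolDiag.det_eq_prod_eps bb y ε hev, hdet]
  obtain ⟨N, hN⟩ : ∃ N, N = (Finset.univ.filter (fun i => ε i = -1)).card := ⟨_, rfl⟩
  have hprod' : ∏ i, ε i = (-1) ^ N := by
    have h3 : ∀ i, ε i = if ε i = -1 then -1 else 1 := by
      intro i
      rcases hpm i with h | h
      · rw [if_neg (by rw [h]; exact h1ne)]; exact h
      · rw [if_pos h]; exact h
    rw [Finset.prod_congr rfl (fun i _ => h3 i), Finset.prod_ite, Finset.prod_const,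
      Finset.prod_const_one, mul_one, hN]
  have hNeven : Even N := by
    rw [← neg_one_pow_eq_one_iff_even hne1, ← hprod', hprod]
  obtain ⟨m, hm⟩ := hNeven
  have hnb : n = 2 * b := by
    have := Fintype.card_congr e
    simpa using this
  have hNn : N ≤ n := by
    rw [hN]
    have := Finset.card_le_univ (Finset.univ.filter (fun i : Fin n => ε i = -1))
    simpa using this
  have hmb : m ≤ b := by omega
  obtain ⟨T, -, hT⟩ := Finset.exists_subset_card_eq (s := (Finset.univ : Finset (Fin b)))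
    (n := m) (by rw [Finset.card_univ, Fintype.card_fin]; exact hmb)
  obtain ⟨δ, hδ⟩ : ∃ δ : Fin b → F, δ = fun j => if j ∈ T then -1 else 1 := ⟨_, rfl⟩
  obtain ⟨τ, hτ⟩ : ∃ τ : Fin n → F, τ = fun k => δ (e k).2 := ⟨_, rfl⟩
  have hδ0 : ∀ j, δ j ≠ 0 := by
    intro j
    rw [hδ]
    show (if j ∈ T then (-1 : F) else 1) ≠ 0
    split_ifs
    · exact neg_ne_zero.mpr one_ne_zero
    · exact one_ne_zero
  have hτpm : ∀ k, τ k = -1 ↔ (e k).2 ∈ T := by
    intro k
    rw [hτ, hδ]
    show (if (e k).2 ∈ T then (-1 : F) else 1) = -1 ↔ (e k).2 ∈ T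
    split_ifs with h
    · exact ⟨fun _ => h, fun _ => rfl⟩
    · exact ⟨fun h' => absurd h' h1ne, fun h' => absurd h' h⟩
  have hτpm' : ∀ k, τ k = 1 ∨ τ k = -1 := by
    intro k
    rw [hτ, hδ]
    show (if (e k).2 ∈ T then (-1 : F) else 1) = 1 ∨ (if (e k).2 ∈ T then (-1 : F) else 1) = -1
    split_ifs
    · right; rfl
    · left; rfl
  have hτcount : (Finset.univ.filter (fun k => τ k = -1)).card = N := by
    have h3 : Finset.univ.filter (fun k => τ k = -1) =
        ((Finset.univ ×ˢ T : Finset (Fin 2 × Fin b)).map e.symm.toEmbedding) := by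
      ext k
      rw [Finset.mem_filter, Finset.mem_map_equiv, Equiv.symm_symm, Finset.mem_product, hτpm]
      simp
    rw [h3, Finset.card_map, Finset.card_product, Finset.card_univ, Fintype.card_fin, hT, hm]
    ring
  -- fibres have the same cardinality
  have hcount : ∀ (f : Fin n → F), (∀ k, f k = 1 ∨ f k = -1) →
      (Finset.univ.filter (fun k => f k = -1)).card = N →
      ∀ c : F, Fintype.card {k // f k = c} =
        if c = -1 then N else if c = 1 then n - N else 0 := by
    intro f hf hfN c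
    rw [Fintype.card_subtype]
    split_ifs with hc1 hc2
    · rw [hc1]; exact hfN
    · have h3 : Finset.univ.filter (fun k => f k = c) =
          (Finset.univ.filter (fun k => f k = -1))ᶜ := by
        ext k
        rw [Finset.mem_compl, Finset.mem_filter, Finset.mem_filter, hc2]
        simp only [Finset.mem_univ, true_and]
        rcases hf k with h | h
        · rw [h]; exact ⟨fun _ => h1ne, fun _ => rfl⟩
        · rw [h]; exact ⟨fun h' => absurd h' hne1, fun h' => absurd rfl h'⟩
      rw [h3, Finset.card_compl, hfN, Fintype.card_fin]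
    · rw [Finset.card_eq_zero, Finset.filter_eq_empty_iff]
      intro k _ hk
      rcases hf k with h | h
      · exact hc2 (by rw [← hk, h])
      · exact hc1 (by rw [← hk, h])
  have hεcount : (Finset.univ.filter (fun k => ε k = -1)).card = N := hN.symm
  obtain ⟨π, hπ⟩ : ∃ π : Fin n ≃ Fin n, ∀ k, ε (π k) = τ k := by
    refine ⟨Equiv.ofFiberEquiv (f := τ) (g := ε) (fun c => Fintype.equivOfCardEq ?_), ?_⟩
    · rw [hcount τ hτpm' hτcount c, hcount ε hpm hεcount c]
    · intro k
      exact Equiv.ofFiberEquiv_map _ k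
  -- the permuted eigenbasis
  obtain ⟨bb', hbb'⟩ : ∃ bb' : Module.Basis (Fin n) F (Fin n → F), ∀ k, bb' k = bb (π k) :=
    ⟨bb.reindex π.symm, fun k => by rw [Module.Basis.reindex_apply, Equiv.symm_symm]⟩
  have hev' : ∀ k, y.mulVec (bb' k) = τ k • bb' k := by
    intro k
    rw [hbb', hev, hπ]
  have hdiag : LinearMap.toMatrix bb' bb' (Matrix.toLin' y) = Matrix.diagonal τ := by
    ext i j
    rw [LinearMap.toMatrix_apply, Matrix.toLin'_apply, hev' j, map_smul, Finsupp.smul_apply,
      Module.Basis.repr_self, Matrix.diagonal_apply, Finsupp.single_apply]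
    by_cases hij : i = j
    · subst hij; simp
    · simp [hij, Ne.symm hij]
  obtain ⟨S, hS⟩ : ∃ S : Matrix (Fin n) (Fin n) F, S = (Pi.basisFun F (Fin n)).toMatrix bb' :=
    ⟨_, rfl⟩
  obtain ⟨S', hS'⟩ : ∃ S' : Matrix (Fin n) (Fin n) F, S' = bb'.toMatrix (Pi.basisFun F (Fin n)) :=
    ⟨_, rfl⟩
  have hSS' : S * S' = 1 := by
    rw [hS, hS']
    exact Module.Basis.toMatrix_mul_toMatrix_flip _ _
  have hS'S : S' * S = 1 := by
    rw [hS, hS']
    exact Module.Basis.toMatrix_mul_toMatrix_flip _ _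
  have hy : y = S * Matrix.diagonal τ * S' := by
    rw [hS, hS', ← hdiag, basis_toMatrix_mul_linearMap_toMatrix_mul_basis_toMatrix,
      LinearMap.toMatrix_eq_toMatrix', LinearMap.toMatrix'_toLin']
  have hdetδ : (Matrix.diagonal δ).det ≠ 0 := by
    rw [Matrix.det_diagonal]
    exact Finset.prod_ne_zero_iff.mpr (fun j _ => hδ0 j)
  refine ⟨⟨S, S', hSS', hS'S⟩, 1, Matrix.GeneralLinearGroup.mkOfDetNeZero (Matrix.diagonal δ) hdetδ,
    ?_⟩
  have h4 : Matrix.reindex e.symm e.symm
      (((1 : GL (Fin 2) F) : Matrix (Fin 2) (Fin 2) F) ⊗ₖ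
        ((Matrix.GeneralLinearGroup.mkOfDetNeZero (Matrix.diagonal δ) hdetδ : GL (Fin b) F) :
          Matrix (Fin b) (Fin b) F)) = Matrix.diagonal τ := by
    have h5 : ((Matrix.GeneralLinearGroup.mkOfDetNeZero (Matrix.diagonal δ) hdetδ : GL (Fin b) F) :
        Matrix (Fin b) (Fin b) F) = Matrix.diagonal δ := rfl
    rw [h5, Units.val_one]
    ext i j
    rw [Matrix.reindex_apply, Matrix.submatrix_apply, Equiv.symm_symm, Matrix.kronecker_apply,
      Matrix.one_apply, Matrix.diagonal_apply, Matrix.diagonal_apply]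
    by_cases hij : i = j
    · subst hij
      simp [hτ]
    · rw [if_neg hij]
      have h6 : e i ≠ e j := fun h => hij (e.injective h)
      by_cases h7 : (e i).1 = (e j).1
      · have h8 : (e i).2 ≠ (e j).2 := fun h => h6 (Prod.ext h7 h)
        rw [if_neg h8, mul_zero]
      · rw [if_neg h7, zero_mul]
  rw [h4]
  exact hy

end Cfsg.Agent.Lib.Helper37.TenBSQ
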