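import Mathlib
import Cfsg.Prelude.Def_GeometricClasses
import Cfsg.Agent.Lib.Helper37.TenStmt

/-!
# S5979, pieces TMEM1 and TMEM2 (helper37): membership in the tensor product subgroup.
-/

set_option autoImplicit false

namespace Cfsg.Agent.Lib.Helper37.TenTMEM

open scoped Kronecker MatrixGroups
open Cfsg Cfsg.Agent.Lib.Helper37.TenStmt

universe u

theorem coe_glReindex {F : Type u} [Field F] {n a b : ℕ} (e : Fin n ≃ Fin a × Fin b)
    (k : GL (Fin a × Fin b) F) :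
    ((Cfsg.Geo.glReindex e.symm k : GL (Fin n) F) : Matrix (Fin n) (Fin n) F) =
      Matrix.reindex e.symm e.symm (k : Matrix (Fin a × Fin b) (Fin a × Fin b) F) := rfl

theorem main1 : TMem1.{u} := by
  intro F _ n a b e P x g hg
  unfold Cfsg.Geo.tensorProductSubgroup at hg
  obtain ⟨y, hy, hyg⟩ := Subgroup.mem_map.mp hg
  obtain ⟨k, hk, rfl⟩ := Subgroup.mem_map.mp hy
  obtain ⟨A, B, hAB⟩ := hk
  refine ⟨g * P, A, B, ?_⟩
  have h1 : x = (g * P) * (Cfsg.Geo.glReindex e.symm k) * (g * P)⁻¹ := by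
    have h2 : P * (Cfsg.Geo.glReindex e.symm k) * P⁻¹ = g⁻¹ * x * g := hyg
    rw [mul_inv_rev]
    calc x = g * (g⁻¹ * x * g) * g⁻¹ := by group
      _ = g * (P * (Cfsg.Geo.glReindex e.symm k) * P⁻¹) * g⁻¹ := by rw [h2]
      _ = g * P * (Cfsg.Geo.glReindex e.symm k) * (P⁻¹ * g⁻¹) := by group
  have h3 := congrArg (fun u : GL (Fin n) F => (u : Matrix (Fin n) (Fin n) F)) h1
  simp only [Units.val_mul] at h3
  rw [h3, coe_glReindex, hAB, Units.val_mul]

theorem main2 : TMem2.{u} := by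
  intro F _ n a b e P x hx
  obtain ⟨S, A, B, hAB⟩ := hx
  -- the Kronecker product as an element of `GL`
  obtain ⟨k, hk⟩ : ∃ k : GL (Fin a × Fin b) F, (k : Matrix (Fin a × Fin b) (Fin a × Fin b) F) =
      (A : Matrix (Fin a) (Fin a) F) ⊗ₖ (B : Matrix (Fin b) (Fin b) F) := by
    refine ⟨⟨(A : Matrix (Fin a) (Fin a) F) ⊗ₖ (B : Matrix (Fin b) (Fin b) F),
      ((A⁻¹ : GL (Fin a) F) : Matrix (Fin a) (Fin a) F) ⊗ₖ
        ((B⁻¹ : GL (Fin b) F) : Matrix (Fin b) (Fin b) F), ?_, ?_⟩, rfl⟩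
    · rw [← Matrix.mul_kronecker_mul, ← Units.val_mul, ← Units.val_mul, mul_inv_cancel,
        mul_inv_cancel, Units.val_one, Units.val_one, Matrix.one_kronecker_one]
    · rw [← Matrix.mul_kronecker_mul, ← Units.val_mul, ← Units.val_mul, inv_mul_cancel,
        inv_mul_cancel, Units.val_one, Units.val_one, Matrix.one_kronecker_one]
  have hkmem : k ∈ Cfsg.Geo.kroneckerSubgroup a b F := ⟨A, B, hk⟩
  have hx' : x = S * (Cfsg.Geo.glReindex e.symm k) * S⁻¹ := by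
    apply Units.ext
    rw [Units.val_mul, Units.val_mul, coe_glReindex, hk]
    exact hAB
  refine ⟨P * S⁻¹, ?_⟩
  unfold Cfsg.Geo.tensorProductSubgroup
  refine Subgroup.mem_map.mpr ⟨Cfsg.Geo.glReindex e.symm k,
    Subgroup.mem_map.mpr ⟨k, hkmem, rfl⟩, ?_⟩
  show P * (Cfsg.Geo.glReindex e.symm k) * P⁻¹ = P * S⁻¹ * x * (P * S⁻¹)⁻¹
  rw [hx']
  group

end Cfsg.Agent.Lib.Helper37.TenTMEM
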