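import Mathlib
import Cfsg.Prelude.Def_GeometricClasses
import Cfsg.Agent.Lib.Helper37.KronF2
import Cfsg.Agent.Lib.Helper37.TensorBasic
import Cfsg.Agent.Lib.Helper94.OrthSiegel

set_option autoImplicit false

namespace Cfsg.Agent.Lib.Helper37.TensorOm

open Matrix QuadraticMap
open scoped Kronecker
open Cfsg.Agent.Lib.Helper37.KronF2 Cfsg.Agent.Lib.Helper37.TensorBasic
open Cfsg.Agent.Lib.Helper94.OrthSiegel

variable {F : Type*} [Field F] {ι : Type} [Fintype ι] [DecidableEq ι]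

theorem mat_ext {A B : Matrix ι ι F} (h : ∀ x, A *ᵥ x = B *ᵥ x) : A = B :=
  Matrix.toLin'.injective (LinearMap.ext fun x => by
    rw [Matrix.toLin'_apply, Matrix.toLin'_apply]; exact h x)

section Abstract

variable {m : ℕ}

/-- The abstract data of a quadratic space `F² ⊗ W` over a field of characteristic two, with
`T0 a = e₀ ⊗ a`, `T1 a = e₁ ⊗ a` and `J = ω ⊗ 1`. -/
structure TData (Q : (ι → F) → F) (f : (Fin m → F) → (Fin m → F) → F)
    (T0 T1 : (Fin m → F) → (ι → F)) (J : GL ι F) : Prop where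
  add0 : ∀ a b, T0 (a + b) = T0 a + T0 b
  add1 : ∀ a b, T1 (a + b) = T1 a + T1 b
  J0 : ∀ a, (J : Matrix ι ι F) *ᵥ T0 a = T1 a
  J1 : ∀ a, (J : Matrix ι ι F) *ᵥ T1 a = T0 a + T1 a
  B00 : ∀ a b, polar Q (T0 a) (T0 b) = 0
  B11 : ∀ a b, polar Q (T1 a) (T1 b) = 0
  B01 : ∀ a b, polar Q (T0 a) (T1 b) = f a b
  Q0 : ∀ a, Q (T0 a) = 0
  Q1 : ∀ a, Q (T1 a) = 0
  surj : ∀ y, ∃ a b, y = T0 a + T1 b

variable {Q : (ι → F) → F} {f : (Fin m → F) → (Fin m → F) → F}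
  {T0 T1 : (Fin m → F) → (ι → F)} {J : GL ι F}

theorem f_comm (h2 : (2 : F) = 0) (hf : Cfsg.Geo.IsSymplecticForm f) (a b : Fin m → F) :
    f a b = f b a := by
  rw [hf.skew a b]
  linear_combination (-f b a) * h2

theorem B10 (h2 : (2 : F) = 0) (hf : Cfsg.Geo.IsSymplecticForm f) (D : TData Q f T0 T1 J)
    (a b : Fin m → F) : polar Q (T1 a) (T0 b) = f a b := by
  rw [polar_comm, D.B01, f_comm h2 hf]

omit [Fintype ι] [DecidableEq ι] in
theorem add_self_vec (h2 : (2 : F) = 0) (v : ι → F) : v + v = 0 := by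
  rw [← two_smul F v, h2, zero_smul]

theorem J_sq (_h2 : (2 : F) = 0) (D : TData Q f T0 T1 J) (y : ι → F) :
    (J : Matrix ι ι F) *ᵥ ((J : Matrix ι ι F) *ᵥ y) = (J : Matrix ι ι F) *ᵥ y + y := by
  obtain ⟨a, b, rfl⟩ := D.surj y
  simp only [Matrix.mulVec_add, D.J0, D.J1]
  abel

theorem Q_J (h2 : (2 : F) = 0) (hf : Cfsg.Geo.IsSymplecticForm f)
    (hQ : Cfsg.Geo.IsNondegenerateQuadraticForm Q) (D : TData Q f T0 T1 J) (y : ι → F) :
    Q ((J : Matrix ι ι F) *ᵥ y) = Q y := by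
  have hbl := hQ.polar_bilinear
  obtain ⟨a, b, rfl⟩ := D.surj y
  simp only [Matrix.mulVec_add, D.J0, D.J1]
  rw [Cfsg.Agent.Lib.Helper94.QuadAbs.Q_add Q (T0 a) (T1 b),
    Cfsg.Agent.Lib.Helper94.QuadAbs.Q_add Q (T1 a) (T0 b + T1 b),
    Cfsg.Agent.Lib.Helper94.QuadAbs.Q_add Q (T0 b) (T1 b), hbl.add_right, D.Q0, D.Q1, D.Q0, D.Q1,
    D.B01, D.B01, D.B11, B10 h2 hf D, hf.alternating]
  ring

theorem B_J (h2 : (2 : F) = 0) (hf : Cfsg.Geo.IsSymplecticForm f)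
    (hQ : Cfsg.Geo.IsNondegenerateQuadraticForm Q) (D : TData Q f T0 T1 J) (x y : ι → F) :
    polar Q ((J : Matrix ι ι F) *ᵥ x) ((J : Matrix ι ι F) *ᵥ y) = polar Q x y := by
  unfold polar
  rw [← Matrix.mulVec_add, Q_J h2 hf hQ D, Q_J h2 hf hQ D, Q_J h2 hf hQ D]

theorem B_self_J (h2 : (2 : F) = 0) (hf : Cfsg.Geo.IsSymplecticForm f)
    (hQ : Cfsg.Geo.IsNondegenerateQuadraticForm Q) (D : TData Q f T0 T1 J) (v : ι → F)
    (hv : Q v = 0) : polar Q v ((J : Matrix ι ι F) *ᵥ v) = 0 := by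
  unfold polar
  rw [add_comm v, ← J_sq h2 D, Q_J h2 hf hQ D, Q_J h2 hf hQ D, hv]
  ring

/-- The unitary transvection `x ↦ x + B(v,x) Jv + B(Jv,x) v` commutes with `J`. -/
theorem sg_comm [Fintype F] (h2 : (2 : F) = 0) (hf : Cfsg.Geo.IsSymplecticForm f)
    (hQ : Cfsg.Geo.IsNondegenerateQuadraticForm Q) (D : TData Q f T0 T1 J) (v : ι → F)
    (hv : Q v = 0) :
    sg hQ v ((J : Matrix ι ι F) *ᵥ v) * J = J * sg hQ v ((J : Matrix ι ι F) *ᵥ v) := by
  have hbl := hQ.polar_bilinear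
  apply Units.ext
  rw [Units.val_mul, Units.val_mul]
  apply mat_ext
  intro x
  rw [← Matrix.mulVec_mulVec, ← Matrix.mulVec_mulVec,
    sg_mulVec hQ v _ hv (B_self_J h2 hf hQ D v hv),
    sg_mulVec hQ v _ hv (B_self_J h2 hf hQ D v hv), Q_J h2 hf hQ D, hv]
  simp only [Matrix.mulVec_add, Matrix.mulVec_sub, Matrix.mulVec_smul, J_sq h2 D]
  have e1 : polar Q ((J : Matrix ι ι F) *ᵥ v) ((J : Matrix ι ι F) *ᵥ x) = polar Q v x :=
    B_J h2 hf hQ D v x
  have e2 : polar Q v ((J : Matrix ι ι F) *ᵥ x)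
      = polar Q v x + polar Q ((J : Matrix ι ι F) *ᵥ v) x := by
    rw [← B_J h2 hf hQ D v, J_sq h2 D, hbl.add_right, B_J h2 hf hQ D]
  rw [e1, e2]
  obtain ⟨Jv, hJv⟩ : ∃ Jv, Jv = (J : Matrix ι ι F) *ᵥ v := ⟨_, rfl⟩
  obtain ⟨Jx, hJx⟩ : ∃ Jx, Jx = (J : Matrix ι ι F) *ᵥ x := ⟨_, rfl⟩
  rw [← hJv, ← hJx]
  obtain ⟨s, hs⟩ : ∃ s, s = polar Q v x := ⟨_, rfl⟩
  obtain ⟨t, ht⟩ : ∃ t, t = polar Q Jv x := ⟨_, rfl⟩
  rw [← hs, ← ht]
  have k1 : t • Jv + t • Jv = 0 := add_self_vec h2 _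
  have k2 : s • v + s • v = 0 := add_self_vec h2 _
  have e : Jx + (s + t) • Jv - s • v - (0 * (s + t)) • v
      = Jx + s • (Jv + v) - t • Jv - (0 * s) • Jv + (t • Jv + t • Jv) - (s • v + s • v) := by
    module
  rw [e, k1, k2, add_zero, sub_zero]

theorem Q_mixed (D : TData Q f T0 T1 J) {a b : Fin m → F} (hab : f a b = 0) :
    Q (T0 a + T1 b) = 0 := by
  rw [Cfsg.Agent.Lib.Helper94.QuadAbs.Q_add Q (T0 a) (T1 b), D.Q0, D.Q1, D.B01, hab]
  ring

/-- The unitary transvection attached to the mixed vector `e₀ ⊗ a + e₁ ⊗ b` does not map the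
pure tensor `e₀ ⊗ c` to a pure tensor. -/
theorem sg_not_pure [Fintype F] (h2 : (2 : F) = 0) (hf : Cfsg.Geo.IsSymplecticForm f)
    (hQ : Cfsg.Geo.IsNondegenerateQuadraticForm Q) (D : TData Q f T0 T1 J) {a b c : Fin m → F}
    (hab : f a b = 0) (hac : f a c = 1) (hbc : f b c = 0) (hb : b ≠ 0) (α β : F)
    (d : Fin m → F)
    (h : ((sg hQ (T0 a + T1 b) ((J : Matrix ι ι F) *ᵥ (T0 a + T1 b)) : GL ι F) : Matrix ι ι F)
        *ᵥ T0 c = α • T0 d + β • T1 d) : False := by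
  have hbl := hQ.polar_bilinear
  have hv : Q (T0 a + T1 b) = 0 := Q_mixed D hab
  have hJv : (J : Matrix ι ι F) *ᵥ (T0 a + T1 b) = T1 a + (T0 b + T1 b) := by
    rw [Matrix.mulVec_add, D.J0, D.J1]
  have e1 : polar Q (T0 a + T1 b) (T0 c) = 0 := by
    rw [hbl.add_left, D.B00, B10 h2 hf D, hbc, add_zero]
  have e2 : polar Q (T1 a + (T0 b + T1 b)) (T0 c) = 1 := by
    rw [hbl.add_left, hbl.add_left, D.B00, B10 h2 hf D, B10 h2 hf D, hbc, hac]
    ring
  rw [sg_mulVec hQ _ _ hv (B_self_J h2 hf hQ D _ hv), e1, hJv, e2] at h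
  have h' : T0 c - (T0 a + T1 b) = α • T0 d + β • T1 d := by
    rw [← h]
    module
  have hba : f b a = 0 := by rw [f_comm h2 hf]; exact hab
  have hca : f c a = 1 := by rw [f_comm h2 hf]; exact hac
  have k1 : polar Q (T0 c - (T0 a + T1 b)) (T0 a) = polar Q (α • T0 d + β • T1 d) (T0 a) := by
    rw [h']
  have k2 : polar Q (T0 c - (T0 a + T1 b)) (T1 a) = polar Q (α • T0 d + β • T1 d) (T1 a) := by
    rw [h']
  rw [Cfsg.Agent.Lib.Helper94.SympAbs.bil_sub_left hbl, hbl.add_left, hbl.add_left,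
    hbl.smul_left, hbl.smul_left, D.B00, D.B00, D.B00, B10 h2 hf D, B10 h2 hf D, hba] at k1
  rw [Cfsg.Agent.Lib.Helper94.SympAbs.bil_sub_left hbl, hbl.add_left, hbl.add_left,
    hbl.smul_left, hbl.smul_left, D.B01, D.B01, D.B01, D.B11, D.B11, hca,
    hf.alternating] at k2
  have hda : f d a ≠ 0 := by
    intro h0
    rw [h0] at k2
    simp at k2
  have hβ : β = 0 := by
    have : β * f d a = 0 := by linear_combination -k1
    rcases mul_eq_zero.mp this with h0 | h0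
    · exact h0
    · exact absurd h0 hda
  obtain ⟨z, hz⟩ := (hf.nondegenerate b hb).2
  apply hz
  have k3 : polar Q (T0 c - (T0 a + T1 b)) (T0 z) = polar Q (α • T0 d + β • T1 d) (T0 z) := by
    rw [h']
  rw [Cfsg.Agent.Lib.Helper94.SympAbs.bil_sub_left hbl, hbl.add_left, hbl.add_left,
    hbl.smul_left, hbl.smul_left, D.B00, D.B00, D.B00, B10 h2 hf D, B10 h2 hf D, hβ] at k3
  linear_combination -k3

/-- A Siegel transformation with two pure centres `e₀ ⊗ a`, `e₀ ⊗ b` neither commutes with `J`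
nor inverts it. -/
theorem sg_not_norm [Fintype F] (h2 : (2 : F) = 0) (hf : Cfsg.Geo.IsSymplecticForm f)
    (hQ : Cfsg.Geo.IsNondegenerateQuadraticForm Q) (D : TData Q f T0 T1 J) {a b c : Fin m → F}
    (hab : f a b = 0) (hac : f a c = 1) (hbc : f b c = 0) (hb : b ≠ 0) :
    ¬ (sg hQ (T0 a) (T0 b) * J = J * sg hQ (T0 a) (T0 b) ∨
      sg hQ (T0 a) (T0 b) * J = J * J * sg hQ (T0 a) (T0 b)) := by
  have hbl := hQ.polar_bilinear
  have e0 : ((sg hQ (T0 a) (T0 b) : GL ι F) : Matrix ι ι F) *ᵥ T0 c = T0 c := by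
    rw [sg_mulVec hQ _ _ (D.Q0 a) (D.B00 a b), D.B00, D.B00]
    module
  have e1 : ((sg hQ (T0 a) (T0 b) : GL ι F) : Matrix ι ι F) *ᵥ T1 c = T1 c + T0 b := by
    rw [sg_mulVec hQ _ _ (D.Q0 a) (D.B00 a b), D.B01, D.B01, hac, hbc, D.Q0]
    module
  rintro (h | h)
  · have k := congrArg (fun g : GL ι F => (g : Matrix ι ι F) *ᵥ T0 c) h
    simp only [Units.val_mul, ← Matrix.mulVec_mulVec] at k
    rw [D.J0, e1, e0, D.J0] at k
    have hz0 : T0 b = 0 := by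
      have := congrArg (fun y => y - T1 c) k
      simpa using this
    obtain ⟨z, hz⟩ := (hf.nondegenerate b hb).2
    apply hz
    rw [← D.B01, hz0, Cfsg.Agent.Lib.Helper94.SympAbs.bil_zero_left hbl]
  · have k := congrArg (fun g : GL ι F => (g : Matrix ι ι F) *ᵥ T0 c) h
    simp only [Units.val_mul, ← Matrix.mulVec_mulVec] at k
    rw [D.J0, e1, e0, D.J0, D.J1] at k
    have hz0 : T0 b = T0 c := by
      have := congrArg (fun y => y - T1 c) k
      simpa using this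
    have k2 : polar Q (T0 b) (T1 a) = polar Q (T0 c) (T1 a) := by rw [hz0]
    rw [D.B01, D.B01, f_comm h2 hf b a, hab, f_comm h2 hf c a, hac] at k2
    exact zero_ne_one k2

end Abstract

section Concrete

variable {n₁ n₂ : ℕ}

/-- The isomorphism `GL (Fin n₁ × Fin n₂) F ≃* GL ι F` used to define the tensor product
subgroup. -/
def theta (e : ι ≃ Fin n₁ × Fin n₂) (P : GL ι F) : GL (Fin n₁ × Fin n₂) F ≃* GL ι F :=
  (Cfsg.Geo.glReindex e.symm).trans (MulAut.conj P)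

theorem theta_mulVec (e : ι ≃ Fin n₁ × Fin n₂) (P : GL ι F) (k : GL (Fin n₁ × Fin n₂) F)
    (x : Fin n₁ × Fin n₂ → F) :
    ((theta e P k : GL ι F) : Matrix ι ι F) *ᵥ phi e P x
      = phi e P ((k : Matrix (Fin n₁ × Fin n₂) (Fin n₁ × Fin n₂) F) *ᵥ x) := by
  have e1 : (theta e P k : GL ι F) = P * (Cfsg.Geo.glReindex e.symm k) * P⁻¹ := rfl
  have e2 : ((Cfsg.Geo.glReindex e.symm k : GL ι F) : Matrix ι ι F)
      = (k : Matrix (Fin n₁ × Fin n₂) (Fin n₁ × Fin n₂) F).submatrix e e := by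
    show Matrix.reindexAlgEquiv F F e.symm (k : Matrix (Fin n₁ × Fin n₂) (Fin n₁ × Fin n₂) F) = _
    rw [Matrix.coe_reindexAlgEquiv, Matrix.reindex_apply, Equiv.symm_symm]
  rw [e1]
  unfold phi
  rw [Matrix.mulVec_mulVec, ← Units.val_mul, inv_mul_cancel_right, Units.val_mul,
    ← Matrix.mulVec_mulVec, e2, Matrix.submatrix_mulVec_equiv]
  have e3 : (x ∘ ⇑e) ∘ ⇑e.symm = x := by
    funext p
    simp
  rw [e3]

theorem tensor_eq_map (e : ι ≃ Fin n₁ × Fin n₂) (P : GL ι F) :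
    Cfsg.Geo.tensorProductSubgroup n₁ n₂ e P
      = (Cfsg.Geo.kroneckerSubgroup n₁ n₂ F).map (theta e P).toMonoidHom := by
  unfold Cfsg.Geo.tensorProductSubgroup
  rw [Subgroup.map_map]
  rfl

theorem phi_surj (e : ι ≃ Fin n₁ × Fin n₂) (P : GL ι F) (y : ι → F) : ∃ x, phi e P x = y := by
  refine ⟨(((P⁻¹ : GL ι F) : Matrix ι ι F) *ᵥ y) ∘ e.symm, ?_⟩
  unfold phi
  have e3 : ((((P⁻¹ : GL ι F) : Matrix ι ι F) *ᵥ y) ∘ ⇑e.symm) ∘ ⇑e
      = ((P⁻¹ : GL ι F) : Matrix ι ι F) *ᵥ y := by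
    funext p
    simp
  rw [e3, Matrix.mulVec_mulVec, ← Units.val_mul, mul_inv_cancel, Units.val_one,
    Matrix.one_mulVec]

/-- `ω ⊗ 1` as an invertible matrix. -/
def J0 (m : ℕ) (h2 : (2 : F) = 0) : GL (Fin 2 × Fin m) F :=
  ⟨Jm F m, Jm F m * Jm F m, by rw [← Matrix.mul_assoc]; exact Jm_cube m h2, Jm_cube m h2⟩

theorem mem_KJ' (m : ℕ) (h2 : (2 : F) = 0) (k : GL (Fin 2 × Fin m) F) :
    k ∈ KJ m h2 ↔ (k * J0 m h2 = J0 m h2 * k ∨ k * J0 m h2 = J0 m h2 * J0 m h2 * k) := by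
  rw [mem_KJ, Units.ext_iff, Units.ext_iff]
  rfl

theorem mem_map_KJ (m : ℕ) (h2 : (2 : F) = 0) (e : ι ≃ Fin 2 × Fin m) (P : GL ι F)
    (g : GL ι F) :
    g ∈ (KJ m h2).map (theta e P).toMonoidHom ↔
      (g * theta e P (J0 m h2) = theta e P (J0 m h2) * g ∨
        g * theta e P (J0 m h2) = theta e P (J0 m h2) * theta e P (J0 m h2) * g) := by
  constructor
  · rintro ⟨k, hk, rfl⟩
    rw [SetLike.mem_coe, mem_KJ'] at hk
    show (theta e P k * theta e P (J0 m h2) = theta e P (J0 m h2) * theta e P k ∨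
        theta e P k * theta e P (J0 m h2)
          = theta e P (J0 m h2) * theta e P (J0 m h2) * theta e P k)
    rcases hk with h | h
    · left
      rw [← map_mul, ← map_mul, h]
    · right
      rw [← map_mul, ← map_mul, ← map_mul, h]
  · intro h
    refine ⟨(theta e P).symm g, ?_, (theta e P).apply_symm_apply g⟩
    rw [SetLike.mem_coe, mem_KJ']
    rcases h with h | h
    · left
      apply (theta e P).injective
      rw [map_mul, map_mul, MulEquiv.apply_symm_apply]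
      exact h
    · right
      apply (theta e P).injective
      rw [map_mul, map_mul, map_mul, MulEquiv.apply_symm_apply]
      exact h

theorem omega_E0 : ω F *ᵥ ![1, 0] = ![0, 1] := by
  funext i
  fin_cases i <;> simp [ω, Matrix.mulVec, dotProduct]

theorem omega_E1 : ω F *ᵥ ![0, 1] = ![1, 0] + ![0, 1] := by
  funext i
  fin_cases i <;> simp [ω, Matrix.mulVec, dotProduct]

theorem ten_two (u : Fin 2 → F) (d : Fin n₂ → F) :
    ten u d = u 0 • ten ![1, 0] d + u 1 • ten ![0, 1] d := by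
  funext p
  obtain ⟨i, j⟩ := p
  fin_cases i <;> simp [ten]

theorem exists_ten_two (x : Fin 2 × Fin n₂ → F) :
    ∃ a b : Fin n₂ → F, x = ten ![1, 0] a + ten ![0, 1] b := by
  refine ⟨fun j => x (0, j), fun j => x (1, j), ?_⟩
  funext p
  obtain ⟨i, j⟩ := p
  fin_cases i <;> simp [ten]

theorem exists_abc [Fintype F] (hq : Fintype.card F = 2) {m : ℕ}
    {f : (Fin m → F) → (Fin m → F) → F} (hf : Cfsg.Geo.IsSymplecticForm f) (hm : 2 < m) :
    ∃ a b c : Fin m → F, f a b = 0 ∧ f a c = 1 ∧ f b c = 0 ∧ b ≠ 0 := by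
  have h2 := two_eq_zero hq
  obtain ⟨a, ha⟩ : ∃ a : Fin m → F, a ≠ 0 := by
    refine ⟨Pi.single ⟨0, by omega⟩ 1, ?_⟩
    intro h
    have := congrFun h ⟨0, by omega⟩
    simp at this
  obtain ⟨c, hc⟩ := (hf.nondegenerate a ha).2
  have hc1 : f a c = 1 := by
    rcases eq_zero_or_one hq (f a c) with h | h
    · exact absurd h hc
    · exact h
  let L : (Fin m → F) →ₗ[F] (Fin 2 → F) :=
    { toFun := fun y => ![f a y, f c y]
      map_add' := fun y z => by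
        rw [hf.bilinear.add_right, hf.bilinear.add_right]
        funext i
        fin_cases i <;> simp
      map_smul' := fun t y => by
        rw [hf.bilinear.smul_right, hf.bilinear.smul_right]
        funext i
        fin_cases i <;> simp }
  have hlt : Module.finrank F (Fin 2 → F) < Module.finrank F (Fin m → F) := by
    rw [Module.finrank_fin_fun, Module.finrank_fin_fun]
    exact hm
  obtain ⟨b, hb, hb0⟩ := Submodule.exists_mem_ne_zero_of_ne_bot
    (LinearMap.ker_ne_bot_of_finrank_lt (f := L) hlt)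
  rw [LinearMap.mem_ker] at hb
  have hb' : ![f a b, f c b] = 0 := hb
  have k0 := congrFun hb' 0
  have k1 := congrFun hb' 1
  simp at k0 k1
  exact ⟨a, b, c, k0, hc1, by rw [f_comm h2 hf]; exact k1, hb0⟩

/-- For the field with two elements, the stabiliser in `Ω` of a tensor decomposition of type
`Sp₂(2) ⊗ Sp_{n₂}(2)` is not maximal: it normalises the cyclic group generated by `ω ⊗ 1`. -/
theorem tensor_sp2_not_maximal [Fintype F] (hq : Fintype.card F = 2)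
    (hcard : 5 ≤ Fintype.card ι) (Q : (ι → F) → F)
    (hQ : Cfsg.Geo.IsNondegenerateQuadraticForm Q) (n₂ : ℕ) (hn₂ : 2 < n₂)
    (e : ι ≃ Fin 2 × Fin n₂) (P : GL ι F) (f₁ : (Fin 2 → F) → (Fin 2 → F) → F)
    (f₂ : (Fin n₂ → F) → (Fin n₂ → F) → F) (hf₁ : Cfsg.Geo.IsSymplecticForm f₁)
    (hf₂ : Cfsg.Geo.IsSymplecticForm f₂)
    (hT : Cfsg.Geo.IsTensorFormStructure id (polar Q) f₁ f₂ e P)
    (hpure : ∀ (x₁ : Fin 2 → F) (x₂ : Fin n₂ → F), Q (phi e P (ten x₁ x₂)) = 0) :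
    ∃ K : Subgroup (GL ι F),
      Cfsg.Geo.tensorProductSubgroup 2 n₂ e P ⊓ Cfsg.Geo.omegaGL Q < K ∧
        K < Cfsg.Geo.omegaGL Q := by
  have h2 := two_eq_zero hq
  obtain ⟨c, hc0, hc⟩ := hT
  have hc1 : c = 1 := by
    rcases eq_zero_or_one hq c with h | h
    · exact absurd h hc0
    · exact h
  have hc' : ∀ x y : Fin 2 × Fin n₂ → F, polar Q (phi e P x) (phi e P y) =
      c * Cfsg.Geo.formOfGram id (Cfsg.Geo.gramMatrix f₁ ⊗ₖ Cfsg.Geo.gramMatrix f₂) x y := hc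
  have hform := fun (u u' : Fin 2 → F) (w w' : Fin n₂ → F) =>
    form_phi_ten hf₁.bilinear hf₂.bilinear hc' u u' w w'
  -- the value of `f₁` on the standard basis
  have hκ : f₁ ![1, 0] ![0, 1] = 1 := by
    have hE0 : (![1, 0] : Fin 2 → F) ≠ 0 := by
      intro h
      have := congrFun h 0
      simp at this
    obtain ⟨x, hx⟩ := (hf₁.nondegenerate _ hE0).2
    have hx' : x = x 0 • ![1, 0] + x 1 • ![0, 1] := by
      funext i
      fin_cases i <;> simp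
    rw [hx', hf₁.bilinear.add_right, hf₁.bilinear.smul_right, hf₁.bilinear.smul_right,
      hf₁.alternating, mul_zero, zero_add] at hx
    rcases eq_zero_or_one hq (f₁ ![1, 0] ![0, 1]) with h | h
    · rw [h, mul_zero] at hx
      exact absurd rfl hx
    · exact h
  obtain ⟨T0, hT0⟩ : ∃ T0 : (Fin n₂ → F) → (ι → F), T0 = fun a => phi e P (ten ![1, 0] a) :=
    ⟨_, rfl⟩
  obtain ⟨T1, hT1⟩ : ∃ T1 : (Fin n₂ → F) → (ι → F), T1 = fun a => phi e P (ten ![0, 1] a) :=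
    ⟨_, rfl⟩
  obtain ⟨J, hJ⟩ : ∃ J : GL ι F, J = theta e P (J0 n₂ h2) := ⟨_, rfl⟩
  have hJmul : ∀ (u : Fin 2 → F) (a : Fin n₂ → F),
      (J : Matrix ι ι F) *ᵥ phi e P (ten u a) = phi e P (ten (ω F *ᵥ u) a) := by
    intro u a
    rw [hJ, theta_mulVec]
    show phi e P (Jm F n₂ *ᵥ ten u a) = _
    unfold Jm
    rw [kron_mulVec_ten, Matrix.one_mulVec]
  have D : TData Q f₂ T0 T1 J := by
    refine ⟨?_, ?_, ?_, ?_, ?_, ?_, ?_, ?_, ?_, ?_⟩
    · intro a b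
      rw [hT0]
      show phi e P (ten ![1, 0] (a + b)) = phi e P (ten ![1, 0] a) + phi e P (ten ![1, 0] b)
      rw [ten_add_right, phi_add]
    · intro a b
      rw [hT1]
      show phi e P (ten ![0, 1] (a + b)) = phi e P (ten ![0, 1] a) + phi e P (ten ![0, 1] b)
      rw [ten_add_right, phi_add]
    · intro a
      rw [hT0, hT1]
      show (J : Matrix ι ι F) *ᵥ phi e P (ten ![1, 0] a) = phi e P (ten ![0, 1] a)
      rw [hJmul, omega_E0]
    · intro a
      rw [hT0, hT1]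
      show (J : Matrix ι ι F) *ᵥ phi e P (ten ![0, 1] a)
        = phi e P (ten ![1, 0] a) + phi e P (ten ![0, 1] a)
      rw [hJmul, omega_E1, ten_add_left, phi_add]
    · intro a b
      rw [hT0]
      show polar Q (phi e P (ten ![1, 0] a)) (phi e P (ten ![1, 0] b)) = 0
      rw [hform, hf₁.alternating]
      ring
    · intro a b
      rw [hT1]
      show polar Q (phi e P (ten ![0, 1] a)) (phi e P (ten ![0, 1] b)) = 0
      rw [hform, hf₁.alternating]
      ring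
    · intro a b
      rw [hT0, hT1]
      show polar Q (phi e P (ten ![1, 0] a)) (phi e P (ten ![0, 1] b)) = f₂ a b
      rw [hform, hκ, hc1]
      ring
    · intro a
      rw [hT0]
      exact hpure _ _
    · intro a
      rw [hT1]
      exact hpure _ _
    · intro y
      obtain ⟨x, rfl⟩ := phi_surj e P y
      obtain ⟨a, b, rfl⟩ := exists_ten_two x
      refine ⟨a, b, ?_⟩
      rw [hT0, hT1, phi_add]
  obtain ⟨a, b, c', hab, hac, hbc, hb⟩ := exists_abc hq hf₂ hn₂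
  have hle : Cfsg.Geo.tensorProductSubgroup 2 n₂ e P
      ≤ (KJ n₂ h2).map (theta e P).toMonoidHom := by
    rw [tensor_eq_map]
    exact Subgroup.map_mono (kron_le_KJ n₂ hq)
  refine ⟨(KJ n₂ h2).map (theta e P).toMonoidHom ⊓ Cfsg.Geo.omegaGL Q, ?_, ?_⟩
  · rw [SetLike.lt_iff_le_and_exists]
    refine ⟨inf_le_inf_right _ hle,
      sg hQ (T0 a + T1 b) ((J : Matrix ι ι F) *ᵥ (T0 a + T1 b)),
      Subgroup.mem_inf.mpr ⟨?_, ?_⟩, ?_⟩
    · rw [mem_map_KJ, ← hJ]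
      left
      exact sg_comm h2 hf₂ hQ D _ (Q_mixed D hab)
    · exact sg_mem_omega hQ hcard _ _
    · intro hmem
      obtain ⟨A, B, hAB⟩ := tensor_mem e P (Subgroup.mem_inf.mp hmem).1
      have h1 := hAB (ten ![1, 0] c')
      rw [kron_mulVec_ten] at h1
      have e5 := ten_two ((A : Matrix (Fin 2) (Fin 2) F) *ᵥ ![1, 0])
        ((B : Matrix (Fin n₂) (Fin n₂) F) *ᵥ c')
      rw [e5, phi_add, phi_smul, phi_smul] at h1
      have t0 : ∀ a, phi e P (ten ![1, 0] a) = T0 a := fun a => by rw [hT0]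
      have t1 : ∀ a, phi e P (ten ![0, 1] a) = T1 a := fun a => by rw [hT1]
      rw [t0, t0, t1] at h1
      exact sg_not_pure h2 hf₂ hQ D hab hac hbc hb
        (((A : Matrix (Fin 2) (Fin 2) F) *ᵥ ![1, 0]) 0)
        (((A : Matrix (Fin 2) (Fin 2) F) *ᵥ ![1, 0]) 1)
        ((B : Matrix (Fin n₂) (Fin n₂) F) *ᵥ c') h1
  · rw [SetLike.lt_iff_le_and_exists]
    refine ⟨inf_le_right, sg hQ (T0 a) (T0 b), sg_mem_omega hQ hcard _ _, ?_⟩
    intro hmem
    have h1 := (Subgroup.mem_inf.mp hmem).1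
    rw [mem_map_KJ, ← hJ] at h1
    exact sg_not_norm h2 hf₂ hQ D hab hac hbc hb h1

end Concrete

end Cfsg.Agent.Lib.Helper37.TensorOm
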