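import Mathlib
import Cfsg.Prelude.Def_GeometricClasses
import Cfsg.Agent.Lib.Helper37.TensorFrame
import Cfsg.Agent.Lib.Helper94.Basic

set_option autoImplicit false

namespace Cfsg.Agent.Lib.Helper37.TensorSp

open Module Matrix
open scoped Kronecker
open Cfsg.Agent.Lib.Helper37.FrameThree
open Cfsg.Agent.Lib.Helper37.FrameExist Cfsg.Agent.Lib.Helper37.TensorBasic
open Cfsg.Agent.Lib.Helper37.TensorFrame Cfsg.Agent.Lib.Helper94.Basic

variable {F : Type*} [Field F]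

/-- In characteristic 3, a frame of norm `c₁` excludes an orthogonal triple of norm `-c₁`. -/
theorem no_neg_frame (h3 : (3 : F) = 0) {f : (Fin 3 → F) → (Fin 3 → F) → F}
    (hf : Cfsg.Geo.IsSymmetricForm f) {c₁ : F} (hc₁ : c₁ ≠ 0) {u : Fin 3 → (Fin 3 → F)}
    (huQ : ∀ j, f (u j) (u j) = c₁) (huO : ∀ j j', j ≠ j' → f (u j) (u j') = 0)
    (huC : ∀ v, f v v = c₁ → ∃ j, v = u j ∨ v = - u j) {v₀ v₁ v₂ : Fin 3 → F}
    (n0 : f v₀ v₀ = -c₁) (n1 : f v₁ v₁ = -c₁) (n2 : f v₂ v₂ = -c₁) (o01 : f v₀ v₁ = 0)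
    (o02 : f v₀ v₂ = 0) (o12 : f v₁ v₂ = 0) : False := by
  let B₁ : LinearMap.BilinForm F (Fin 3 → F) := LinearMap.mk₂ F f hf.bilinear.add_left
    hf.bilinear.smul_left hf.bilinear.add_right hf.bilinear.smul_right
  have hB₁ : ∀ x y, f x y = B₁ x y := fun _ _ => rfl
  have o10 : f v₁ v₀ = 0 := by rw [hf.symm]; exact o01
  have o20 : f v₂ v₀ = 0 := by rw [hf.symm]; exact o02
  rw [hB₁] at n0 n1 n2 o01 o02 o12 o10 o20
  have es : f (v₀ + v₁) (v₀ + v₁) = c₁ := by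
    rw [hB₁]
    simp only [map_add, LinearMap.add_apply, n0, n1, o01, o10]
    linear_combination (-c₁) * h3
  have es' : f (v₀ + v₂) (v₀ + v₂) = c₁ := by
    rw [hB₁]
    simp only [map_add, LinearMap.add_apply, n0, n2, o02, o20]
    linear_combination (-c₁) * h3
  have ed' : f (v₀ - v₂) (v₀ - v₂) = c₁ := by
    rw [hB₁]
    simp only [map_sub, LinearMap.sub_apply, n0, n2, o02, o20]
    linear_combination (-c₁) * h3
  have p1 : B₁ (v₀ + v₁) (v₀ + v₂) = -c₁ := by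
    simp only [map_add, LinearMap.add_apply, n0, o02, o10, o12]
    ring
  have p2 : B₁ (v₀ + v₁) (v₀ - v₂) = -c₁ := by
    simp only [map_add, map_sub, LinearMap.add_apply, n0, o02, o10, o12]
    ring
  have p3 : B₁ (v₀ + v₂) (v₀ - v₂) = 0 := by
    simp only [map_add, map_sub, LinearMap.add_apply, n0, n2, o02, o20]
    ring
  obtain ⟨j, hj⟩ := huC _ es
  obtain ⟨k, hk⟩ := huC _ es'
  obtain ⟨k', hk'⟩ := huC _ ed'
  have hnc : -c₁ ≠ 0 := neg_ne_zero.mpr hc₁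
  have hframe : ∀ (i i' : Fin 3) (p p' : Fin 3 → F), (p = u i ∨ p = -u i) →
      (p' = u i' ∨ p' = -u i') → i ≠ i' → B₁ p p' = 0 := by
    intro i i' p p' hp hp' hii
    have h0 : B₁ (u i) (u i') = 0 := by rw [← hB₁]; exact huO i i' hii
    rcases hp with rfl | rfl <;> rcases hp' with rfl | rfl <;> simp [h0]
  have hjk : j = k := by
    by_contra hne
    exact hnc (p1.symm.trans (hframe j k _ _ hj hk hne))
  have hjk' : j = k' := by
    by_contra hne
    exact hnc (p2.symm.trans (hframe j k' _ _ hj hk' hne))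
  have hkk : k = k' := hjk.symm.trans hjk'
  subst hkk
  have h0 : B₁ (u k) (u k) = c₁ := by rw [← hB₁]; exact huQ k
  rcases hk with hk | hk <;> rcases hk' with hk' | hk' <;> rw [hk, hk'] at p3 <;>
    simp [h0] at p3 <;> exact hc₁ p3

/-- Over the field with three elements, the stabiliser in the symplectic group of a tensor
decomposition whose second factor is a 3-dimensional orthogonal space is not maximal. -/
theorem tensor_sp3_not_maximal [Fintype F] (hq : Fintype.card F = 3) (m n₁ : ℕ) (hm : 1 ≤ m)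
    (e : (Fin m ⊕ Fin m) ≃ Fin n₁ × Fin 3) (P : GL (Fin m ⊕ Fin m) F)
    (f₁ : (Fin n₁ → F) → (Fin n₁ → F) → F) (f₂ : (Fin 3 → F) → (Fin 3 → F) → F)
    (hf₁ : Cfsg.Geo.IsSymplecticForm f₁) (hf₂ : Cfsg.Geo.IsSymmetricForm f₂)
    (hT : Cfsg.Geo.IsTensorFormStructure id (Cfsg.sympForm m F) f₁ f₂ e P) :
    ∃ K : Subgroup (GL (Fin m ⊕ Fin m) F),
      Cfsg.Geo.tensorProductSubgroup n₁ 3 e P ⊓ Cfsg.spGL m F < K ∧ K < Cfsg.spGL m F := by
  classical
  have h3 := three_eq_zero hq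
  have h2 := two_ne_zero_of_three hq
  obtain ⟨c, hc0, hc⟩ := hT
  have hpol : ∀ (x x' : Fin n₁ → F) (w w' : Fin 3 → F),
      Cfsg.sympForm m F (phi e P (ten x w)) (phi e P (ten x' w')) = c * (f₁ x x' * f₂ w w') :=
    fun x x' w w' => form_phi_ten hf₁.bilinear hf₂.bilinear hc x x' w w'
  obtain ⟨c₁, hc₁, u, huQ, huO, huC⟩ := exists_form_frame hq hf₂
  let B₁ : LinearMap.BilinForm F (Fin n₁ → F) := LinearMap.mk₂ F f₁ hf₁.bilinear.add_left
    hf₁.bilinear.smul_left hf₁.bilinear.add_right hf₁.bilinear.smul_right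
  let B₂ : LinearMap.BilinForm F (Fin 3 → F) := LinearMap.mk₂ F f₂ hf₂.bilinear.add_left
    hf₂.bilinear.smul_left hf₂.bilinear.add_right hf₂.bilinear.smul_right
  have hB₁ : ∀ x y, f₁ x y = B₁ x y := fun _ _ => rfl
  have hB₂ : ∀ x y, f₂ x y = B₂ x y := fun _ _ => rfl
  -- `n₁` is positive
  have hn₁ : 0 < n₁ := by
    by_contra h0
    have h1 : n₁ = 0 := by omega
    subst h1
    have := Fintype.card_congr e
    simp at this
    omega
  -- a nonzero vector and a partner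
  obtain ⟨x₀, hx₀⟩ : ∃ x₀ : Fin n₁ → F, x₀ ≠ 0 := by
    refine ⟨Pi.single (⟨0, hn₁⟩ : Fin n₁) (1 : F), fun h => ?_⟩
    have := congrFun h ⟨0, hn₁⟩
    simp at this
  obtain ⟨x₁, hx₁⟩ := (hf₁.nondegenerate x₀ hx₀).1
  obtain ⟨γ, hγ⟩ : ∃ γ, γ = f₁ x₁ x₀ := ⟨_, rfl⟩
  have hγ0 : γ ≠ 0 := hγ ▸ hx₁
  have hγ' : f₁ x₀ x₁ = -γ := by rw [hf₁.skew, hγ]
  obtain ⟨i₁, hi₁⟩ : ∃ i₁, x₀ i₁ ≠ 0 := by
    by_contra hcon
    push Not at hcon
    exact hx₀ (funext hcon)
  have hu0 : ∀ j, u j ≠ 0 := by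
    intro j h
    have h1 := huQ j
    rw [h, hB₂] at h1
    simp at h1
    exact hc₁ h1.symm
  -- the three blocks
  obtain ⟨T, hT⟩ : ∃ T : Fin 3 → (Fin n₁ → F) → (Fin m ⊕ Fin m → F),
      T = fun j x => phi e P (ten x (u j)) := ⟨_, rfl⟩
  have hTdef : ∀ j x, T j x = phi e P (ten x (u j)) := fun j x => by rw [hT]
  have hTadd : ∀ j x x', T j (x + x') = T j x + T j x' := by
    intro j x x'
    rw [hT]
    show phi e P (ten (x + x') (u j)) = _
    rw [ten_add_left, phi_add]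
  have hTsmul : ∀ j (t : F) x, T j (t • x) = t • T j x := by
    intro j t x
    rw [hT]
    show phi e P (ten (t • x) (u j)) = _
    rw [ten_smul_left, phi_smul]
  have hTT : ∀ j j' x x', Cfsg.sympForm m F (T j x) (T j' x')
      = c * (f₁ x x' * f₂ (u j) (u j')) := by
    intro j j' x x'
    rw [hT]
    exact hpol _ _ _ _
  have hTne : ∀ j j' x x', j ≠ j' → Cfsg.sympForm m F (T j x) (T j' x') = 0 := by
    intro j j' x x' hjj
    rw [hTT, huO j j' hjj]
    ring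
  have hTeq : ∀ j x x', Cfsg.sympForm m F (T j x) (T j x') = c * (f₁ x x' * c₁) := by
    intro j x x'
    rw [hTT, huQ]
  obtain ⟨S, hS⟩ : ∃ S : Set (Fin m ⊕ Fin m → F), S = {v | ∃ j x, v = T j x} := ⟨_, rfl⟩
  have hSmem : ∀ j x, T j x ∈ S := fun j x => by rw [hS]; exact ⟨j, x, rfl⟩
  obtain ⟨t, ht⟩ : ∃ t, t = c * (γ * c₁) := ⟨_, rfl⟩
  have ht0 : t ≠ 0 := by
    rw [ht]
    exact mul_ne_zero hc0 (mul_ne_zero hγ0 hc₁)
  -- transvections in block vectors preserve `S`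
  have htv : ∀ (j₀ : Fin 3) (x' : Fin n₁ → F) (cc : F) (v : Fin m ⊕ Fin m → F), v ∈ S →
      v + (cc * Cfsg.sympForm m F v (T j₀ x')) • T j₀ x' ∈ S := by
    intro j₀ x' cc v hv
    rw [hS] at hv
    obtain ⟨j, x, rfl⟩ := hv
    by_cases hj : j = j₀
    · subst hj
      rw [← hTsmul, ← hTadd]
      exact hSmem _ _
    · rw [hTne _ _ _ _ hj, mul_zero, zero_smul, add_zero]
      exact hSmem _ _
  apply set_between_gen _ _ S
  · -- (A)
    rintro g ⟨hgT, hgSp⟩ v hv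
    rw [hS] at hv
    obtain ⟨j, x, rfl⟩ := hv
    obtain ⟨a', b', hab⟩ := tensor_mem e P hgT
    have hstar : ∀ (x x' : Fin n₁ → F) (w w' : Fin 3 → F),
        f₁ ((a' : Matrix (Fin n₁) (Fin n₁) F) *ᵥ x) ((a' : Matrix (Fin n₁) (Fin n₁) F) *ᵥ x') *
          f₂ ((b' : Matrix (Fin 3) (Fin 3) F) *ᵥ w) ((b' : Matrix (Fin 3) (Fin 3) F) *ᵥ w')
        = f₁ x x' * f₂ w w' := by
      intro x x' w w'
      have h1 := (mem_spGL_iff g).mp hgSp (phi e P (ten x w)) (phi e P (ten x' w'))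
      rw [hab, hab, kron_mulVec_ten, kron_mulVec_ten, hpol, hpol] at h1
      exact mul_left_cancel₀ hc0 h1
    obtain ⟨β, hβ⟩ : ∃ β, β = f₁ ((a' : Matrix (Fin n₁) (Fin n₁) F) *ᵥ x₁)
        ((a' : Matrix (Fin n₁) (Fin n₁) F) *ᵥ x₀) := ⟨_, rfl⟩
    have hstar' : ∀ w w' : Fin 3 → F,
        β * f₂ ((b' : Matrix (Fin 3) (Fin 3) F) *ᵥ w) ((b' : Matrix (Fin 3) (Fin 3) F) *ᵥ w')
          = γ * f₂ w w' := by
      intro w w'
      rw [hβ, hγ]
      exact hstar x₁ x₀ w w'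
    have hβ0 : β ≠ 0 := by
      intro h
      have h1 := hstar' (u 0) (u 0)
      rw [h, zero_mul, huQ] at h1
      exact mul_ne_zero hγ0 hc₁ h1.symm
    have hiso : ∀ w w' : Fin 3 → F,
        f₂ ((b' : Matrix (Fin 3) (Fin 3) F) *ᵥ w) ((b' : Matrix (Fin 3) (Fin 3) F) *ᵥ w')
          = f₂ w w' := by
      by_cases hβγ : β = γ
      · intro w w'
        have h1 := hstar' w w'
        rw [hβγ] at h1
        exact mul_left_cancel₀ hγ0 h1
      · exfalso
        have hβγ' := ne_cases hq hγ0 hβ0 hβγ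
        have hanti : ∀ w w' : Fin 3 → F,
            f₂ ((b' : Matrix (Fin 3) (Fin 3) F) *ᵥ w) ((b' : Matrix (Fin 3) (Fin 3) F) *ᵥ w')
              = - f₂ w w' := by
          intro w w'
          have h1 := hstar' w w'
          rw [hβγ'] at h1
          apply mul_left_cancel₀ hγ0
          linear_combination -h1
        exact no_neg_frame h3 hf₂ hc₁ huQ huO huC
          (v₀ := (b' : Matrix (Fin 3) (Fin 3) F) *ᵥ u 0)
          (v₁ := (b' : Matrix (Fin 3) (Fin 3) F) *ᵥ u 1)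
          (v₂ := (b' : Matrix (Fin 3) (Fin 3) F) *ᵥ u 2)
          (by rw [hanti, huQ]) (by rw [hanti, huQ]) (by rw [hanti, huQ])
          (by rw [hanti, huO 0 1 (by decide), neg_zero])
          (by rw [hanti, huO 0 2 (by decide), neg_zero])
          (by rw [hanti, huO 1 2 (by decide), neg_zero])
    have hnorm : f₂ ((b' : Matrix (Fin 3) (Fin 3) F) *ᵥ u j)
        ((b' : Matrix (Fin 3) (Fin 3) F) *ᵥ u j) = c₁ := by rw [hiso, huQ]
    obtain ⟨j', hj'⟩ := huC _ hnorm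
    have himg : (g : Matrix (Fin m ⊕ Fin m) (Fin m ⊕ Fin m) F) *ᵥ T j x
        = phi e P (ten ((a' : Matrix (Fin n₁) (Fin n₁) F) *ᵥ x)
            ((b' : Matrix (Fin 3) (Fin 3) F) *ᵥ u j)) := by
      rw [hTdef, hab, kron_mulVec_ten]
    rw [himg]
    rcases hj' with hj' | hj'
    · rw [hj']
      have := hSmem j' ((a' : Matrix (Fin n₁) (Fin n₁) F) *ᵥ x)
      rw [hT] at this
      exact this
    · rw [hj', ← ten_neg_left]
      have := hSmem j' (-((a' : Matrix (Fin n₁) (Fin n₁) F) *ᵥ x))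
      rw [hT] at this
      exact this
  · -- (B)
    obtain ⟨g, hgdef⟩ : ∃ g : GL (Fin m ⊕ Fin m) F, g = sympTv (T 0 x₀) 1 := ⟨_, rfl⟩
    have hgv : ∀ v, (g : Matrix (Fin m ⊕ Fin m) (Fin m ⊕ Fin m) F) *ᵥ v
        = v + (1 * Cfsg.sympForm m F v (T 0 x₀)) • T 0 x₀ := by
      intro v
      rw [hgdef, sympTv_mulVec]
    refine ⟨g, hgdef ▸ sympTv_mem_spGL _ _, ?_, ?_⟩
    · intro v
      rw [hgv]
      constructor
      · exact htv 0 x₀ 1 v
      · intro hv
        have h1 := htv 0 x₀ (-1) _ hv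
        have e1 : v + (1 * Cfsg.sympForm m F v (T 0 x₀)) • T 0 x₀ +
            (-1 * Cfsg.sympForm m F (v + (1 * Cfsg.sympForm m F v (T 0 x₀)) • T 0 x₀) (T 0 x₀)) •
              T 0 x₀ = v := by
          rw [sympForm_add_left, sympForm_smul_left, sympForm_self]
          module
        rw [e1] at h1
        exact h1
    · intro hgT
      obtain ⟨a', b', hab⟩ := tensor_mem e P hgT
      have hfix2 : ∀ x, (g : Matrix (Fin m ⊕ Fin m) (Fin m ⊕ Fin m) F) *ᵥ T 2 x = T 2 x := by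
        intro x
        rw [hgv, hTne _ _ _ _ (by decide), mul_zero, zero_smul, add_zero]
      have hcoord2 : ∀ (x : Fin n₁ → F) (i : Fin n₁) (k : Fin 3),
          ((a' : Matrix (Fin n₁) (Fin n₁) F) *ᵥ x) i * ((b' : Matrix (Fin 3) (Fin 3) F) *ᵥ u 2) k
            = x i * u 2 k := by
        intro x i k
        have h1 := hfix2 x
        rw [hTdef 2 x, hab, kron_mulVec_ten] at h1
        exact congrFun (phi_injective e P h1) (i, k)
      obtain ⟨k₀, hk₀⟩ : ∃ k₀, u 2 k₀ ≠ 0 := by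
        by_contra hcon
        push Not at hcon
        exact hu0 2 (funext hcon)
      obtain ⟨α, hα⟩ : ∃ α, α = ((b' : Matrix (Fin 3) (Fin 3) F) *ᵥ u 2) k₀ := ⟨_, rfl⟩
      have hαa : ∀ (x : Fin n₁ → F) (i : Fin n₁),
          ((a' : Matrix (Fin n₁) (Fin n₁) F) *ᵥ x) i * α = x i * u 2 k₀ := by
        intro x i
        rw [hα]
        exact hcoord2 x i k₀
      have hα0 : α ≠ 0 := by
        intro h
        have h1 := hαa x₀ i₁
        rw [h, mul_zero] at h1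
        exact mul_ne_zero hi₁ hk₀ h1.symm
      -- `g` fixes `T 0 x₀`
      have hfixp : (g : Matrix (Fin m ⊕ Fin m) (Fin m ⊕ Fin m) F) *ᵥ T 0 x₀ = T 0 x₀ := by
        rw [hgv, sympForm_self, mul_zero, zero_smul, add_zero]
      have hcoordp : ∀ (i : Fin n₁) (k : Fin 3),
          ((a' : Matrix (Fin n₁) (Fin n₁) F) *ᵥ x₀) i * ((b' : Matrix (Fin 3) (Fin 3) F) *ᵥ u 0) k
            = x₀ i * u 0 k := by
        intro i k
        have h1 := hfixp
        rw [hTdef 0 x₀, hab, kron_mulVec_ten] at h1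
        exact congrFun (phi_injective e P h1) (i, k)
      -- `g` moves `T 0 x₁`
      have hmove : (g : Matrix (Fin m ⊕ Fin m) (Fin m ⊕ Fin m) F) *ᵥ T 0 x₁ = T 0 (x₁ + t • x₀) := by
        rw [hgv, hTeq, ← hγ, ← ht, one_mul, hTadd, hTsmul]
      have hcoordm : ∀ (i : Fin n₁) (k : Fin 3),
          ((a' : Matrix (Fin n₁) (Fin n₁) F) *ᵥ x₁) i * ((b' : Matrix (Fin 3) (Fin 3) F) *ᵥ u 0) k
            = (x₁ i + t * x₀ i) * u 0 k := by
        intro i k
        have h1 := hmove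
        rw [hTdef 0 x₁, hTdef 0 (x₁ + t • x₀), hab, kron_mulVec_ten] at h1
        exact congrFun (phi_injective e P h1) (i, k)
      obtain ⟨k₁, hk₁⟩ : ∃ k₁, u 0 k₁ ≠ 0 := by
        by_contra hcon
        push Not at hcon
        exact hu0 0 (funext hcon)
      have e1 : u 2 k₀ * ((b' : Matrix (Fin 3) (Fin 3) F) *ᵥ u 0) k₁ = α * u 0 k₁ := by
        apply mul_left_cancel₀ hi₁
        linear_combination α * hcoordp i₁ k₁ -
          ((b' : Matrix (Fin 3) (Fin 3) F) *ᵥ u 0) k₁ * hαa x₀ i₁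
      have e2 : α * t * x₀ i₁ * u 0 k₁ = 0 := by
        linear_combination x₁ i₁ * e1 - α * hcoordm i₁ k₁ +
          ((b' : Matrix (Fin 3) (Fin 3) F) *ᵥ u 0) k₁ * hαa x₁ i₁
      exact mul_ne_zero (mul_ne_zero (mul_ne_zero hα0 ht0) hi₁) hk₁ e2
  · -- (C)
    refine ⟨sympTv (T 0 x₀ + T 1 x₀) 1, sympTv_mem_spGL _ _, T 0 x₁, hSmem _ _, ?_⟩
    have e1 : ((sympTv (T 0 x₀ + T 1 x₀) 1 : GL (Fin m ⊕ Fin m) F) :
        Matrix (Fin m ⊕ Fin m) (Fin m ⊕ Fin m) F) *ᵥ T 0 x₁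
        = T 0 x₁ + t • (T 0 x₀ + T 1 x₀) := by
      rw [sympTv_mulVec, sympForm_add_right, hTeq, hTne _ _ _ _ (by decide), ← hγ, ← ht, one_mul,
        add_zero]
    rw [e1, hS]
    rintro ⟨j, x, hjx⟩
    have q0 : Cfsg.sympForm m F (T 0 x₁ + t • (T 0 x₀ + T 1 x₀)) (T 0 x₀) ≠ 0 := by
      rw [sympForm_add_left, sympForm_smul_left, sympForm_add_left, hTeq, hTeq,
        hTne 1 0 _ _ (by decide), ← hγ, ← ht, hf₁.alternating]
      simpa using ht0
    have q1 : Cfsg.sympForm m F (T 0 x₁ + t • (T 0 x₀ + T 1 x₀)) (T 1 x₁) ≠ 0 := by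
      rw [sympForm_add_left, sympForm_smul_left, sympForm_add_left, hTne 0 1 _ _ (by decide),
        hTne 0 1 _ _ (by decide), hTeq, hγ']
      have e3 : (0 : F) + t * (0 + c * (-γ * c₁)) = -(t * t) := by rw [ht]; ring
      rw [e3]
      exact neg_ne_zero.mpr (mul_ne_zero ht0 ht0)
    have hj0 : j = 0 := by
      by_contra hne
      apply q0
      rw [hjx]
      exact hTne _ _ _ _ hne
    have hj1 : j = 1 := by
      by_contra hne
      apply q1
      rw [hjx]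
      exact hTne _ _ _ _ hne
    rw [hj0] at hj1
    exact absurd hj1 (by decide)

end Cfsg.Agent.Lib.Helper37.TensorSp
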