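import Mathlib
import Cfsg.Prelude.Def_GeometricClasses
import Cfsg.Agent.Lib.Helper37.TensorFrame
import Cfsg.Agent.Lib.Helper94.Herm2
import Cfsg.Agent.S5656

set_option autoImplicit false

namespace Cfsg.Agent.Lib.Helper37.TensorU

open Module Matrix
open scoped Kronecker
open Cfsg.Agent.Lib.Helper37.TensorBasic Cfsg.Agent.Lib.Helper37.TensorFrame
open Cfsg.Agent.Lib.Helper94.Basic Cfsg.Agent.Lib.Helper94.Herm2

variable {F : Type*} [Field F]

section unitary

variable {κ : Type} [Fintype κ] [DecidableEq κ]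

omit [Fintype κ] [DecidableEq κ] in
theorem u_add_right [CharP F 2] {f : (κ → F) → (κ → F) → F}
    (hf : Cfsg.Geo.IsUnitaryFormPow 2 f) (v x y : κ → F) : f v (x + y) = f v x + f v y := by
  rw [hf.herm, hf.add_left, CharTwo.add_sq, ← hf.herm, ← hf.herm]

omit [Fintype κ] [DecidableEq κ] in
theorem u_smul_right {f : (κ → F) → (κ → F) → F}
    (hf : Cfsg.Geo.IsUnitaryFormPow 2 f) (c : F) (v x : κ → F) : f v (c • x) = c ^ 2 * f v x := by
  rw [hf.herm, hf.smul_left, mul_pow, ← hf.herm]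

omit [Fintype κ] [DecidableEq κ] in
theorem u_zero_left {f : (κ → F) → (κ → F) → F}
    (hf : Cfsg.Geo.IsUnitaryFormPow 2 f) (v : κ → F) : f 0 v = 0 := by
  have h := hf.smul_left 0 0 v
  simpa using h

omit [Fintype κ] [DecidableEq κ] in
theorem u_zero_right {f : (κ → F) → (κ → F) → F}
    (hf : Cfsg.Geo.IsUnitaryFormPow 2 f) (v : κ → F) : f v 0 = 0 := by
  rw [hf.herm, u_zero_left hf]
  simp

omit [Fintype κ] [DecidableEq κ] in
theorem u_self {f : (κ → F) → (κ → F) → F}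
    (hf : Cfsg.Geo.IsUnitaryFormPow 2 f) (v : κ → F) : f v v = 0 ∨ f v v = 1 := by
  have h := hf.herm v v
  have h' : f v v * (f v v - 1) = 0 := by linear_combination -h
  rcases mul_eq_zero.mp h' with h1 | h1
  · exact Or.inl h1
  · exact Or.inr (sub_eq_zero.mp h1)

/-- A unitary form in terms of its Gram matrix. -/
theorem u_eq_gram [CharP F 2] {f : (κ → F) → (κ → F) → F}
    (hf : Cfsg.Geo.IsUnitaryFormPow 2 f) (x y : κ → F) :
    f x y = ∑ a, ∑ b, x a * Cfsg.Geo.gramMatrix f a b * (y b) ^ 2 := by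
  have hsum : ∀ (s : Finset κ) (c : κ → F) (v : κ → κ → F) (z : κ → F),
      f (∑ a ∈ s, c a • v a) z = ∑ a ∈ s, c a * f (v a) z := by
    intro s c v z
    induction s using Finset.induction_on with
    | empty =>
      simp only [Finset.sum_empty]
      exact u_zero_left hf z
    | insert a s ha ih =>
      rw [Finset.sum_insert ha, Finset.sum_insert ha, hf.add_left, hf.smul_left, ih]
  have hsum' : ∀ (s : Finset κ) (c : κ → F) (v : κ → κ → F) (z : κ → F),
      f z (∑ a ∈ s, c a • v a) = ∑ a ∈ s, (c a) ^ 2 * f z (v a) := by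
    intro s c v z
    induction s using Finset.induction_on with
    | empty =>
      simp only [Finset.sum_empty]
      exact u_zero_right hf z
    | insert a s ha ih =>
      rw [Finset.sum_insert ha, Finset.sum_insert ha, u_add_right hf, u_smul_right hf, ih]
  conv_lhs => rw [pi_eq_sum_univ' x, pi_eq_sum_univ' y]
  rw [hsum]
  refine Finset.sum_congr rfl fun a _ => ?_
  rw [hsum', Finset.mul_sum]
  refine Finset.sum_congr rfl fun b _ => ?_
  unfold Cfsg.Geo.gramMatrix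
  ring

omit [Fintype κ] in
/-- A unitary form over the field with four elements has a vector of norm 1. -/
theorem exists_norm_one [CharP F 2] (hω : ∃ ω : F, ω ≠ 0 ∧ ω ≠ 1)
    {f : (κ → F) → (κ → F) → F} (hf : Cfsg.Geo.IsUnitaryFormPow 2 f) [Nonempty κ] :
    ∃ p : κ → F, f p p = 1 := by
  have h2 : (2 : F) = 0 := CharTwo.two_eq_zero
  by_contra hcon
  push Not at hcon
  have hcon' : ∀ p : κ → F, f p p = 0 := fun p => (u_self hf p).resolve_right (hcon p)
  obtain ⟨k⟩ := ‹Nonempty κ›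
  have hu0 : (Pi.single k (1 : F) : κ → F) ≠ 0 := by
    intro h
    have := congrFun h k
    simp at this
  obtain ⟨w, hwu⟩ := (hf.nondegenerate _ hu0).1
  obtain ⟨u, hu⟩ : ∃ u : κ → F, u = Pi.single k (1 : F) := ⟨_, rfl⟩
  rw [← hu] at hwu
  obtain ⟨ω, hω0, hω1⟩ := hω
  have h5 := hcon' ((ω * (f w u)⁻¹) • w + u)
  rw [hf.add_left, u_add_right hf, u_add_right hf, hf.smul_left, hf.smul_left,
    u_smul_right hf, u_smul_right hf, hcon' w, hcon' u, hf.herm u w] at h5
  have h6 : ω * (1 + ω) = 0 := by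
    have h7 : (f w u)⁻¹ * f w u = 1 := inv_mul_cancel₀ hwu
    linear_combination h5 - (ω + ω ^ 2 + ω ^ 2 * (f w u)⁻¹ * f w u) * h7
  rcases mul_eq_zero.mp h6 with h8 | h8
  · exact hω0 h8
  · apply hω1
    linear_combination h8 - h2

end unitary

/-- An orthonormal frame of a unitary plane over the field with four elements. -/
theorem exists_uframe [CharP F 2] (hω : ∃ ω : F, ω ≠ 0 ∧ ω ≠ 1)
    {f : (Fin 2 → F) → (Fin 2 → F) → F} (hf : Cfsg.Geo.IsUnitaryFormPow 2 f) :
    ∃ p p' : Fin 2 → F, f p p = 1 ∧ f p' p' = 1 ∧ f p p' = 0 ∧ f p' p = 0 ∧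
      (∀ v : Fin 2 → F, ∃ a b : F, v = a • p + b • p') := by
  have h2 : (2 : F) = 0 := CharTwo.two_eq_zero
  obtain ⟨p, hpp⟩ := exists_norm_one hω hf
  have hp0 : p ≠ 0 := by
    intro h
    rw [h, u_zero_left hf] at hpp
    exact zero_ne_one hpp
  have hdim : finrank F (Fin 2 → F) = 2 := by
    rw [Module.finrank_fintype_fun_eq_card, Fintype.card_fin]
  have step3 : ∃ u : Fin 2 → F, u ∉ Submodule.span F {p} := by
    by_contra hcon
    push Not at hcon
    have hle : (⊤ : Submodule F (Fin 2 → F)) ≤ Submodule.span F {p} := fun u _ => hcon u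
    have h5 := Submodule.finrank_mono hle
    rw [finrank_top, hdim, finrank_span_singleton hp0] at h5
    omega
  obtain ⟨u, hup⟩ := step3
  obtain ⟨p', hp'def⟩ : ∃ p' : Fin 2 → F, p' = u + (f u p) • p := ⟨_, rfl⟩
  have hp'p : f p' p = 0 := by
    rw [hp'def, hf.add_left, hf.smul_left, hpp]
    linear_combination (f u p) * h2
  have hpp' : f p p' = 0 := by
    rw [hf.herm p p', hp'p]
    ring
  have hp'0 : p' ≠ 0 := by
    intro h
    apply hup
    have h5 : u = -((f u p) • p) := by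
      rw [hp'def] at h
      exact eq_neg_of_add_eq_zero_left h
    rw [h5]
    exact Submodule.neg_mem _ (Submodule.smul_mem _ _ (Submodule.mem_span_singleton_self p))
  have hli : LinearIndependent F ![p, p'] := by
    rw [LinearIndependent.pair_iff]
    intro a b hab
    have h5 : f (a • p + b • p') p = 0 := by rw [hab, u_zero_left hf]
    rw [hf.add_left, hf.smul_left, hf.smul_left, hpp, hp'p] at h5
    have ha : a = 0 := by simpa using h5
    rw [ha, zero_smul, zero_add] at hab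
    exact ⟨ha, (smul_eq_zero.mp hab).resolve_right hp'0⟩
  have hspan := hli.span_eq_top_of_card_eq_finrank' (by simp [hdim])
  have hsp : ∀ v : Fin 2 → F, ∃ a b : F, v = a • p + b • p' := by
    intro v
    have hmem : v ∈ Submodule.span F (Set.range ![p, p']) := by
      rw [hspan]
      trivial
    obtain ⟨c, hc⟩ := (Submodule.mem_span_range_iff_exists_fun F).mp hmem
    refine ⟨c 0, c 1, ?_⟩
    simp only [Fin.sum_univ_two] at hc
    exact hc.symm
  have hp'p'0 : f p' p' ≠ 0 := by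
    intro h
    obtain ⟨x, hxp'⟩ := (hf.nondegenerate p' hp'0).1
    obtain ⟨a, b, rfl⟩ := hsp x
    apply hxp'
    rw [hf.add_left, hf.smul_left, hf.smul_left, hpp', h]
    ring
  exact ⟨p, p', hpp, (u_self hf p').resolve_left hp'p'0, hpp', hp'p, hsp⟩

/-- A nonzero isotropic vector of a unitary space of dimension at least 2 over the field with
four elements. -/
theorem exists_isotropic [CharP F 2] (hω : ∃ ω : F, ω ≠ 0 ∧ ω ≠ 1) {n₂ : ℕ} (hn₂ : 2 ≤ n₂)
    {f : (Fin n₂ → F) → (Fin n₂ → F) → F} (hf : Cfsg.Geo.IsUnitaryFormPow 2 f) :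
    ∃ z : Fin n₂ → F, z ≠ 0 ∧ f z z = 0 := by
  have h2 : (2 : F) = 0 := CharTwo.two_eq_zero
  have : Nonempty (Fin n₂) := ⟨⟨0, by omega⟩⟩
  obtain ⟨p, hpp⟩ := exists_norm_one hω hf
  have hp0 : p ≠ 0 := by
    intro h
    rw [h, u_zero_left hf] at hpp
    exact zero_ne_one hpp
  have hdim : finrank F (Fin n₂ → F) = n₂ := by
    rw [Module.finrank_fintype_fun_eq_card, Fintype.card_fin]
  have step3 : ∃ u : Fin n₂ → F, u ∉ Submodule.span F {p} := by
    by_contra hcon
    push Not at hcon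
    have hle : (⊤ : Submodule F (Fin n₂ → F)) ≤ Submodule.span F {p} := fun u _ => hcon u
    have h5 := Submodule.finrank_mono hle
    rw [finrank_top, hdim, finrank_span_singleton hp0] at h5
    omega
  obtain ⟨u, hup⟩ := step3
  obtain ⟨p', hp'def⟩ : ∃ p' : Fin n₂ → F, p' = u + (f u p) • p := ⟨_, rfl⟩
  have hp'p : f p' p = 0 := by
    rw [hp'def, hf.add_left, hf.smul_left, hpp]
    linear_combination (f u p) * h2
  have hpp' : f p p' = 0 := by
    rw [hf.herm p p', hp'p]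
    ring
  have hp'span : p' ∉ Submodule.span F {p} := by
    intro h
    apply hup
    have h5 : u = p' - (f u p) • p := by
      rw [hp'def]
      abel
    rw [h5]
    exact Submodule.sub_mem _ h (Submodule.smul_mem _ _ (Submodule.mem_span_singleton_self p))
  rcases u_self hf p' with h0 | h1
  · refine ⟨p', fun h => hp'span ?_, h0⟩
    rw [h]
    exact Submodule.zero_mem _
  · refine ⟨p + p', fun h => hp'span ?_, ?_⟩
    · have h5 : p' = -p := eq_neg_of_add_eq_zero_right h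
      rw [h5]
      exact Submodule.neg_mem _ (Submodule.mem_span_singleton_self p)
    · rw [hf.add_left, u_add_right hf, u_add_right hf, hpp, h1, hpp', hp'p]
      linear_combination h2

/-- The tensor product of two unitary forms on pure tensors. -/
theorem formOfGram_ten_u [CharP F 2] {n₁ n₂ : ℕ} {f₁ : (Fin n₁ → F) → (Fin n₁ → F) → F}
    {f₂ : (Fin n₂ → F) → (Fin n₂ → F) → F} (hf₁ : Cfsg.Geo.IsUnitaryFormPow 2 f₁)
    (hf₂ : Cfsg.Geo.IsUnitaryFormPow 2 f₂) (u u' : Fin n₁ → F) (w w' : Fin n₂ → F) :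
    Cfsg.Geo.formOfGram (fun x : F => x ^ 2) (Cfsg.Geo.gramMatrix f₁ ⊗ₖ Cfsg.Geo.gramMatrix f₂)
      (ten u w) (ten u' w') = f₁ u u' * f₂ w w' := by
  rw [u_eq_gram hf₁, u_eq_gram hf₂]
  unfold Cfsg.Geo.formOfGram
  simp only [Fintype.sum_prod_type, ten, Matrix.kronecker_apply, Finset.sum_mul_sum]
  refine Finset.sum_congr rfl fun a _ => Finset.sum_congr rfl fun b _ =>
    Finset.sum_congr rfl fun a' _ => Finset.sum_congr rfl fun b' _ => ?_
  ring

/-- Over the field with four elements, the stabiliser in `SU_n(2)` of a tensor decomposition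
whose first factor is a unitary plane is not maximal. -/
theorem tensor_u2_not_maximal [Fintype F] (hF : Fintype.card F = 4) (n n₂ : ℕ) (hn₂ : 2 ≤ n₂)
    (e : Fin n ≃ Fin 2 × Fin n₂) (P : GL (Fin n) F)
    (f₁ : (Fin 2 → F) → (Fin 2 → F) → F) (f₂ : (Fin n₂ → F) → (Fin n₂ → F) → F)
    (hf₁ : Cfsg.Geo.IsUnitaryFormPow 2 f₁) (hf₂ : Cfsg.Geo.IsUnitaryFormPow 2 f₂)
    (hT : Cfsg.Geo.IsTensorFormStructure (fun x : F => x ^ 2) (Cfsg.hermForm n F 2) f₁ f₂ e P) :
    ∃ K : Subgroup (GL (Fin n) F),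
      Cfsg.Geo.tensorProductSubgroup 2 n₂ e P ⊓
          (Cfsg.GU n F 2 ⊓ Cfsg.Geo.specialLinear (Fin n) F) < K ∧
        K < (Cfsg.GU n F 2 ⊓ Cfsg.Geo.specialLinear (Fin n) F) := by
  classical
  have : CharP F 2 := Cfsg.Agent.S5656.char_two hF
  have h4 : ∀ x : F, x ^ 4 = x := Cfsg.Agent.S5656.pow_four hF
  have hω := Cfsg.Agent.S5656.exists_omega hF
  have h2 : (2 : F) = 0 := CharTwo.two_eq_zero
  have h3 : ∀ x : F, x ≠ 0 → x ^ 3 = 1 := Cfsg.Agent.S5656.pow_three h4
  obtain ⟨c, hc0, hc⟩ := hT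
  have hpol : ∀ (x x' : Fin 2 → F) (w w' : Fin n₂ → F),
      Cfsg.hermForm n F 2 (phi e P (ten x w)) (phi e P (ten x' w')) = c * (f₁ x x' * f₂ w w') := by
    intro x x' w w'
    have h1 := hc (ten x w) (ten x' w')
    rw [formOfGram_ten_u hf₁ hf₂] at h1
    exact h1
  obtain ⟨p, p', hpp, hp'p', hpp', hp'p, hsp⟩ := exists_uframe hω hf₁
  have : Nonempty (Fin n₂) := ⟨⟨0, by omega⟩⟩
  obtain ⟨w₀, hw₀⟩ := exists_norm_one hω hf₂
  obtain ⟨z, hz0, hzz⟩ := exists_isotropic hω hn₂ hf₂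
  obtain ⟨w₂, hw₂⟩ := (hf₂.nondegenerate z hz0).1
  have hzw₂ : f₂ z w₂ ≠ 0 := by
    rw [hf₂.herm]
    exact pow_ne_zero 2 hw₂
  obtain ⟨u, hu0, hu1⟩ : ∃ u : Fin 2 → (Fin 2 → F), u 0 = p ∧ u 1 = p' := ⟨![p, p'], rfl, rfl⟩
  have huQ : ∀ j, f₁ (u j) (u j) = 1 := by
    intro j
    have hj : j = 0 ∨ j = 1 := by omega
    rcases hj with rfl | rfl
    · rw [hu0]; exact hpp
    · rw [hu1]; exact hp'p'
  have huO : ∀ j j', j ≠ j' → f₁ (u j) (u j') = 0 := by
    intro j j' hjj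
    have hj : j = 0 ∨ j = 1 := by omega
    have hj' : j' = 0 ∨ j' = 1 := by omega
    rcases hj with rfl | rfl <;> rcases hj' with rfl | rfl <;>
      first
      | exact absurd rfl hjj
      | (rw [hu0, hu1]; exact hpp')
      | (rw [hu1, hu0]; exact hp'p)
  have huS : ∀ v : Fin 2 → F, ∃ a b : F, v = a • u 0 + b • u 1 := by
    intro v
    rw [hu0, hu1]
    exact hsp v
  have hu0' : ∀ j, u j ≠ 0 := by
    intro j h
    have h1 := huQ j
    rw [h, u_zero_left hf₁] at h1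
    exact zero_ne_one h1
  -- the two blocks
  obtain ⟨T, hT⟩ : ∃ T : Fin 2 → (Fin n₂ → F) → (Fin n → F), T = fun j w => phi e P (ten (u j) w) :=
    ⟨_, rfl⟩
  have hTdef : ∀ j w, T j w = phi e P (ten (u j) w) := fun j w => by rw [hT]
  have hTadd : ∀ j w w', T j (w + w') = T j w + T j w' := by
    intro j w w'
    rw [hTdef, hTdef, hTdef, ten_add_right, phi_add]
  have hTsmul : ∀ j (t : F) w, T j (t • w) = t • T j w := by
    intro j t w
    rw [hTdef, hTdef, ten_smul_right, phi_smul]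
  have hTT : ∀ j j' w w', Cfsg.hermForm n F 2 (T j w) (T j' w')
      = c * (f₁ (u j) (u j') * f₂ w w') := by
    intro j j' w w'
    rw [hTdef, hTdef]
    exact hpol _ _ _ _
  have hTne : ∀ j j' w w', j ≠ j' → Cfsg.hermForm n F 2 (T j w) (T j' w') = 0 := by
    intro j j' w w' hjj
    rw [hTT, huO j j' hjj]
    ring
  have hTeq : ∀ j w w', Cfsg.hermForm n F 2 (T j w) (T j w') = c * f₂ w w' := by
    intro j w w'
    rw [hTT, huQ, one_mul]
  obtain ⟨S, hS⟩ : ∃ S : Set (Fin n → F), S = {v | ∃ j w, v = T j w} := ⟨_, rfl⟩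
  have hSmem : ∀ j w, T j w ∈ S := fun j w => by rw [hS]; exact ⟨j, w, rfl⟩
  obtain ⟨t, ht⟩ : ∃ t, t = c * f₂ w₂ z := ⟨_, rfl⟩
  have ht0 : t ≠ 0 := by
    rw [ht]
    exact mul_ne_zero hc0 hw₂
  have hiso0 : Cfsg.hermForm n F 2 (T 0 z) (T 0 z) = 0 := by
    rw [hTeq, hzz, mul_zero]
  have hiso01 : Cfsg.hermForm n F 2 (T 0 z + T 1 z) (T 0 z + T 1 z) = 0 := by
    rw [herm_add_left, herm2_add_right, herm2_add_right, hTeq, hTeq, hTne 0 1 _ _ (by decide),
      hTne 1 0 _ _ (by decide), hzz]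
    ring
  apply set_between_gen _ _ S
  · -- (A)
    rintro g ⟨hgT, hgU, -⟩ v hv
    rw [hS] at hv
    obtain ⟨j, w, rfl⟩ := hv
    obtain ⟨a', b', hab⟩ := tensor_mem e P hgT
    have hstar : ∀ (x x' : Fin 2 → F) (w w' : Fin n₂ → F),
        f₁ ((a' : Matrix (Fin 2) (Fin 2) F) *ᵥ x) ((a' : Matrix (Fin 2) (Fin 2) F) *ᵥ x') *
          f₂ ((b' : Matrix (Fin n₂) (Fin n₂) F) *ᵥ w) ((b' : Matrix (Fin n₂) (Fin n₂) F) *ᵥ w')
        = f₁ x x' * f₂ w w' := by
      intro x x' w w'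
      have h1 := (mem_GU_iff 2 g).mp hgU (phi e P (ten x w)) (phi e P (ten x' w'))
      rw [hab, hab, kron_mulVec_ten, kron_mulVec_ten, hpol, hpol] at h1
      exact mul_left_cancel₀ hc0 h1
    obtain ⟨β, hβ⟩ : ∃ β, β = f₂ ((b' : Matrix (Fin n₂) (Fin n₂) F) *ᵥ w₀)
        ((b' : Matrix (Fin n₂) (Fin n₂) F) *ᵥ w₀) := ⟨_, rfl⟩
    have hstar' : ∀ x x' : Fin 2 → F,
        f₁ ((a' : Matrix (Fin 2) (Fin 2) F) *ᵥ x) ((a' : Matrix (Fin 2) (Fin 2) F) *ᵥ x') * β
          = f₁ x x' := by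
      intro x x'
      have h1 := hstar x x' w₀ w₀
      rw [hw₀, mul_one, ← hβ] at h1
      exact h1
    have hβ1 : β = 1 := by
      have h5 : β = 0 ∨ β = 1 := by
        rw [hβ]
        exact u_self hf₂ _
      rcases h5 with h5 | h5
      · exfalso
        have h1 := hstar' (u 0) (u 0)
        rw [h5, mul_zero, huQ] at h1
        exact zero_ne_one h1
      · exact h5
    have hiso : ∀ x x' : Fin 2 → F,
        f₁ ((a' : Matrix (Fin 2) (Fin 2) F) *ᵥ x) ((a' : Matrix (Fin 2) (Fin 2) F) *ᵥ x')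
          = f₁ x x' := by
      intro x x'
      have h1 := hstar' x x'
      rw [hβ1, mul_one] at h1
      exact h1
    have hnorm : f₁ ((a' : Matrix (Fin 2) (Fin 2) F) *ᵥ u j)
        ((a' : Matrix (Fin 2) (Fin 2) F) *ᵥ u j) = 1 := by rw [hiso, huQ]
    obtain ⟨a, b, hab'⟩ := huS ((a' : Matrix (Fin 2) (Fin 2) F) *ᵥ u j)
    have hnorm' : a ^ 3 + b ^ 3 = 1 := by
      rw [hab'] at hnorm
      simp only [hf₁.add_left, hf₁.smul_left, u_add_right hf₁, u_smul_right hf₁, huQ,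
        huO 0 1 (by decide), huO 1 0 (by decide)] at hnorm
      linear_combination hnorm
    have himg : (g : Matrix (Fin n) (Fin n) F) *ᵥ T j w
        = phi e P (ten ((a' : Matrix (Fin 2) (Fin 2) F) *ᵥ u j)
            ((b' : Matrix (Fin n₂) (Fin n₂) F) *ᵥ w)) := by
      rw [hTdef, hab, kron_mulVec_ten]
    rw [himg, hab']
    by_cases ha : a = 0
    · rw [ha, zero_smul, zero_add, ten_smul_left, ← ten_smul_right, ← hTdef]
      exact hSmem _ _
    · by_cases hb : b = 0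
      · rw [hb, zero_smul, add_zero, ten_smul_left, ← ten_smul_right, ← hTdef]
        exact hSmem _ _
      · exfalso
        rw [h3 a ha, h3 b hb] at hnorm'
        have h5 : (0 : F) = 1 := by linear_combination hnorm' - h2
        exact zero_ne_one h5
  · -- (B)
    obtain ⟨g, hgdef⟩ : ∃ g : GL (Fin n) F, g = tv (T 0 z) hiso0 := ⟨_, rfl⟩
    have hgv : ∀ v, (g : Matrix (Fin n) (Fin n) F) *ᵥ v
        = v + (Cfsg.hermForm n F 2 v (T 0 z)) • T 0 z := by
      intro v
      rw [hgdef, tv_mulVec]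
    have hgg : ∀ v, (g : Matrix (Fin n) (Fin n) F) *ᵥ ((g : Matrix (Fin n) (Fin n) F) *ᵥ v) = v := by
      intro v
      rw [Matrix.mulVec_mulVec, ← Units.val_mul, hgdef, tv_mul_self, Units.val_one,
        Matrix.one_mulVec]
    have hgS : ∀ v, v ∈ S → (g : Matrix (Fin n) (Fin n) F) *ᵥ v ∈ S := by
      intro v hv
      rw [hS] at hv
      obtain ⟨j, w, rfl⟩ := hv
      rw [hgv]
      by_cases hj : j = 0
      · subst hj
        rw [← hTsmul, ← hTadd]
        exact hSmem _ _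
      · rw [hTne _ _ _ _ hj, zero_smul, add_zero]
        exact hSmem _ _
    refine ⟨g, ⟨hgdef ▸ tv_mem_GU h4 _ _, hgdef ▸ tv_mem_SL _ _⟩, ?_, ?_⟩
    · intro v
      constructor
      · exact hgS v
      · intro hv
        have h1 := hgS _ hv
        rw [hgg] at h1
        exact h1
    · intro hgT
      obtain ⟨a', b', hab⟩ := tensor_mem e P hgT
      have hfix1 : ∀ w, (g : Matrix (Fin n) (Fin n) F) *ᵥ T 1 w = T 1 w := by
        intro w
        rw [hgv, hTne _ _ _ _ (by decide), zero_smul, add_zero]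
      have hcoord1 : ∀ (w : Fin n₂ → F) (i : Fin 2) (k : Fin n₂),
          ((a' : Matrix (Fin 2) (Fin 2) F) *ᵥ u 1) i * ((b' : Matrix (Fin n₂) (Fin n₂) F) *ᵥ w) k
            = u 1 i * w k := by
        intro w i k
        have h1 := hfix1 w
        rw [hTdef 1 w, hab, kron_mulVec_ten] at h1
        exact congrFun (phi_injective e P h1) (i, k)
      obtain ⟨i₀, hi₀⟩ : ∃ i₀, u 1 i₀ ≠ 0 := by
        by_contra hcon
        push Not at hcon
        exact hu0' 1 (funext hcon)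
      obtain ⟨i₁, hi₁⟩ : ∃ i₁, u 0 i₁ ≠ 0 := by
        by_contra hcon
        push Not at hcon
        exact hu0' 0 (funext hcon)
      obtain ⟨k₁, hk₁⟩ : ∃ k₁, z k₁ ≠ 0 := by
        by_contra hcon
        push Not at hcon
        exact hz0 (funext hcon)
      obtain ⟨α, hα⟩ : ∃ α, α = ((a' : Matrix (Fin 2) (Fin 2) F) *ᵥ u 1) i₀ := ⟨_, rfl⟩
      have hαb : ∀ (w : Fin n₂ → F) (k : Fin n₂),
          α * ((b' : Matrix (Fin n₂) (Fin n₂) F) *ᵥ w) k = u 1 i₀ * w k := by
        intro w k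
        rw [hα]
        exact hcoord1 w i₀ k
      have hα0 : α ≠ 0 := by
        intro h
        have h1 := hαb z k₁
        rw [h, zero_mul] at h1
        exact mul_ne_zero hi₀ hk₁ h1.symm
      have hfixp : (g : Matrix (Fin n) (Fin n) F) *ᵥ T 0 z = T 0 z := by
        rw [hgv, hiso0, zero_smul, add_zero]
      have hcoordp : ∀ (i : Fin 2) (k : Fin n₂),
          ((a' : Matrix (Fin 2) (Fin 2) F) *ᵥ u 0) i * ((b' : Matrix (Fin n₂) (Fin n₂) F) *ᵥ z) k
            = u 0 i * z k := by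
        intro i k
        have h1 := hfixp
        rw [hTdef 0 z, hab, kron_mulVec_ten] at h1
        exact congrFun (phi_injective e P h1) (i, k)
      have hmove : (g : Matrix (Fin n) (Fin n) F) *ᵥ T 0 w₂ = T 0 (w₂ + t • z) := by
        rw [hgv, hTeq, ← ht, hTadd, hTsmul]
      have hcoordm : ∀ (i : Fin 2) (k : Fin n₂),
          ((a' : Matrix (Fin 2) (Fin 2) F) *ᵥ u 0) i * ((b' : Matrix (Fin n₂) (Fin n₂) F) *ᵥ w₂) k
            = u 0 i * (w₂ k + t * z k) := by
        intro i k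
        have h1 := hmove
        rw [hTdef 0 w₂, hTdef 0 (w₂ + t • z), hab, kron_mulVec_ten] at h1
        exact congrFun (phi_injective e P h1) (i, k)
      have e1 : u 1 i₀ * ((a' : Matrix (Fin 2) (Fin 2) F) *ᵥ u 0) i₁ = α * u 0 i₁ := by
        apply mul_left_cancel₀ hk₁
        linear_combination α * hcoordp i₁ k₁ -
          ((a' : Matrix (Fin 2) (Fin 2) F) *ᵥ u 0) i₁ * hαb z k₁
      have e2 : α * t * u 0 i₁ * z k₁ = 0 := by
        linear_combination w₂ k₁ * e1 - α * hcoordm i₁ k₁ +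
          ((a' : Matrix (Fin 2) (Fin 2) F) *ᵥ u 0) i₁ * hαb w₂ k₁
      exact mul_ne_zero (mul_ne_zero (mul_ne_zero hα0 ht0) hi₁) hk₁ e2
  · -- (C)
    refine ⟨tv (T 0 z + T 1 z) hiso01, ⟨tv_mem_GU h4 _ _, tv_mem_SL _ _⟩, T 0 w₂, hSmem _ _, ?_⟩
    have e1 : ((tv (T 0 z + T 1 z) hiso01 : GL (Fin n) F) : Matrix (Fin n) (Fin n) F) *ᵥ T 0 w₂
        = T 0 w₂ + t • (T 0 z + T 1 z) := by
      rw [tv_mulVec, herm2_add_right, hTeq, hTne 0 1 _ _ (by decide), ← ht, add_zero]
    rw [e1, hS]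
    rintro ⟨j, w, hjw⟩
    have q0 : Cfsg.hermForm n F 2 (T 0 w₂ + t • (T 0 z + T 1 z)) (T 0 z) ≠ 0 := by
      rw [herm_add_left, herm_smul_left, herm_add_left, hTeq, hTeq, hTne 1 0 _ _ (by decide),
        ← ht, hzz]
      simpa using ht0
    have q1 : Cfsg.hermForm n F 2 (T 0 w₂ + t • (T 0 z + T 1 z)) (T 1 w₂) ≠ 0 := by
      rw [herm_add_left, herm_smul_left, herm_add_left, hTne 0 1 _ _ (by decide),
        hTne 0 1 _ _ (by decide), hTeq]
      have e3 : (0 : F) + t * (0 + c * f₂ z w₂) = t * (c * f₂ z w₂) := by ring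
      rw [e3]
      exact mul_ne_zero ht0 (mul_ne_zero hc0 hzw₂)
    have hj0 : j = 0 := by
      by_contra hne
      apply q0
      rw [hjw]
      exact hTne _ _ _ _ hne
    have hj1 : j = 1 := by
      by_contra hne
      apply q1
      rw [hjw]
      exact hTne _ _ _ _ hne
    rw [hj0] at hj1
    exact absurd hj1 (by decide)

end Cfsg.Agent.Lib.Helper37.TensorU
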