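import Mathlib
import Cfsg.Prelude.Def_GeometricClasses
import Cfsg.Agent.Lib.Helper37.MaxTS
import Cfsg.Agent.Lib.Helper37.TensorFrame
import Cfsg.Agent.Lib.Helper37.FrameApply

set_option autoImplicit false

namespace Cfsg.Agent.Lib.Helper37.TwoFam

open Module QuadraticMap Matrix
open Cfsg.Agent.Lib.Helper44.QSpace Cfsg.Agent.Lib.Helper44.OGroup Cfsg.Agent.Lib.Helper44.OMat
open Cfsg.Agent.Lib.Helper37.PlanePlus Cfsg.Agent.Lib.Helper37.PlaneTwo
open Cfsg.Agent.Lib.Helper37.MaxTS Cfsg.Agent.Lib.Helper37.TensorFrame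
open Cfsg.Agent.Lib.Helper37.FrameApply

variable {F : Type*} [Field F] [Fintype F] {ι : Type} [Fintype ι] [DecidableEq ι]

/-- In a plus-type space of dimension `2k` with `k` odd, the stabiliser in `Ω` of a pair of
complementary totally singular `k`-subspaces is not maximal: it fixes both subspaces. -/
theorem pair_not_maximal (Q : QuadraticForm F (ι → F)) (hS : Sep Q) (hn : 5 ≤ Fintype.card ι)
    (k : ℕ) (hk : 2 * k = Fintype.card ι) (hko : Odd k) (D : Fin 2 → Submodule F (ι → F))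
    (hD : Cfsg.Geo.IsMDecomposition k D) (hts : ∀ i, ∀ v ∈ D i, Q v = 0) :
    ∃ K : Subgroup (GL ι F),
      Cfsg.Geo.decompositionStabilizer D ⊓ Cfsg.Geo.omegaGL ⇑Q < K ∧
        K < Cfsg.Geo.omegaGL ⇑Q := by
  classical
  have hcard : Fintype.card F ≠ 2 ∨ Fintype.card ι ≠ 4 := Or.inr (by omega)
  have hdisj := disj_of_decomp D hD
  have hfin : ∀ i, finrank F (D i) = k := hD.finrank_eq
  have hD0 : D 0 ≠ ⊥ := by
    intro h
    have := hfin 0
    rw [h, finrank_bot] at this
    omega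
  apply set_between_gen _ _ ((D 0 : Submodule F (ι → F)) : Set (ι → F))
  · -- (A)
    rintro g ⟨⟨σ, hσ⟩, hgΩ⟩ v hv
    by_cases h0 : σ 0 = 0
    · have h1 : (g : Matrix ι ι F) *ᵥ v ∈ (D 0).map (Matrix.toLin' (g : Matrix ι ι F)) :=
        ⟨v, hv, by rw [Matrix.toLin'_apply]⟩
      rw [hσ 0, h0] at h1
      exact h1
    · exfalso
      have h10 : σ 1 = 0 := by
        have hne : σ 1 ≠ σ 0 := fun h => absurd (σ.injective h) (by decide)
        omega
      have hpar := omega_parity Q hS hcard (D 0) (hts 0) (by rw [hfin 0]; exact hk.symm) hgΩ ⊥ (by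
        intro x
        rw [Submodule.mem_bot]
        constructor
        · rintro rfl
          exact ⟨Submodule.zero_mem _, by rw [Matrix.mulVec_zero]; exact Submodule.zero_mem _⟩
        · rintro ⟨hx0, hgx⟩
          rw [← h10, ← hσ 1] at hgx
          obtain ⟨y, hy, hyx⟩ := hgx
          rw [Matrix.toLin'_apply] at hyx
          have hxy : y - x = 0 := by
            apply gl_mulVec_eq_zero g
            rw [Matrix.mulVec_sub, hyx, sub_self]
          have hxy' : y = x := sub_eq_zero.mp hxy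
          subst hxy'
          exact hdisj 0 1 (by decide) _ hx0 hy)
      rw [finrank_bot, add_zero, hfin 0] at hpar
      exact (Nat.not_even_iff_odd.mpr hko) hpar
  · -- (B)
    obtain ⟨s, hs, hs0⟩ := Submodule.exists_mem_ne_zero_of_ne_bot hD0
    obtain ⟨y, hy, hy0, hys⟩ : ∃ y ∈ D 1, y ≠ 0 ∧ polar Q y s = 0 := by
      have hlt : finrank F F < finrank F (D 1) := by
        rw [Module.finrank_self, hfin 1]
        omega
      have hker := LinearMap.ker_ne_bot_of_finrank_lt
        (f := ((polarBilin Q).flip s).domRestrict (D 1)) hlt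
      obtain ⟨z, hz, hz0⟩ := (Submodule.ne_bot_iff _).mp hker
      exact ⟨z, z.2, fun h => hz0 (Subtype.ext h), hz⟩
    have hind : ∀ c : F, y ≠ c • s := by
      intro c hc
      apply hy0
      exact hdisj 1 0 (by decide) y hy (hc ▸ (D 0).smul_mem c hs)
    obtain ⟨g, hgΩ, φ, hφ, hg⟩ := exists_omega_siegel Q hS hn (hts 0 s hs) (hts 1 y hy) hys hind
    have hpol0 : ∀ x ∈ D 0, polar Q x s = 0 := by
      intro x hx
      unfold polar
      rw [hts 0 _ ((D 0).add_mem hx hs), hts 0 x hx, hts 0 s hs]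
      ring
    have hg0 : ∀ v ∈ D 0, (g : Matrix ι ι F) *ᵥ v ∈ D 0 := by
      intro v hv
      rw [hg v (hpol0 v hv)]
      exact (D 0).sub_mem hv ((D 0).smul_mem _ hs)
    refine ⟨g, hgΩ, mem_iff_of_forall g (D 0) hg0, ?_⟩
    rintro ⟨σ, hσ⟩
    have hgs0 : (g : Matrix ι ι F) *ᵥ s ≠ 0 := fun h => hs0 (gl_mulVec_eq_zero g h)
    have h0 : σ 0 = 0 := by
      by_contra h0
      have h01 : σ 0 = 1 := by omega
      have h1 : (g : Matrix ι ι F) *ᵥ s ∈ (D 0).map (Matrix.toLin' (g : Matrix ι ι F)) :=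
        ⟨s, hs, by rw [Matrix.toLin'_apply]⟩
      rw [hσ 0, h01] at h1
      exact hgs0 (hdisj 0 1 (by decide) _ (hg0 s hs) h1)
    have h11 : σ 1 = 1 := by
      have hne : σ 1 ≠ σ 0 := fun h => absurd (σ.injective h) (by decide)
      omega
    have h2 : (g : Matrix ι ι F) *ᵥ y ∈ (D 1).map (Matrix.toLin' (g : Matrix ι ι F)) :=
      ⟨y, hy, by rw [Matrix.toLin'_apply]⟩
    rw [hσ 1, h11, hg y hys] at h2
    have h3 : φ y • s ∈ D 1 := by
      have e : φ y • s = y - (y - φ y • s) := by abel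
      rw [e]
      exact (D 1).sub_mem hy h2
    have h4 : s ∈ D 1 := by
      have e : s = (φ y)⁻¹ • (φ y • s) := by rw [smul_smul, inv_mul_cancel₀ hφ, one_smul]
      rw [e]
      exact (D 1).smul_mem _ h3
    exact hs0 (hdisj 0 1 (by decide) s hs h4)
  · -- (C)
    obtain ⟨g, hgΩ, x, hx, hgx⟩ := exists_omega_moving Q hS hn (D 0) (hts 0) hD0
    exact ⟨g, hgΩ, x, hx, hgx⟩

/-- In a plus-type space of dimension `2m`, the stabiliser in `Ω` of a totally singular subspace
of dimension `m - 1` is not maximal: it fixes the maximal totally singular subspaces containing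
it. -/
theorem corank_one_not_maximal (Q : QuadraticForm F (ι → F)) (hS : Sep Q)
    (hn : 5 ≤ Fintype.card ι) (U₀ : Submodule F (ι → F)) (hU₀s : ∀ u ∈ U₀, Q u = 0)
    (hU₀ : 2 * finrank F U₀ = Fintype.card ι) (W : Submodule F (ι → F))
    (hW : ∀ w ∈ W, Q w = 0) (hdim : 2 * (finrank F W + 1) = Fintype.card ι) :
    ∃ K : Subgroup (GL ι F),
      Cfsg.Geo.subspaceStabilizer W ⊓ Cfsg.Geo.omegaGL ⇑Q < K ∧ K < Cfsg.Geo.omegaGL ⇑Q := by
  classical
  have hcard : Fintype.card F ≠ 2 ∨ Fintype.card ι ≠ 4 := Or.inr (by omega)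
  obtain ⟨B, hB⟩ : ∃ B : LinearMap.BilinForm F (ι → F), B = polarBilin Q := ⟨_, rfl⟩
  have hnd : B.Nondegenerate := hB ▸ nondegenerate_of_sep hS
  have hBp : ∀ x y, B x y = polar Q x y := fun x y => by rw [hB]; rfl
  have hV : finrank F (ι → F) = Fintype.card ι := Module.finrank_fintype_fun_eq_card F
  have hts : ∀ (U : Submodule F (ι → F)), (∀ u ∈ U, Q u = 0) → ∀ u ∈ U, ∀ u' ∈ U,
      polar Q u u' = 0 := by
    intro U hU u hu u' hu'
    unfold polar
    rw [hU _ (U.add_mem hu hu'), hU u hu, hU u' hu']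
    ring
  -- `U₀` is its own orthogonal complement
  have hU₀le : U₀ ≤ B.orthogonal U₀ := fun u hu u' hu' => by
    rw [hBp]
    exact hts U₀ hU₀s u' hu' u hu
  have hU₀perp : B.orthogonal U₀ = U₀ := by
    symm
    apply Submodule.eq_of_le_of_finrank_le hU₀le
    rw [LinearMap.BilinForm.finrank_orthogonal hnd, hV]
    omega
  -- a singular vector orthogonal to `W` outside `W`
  obtain ⟨u, huU₀, huW, hunW⟩ : ∃ u ∈ U₀, (∀ w ∈ W, polar Q w u = 0) ∧ u ∉ W := by
    by_contra hcon
    push Not at hcon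
    have hle : B.orthogonal (U₀ ⊔ W) ≤ U₀ ⊓ W := by
      intro x hx
      have hx0 : x ∈ U₀ := by
        rw [← hU₀perp]
        exact LinearMap.BilinForm.orthogonal_le le_sup_left hx
      refine ⟨hx0, hcon x hx0 ?_⟩
      intro w hw
      rw [← hBp]
      exact hx w (Submodule.mem_sup_right hw)
    have h1 := Submodule.finrank_mono hle
    rw [LinearMap.BilinForm.finrank_orthogonal hnd, hV] at h1
    have h2 := Submodule.finrank_sup_add_finrank_inf_eq U₀ W
    have h3 : finrank F ↥(U₀ ⊔ W) ≤ Fintype.card ι := by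
      rw [← hV]
      exact Submodule.finrank_le _
    omega
  have hQu : Q u = 0 := hU₀s u huU₀
  obtain ⟨U₁, hU₁⟩ : ∃ U₁ : Submodule F (ι → F), U₁ = W ⊔ Submodule.span F {u} := ⟨_, rfl⟩
  have hWU₁ : W ≤ U₁ := by rw [hU₁]; exact le_sup_left
  have huU₁ : u ∈ U₁ := by
    rw [hU₁]
    exact Submodule.mem_sup_right (Submodule.mem_span_singleton_self u)
  have hU₁s : ∀ v ∈ U₁, Q v = 0 := by
    intro v hv
    rw [hU₁, Submodule.mem_sup] at hv
    obtain ⟨w, hw, z, hz, rfl⟩ := hv
    obtain ⟨c, rfl⟩ := Submodule.mem_span_singleton.mp hz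
    rw [q_add, hW w hw, q_smul, hQu, polar_smul_r, huW w hw]
    ring
  have hu0 : u ≠ 0 := fun h => hunW (h ▸ W.zero_mem)
  have hU₁fin : finrank F U₁ = finrank F W + 1 := by
    have h2 := Submodule.finrank_sup_add_finrank_inf_eq W (Submodule.span F {u})
    have h3 : W ⊓ Submodule.span F {u} = ⊥ := by
      rw [eq_bot_iff]
      rintro x ⟨hxW, hxu⟩
      obtain ⟨c, rfl⟩ := Submodule.mem_span_singleton.mp hxu
      by_cases hc : c = 0
      · rw [hc, zero_smul]
        exact Submodule.zero_mem _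
      · exfalso
        apply hunW
        have e : u = c⁻¹ • (c • u) := by rw [smul_smul, inv_mul_cancel₀ hc, one_smul]
        rw [e]
        exact W.smul_mem _ hxW
    rw [h3, finrank_bot, add_zero, finrank_span_singleton hu0, ← hU₁] at h2
    exact h2
  have hU₁0 : U₁ ≠ ⊥ := by
    intro h
    rw [h, finrank_bot] at hU₁fin
    omega
  have hW0 : W ≠ ⊥ := by
    intro h
    rw [h, finrank_bot] at hdim
    omega
  apply set_between_gen _ _ ((U₁ : Submodule F (ι → F)) : Set (ι → F))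
  · -- (A)
    rintro g ⟨hgW', hgΩ⟩ v hv
    have hgW := (mem_stab_iff W g).mp hgW'
    obtain ⟨I, hI⟩ : ∃ I : Submodule F (ι → F),
        I = U₁ ⊓ U₁.comap (Matrix.toLin' (g : Matrix ι ι F)) := ⟨_, rfl⟩
    have hImem : ∀ x, x ∈ I ↔ x ∈ U₁ ∧ (g : Matrix ι ι F) *ᵥ x ∈ U₁ := by
      intro x
      rw [hI, Submodule.mem_inf, Submodule.mem_comap, Matrix.toLin'_apply]
    have hpar := omega_parity Q hS hcard U₁ hU₁s (by rw [hU₁fin]; exact hdim.symm) hgΩ I hImem
    have hWI : W ≤ I := by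
      intro w hw
      rw [hImem]
      exact ⟨hWU₁ hw, hWU₁ ((hgW w).mp hw)⟩
    have hIU₁ : I ≤ U₁ := by rw [hI]; exact inf_le_left
    have h1 := Submodule.finrank_mono hWI
    have h2 := Submodule.finrank_mono hIU₁
    have h3 : finrank F I = finrank F U₁ := by
      rw [hU₁fin] at hpar h2 ⊢
      rcases Nat.lt_or_ge (finrank F I) (finrank F W + 1) with h | h
      · exfalso
        have h4 : finrank F I = finrank F W := by omega
        rw [h4] at hpar
        rcases hpar with ⟨r, hr⟩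
        omega
      · omega
    have h4 := Submodule.eq_of_le_of_finrank_eq hIU₁ h3
    have hv' : v ∈ I := by rw [h4]; exact hv
    exact ((hImem v).mp hv').2
  · -- (B)
    obtain ⟨w, hw, hw0⟩ := Submodule.exists_mem_ne_zero_of_ne_bot hW0
    have hind : ∀ c : F, w ≠ c • u := by
      intro c hc
      by_cases hc0 : c = 0
      · rw [hc0, zero_smul] at hc
        exact hw0 hc
      · apply hunW
        have e : u = c⁻¹ • w := by rw [hc, smul_smul, inv_mul_cancel₀ hc0, one_smul]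
        rw [e]
        exact W.smul_mem _ hw
    obtain ⟨g, hgΩ, φ, hφ, hg⟩ := exists_omega_siegel Q hS hn hQu (hW w hw) (huW w hw) hind
    have hg1 : ∀ v ∈ U₁, (g : Matrix ι ι F) *ᵥ v ∈ U₁ := by
      intro v hv
      rw [hg v (hts U₁ hU₁s v hv u huU₁)]
      exact U₁.sub_mem hv (U₁.smul_mem _ huU₁)
    refine ⟨g, hgΩ, mem_iff_of_forall g U₁ hg1, ?_⟩
    intro hgW'
    have hgW := (mem_stab_iff W g).mp hgW'
    have h2 := (hgW w).mp hw
    rw [hg w (huW w hw)] at h2
    have h3 : φ w • u ∈ W := by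
      have e : φ w • u = w - (w - φ w • u) := by abel
      rw [e]
      exact W.sub_mem hw h2
    apply hunW
    have e : u = (φ w)⁻¹ • (φ w • u) := by rw [smul_smul, inv_mul_cancel₀ hφ, one_smul]
    rw [e]
    exact W.smul_mem _ h3
  · -- (C)
    obtain ⟨g, hgΩ, x, hx, hgx⟩ := exists_omega_moving Q hS hn U₁ hU₁s hU₁0
    exact ⟨g, hgΩ, x, hx, hgx⟩

end Cfsg.Agent.Lib.Helper37.TwoFam
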